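import Mathlib

/-! # The full preimage of a simple subgroup of `S / Z(S)` -/

set_option autoImplicit false

namespace Cfsg.Agent.Lib.Helper11.CC

theorem center_eq_bot_of_simple {P : Type*} [Group P] (hs : IsSimpleGroup P) (a b : P)
    (hab : a * b ≠ b * a) : Subgroup.center P = ⊥ := by
  rcases hs.eq_bot_or_eq_top_of_normal (Subgroup.center P) inferInstance with h | h
  · exact h
  · exfalso
    have : a ∈ Subgroup.center P := by rw [h]; exact Subgroup.mem_top _
    exact hab ((Subgroup.mem_center_iff.mp this b).symm)

theorem cover {S P : Type*} [Group S] [Group P] (hs : IsSimpleGroup P) (a b : P)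
    (hab : a * b ≠ b * a) (γ : P →* S ⧸ Subgroup.center S) (hγ : Function.Injective γ) :
    ∃ H : Subgroup S, Nat.card (Subgroup.center H) = Nat.card (Subgroup.center S) ∧
      Nonempty (H ⧸ Subgroup.center H ≃* P) := by
  let π : S →* S ⧸ Subgroup.center S := QuotientGroup.mk' (Subgroup.center S)
  let H : Subgroup S := γ.range.comap π
  let ρ : H →* γ.range := (π.comp H.subtype).codRestrict γ.range (fun h => h.2)
  have hsurj : Function.Surjective ρ := by
    rintro ⟨y, hy⟩
    obtain ⟨s, rfl⟩ := QuotientGroup.mk'_surjective (Subgroup.center S) y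
    exact ⟨⟨s, hy⟩, rfl⟩
  let e : P ≃* γ.range := MonoidHom.ofInjective hγ
  have hcr : Subgroup.center γ.range = ⊥ := by
    apply center_eq_bot_of_simple e.symm.isSimpleGroup (e a) (e b)
    intro h
    apply hab
    apply e.injective
    rw [map_mul, map_mul, h]
  have hmem : ∀ x : H, x ∈ ρ.ker ↔ (x : S) ∈ Subgroup.center S := by
    intro x
    rw [MonoidHom.mem_ker]
    constructor
    · intro hx
      have h1 : π x.1 = 1 := congrArg Subtype.val hx
      exact (QuotientGroup.eq_one_iff _).mp h1
    · intro hx
      apply Subtype.ext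
      exact (QuotientGroup.eq_one_iff _).mpr hx
  have hker : ρ.ker = Subgroup.center H := by
    ext x
    constructor
    · intro hx
      have h2 := (hmem x).mp hx
      rw [Subgroup.mem_center_iff]
      intro g
      exact Subtype.ext (Subgroup.mem_center_iff.mp h2 g.1)
    · intro hx
      have h1 : ρ x ∈ Subgroup.center γ.range := by
        rw [Subgroup.mem_center_iff]
        intro y
        obtain ⟨g, rfl⟩ := hsurj y
        rw [← map_mul, ← map_mul, Subgroup.mem_center_iff.mp hx g]
      rw [hcr, Subgroup.mem_bot] at h1
      exact h1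
  refine ⟨H, ?_, ?_⟩
  · have hZH : Subgroup.center S ≤ H := by
      intro z hz
      show π z ∈ γ.range
      have : π z = 1 := (QuotientGroup.eq_one_iff z).mpr hz
      rw [this]
      exact γ.range.one_mem
    have h2 : Subgroup.center H = (Subgroup.center S).subgroupOf H := by
      rw [← hker]
      ext x
      rw [hmem, Subgroup.mem_subgroupOf]
    rw [h2]
    exact Nat.card_congr (Subgroup.subgroupOfEquivOfLe hZH).toEquiv
  · exact ⟨(QuotientGroup.quotientMulEquivOfEq hker.symm).trans
      ((QuotientGroup.quotientKerEquivOfSurjective ρ hsurj).trans e.symm)⟩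

end Cfsg.Agent.Lib.Helper11.CC
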