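import Cfsg.Agent.Lib.Helper11.DoubleCover
import Cfsg.Agent.Lib.Helper11.GenMaster2

/-! # Recognising a nonsplit double cover of a word-presented simple group -/

set_option autoImplicit false

namespace Cfsg.Agent.Lib.Helper11.DC

open Cfsg.Agent.Lib.Helper11.TC Cfsg.Agent.Lib.Helper11

theorem mem_zpowers_invol {G : Type*} [Group G] {z x : G} (hz2 : z * z = 1)
    (hx : x ∈ Subgroup.zpowers z) : x = 1 ∨ x = z := by
  obtain ⟨k, rfl⟩ := Subgroup.mem_zpowers_iff.mp hx
  have h2 : z ^ (2 : ℤ) = 1 := by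
    rw [show (2 : ℤ) = 1 + 1 from rfl, zpow_add, zpow_one, hz2]
  rcases Int.even_or_odd' k with ⟨m, rfl | rfl⟩
  · left; rw [zpow_mul, h2, one_zpow]
  · right; rw [zpow_add, zpow_mul, h2, one_zpow, one_mul, zpow_one]

/-- A subgroup `H` of `Γ` with a central involution `z` is a nonsplit double cover of the simple
group `P` presented on involutions, if `H` contains elements satisfying the relators up to `z`,
the orders match, `z` is a word in these elements, and they have no common quotient of order 2. -/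
theorem doubleCover2 {P : Type} [Group P] {pgen : ℕ → P} {inv : ℕ → ℕ} {Ls : List ℕ}
    {rels : List (List ℕ)} (Pr : GM.Pres P pgen inv Ls rels) (hid : ∀ l, inv l = l)
    (hPs : IsSimpleGroup P) (hPfin : Finite P) (hnp : ¬ (Nat.card P).Prime)
    {Γ : Type} [Group Γ] (H : Subgroup Γ) (hHfin : Finite H)
    (g : ℕ → Γ) (hgH : ∀ l, g l ∈ H) (hsq : ∀ l, g l * g l = 1) (h31 : g 31 = 1)
    (z : Γ) (hzH : z ∈ H) (hz1 : z ≠ 1) (hz2 : z * z = 1) (hzc : ∀ x ∈ H, x * z = z * x)
    (hrel : ∀ r ∈ rels, ev g r = 1 ∨ ev g r = z)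
    (l0 : ℕ) (hl0 : l0 ∈ Ls) (hl1 : g l0 ≠ 1) (hl2 : g l0 ≠ z)
    (hcard : Nat.card H = 2 * Nat.card P)
    (rz : List ℕ) (hrzL : ∀ l ∈ rz, l ∈ Ls) (hrz : ev g rz = z)
    (rels9 : List (List ℕ)) (hrels9 : ∀ r ∈ rels9, ev g r = 1)
    (hcol : Simp.Collapses Ls (rels9 ++ sqW Ls) 31) :
    Cfsg.IsNonsplitDoubleCover H P := by
  classical
  let gH : ℕ → H := fun l => ⟨g l, hgH l⟩
  let zH : H := ⟨z, hzH⟩
  have hev : ∀ w : List ℕ, ((ev gH w : H) : Γ) = ev g w := by
    intro w
    induction w with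
    | nil => rfl
    | cons l w ih => rw [ev_cons, ev_cons, Subgroup.coe_mul, ih]
  have hzH1 : zH ≠ 1 := fun h => hz1 (congrArg Subtype.val h)
  have hzH2 : zH * zH = 1 := Subtype.ext hz2
  have hzc' : ∀ x : H, x * zH = zH * x := fun x => Subtype.ext (hzc x x.2)
  have hN : (Subgroup.zpowers zH).Normal := by
    have : Subgroup.zpowers zH ≤ Subgroup.center H := by
      rw [Subgroup.zpowers_le, Subgroup.mem_center_iff]; exact hzc'
    refine ⟨fun n hn x => ?_⟩
    have h1 := Subgroup.mem_center_iff.mp (this hn) x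
    rw [h1, mul_inv_cancel_right]
    exact hn
  have hq : ∀ w : List ℕ, ev (fun l => (gH l : H ⧸ Subgroup.zpowers zH)) w =
      ((ev gH w : H) : H ⧸ Subgroup.zpowers zH) := by
    intro w
    induction w with
    | nil => rfl
    | cons l w ih => rw [ev_cons, ev_cons, ih]; rfl
  obtain ⟨α, hα⟩ := Pr.lift (H ⧸ Subgroup.zpowers zH) (fun l => (gH l : H ⧸ Subgroup.zpowers zH))
    (by
      intro l _
      rw [hid]
      apply eq_inv_of_mul_eq_one_right
      show ((gH l * gH l : H) : H ⧸ Subgroup.zpowers zH) = 1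
      have : gH l * gH l = 1 := Subtype.ext (hsq l)
      rw [this]; rfl)
    (by
      intro r hr
      rw [hq, QuotientGroup.eq_one_iff]
      rcases hrel r hr with h | h
      · have : ev gH r = 1 := Subtype.ext (by rw [hev, h]; rfl)
        rw [this]; exact Subgroup.one_mem _
      · have : ev gH r = zH := Subtype.ext (by rw [hev, h])
        rw [this]; exact Subgroup.mem_zpowers _)
  have hinj : Function.Injective α := by
    rw [← MonoidHom.ker_eq_bot_iff]
    rcases hPs.eq_bot_or_eq_top_of_normal α.ker inferInstance with h | h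
    · exact h
    · exfalso
      have h1 : pgen l0 ∈ α.ker := by rw [h]; exact Subgroup.mem_top _
      rw [MonoidHom.mem_ker, hα l0 hl0, QuotientGroup.eq_one_iff] at h1
      rcases mem_zpowers_invol hzH2 h1 with h2 | h2
      · exact hl1 (congrArg Subtype.val h2)
      · exact hl2 (congrArg Subtype.val h2)
  have hord : orderOf zH = 2 := orderOf_eq_prime (by rw [pow_two]; exact hzH2) hzH1
  have hcN : Nat.card (Subgroup.zpowers zH) = 2 := by rw [Nat.card_zpowers, hord]
  have hcQ : Nat.card (H ⧸ Subgroup.zpowers zH) = Nat.card P := by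
    have h1 := Subgroup.card_eq_card_quotient_mul_card_subgroup (Subgroup.zpowers zH)
    rw [hcN, hcard] at h1
    omega
  have hbij : Function.Bijective α :=
    Function.Injective.bijective_of_nat_card_le hinj (by rw [hcQ])
  -- `H` is generated by the elements `gH l`
  have hgen : Subgroup.closure {x : H | ∃ l ∈ Ls, x = gH l} = ⊤ := by
    rw [eq_top_iff]
    intro h _
    obtain ⟨x, hx⟩ := hbij.2 (h : H ⧸ Subgroup.zpowers zH)
    have hx2 : α x ∈ (Subgroup.closure {x : H | ∃ l ∈ Ls, x = gH l}).map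
        (QuotientGroup.mk' (Subgroup.zpowers zH)) := by
      have h3 : x ∈ Subgroup.closure {x | ∃ l ∈ Ls, x = pgen l} := by rw [Pr.hgen]; trivial
      have h4 : (Subgroup.closure {x | ∃ l ∈ Ls, x = pgen l}).map α ≤
          (Subgroup.closure {x : H | ∃ l ∈ Ls, x = gH l}).map
            (QuotientGroup.mk' (Subgroup.zpowers zH)) := by
        rw [MonoidHom.map_closure, Subgroup.closure_le]
        rintro _ ⟨_, ⟨l, hl, rfl⟩, rfl⟩
        exact ⟨gH l, Subgroup.subset_closure ⟨l, hl, rfl⟩, (hα l hl).symm⟩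
      exact h4 ⟨x, h3, rfl⟩
    obtain ⟨m, hm, hmx⟩ := hx2
    rw [hx] at hmx
    have h5 : m⁻¹ * h ∈ Subgroup.zpowers zH := QuotientGroup.eq.mp hmx
    have hzmem : zH ∈ Subgroup.closure {x : H | ∃ l ∈ Ls, x = gH l} := by
      have h6 : zH = ev gH rz := Subtype.ext (by rw [hev, hrz])
      rw [h6]
      have h7 : ∀ w : List ℕ, (∀ l ∈ w, l ∈ Ls) →
          ev gH w ∈ Subgroup.closure {x : H | ∃ l ∈ Ls, x = gH l} := by
        intro w hw
        induction w with
        | nil => exact Subgroup.one_mem _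
        | cons l w ih =>
          rw [ev_cons]
          exact Subgroup.mul_mem _ (Subgroup.subset_closure ⟨l, hw l List.mem_cons_self, rfl⟩)
            (ih (fun l' hl' => hw l' (List.mem_cons_of_mem _ hl')))
      exact h7 rz hrzL
    have h8 : h = m * (m⁻¹ * h) := by group
    rw [h8]
    apply Subgroup.mul_mem _ hm
    rcases mem_zpowers_invol hzH2 h5 with h9 | h9
    · rw [h9]; exact Subgroup.one_mem _
    · rw [h9]; exact hzmem
  apply nonsplit_of_data hPs hnp zH hzH1 hzH2 hzc' hN α hbij.2 hcard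
  intro L hL
  have hLn : L.Normal := Subgroup.normal_of_index_eq_two hL
  have hc2 : Nat.card (H ⧸ L) = 2 := by rw [← Subgroup.index_eq_card]; exact hL
  have hsq2 : ∀ x : H ⧸ L, x * x = 1 := by
    intro x
    have := pow_card_eq_one' (x := x)
    rwa [hc2, pow_two] at this
  have hq' : ∀ w : List ℕ, ev (fun l => (gH l : H ⧸ L)) w = ((ev gH w : H) : H ⧸ L) := by
    intro w
    induction w with
    | nil => rfl
    | cons l w ih => rw [ev_cons, ev_cons, ih]; rfl
  have hg31 : gH 31 = 1 := Subtype.ext h31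
  have h3 := hcol (H ⧸ L) (fun l => (gH l : H ⧸ L)) (fun l => hsq2 _)
    (by show ((gH 31 : H) : H ⧸ L) = 1
        rw [hg31]; rfl)
    (by
      intro r hr
      rcases List.mem_append.mp hr with h | h
      · rw [hq']
        have : ev gH r = 1 := Subtype.ext (by rw [hev, hrels9 r h]; rfl)
        rw [this]; rfl
      · obtain ⟨s, _, h'⟩ := List.mem_flatMap.mp h
        obtain ⟨t, _, rfl⟩ := List.mem_map.mp h'
        simp only [ev_cons, ev_nil, mul_one]
        rw [← mul_assoc]
        exact hsq2 _)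
    (by show ((gH 31 : H) : H ⧸ L) = 1
        rw [hg31]; rfl)
  have htop : L = ⊤ := by
    rw [eq_top_iff, ← hgen, Subgroup.closure_le]
    rintro _ ⟨l, hl, rfl⟩
    exact (QuotientGroup.eq_one_iff _).mp (h3 l hl)
  rw [htop, Subgroup.index_top] at hL
  omega

end Cfsg.Agent.Lib.Helper11.DC
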