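import Mathlib

/-! # A computable field with four elements -/

set_option autoImplicit false

namespace Cfsg.Agent.Lib.Helper11

/-- the field with four elements `0, 1, w, w + 1` -/
inductive F4
  | z | o | w | v
  deriving DecidableEq

namespace F4

instance : Fintype F4 := ⟨⟨[z, o, w, v], by decide⟩, by intro x; cases x <;> decide⟩

def add : F4 → F4 → F4
  | z, x => x
  | x, z => x
  | o, o => z | o, w => v | o, v => w
  | w, o => v | w, w => z | w, v => o
  | v, o => w | v, w => o | v, v => z

def mul : F4 → F4 → F4
  | z, _ => z
  | _, z => z
  | o, x => x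
  | x, o => x
  | w, w => v | w, v => o
  | v, w => o | v, v => w

def inv : F4 → F4
  | z => z | o => o | w => v | v => w

instance : Add F4 := ⟨add⟩
instance : Zero F4 := ⟨z⟩
instance : Neg F4 := ⟨id⟩
instance : Mul F4 := ⟨mul⟩
instance : One F4 := ⟨o⟩
instance : Inv F4 := ⟨inv⟩

instance : Field F4 where
  nsmul := nsmulRec
  zsmul := zsmulRec
  add_assoc := by decide
  zero_add := by decide
  add_zero := by decide
  add_comm := by decide
  neg_add_cancel := by decide
  mul_assoc := by decide
  one_mul := by decide
  mul_one := by decide
  left_distrib := by decide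
  right_distrib := by decide
  mul_comm := by decide
  zero_mul := by decide
  mul_zero := by decide
  exists_pair_ne := ⟨z, o, by decide⟩
  mul_inv_cancel := by decide
  inv_zero := rfl
  nnqsmul := _
  qsmul := _

theorem card : Fintype.card F4 = 4 := rfl

end F4

end Cfsg.Agent.Lib.Helper11
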