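import Cfsg.Agent.Lib.Helper11.PRMain
import Cfsg.Agent.Lib.Helper11.Fi22bPres
import Cfsg.Agent.Lib.Helper11.Fi22bPC0
import Cfsg.Agent.Lib.Helper11.Fi22bPC1
import Cfsg.Agent.Lib.Helper11.Fi22bPC2

set_option autoImplicit false
set_option maxRecDepth 1000000

namespace Cfsg.Agent.Lib.Helper11.Fi22b

open Cfsg.Agent.Lib.Helper11

theorem rng0 : ∀ u, 0 ≤ u → u < 14080 → PR.mapsF [tb0] 0 14079 u = true := by
  have h : ∀ u, 0 ≤ u → u < 0 → PR.mapsF [tb0] 0 14079 u = true := fun u h1 h2 => absurd h2 (by omega)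
  have h := PR.allR_chain (PR.mapsF [tb0] 0 14079) 0 0 14080 rng0_0 h
  exact h

theorem sq0 : ∀ u, 0 ≤ u → u < 14080 → PR.fixF [tb0, tb0] u = true := by
  have h : ∀ u, 0 ≤ u → u < 0 → PR.fixF [tb0, tb0] u = true := fun u h1 h2 => absurd h2 (by omega)
  have h := PR.allR_chain (PR.fixF [tb0, tb0]) 0 0 14080 sq0_0 h
  exact h

theorem rng2 : ∀ u, 0 ≤ u → u < 14080 → PR.mapsF [tb2] 0 14079 u = true := by
  have h : ∀ u, 0 ≤ u → u < 0 → PR.mapsF [tb2] 0 14079 u = true := fun u h1 h2 => absurd h2 (by omega)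
  have h := PR.allR_chain (PR.mapsF [tb2] 0 14079) 0 0 14080 rng2_0 h
  exact h

theorem sq2 : ∀ u, 0 ≤ u → u < 14080 → PR.fixF [tb2, tb2] u = true := by
  have h : ∀ u, 0 ≤ u → u < 0 → PR.fixF [tb2, tb2] u = true := fun u h1 h2 => absurd h2 (by omega)
  have h := PR.allR_chain (PR.fixF [tb2, tb2]) 0 0 14080 sq2_0 h
  exact h

theorem rng4 : ∀ u, 0 ≤ u → u < 14080 → PR.mapsF [tb4] 0 14079 u = true := by
  have h : ∀ u, 0 ≤ u → u < 0 → PR.mapsF [tb4] 0 14079 u = true := fun u h1 h2 => absurd h2 (by omega)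
  have h := PR.allR_chain (PR.mapsF [tb4] 0 14079) 0 0 14080 rng4_0 h
  exact h

theorem sq4 : ∀ u, 0 ≤ u → u < 14080 → PR.fixF [tb4, tb4] u = true := by
  have h : ∀ u, 0 ≤ u → u < 0 → PR.fixF [tb4, tb4] u = true := fun u h1 h2 => absurd h2 (by omega)
  have h := PR.allR_chain (PR.fixF [tb4, tb4]) 0 0 14080 sq4_0 h
  exact h

theorem rng6 : ∀ u, 0 ≤ u → u < 14080 → PR.mapsF [tb6] 0 14079 u = true := by
  have h : ∀ u, 0 ≤ u → u < 0 → PR.mapsF [tb6] 0 14079 u = true := fun u h1 h2 => absurd h2 (by omega)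
  have h := PR.allR_chain (PR.mapsF [tb6] 0 14079) 0 0 14080 rng6_0 h
  exact h

theorem sq6 : ∀ u, 0 ≤ u → u < 14080 → PR.fixF [tb6, tb6] u = true := by
  have h : ∀ u, 0 ≤ u → u < 0 → PR.fixF [tb6, tb6] u = true := fun u h1 h2 => absurd h2 (by omega)
  have h := PR.allR_chain (PR.fixF [tb6, tb6]) 0 0 14080 sq6_0 h
  exact h

theorem rng8 : ∀ u, 0 ≤ u → u < 14080 → PR.mapsF [tb8] 0 14079 u = true := by
  have h : ∀ u, 0 ≤ u → u < 0 → PR.mapsF [tb8] 0 14079 u = true := fun u h1 h2 => absurd h2 (by omega)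
  have h := PR.allR_chain (PR.mapsF [tb8] 0 14079) 0 0 14080 rng8_0 h
  exact h

theorem sq8 : ∀ u, 0 ≤ u → u < 14080 → PR.fixF [tb8, tb8] u = true := by
  have h : ∀ u, 0 ≤ u → u < 0 → PR.fixF [tb8, tb8] u = true := fun u h1 h2 => absurd h2 (by omega)
  have h := PR.allR_chain (PR.fixF [tb8, tb8]) 0 0 14080 sq8_0 h
  exact h

theorem rng10 : ∀ u, 0 ≤ u → u < 14080 → PR.mapsF [tb10] 0 14079 u = true := by
  have h : ∀ u, 0 ≤ u → u < 0 → PR.mapsF [tb10] 0 14079 u = true := fun u h1 h2 => absurd h2 (by omega)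
  have h := PR.allR_chain (PR.mapsF [tb10] 0 14079) 0 0 14080 rng10_0 h
  exact h

theorem sq10 : ∀ u, 0 ≤ u → u < 14080 → PR.fixF [tb10, tb10] u = true := by
  have h : ∀ u, 0 ≤ u → u < 0 → PR.fixF [tb10, tb10] u = true := fun u h1 h2 => absurd h2 (by omega)
  have h := PR.allR_chain (PR.fixF [tb10, tb10]) 0 0 14080 sq10_0 h
  exact h

theorem rng12 : ∀ u, 0 ≤ u → u < 14080 → PR.mapsF [tb12] 0 14079 u = true := by
  have h : ∀ u, 0 ≤ u → u < 0 → PR.mapsF [tb12] 0 14079 u = true := fun u h1 h2 => absurd h2 (by omega)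
  have h := PR.allR_chain (PR.mapsF [tb12] 0 14079) 0 0 14080 rng12_0 h
  exact h

theorem sq12 : ∀ u, 0 ≤ u → u < 14080 → PR.fixF [tb12, tb12] u = true := by
  have h : ∀ u, 0 ≤ u → u < 0 → PR.fixF [tb12, tb12] u = true := fun u h1 h2 => absurd h2 (by omega)
  have h := PR.allR_chain (PR.fixF [tb12, tb12]) 0 0 14080 sq12_0 h
  exact h

theorem rng14 : ∀ u, 0 ≤ u → u < 14080 → PR.mapsF [tb14] 0 14079 u = true := by
  have h : ∀ u, 0 ≤ u → u < 0 → PR.mapsF [tb14] 0 14079 u = true := fun u h1 h2 => absurd h2 (by omega)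
  have h := PR.allR_chain (PR.mapsF [tb14] 0 14079) 0 0 14080 rng14_0 h
  exact h

theorem sq14 : ∀ u, 0 ≤ u → u < 14080 → PR.fixF [tb14, tb14] u = true := by
  have h : ∀ u, 0 ≤ u → u < 0 → PR.fixF [tb14, tb14] u = true := fun u h1 h2 => absurd h2 (by omega)
  have h := PR.allR_chain (PR.fixF [tb14, tb14]) 0 0 14080 sq14_0 h
  exact h

theorem rng16 : ∀ u, 0 ≤ u → u < 14080 → PR.mapsF [tb16] 0 14079 u = true := by
  have h : ∀ u, 0 ≤ u → u < 0 → PR.mapsF [tb16] 0 14079 u = true := fun u h1 h2 => absurd h2 (by omega)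
  have h := PR.allR_chain (PR.mapsF [tb16] 0 14079) 0 0 14080 rng16_0 h
  exact h

theorem sq16 : ∀ u, 0 ≤ u → u < 14080 → PR.fixF [tb16, tb16] u = true := by
  have h : ∀ u, 0 ≤ u → u < 0 → PR.fixF [tb16, tb16] u = true := fun u h1 h2 => absurd h2 (by omega)
  have h := PR.allR_chain (PR.fixF [tb16, tb16]) 0 0 14080 sq16_0 h
  exact h

theorem rel0 : ∀ u, 0 ≤ u → u < 14080 → PR.fixF [tb0, tb2, tb0, tb2, tb0, tb2] u = true := by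
  have h : ∀ u, 0 ≤ u → u < 0 → PR.fixF [tb0, tb2, tb0, tb2, tb0, tb2] u = true := fun u h1 h2 => absurd h2 (by omega)
  have h := PR.allR_chain (PR.fixF [tb0, tb2, tb0, tb2, tb0, tb2]) 0 0 5954 rel0_0 h
  have h := PR.allR_chain (PR.fixF [tb0, tb2, tb0, tb2, tb0, tb2]) 0 5954 5954 rel0_1 h
  have h := PR.allR_chain (PR.fixF [tb0, tb2, tb0, tb2, tb0, tb2]) 0 11908 2172 rel0_2 h
  exact h

theorem rel1 : ∀ u, 0 ≤ u → u < 14080 → PR.fixF [tb0, tb4, tb0, tb4] u = true := by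
  have h : ∀ u, 0 ≤ u → u < 0 → PR.fixF [tb0, tb4, tb0, tb4] u = true := fun u h1 h2 => absurd h2 (by omega)
  have h := PR.allR_chain (PR.fixF [tb0, tb4, tb0, tb4]) 0 0 8931 rel1_0 h
  have h := PR.allR_chain (PR.fixF [tb0, tb4, tb0, tb4]) 0 8931 5149 rel1_1 h
  exact h

theorem rel2 : ∀ u, 0 ≤ u → u < 14080 → PR.fixF [tb0, tb6, tb0, tb6] u = true := by
  have h : ∀ u, 0 ≤ u → u < 0 → PR.fixF [tb0, tb6, tb0, tb6] u = true := fun u h1 h2 => absurd h2 (by omega)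
  have h := PR.allR_chain (PR.fixF [tb0, tb6, tb0, tb6]) 0 0 8931 rel2_0 h
  have h := PR.allR_chain (PR.fixF [tb0, tb6, tb0, tb6]) 0 8931 5149 rel2_1 h
  exact h

theorem rel3 : ∀ u, 0 ≤ u → u < 14080 → PR.fixF [tb0, tb8, tb0, tb8] u = true := by
  have h : ∀ u, 0 ≤ u → u < 0 → PR.fixF [tb0, tb8, tb0, tb8] u = true := fun u h1 h2 => absurd h2 (by omega)
  have h := PR.allR_chain (PR.fixF [tb0, tb8, tb0, tb8]) 0 0 8931 rel3_0 h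
  have h := PR.allR_chain (PR.fixF [tb0, tb8, tb0, tb8]) 0 8931 5149 rel3_1 h
  exact h

theorem rel4 : ∀ u, 0 ≤ u → u < 14080 → PR.fixF [tb0, tb14, tb0, tb14] u = true := by
  have h : ∀ u, 0 ≤ u → u < 0 → PR.fixF [tb0, tb14, tb0, tb14] u = true := fun u h1 h2 => absurd h2 (by omega)
  have h := PR.allR_chain (PR.fixF [tb0, tb14, tb0, tb14]) 0 0 8931 rel4_0 h
  have h := PR.allR_chain (PR.fixF [tb0, tb14, tb0, tb14]) 0 8931 5149 rel4_1 h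
  exact h

theorem rel5 : ∀ u, 0 ≤ u → u < 14080 → PR.fixF [tb0, tb10, tb0, tb10] u = true := by
  have h : ∀ u, 0 ≤ u → u < 0 → PR.fixF [tb0, tb10, tb0, tb10] u = true := fun u h1 h2 => absurd h2 (by omega)
  have h := PR.allR_chain (PR.fixF [tb0, tb10, tb0, tb10]) 0 0 8931 rel5_0 h
  have h := PR.allR_chain (PR.fixF [tb0, tb10, tb0, tb10]) 0 8931 5149 rel5_1 h
  exact h

theorem rel6 : ∀ u, 0 ≤ u → u < 14080 → PR.fixF [tb0, tb12, tb0, tb12] u = true := by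
  have h : ∀ u, 0 ≤ u → u < 0 → PR.fixF [tb0, tb12, tb0, tb12] u = true := fun u h1 h2 => absurd h2 (by omega)
  have h := PR.allR_chain (PR.fixF [tb0, tb12, tb0, tb12]) 0 0 8931 rel6_0 h
  have h := PR.allR_chain (PR.fixF [tb0, tb12, tb0, tb12]) 0 8931 5149 rel6_1 h
  exact h

theorem rel7 : ∀ u, 0 ≤ u → u < 14080 → PR.fixF [tb0, tb16, tb0, tb16] u = true := by
  have h : ∀ u, 0 ≤ u → u < 0 → PR.fixF [tb0, tb16, tb0, tb16] u = true := fun u h1 h2 => absurd h2 (by omega)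
  have h := PR.allR_chain (PR.fixF [tb0, tb16, tb0, tb16]) 0 0 8931 rel7_0 h
  have h := PR.allR_chain (PR.fixF [tb0, tb16, tb0, tb16]) 0 8931 5149 rel7_1 h
  exact h

theorem rel8 : ∀ u, 0 ≤ u → u < 14080 → PR.fixF [tb2, tb4, tb2, tb4, tb2, tb4] u = true := by
  have h : ∀ u, 0 ≤ u → u < 0 → PR.fixF [tb2, tb4, tb2, tb4, tb2, tb4] u = true := fun u h1 h2 => absurd h2 (by omega)
  have h := PR.allR_chain (PR.fixF [tb2, tb4, tb2, tb4, tb2, tb4]) 0 0 5954 rel8_0 h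
  have h := PR.allR_chain (PR.fixF [tb2, tb4, tb2, tb4, tb2, tb4]) 0 5954 5954 rel8_1 h
  have h := PR.allR_chain (PR.fixF [tb2, tb4, tb2, tb4, tb2, tb4]) 0 11908 2172 rel8_2 h
  exact h

theorem rel9 : ∀ u, 0 ≤ u → u < 14080 → PR.fixF [tb2, tb6, tb2, tb6] u = true := by
  have h : ∀ u, 0 ≤ u → u < 0 → PR.fixF [tb2, tb6, tb2, tb6] u = true := fun u h1 h2 => absurd h2 (by omega)
  have h := PR.allR_chain (PR.fixF [tb2, tb6, tb2, tb6]) 0 0 8931 rel9_0 h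
  have h := PR.allR_chain (PR.fixF [tb2, tb6, tb2, tb6]) 0 8931 5149 rel9_1 h
  exact h

theorem rel10 : ∀ u, 0 ≤ u → u < 14080 → PR.fixF [tb2, tb8, tb2, tb8] u = true := by
  have h : ∀ u, 0 ≤ u → u < 0 → PR.fixF [tb2, tb8, tb2, tb8] u = true := fun u h1 h2 => absurd h2 (by omega)
  have h := PR.allR_chain (PR.fixF [tb2, tb8, tb2, tb8]) 0 0 8931 rel10_0 h
  have h := PR.allR_chain (PR.fixF [tb2, tb8, tb2, tb8]) 0 8931 5149 rel10_1 h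
  exact h

theorem rel11 : ∀ u, 0 ≤ u → u < 14080 → PR.fixF [tb2, tb14, tb2, tb14] u = true := by
  have h : ∀ u, 0 ≤ u → u < 0 → PR.fixF [tb2, tb14, tb2, tb14] u = true := fun u h1 h2 => absurd h2 (by omega)
  have h := PR.allR_chain (PR.fixF [tb2, tb14, tb2, tb14]) 0 0 8931 rel11_0 h
  have h := PR.allR_chain (PR.fixF [tb2, tb14, tb2, tb14]) 0 8931 5149 rel11_1 h
  exact h

theorem rel12 : ∀ u, 0 ≤ u → u < 14080 → PR.fixF [tb2, tb10, tb2, tb10] u = true := by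
  have h : ∀ u, 0 ≤ u → u < 0 → PR.fixF [tb2, tb10, tb2, tb10] u = true := fun u h1 h2 => absurd h2 (by omega)
  have h := PR.allR_chain (PR.fixF [tb2, tb10, tb2, tb10]) 0 0 8931 rel12_0 h
  have h := PR.allR_chain (PR.fixF [tb2, tb10, tb2, tb10]) 0 8931 5149 rel12_1 h
  exact h

theorem rel13 : ∀ u, 0 ≤ u → u < 14080 → PR.fixF [tb2, tb12, tb2, tb12] u = true := by
  have h : ∀ u, 0 ≤ u → u < 0 → PR.fixF [tb2, tb12, tb2, tb12] u = true := fun u h1 h2 => absurd h2 (by omega)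
  have h := PR.allR_chain (PR.fixF [tb2, tb12, tb2, tb12]) 0 0 8931 rel13_0 h
  have h := PR.allR_chain (PR.fixF [tb2, tb12, tb2, tb12]) 0 8931 5149 rel13_1 h
  exact h

theorem rel14 : ∀ u, 0 ≤ u → u < 14080 → PR.fixF [tb2, tb16, tb2, tb16] u = true := by
  have h : ∀ u, 0 ≤ u → u < 0 → PR.fixF [tb2, tb16, tb2, tb16] u = true := fun u h1 h2 => absurd h2 (by omega)
  have h := PR.allR_chain (PR.fixF [tb2, tb16, tb2, tb16]) 0 0 8931 rel14_0 h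
  have h := PR.allR_chain (PR.fixF [tb2, tb16, tb2, tb16]) 0 8931 5149 rel14_1 h
  exact h

theorem rel15 : ∀ u, 0 ≤ u → u < 14080 → PR.fixF [tb4, tb6, tb4, tb6, tb4, tb6] u = true := by
  have h : ∀ u, 0 ≤ u → u < 0 → PR.fixF [tb4, tb6, tb4, tb6, tb4, tb6] u = true := fun u h1 h2 => absurd h2 (by omega)
  have h := PR.allR_chain (PR.fixF [tb4, tb6, tb4, tb6, tb4, tb6]) 0 0 5954 rel15_0 h
  have h := PR.allR_chain (PR.fixF [tb4, tb6, tb4, tb6, tb4, tb6]) 0 5954 5954 rel15_1 h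
  have h := PR.allR_chain (PR.fixF [tb4, tb6, tb4, tb6, tb4, tb6]) 0 11908 2172 rel15_2 h
  exact h

theorem rel16 : ∀ u, 0 ≤ u → u < 14080 → PR.fixF [tb4, tb8, tb4, tb8] u = true := by
  have h : ∀ u, 0 ≤ u → u < 0 → PR.fixF [tb4, tb8, tb4, tb8] u = true := fun u h1 h2 => absurd h2 (by omega)
  have h := PR.allR_chain (PR.fixF [tb4, tb8, tb4, tb8]) 0 0 8931 rel16_0 h
  have h := PR.allR_chain (PR.fixF [tb4, tb8, tb4, tb8]) 0 8931 5149 rel16_1 h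
  exact h

theorem rel17 : ∀ u, 0 ≤ u → u < 14080 → PR.fixF [tb4, tb14, tb4, tb14] u = true := by
  have h : ∀ u, 0 ≤ u → u < 0 → PR.fixF [tb4, tb14, tb4, tb14] u = true := fun u h1 h2 => absurd h2 (by omega)
  have h := PR.allR_chain (PR.fixF [tb4, tb14, tb4, tb14]) 0 0 8931 rel17_0 h
  have h := PR.allR_chain (PR.fixF [tb4, tb14, tb4, tb14]) 0 8931 5149 rel17_1 h
  exact h

theorem rel18 : ∀ u, 0 ≤ u → u < 14080 → PR.fixF [tb4, tb10, tb4, tb10] u = true := by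
  have h : ∀ u, 0 ≤ u → u < 0 → PR.fixF [tb4, tb10, tb4, tb10] u = true := fun u h1 h2 => absurd h2 (by omega)
  have h := PR.allR_chain (PR.fixF [tb4, tb10, tb4, tb10]) 0 0 8931 rel18_0 h
  have h := PR.allR_chain (PR.fixF [tb4, tb10, tb4, tb10]) 0 8931 5149 rel18_1 h
  exact h

theorem rel19 : ∀ u, 0 ≤ u → u < 14080 → PR.fixF [tb4, tb12, tb4, tb12] u = true := by
  have h : ∀ u, 0 ≤ u → u < 0 → PR.fixF [tb4, tb12, tb4, tb12] u = true := fun u h1 h2 => absurd h2 (by omega)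
  have h := PR.allR_chain (PR.fixF [tb4, tb12, tb4, tb12]) 0 0 8931 rel19_0 h
  have h := PR.allR_chain (PR.fixF [tb4, tb12, tb4, tb12]) 0 8931 5149 rel19_1 h
  exact h

theorem rel20 : ∀ u, 0 ≤ u → u < 14080 → PR.fixF [tb4, tb16, tb4, tb16] u = true := by
  have h : ∀ u, 0 ≤ u → u < 0 → PR.fixF [tb4, tb16, tb4, tb16] u = true := fun u h1 h2 => absurd h2 (by omega)
  have h := PR.allR_chain (PR.fixF [tb4, tb16, tb4, tb16]) 0 0 8931 rel20_0 h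
  have h := PR.allR_chain (PR.fixF [tb4, tb16, tb4, tb16]) 0 8931 5149 rel20_1 h
  exact h

theorem rel21 : ∀ u, 0 ≤ u → u < 14080 → PR.fixF [tb6, tb8, tb6, tb8, tb6, tb8] u = true := by
  have h : ∀ u, 0 ≤ u → u < 0 → PR.fixF [tb6, tb8, tb6, tb8, tb6, tb8] u = true := fun u h1 h2 => absurd h2 (by omega)
  have h := PR.allR_chain (PR.fixF [tb6, tb8, tb6, tb8, tb6, tb8]) 0 0 5954 rel21_0 h
  have h := PR.allR_chain (PR.fixF [tb6, tb8, tb6, tb8, tb6, tb8]) 0 5954 5954 rel21_1 h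
  have h := PR.allR_chain (PR.fixF [tb6, tb8, tb6, tb8, tb6, tb8]) 0 11908 2172 rel21_2 h
  exact h

theorem rel22 : ∀ u, 0 ≤ u → u < 14080 → PR.fixF [tb6, tb14, tb6, tb14, tb6, tb14] u = true := by
  have h : ∀ u, 0 ≤ u → u < 0 → PR.fixF [tb6, tb14, tb6, tb14, tb6, tb14] u = true := fun u h1 h2 => absurd h2 (by omega)
  have h := PR.allR_chain (PR.fixF [tb6, tb14, tb6, tb14, tb6, tb14]) 0 0 5954 rel22_0 h
  have h := PR.allR_chain (PR.fixF [tb6, tb14, tb6, tb14, tb6, tb14]) 0 5954 5954 rel22_1 h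
  have h := PR.allR_chain (PR.fixF [tb6, tb14, tb6, tb14, tb6, tb14]) 0 11908 2172 rel22_2 h
  exact h

theorem rel23 : ∀ u, 0 ≤ u → u < 14080 → PR.fixF [tb6, tb10, tb6, tb10] u = true := by
  have h : ∀ u, 0 ≤ u → u < 0 → PR.fixF [tb6, tb10, tb6, tb10] u = true := fun u h1 h2 => absurd h2 (by omega)
  have h := PR.allR_chain (PR.fixF [tb6, tb10, tb6, tb10]) 0 0 8931 rel23_0 h
  have h := PR.allR_chain (PR.fixF [tb6, tb10, tb6, tb10]) 0 8931 5149 rel23_1 h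
  exact h

theorem rel24 : ∀ u, 0 ≤ u → u < 14080 → PR.fixF [tb6, tb12, tb6, tb12] u = true := by
  have h : ∀ u, 0 ≤ u → u < 0 → PR.fixF [tb6, tb12, tb6, tb12] u = true := fun u h1 h2 => absurd h2 (by omega)
  have h := PR.allR_chain (PR.fixF [tb6, tb12, tb6, tb12]) 0 0 8931 rel24_0 h
  have h := PR.allR_chain (PR.fixF [tb6, tb12, tb6, tb12]) 0 8931 5149 rel24_1 h
  exact h

theorem rel25 : ∀ u, 0 ≤ u → u < 14080 → PR.fixF [tb6, tb16, tb6, tb16] u = true := by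
  have h : ∀ u, 0 ≤ u → u < 0 → PR.fixF [tb6, tb16, tb6, tb16] u = true := fun u h1 h2 => absurd h2 (by omega)
  have h := PR.allR_chain (PR.fixF [tb6, tb16, tb6, tb16]) 0 0 8931 rel25_0 h
  have h := PR.allR_chain (PR.fixF [tb6, tb16, tb6, tb16]) 0 8931 5149 rel25_1 h
  exact h

theorem rel26 : ∀ u, 0 ≤ u → u < 14080 → PR.fixF [tb8, tb14, tb8, tb14] u = true := by
  have h : ∀ u, 0 ≤ u → u < 0 → PR.fixF [tb8, tb14, tb8, tb14] u = true := fun u h1 h2 => absurd h2 (by omega)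
  have h := PR.allR_chain (PR.fixF [tb8, tb14, tb8, tb14]) 0 0 8931 rel26_0 h
  have h := PR.allR_chain (PR.fixF [tb8, tb14, tb8, tb14]) 0 8931 5149 rel26_1 h
  exact h

theorem rel27 : ∀ u, 0 ≤ u → u < 14080 → PR.fixF [tb8, tb10, tb8, tb10, tb8, tb10] u = true := by
  have h : ∀ u, 0 ≤ u → u < 0 → PR.fixF [tb8, tb10, tb8, tb10, tb8, tb10] u = true := fun u h1 h2 => absurd h2 (by omega)
  have h := PR.allR_chain (PR.fixF [tb8, tb10, tb8, tb10, tb8, tb10]) 0 0 5954 rel27_0 h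
  have h := PR.allR_chain (PR.fixF [tb8, tb10, tb8, tb10, tb8, tb10]) 0 5954 5954 rel27_1 h
  have h := PR.allR_chain (PR.fixF [tb8, tb10, tb8, tb10, tb8, tb10]) 0 11908 2172 rel27_2 h
  exact h

theorem rel28 : ∀ u, 0 ≤ u → u < 14080 → PR.fixF [tb8, tb12, tb8, tb12] u = true := by
  have h : ∀ u, 0 ≤ u → u < 0 → PR.fixF [tb8, tb12, tb8, tb12] u = true := fun u h1 h2 => absurd h2 (by omega)
  have h := PR.allR_chain (PR.fixF [tb8, tb12, tb8, tb12]) 0 0 8931 rel28_0 h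
  have h := PR.allR_chain (PR.fixF [tb8, tb12, tb8, tb12]) 0 8931 5149 rel28_1 h
  exact h

theorem rel29 : ∀ u, 0 ≤ u → u < 14080 → PR.fixF [tb8, tb16, tb8, tb16] u = true := by
  have h : ∀ u, 0 ≤ u → u < 0 → PR.fixF [tb8, tb16, tb8, tb16] u = true := fun u h1 h2 => absurd h2 (by omega)
  have h := PR.allR_chain (PR.fixF [tb8, tb16, tb8, tb16]) 0 0 8931 rel29_0 h
  have h := PR.allR_chain (PR.fixF [tb8, tb16, tb8, tb16]) 0 8931 5149 rel29_1 h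
  exact h

theorem rel30 : ∀ u, 0 ≤ u → u < 14080 → PR.fixF [tb14, tb10, tb14, tb10] u = true := by
  have h : ∀ u, 0 ≤ u → u < 0 → PR.fixF [tb14, tb10, tb14, tb10] u = true := fun u h1 h2 => absurd h2 (by omega)
  have h := PR.allR_chain (PR.fixF [tb14, tb10, tb14, tb10]) 0 0 8931 rel30_0 h
  have h := PR.allR_chain (PR.fixF [tb14, tb10, tb14, tb10]) 0 8931 5149 rel30_1 h
  exact h

theorem rel31 : ∀ u, 0 ≤ u → u < 14080 → PR.fixF [tb14, tb12, tb14, tb12] u = true := by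
  have h : ∀ u, 0 ≤ u → u < 0 → PR.fixF [tb14, tb12, tb14, tb12] u = true := fun u h1 h2 => absurd h2 (by omega)
  have h := PR.allR_chain (PR.fixF [tb14, tb12, tb14, tb12]) 0 0 8931 rel31_0 h
  have h := PR.allR_chain (PR.fixF [tb14, tb12, tb14, tb12]) 0 8931 5149 rel31_1 h
  exact h

theorem rel32 : ∀ u, 0 ≤ u → u < 14080 → PR.fixF [tb14, tb16, tb14, tb16, tb14, tb16] u = true := by
  have h : ∀ u, 0 ≤ u → u < 0 → PR.fixF [tb14, tb16, tb14, tb16, tb14, tb16] u = true := fun u h1 h2 => absurd h2 (by omega)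
  have h := PR.allR_chain (PR.fixF [tb14, tb16, tb14, tb16, tb14, tb16]) 0 0 5954 rel32_0 h
  have h := PR.allR_chain (PR.fixF [tb14, tb16, tb14, tb16, tb14, tb16]) 0 5954 5954 rel32_1 h
  have h := PR.allR_chain (PR.fixF [tb14, tb16, tb14, tb16, tb14, tb16]) 0 11908 2172 rel32_2 h
  exact h

theorem rel33 : ∀ u, 0 ≤ u → u < 14080 → PR.fixF [tb10, tb12, tb10, tb12, tb10, tb12] u = true := by
  have h : ∀ u, 0 ≤ u → u < 0 → PR.fixF [tb10, tb12, tb10, tb12, tb10, tb12] u = true := fun u h1 h2 => absurd h2 (by omega)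
  have h := PR.allR_chain (PR.fixF [tb10, tb12, tb10, tb12, tb10, tb12]) 0 0 5954 rel33_0 h
  have h := PR.allR_chain (PR.fixF [tb10, tb12, tb10, tb12, tb10, tb12]) 0 5954 5954 rel33_1 h
  have h := PR.allR_chain (PR.fixF [tb10, tb12, tb10, tb12, tb10, tb12]) 0 11908 2172 rel33_2 h
  exact h

theorem rel34 : ∀ u, 0 ≤ u → u < 14080 → PR.fixF [tb10, tb16, tb10, tb16] u = true := by
  have h : ∀ u, 0 ≤ u → u < 0 → PR.fixF [tb10, tb16, tb10, tb16] u = true := fun u h1 h2 => absurd h2 (by omega)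
  have h := PR.allR_chain (PR.fixF [tb10, tb16, tb10, tb16]) 0 0 8931 rel34_0 h
  have h := PR.allR_chain (PR.fixF [tb10, tb16, tb10, tb16]) 0 8931 5149 rel34_1 h
  exact h

theorem rel35 : ∀ u, 0 ≤ u → u < 14080 → PR.fixF [tb12, tb16, tb12, tb16] u = true := by
  have h : ∀ u, 0 ≤ u → u < 0 → PR.fixF [tb12, tb16, tb12, tb16] u = true := fun u h1 h2 => absurd h2 (by omega)
  have h := PR.allR_chain (PR.fixF [tb12, tb16, tb12, tb16]) 0 0 8931 rel35_0 h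
  have h := PR.allR_chain (PR.fixF [tb12, tb16, tb12, tb16]) 0 8931 5149 rel35_1 h
  exact h

theorem rel36 : ∀ u, 0 ≤ u → u < 14080 → PR.fixF [tb6, tb4, tb2, tb6, tb8, tb10, tb6, tb14, tb16, tb6, tb4, tb2, tb6, tb8, tb10, tb6, tb14, tb16, tb6, tb4, tb2, tb6, tb8, tb10, tb6, tb14, tb16, tb6, tb4, tb2, tb6, tb8, tb10, tb6, tb14, tb16, tb6, tb4, tb2, tb6, tb8, tb10, tb6, tb14, tb16, tb6, tb4, tb2, tb6, tb8, tb10, tb6, tb14, tb16, tb6, tb4, tb2, tb6, tb8, tb10, tb6, tb14, tb16, tb6, tb4, tb2, tb6, tb8, tb10, tb6, tb14, tb16, tb6, tb4, tb2, tb6, tb8, tb10, tb6, tb14, tb16, tb6, tb4, tb2, tb6, tb8, tb10, tb6, tb14, tb16] u = true := by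
  have h : ∀ u, 0 ≤ u → u < 0 → PR.fixF [tb6, tb4, tb2, tb6, tb8, tb10, tb6, tb14, tb16, tb6, tb4, tb2, tb6, tb8, tb10, tb6, tb14, tb16, tb6, tb4, tb2, tb6, tb8, tb10, tb6, tb14, tb16, tb6, tb4, tb2, tb6, tb8, tb10, tb6, tb14, tb16, tb6, tb4, tb2, tb6, tb8, tb10, tb6, tb14, tb16, tb6, tb4, tb2, tb6, tb8, tb10, tb6, tb14, tb16, tb6, tb4, tb2, tb6, tb8, tb10, tb6, tb14, tb16, tb6, tb4, tb2, tb6, tb8, tb10, tb6, tb14, tb16, tb6, tb4, tb2, tb6, tb8, tb10, tb6, tb14, tb16, tb6, tb4, tb2, tb6, tb8, tb10, tb6, tb14, tb16] u = true := fun u h1 h2 => absurd h2 (by omega)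
  have h := PR.allR_chain (PR.fixF [tb6, tb4, tb2, tb6, tb8, tb10, tb6, tb14, tb16, tb6, tb4, tb2, tb6, tb8, tb10, tb6, tb14, tb16, tb6, tb4, tb2, tb6, tb8, tb10, tb6, tb14, tb16, tb6, tb4, tb2, tb6, tb8, tb10, tb6, tb14, tb16, tb6, tb4, tb2, tb6, tb8, tb10, tb6, tb14, tb16, tb6, tb4, tb2, tb6, tb8, tb10, tb6, tb14, tb16, tb6, tb4, tb2, tb6, tb8, tb10, tb6, tb14, tb16, tb6, tb4, tb2, tb6, tb8, tb10, tb6, tb14, tb16, tb6, tb4, tb2, tb6, tb8, tb10, tb6, tb14, tb16, tb6, tb4, tb2, tb6, tb8, tb10, tb6, tb14, tb16]) 0 0 396 rel36_0 h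
  have h := PR.allR_chain (PR.fixF [tb6, tb4, tb2, tb6, tb8, tb10, tb6, tb14, tb16, tb6, tb4, tb2, tb6, tb8, tb10, tb6, tb14, tb16, tb6, tb4, tb2, tb6, tb8, tb10, tb6, tb14, tb16, tb6, tb4, tb2, tb6, tb8, tb10, tb6, tb14, tb16, tb6, tb4, tb2, tb6, tb8, tb10, tb6, tb14, tb16, tb6, tb4, tb2, tb6, tb8, tb10, tb6, tb14, tb16, tb6, tb4, tb2, tb6, tb8, tb10, tb6, tb14, tb16, tb6, tb4, tb2, tb6, tb8, tb10, tb6, tb14, tb16, tb6, tb4, tb2, tb6, tb8, tb10, tb6, tb14, tb16, tb6, tb4, tb2, tb6, tb8, tb10, tb6, tb14, tb16]) 0 396 396 rel36_1 h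
  have h := PR.allR_chain (PR.fixF [tb6, tb4, tb2, tb6, tb8, tb10, tb6, tb14, tb16, tb6, tb4, tb2, tb6, tb8, tb10, tb6, tb14, tb16, tb6, tb4, tb2, tb6, tb8, tb10, tb6, tb14, tb16, tb6, tb4, tb2, tb6, tb8, tb10, tb6, tb14, tb16, tb6, tb4, tb2, tb6, tb8, tb10, tb6, tb14, tb16, tb6, tb4, tb2, tb6, tb8, tb10, tb6, tb14, tb16, tb6, tb4, tb2, tb6, tb8, tb10, tb6, tb14, tb16, tb6, tb4, tb2, tb6, tb8, tb10, tb6, tb14, tb16, tb6, tb4, tb2, tb6, tb8, tb10, tb6, tb14, tb16, tb6, tb4, tb2, tb6, tb8, tb10, tb6, tb14, tb16]) 0 792 396 rel36_2 h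
  have h := PR.allR_chain (PR.fixF [tb6, tb4, tb2, tb6, tb8, tb10, tb6, tb14, tb16, tb6, tb4, tb2, tb6, tb8, tb10, tb6, tb14, tb16, tb6, tb4, tb2, tb6, tb8, tb10, tb6, tb14, tb16, tb6, tb4, tb2, tb6, tb8, tb10, tb6, tb14, tb16, tb6, tb4, tb2, tb6, tb8, tb10, tb6, tb14, tb16, tb6, tb4, tb2, tb6, tb8, tb10, tb6, tb14, tb16, tb6, tb4, tb2, tb6, tb8, tb10, tb6, tb14, tb16, tb6, tb4, tb2, tb6, tb8, tb10, tb6, tb14, tb16, tb6, tb4, tb2, tb6, tb8, tb10, tb6, tb14, tb16, tb6, tb4, tb2, tb6, tb8, tb10, tb6, tb14, tb16]) 0 1188 396 rel36_3 h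
  have h := PR.allR_chain (PR.fixF [tb6, tb4, tb2, tb6, tb8, tb10, tb6, tb14, tb16, tb6, tb4, tb2, tb6, tb8, tb10, tb6, tb14, tb16, tb6, tb4, tb2, tb6, tb8, tb10, tb6, tb14, tb16, tb6, tb4, tb2, tb6, tb8, tb10, tb6, tb14, tb16, tb6, tb4, tb2, tb6, tb8, tb10, tb6, tb14, tb16, tb6, tb4, tb2, tb6, tb8, tb10, tb6, tb14, tb16, tb6, tb4, tb2, tb6, tb8, tb10, tb6, tb14, tb16, tb6, tb4, tb2, tb6, tb8, tb10, tb6, tb14, tb16, tb6, tb4, tb2, tb6, tb8, tb10, tb6, tb14, tb16, tb6, tb4, tb2, tb6, tb8, tb10, tb6, tb14, tb16]) 0 1584 396 rel36_4 h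
  have h := PR.allR_chain (PR.fixF [tb6, tb4, tb2, tb6, tb8, tb10, tb6, tb14, tb16, tb6, tb4, tb2, tb6, tb8, tb10, tb6, tb14, tb16, tb6, tb4, tb2, tb6, tb8, tb10, tb6, tb14, tb16, tb6, tb4, tb2, tb6, tb8, tb10, tb6, tb14, tb16, tb6, tb4, tb2, tb6, tb8, tb10, tb6, tb14, tb16, tb6, tb4, tb2, tb6, tb8, tb10, tb6, tb14, tb16, tb6, tb4, tb2, tb6, tb8, tb10, tb6, tb14, tb16, tb6, tb4, tb2, tb6, tb8, tb10, tb6, tb14, tb16, tb6, tb4, tb2, tb6, tb8, tb10, tb6, tb14, tb16, tb6, tb4, tb2, tb6, tb8, tb10, tb6, tb14, tb16]) 0 1980 396 rel36_5 h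
  have h := PR.allR_chain (PR.fixF [tb6, tb4, tb2, tb6, tb8, tb10, tb6, tb14, tb16, tb6, tb4, tb2, tb6, tb8, tb10, tb6, tb14, tb16, tb6, tb4, tb2, tb6, tb8, tb10, tb6, tb14, tb16, tb6, tb4, tb2, tb6, tb8, tb10, tb6, tb14, tb16, tb6, tb4, tb2, tb6, tb8, tb10, tb6, tb14, tb16, tb6, tb4, tb2, tb6, tb8, tb10, tb6, tb14, tb16, tb6, tb4, tb2, tb6, tb8, tb10, tb6, tb14, tb16, tb6, tb4, tb2, tb6, tb8, tb10, tb6, tb14, tb16, tb6, tb4, tb2, tb6, tb8, tb10, tb6, tb14, tb16, tb6, tb4, tb2, tb6, tb8, tb10, tb6, tb14, tb16]) 0 2376 396 rel36_6 h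
  have h := PR.allR_chain (PR.fixF [tb6, tb4, tb2, tb6, tb8, tb10, tb6, tb14, tb16, tb6, tb4, tb2, tb6, tb8, tb10, tb6, tb14, tb16, tb6, tb4, tb2, tb6, tb8, tb10, tb6, tb14, tb16, tb6, tb4, tb2, tb6, tb8, tb10, tb6, tb14, tb16, tb6, tb4, tb2, tb6, tb8, tb10, tb6, tb14, tb16, tb6, tb4, tb2, tb6, tb8, tb10, tb6, tb14, tb16, tb6, tb4, tb2, tb6, tb8, tb10, tb6, tb14, tb16, tb6, tb4, tb2, tb6, tb8, tb10, tb6, tb14, tb16, tb6, tb4, tb2, tb6, tb8, tb10, tb6, tb14, tb16, tb6, tb4, tb2, tb6, tb8, tb10, tb6, tb14, tb16]) 0 2772 396 rel36_7 h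
  have h := PR.allR_chain (PR.fixF [tb6, tb4, tb2, tb6, tb8, tb10, tb6, tb14, tb16, tb6, tb4, tb2, tb6, tb8, tb10, tb6, tb14, tb16, tb6, tb4, tb2, tb6, tb8, tb10, tb6, tb14, tb16, tb6, tb4, tb2, tb6, tb8, tb10, tb6, tb14, tb16, tb6, tb4, tb2, tb6, tb8, tb10, tb6, tb14, tb16, tb6, tb4, tb2, tb6, tb8, tb10, tb6, tb14, tb16, tb6, tb4, tb2, tb6, tb8, tb10, tb6, tb14, tb16, tb6, tb4, tb2, tb6, tb8, tb10, tb6, tb14, tb16, tb6, tb4, tb2, tb6, tb8, tb10, tb6, tb14, tb16, tb6, tb4, tb2, tb6, tb8, tb10, tb6, tb14, tb16]) 0 3168 396 rel36_8 h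
  have h := PR.allR_chain (PR.fixF [tb6, tb4, tb2, tb6, tb8, tb10, tb6, tb14, tb16, tb6, tb4, tb2, tb6, tb8, tb10, tb6, tb14, tb16, tb6, tb4, tb2, tb6, tb8, tb10, tb6, tb14, tb16, tb6, tb4, tb2, tb6, tb8, tb10, tb6, tb14, tb16, tb6, tb4, tb2, tb6, tb8, tb10, tb6, tb14, tb16, tb6, tb4, tb2, tb6, tb8, tb10, tb6, tb14, tb16, tb6, tb4, tb2, tb6, tb8, tb10, tb6, tb14, tb16, tb6, tb4, tb2, tb6, tb8, tb10, tb6, tb14, tb16, tb6, tb4, tb2, tb6, tb8, tb10, tb6, tb14, tb16, tb6, tb4, tb2, tb6, tb8, tb10, tb6, tb14, tb16]) 0 3564 396 rel36_9 h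
  have h := PR.allR_chain (PR.fixF [tb6, tb4, tb2, tb6, tb8, tb10, tb6, tb14, tb16, tb6, tb4, tb2, tb6, tb8, tb10, tb6, tb14, tb16, tb6, tb4, tb2, tb6, tb8, tb10, tb6, tb14, tb16, tb6, tb4, tb2, tb6, tb8, tb10, tb6, tb14, tb16, tb6, tb4, tb2, tb6, tb8, tb10, tb6, tb14, tb16, tb6, tb4, tb2, tb6, tb8, tb10, tb6, tb14, tb16, tb6, tb4, tb2, tb6, tb8, tb10, tb6, tb14, tb16, tb6, tb4, tb2, tb6, tb8, tb10, tb6, tb14, tb16, tb6, tb4, tb2, tb6, tb8, tb10, tb6, tb14, tb16, tb6, tb4, tb2, tb6, tb8, tb10, tb6, tb14, tb16]) 0 3960 396 rel36_10 h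
  have h := PR.allR_chain (PR.fixF [tb6, tb4, tb2, tb6, tb8, tb10, tb6, tb14, tb16, tb6, tb4, tb2, tb6, tb8, tb10, tb6, tb14, tb16, tb6, tb4, tb2, tb6, tb8, tb10, tb6, tb14, tb16, tb6, tb4, tb2, tb6, tb8, tb10, tb6, tb14, tb16, tb6, tb4, tb2, tb6, tb8, tb10, tb6, tb14, tb16, tb6, tb4, tb2, tb6, tb8, tb10, tb6, tb14, tb16, tb6, tb4, tb2, tb6, tb8, tb10, tb6, tb14, tb16, tb6, tb4, tb2, tb6, tb8, tb10, tb6, tb14, tb16, tb6, tb4, tb2, tb6, tb8, tb10, tb6, tb14, tb16, tb6, tb4, tb2, tb6, tb8, tb10, tb6, tb14, tb16]) 0 4356 396 rel36_11 h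
  have h := PR.allR_chain (PR.fixF [tb6, tb4, tb2, tb6, tb8, tb10, tb6, tb14, tb16, tb6, tb4, tb2, tb6, tb8, tb10, tb6, tb14, tb16, tb6, tb4, tb2, tb6, tb8, tb10, tb6, tb14, tb16, tb6, tb4, tb2, tb6, tb8, tb10, tb6, tb14, tb16, tb6, tb4, tb2, tb6, tb8, tb10, tb6, tb14, tb16, tb6, tb4, tb2, tb6, tb8, tb10, tb6, tb14, tb16, tb6, tb4, tb2, tb6, tb8, tb10, tb6, tb14, tb16, tb6, tb4, tb2, tb6, tb8, tb10, tb6, tb14, tb16, tb6, tb4, tb2, tb6, tb8, tb10, tb6, tb14, tb16, tb6, tb4, tb2, tb6, tb8, tb10, tb6, tb14, tb16]) 0 4752 396 rel36_12 h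
  have h := PR.allR_chain (PR.fixF [tb6, tb4, tb2, tb6, tb8, tb10, tb6, tb14, tb16, tb6, tb4, tb2, tb6, tb8, tb10, tb6, tb14, tb16, tb6, tb4, tb2, tb6, tb8, tb10, tb6, tb14, tb16, tb6, tb4, tb2, tb6, tb8, tb10, tb6, tb14, tb16, tb6, tb4, tb2, tb6, tb8, tb10, tb6, tb14, tb16, tb6, tb4, tb2, tb6, tb8, tb10, tb6, tb14, tb16, tb6, tb4, tb2, tb6, tb8, tb10, tb6, tb14, tb16, tb6, tb4, tb2, tb6, tb8, tb10, tb6, tb14, tb16, tb6, tb4, tb2, tb6, tb8, tb10, tb6, tb14, tb16, tb6, tb4, tb2, tb6, tb8, tb10, tb6, tb14, tb16]) 0 5148 396 rel36_13 h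
  have h := PR.allR_chain (PR.fixF [tb6, tb4, tb2, tb6, tb8, tb10, tb6, tb14, tb16, tb6, tb4, tb2, tb6, tb8, tb10, tb6, tb14, tb16, tb6, tb4, tb2, tb6, tb8, tb10, tb6, tb14, tb16, tb6, tb4, tb2, tb6, tb8, tb10, tb6, tb14, tb16, tb6, tb4, tb2, tb6, tb8, tb10, tb6, tb14, tb16, tb6, tb4, tb2, tb6, tb8, tb10, tb6, tb14, tb16, tb6, tb4, tb2, tb6, tb8, tb10, tb6, tb14, tb16, tb6, tb4, tb2, tb6, tb8, tb10, tb6, tb14, tb16, tb6, tb4, tb2, tb6, tb8, tb10, tb6, tb14, tb16, tb6, tb4, tb2, tb6, tb8, tb10, tb6, tb14, tb16]) 0 5544 396 rel36_14 h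
  have h := PR.allR_chain (PR.fixF [tb6, tb4, tb2, tb6, tb8, tb10, tb6, tb14, tb16, tb6, tb4, tb2, tb6, tb8, tb10, tb6, tb14, tb16, tb6, tb4, tb2, tb6, tb8, tb10, tb6, tb14, tb16, tb6, tb4, tb2, tb6, tb8, tb10, tb6, tb14, tb16, tb6, tb4, tb2, tb6, tb8, tb10, tb6, tb14, tb16, tb6, tb4, tb2, tb6, tb8, tb10, tb6, tb14, tb16, tb6, tb4, tb2, tb6, tb8, tb10, tb6, tb14, tb16, tb6, tb4, tb2, tb6, tb8, tb10, tb6, tb14, tb16, tb6, tb4, tb2, tb6, tb8, tb10, tb6, tb14, tb16, tb6, tb4, tb2, tb6, tb8, tb10, tb6, tb14, tb16]) 0 5940 396 rel36_15 h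
  have h := PR.allR_chain (PR.fixF [tb6, tb4, tb2, tb6, tb8, tb10, tb6, tb14, tb16, tb6, tb4, tb2, tb6, tb8, tb10, tb6, tb14, tb16, tb6, tb4, tb2, tb6, tb8, tb10, tb6, tb14, tb16, tb6, tb4, tb2, tb6, tb8, tb10, tb6, tb14, tb16, tb6, tb4, tb2, tb6, tb8, tb10, tb6, tb14, tb16, tb6, tb4, tb2, tb6, tb8, tb10, tb6, tb14, tb16, tb6, tb4, tb2, tb6, tb8, tb10, tb6, tb14, tb16, tb6, tb4, tb2, tb6, tb8, tb10, tb6, tb14, tb16, tb6, tb4, tb2, tb6, tb8, tb10, tb6, tb14, tb16, tb6, tb4, tb2, tb6, tb8, tb10, tb6, tb14, tb16]) 0 6336 396 rel36_16 h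
  have h := PR.allR_chain (PR.fixF [tb6, tb4, tb2, tb6, tb8, tb10, tb6, tb14, tb16, tb6, tb4, tb2, tb6, tb8, tb10, tb6, tb14, tb16, tb6, tb4, tb2, tb6, tb8, tb10, tb6, tb14, tb16, tb6, tb4, tb2, tb6, tb8, tb10, tb6, tb14, tb16, tb6, tb4, tb2, tb6, tb8, tb10, tb6, tb14, tb16, tb6, tb4, tb2, tb6, tb8, tb10, tb6, tb14, tb16, tb6, tb4, tb2, tb6, tb8, tb10, tb6, tb14, tb16, tb6, tb4, tb2, tb6, tb8, tb10, tb6, tb14, tb16, tb6, tb4, tb2, tb6, tb8, tb10, tb6, tb14, tb16, tb6, tb4, tb2, tb6, tb8, tb10, tb6, tb14, tb16]) 0 6732 396 rel36_17 h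
  have h := PR.allR_chain (PR.fixF [tb6, tb4, tb2, tb6, tb8, tb10, tb6, tb14, tb16, tb6, tb4, tb2, tb6, tb8, tb10, tb6, tb14, tb16, tb6, tb4, tb2, tb6, tb8, tb10, tb6, tb14, tb16, tb6, tb4, tb2, tb6, tb8, tb10, tb6, tb14, tb16, tb6, tb4, tb2, tb6, tb8, tb10, tb6, tb14, tb16, tb6, tb4, tb2, tb6, tb8, tb10, tb6, tb14, tb16, tb6, tb4, tb2, tb6, tb8, tb10, tb6, tb14, tb16, tb6, tb4, tb2, tb6, tb8, tb10, tb6, tb14, tb16, tb6, tb4, tb2, tb6, tb8, tb10, tb6, tb14, tb16, tb6, tb4, tb2, tb6, tb8, tb10, tb6, tb14, tb16]) 0 7128 396 rel36_18 h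
  have h := PR.allR_chain (PR.fixF [tb6, tb4, tb2, tb6, tb8, tb10, tb6, tb14, tb16, tb6, tb4, tb2, tb6, tb8, tb10, tb6, tb14, tb16, tb6, tb4, tb2, tb6, tb8, tb10, tb6, tb14, tb16, tb6, tb4, tb2, tb6, tb8, tb10, tb6, tb14, tb16, tb6, tb4, tb2, tb6, tb8, tb10, tb6, tb14, tb16, tb6, tb4, tb2, tb6, tb8, tb10, tb6, tb14, tb16, tb6, tb4, tb2, tb6, tb8, tb10, tb6, tb14, tb16, tb6, tb4, tb2, tb6, tb8, tb10, tb6, tb14, tb16, tb6, tb4, tb2, tb6, tb8, tb10, tb6, tb14, tb16, tb6, tb4, tb2, tb6, tb8, tb10, tb6, tb14, tb16]) 0 7524 396 rel36_19 h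
  have h := PR.allR_chain (PR.fixF [tb6, tb4, tb2, tb6, tb8, tb10, tb6, tb14, tb16, tb6, tb4, tb2, tb6, tb8, tb10, tb6, tb14, tb16, tb6, tb4, tb2, tb6, tb8, tb10, tb6, tb14, tb16, tb6, tb4, tb2, tb6, tb8, tb10, tb6, tb14, tb16, tb6, tb4, tb2, tb6, tb8, tb10, tb6, tb14, tb16, tb6, tb4, tb2, tb6, tb8, tb10, tb6, tb14, tb16, tb6, tb4, tb2, tb6, tb8, tb10, tb6, tb14, tb16, tb6, tb4, tb2, tb6, tb8, tb10, tb6, tb14, tb16, tb6, tb4, tb2, tb6, tb8, tb10, tb6, tb14, tb16, tb6, tb4, tb2, tb6, tb8, tb10, tb6, tb14, tb16]) 0 7920 396 rel36_20 h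
  have h := PR.allR_chain (PR.fixF [tb6, tb4, tb2, tb6, tb8, tb10, tb6, tb14, tb16, tb6, tb4, tb2, tb6, tb8, tb10, tb6, tb14, tb16, tb6, tb4, tb2, tb6, tb8, tb10, tb6, tb14, tb16, tb6, tb4, tb2, tb6, tb8, tb10, tb6, tb14, tb16, tb6, tb4, tb2, tb6, tb8, tb10, tb6, tb14, tb16, tb6, tb4, tb2, tb6, tb8, tb10, tb6, tb14, tb16, tb6, tb4, tb2, tb6, tb8, tb10, tb6, tb14, tb16, tb6, tb4, tb2, tb6, tb8, tb10, tb6, tb14, tb16, tb6, tb4, tb2, tb6, tb8, tb10, tb6, tb14, tb16, tb6, tb4, tb2, tb6, tb8, tb10, tb6, tb14, tb16]) 0 8316 396 rel36_21 h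
  have h := PR.allR_chain (PR.fixF [tb6, tb4, tb2, tb6, tb8, tb10, tb6, tb14, tb16, tb6, tb4, tb2, tb6, tb8, tb10, tb6, tb14, tb16, tb6, tb4, tb2, tb6, tb8, tb10, tb6, tb14, tb16, tb6, tb4, tb2, tb6, tb8, tb10, tb6, tb14, tb16, tb6, tb4, tb2, tb6, tb8, tb10, tb6, tb14, tb16, tb6, tb4, tb2, tb6, tb8, tb10, tb6, tb14, tb16, tb6, tb4, tb2, tb6, tb8, tb10, tb6, tb14, tb16, tb6, tb4, tb2, tb6, tb8, tb10, tb6, tb14, tb16, tb6, tb4, tb2, tb6, tb8, tb10, tb6, tb14, tb16, tb6, tb4, tb2, tb6, tb8, tb10, tb6, tb14, tb16]) 0 8712 396 rel36_22 h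
  have h := PR.allR_chain (PR.fixF [tb6, tb4, tb2, tb6, tb8, tb10, tb6, tb14, tb16, tb6, tb4, tb2, tb6, tb8, tb10, tb6, tb14, tb16, tb6, tb4, tb2, tb6, tb8, tb10, tb6, tb14, tb16, tb6, tb4, tb2, tb6, tb8, tb10, tb6, tb14, tb16, tb6, tb4, tb2, tb6, tb8, tb10, tb6, tb14, tb16, tb6, tb4, tb2, tb6, tb8, tb10, tb6, tb14, tb16, tb6, tb4, tb2, tb6, tb8, tb10, tb6, tb14, tb16, tb6, tb4, tb2, tb6, tb8, tb10, tb6, tb14, tb16, tb6, tb4, tb2, tb6, tb8, tb10, tb6, tb14, tb16, tb6, tb4, tb2, tb6, tb8, tb10, tb6, tb14, tb16]) 0 9108 396 rel36_23 h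
  have h := PR.allR_chain (PR.fixF [tb6, tb4, tb2, tb6, tb8, tb10, tb6, tb14, tb16, tb6, tb4, tb2, tb6, tb8, tb10, tb6, tb14, tb16, tb6, tb4, tb2, tb6, tb8, tb10, tb6, tb14, tb16, tb6, tb4, tb2, tb6, tb8, tb10, tb6, tb14, tb16, tb6, tb4, tb2, tb6, tb8, tb10, tb6, tb14, tb16, tb6, tb4, tb2, tb6, tb8, tb10, tb6, tb14, tb16, tb6, tb4, tb2, tb6, tb8, tb10, tb6, tb14, tb16, tb6, tb4, tb2, tb6, tb8, tb10, tb6, tb14, tb16, tb6, tb4, tb2, tb6, tb8, tb10, tb6, tb14, tb16, tb6, tb4, tb2, tb6, tb8, tb10, tb6, tb14, tb16]) 0 9504 396 rel36_24 h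
  have h := PR.allR_chain (PR.fixF [tb6, tb4, tb2, tb6, tb8, tb10, tb6, tb14, tb16, tb6, tb4, tb2, tb6, tb8, tb10, tb6, tb14, tb16, tb6, tb4, tb2, tb6, tb8, tb10, tb6, tb14, tb16, tb6, tb4, tb2, tb6, tb8, tb10, tb6, tb14, tb16, tb6, tb4, tb2, tb6, tb8, tb10, tb6, tb14, tb16, tb6, tb4, tb2, tb6, tb8, tb10, tb6, tb14, tb16, tb6, tb4, tb2, tb6, tb8, tb10, tb6, tb14, tb16, tb6, tb4, tb2, tb6, tb8, tb10, tb6, tb14, tb16, tb6, tb4, tb2, tb6, tb8, tb10, tb6, tb14, tb16, tb6, tb4, tb2, tb6, tb8, tb10, tb6, tb14, tb16]) 0 9900 396 rel36_25 h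
  have h := PR.allR_chain (PR.fixF [tb6, tb4, tb2, tb6, tb8, tb10, tb6, tb14, tb16, tb6, tb4, tb2, tb6, tb8, tb10, tb6, tb14, tb16, tb6, tb4, tb2, tb6, tb8, tb10, tb6, tb14, tb16, tb6, tb4, tb2, tb6, tb8, tb10, tb6, tb14, tb16, tb6, tb4, tb2, tb6, tb8, tb10, tb6, tb14, tb16, tb6, tb4, tb2, tb6, tb8, tb10, tb6, tb14, tb16, tb6, tb4, tb2, tb6, tb8, tb10, tb6, tb14, tb16, tb6, tb4, tb2, tb6, tb8, tb10, tb6, tb14, tb16, tb6, tb4, tb2, tb6, tb8, tb10, tb6, tb14, tb16, tb6, tb4, tb2, tb6, tb8, tb10, tb6, tb14, tb16]) 0 10296 396 rel36_26 h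
  have h := PR.allR_chain (PR.fixF [tb6, tb4, tb2, tb6, tb8, tb10, tb6, tb14, tb16, tb6, tb4, tb2, tb6, tb8, tb10, tb6, tb14, tb16, tb6, tb4, tb2, tb6, tb8, tb10, tb6, tb14, tb16, tb6, tb4, tb2, tb6, tb8, tb10, tb6, tb14, tb16, tb6, tb4, tb2, tb6, tb8, tb10, tb6, tb14, tb16, tb6, tb4, tb2, tb6, tb8, tb10, tb6, tb14, tb16, tb6, tb4, tb2, tb6, tb8, tb10, tb6, tb14, tb16, tb6, tb4, tb2, tb6, tb8, tb10, tb6, tb14, tb16, tb6, tb4, tb2, tb6, tb8, tb10, tb6, tb14, tb16, tb6, tb4, tb2, tb6, tb8, tb10, tb6, tb14, tb16]) 0 10692 396 rel36_27 h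
  have h := PR.allR_chain (PR.fixF [tb6, tb4, tb2, tb6, tb8, tb10, tb6, tb14, tb16, tb6, tb4, tb2, tb6, tb8, tb10, tb6, tb14, tb16, tb6, tb4, tb2, tb6, tb8, tb10, tb6, tb14, tb16, tb6, tb4, tb2, tb6, tb8, tb10, tb6, tb14, tb16, tb6, tb4, tb2, tb6, tb8, tb10, tb6, tb14, tb16, tb6, tb4, tb2, tb6, tb8, tb10, tb6, tb14, tb16, tb6, tb4, tb2, tb6, tb8, tb10, tb6, tb14, tb16, tb6, tb4, tb2, tb6, tb8, tb10, tb6, tb14, tb16, tb6, tb4, tb2, tb6, tb8, tb10, tb6, tb14, tb16, tb6, tb4, tb2, tb6, tb8, tb10, tb6, tb14, tb16]) 0 11088 396 rel36_28 h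
  have h := PR.allR_chain (PR.fixF [tb6, tb4, tb2, tb6, tb8, tb10, tb6, tb14, tb16, tb6, tb4, tb2, tb6, tb8, tb10, tb6, tb14, tb16, tb6, tb4, tb2, tb6, tb8, tb10, tb6, tb14, tb16, tb6, tb4, tb2, tb6, tb8, tb10, tb6, tb14, tb16, tb6, tb4, tb2, tb6, tb8, tb10, tb6, tb14, tb16, tb6, tb4, tb2, tb6, tb8, tb10, tb6, tb14, tb16, tb6, tb4, tb2, tb6, tb8, tb10, tb6, tb14, tb16, tb6, tb4, tb2, tb6, tb8, tb10, tb6, tb14, tb16, tb6, tb4, tb2, tb6, tb8, tb10, tb6, tb14, tb16, tb6, tb4, tb2, tb6, tb8, tb10, tb6, tb14, tb16]) 0 11484 396 rel36_29 h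
  have h := PR.allR_chain (PR.fixF [tb6, tb4, tb2, tb6, tb8, tb10, tb6, tb14, tb16, tb6, tb4, tb2, tb6, tb8, tb10, tb6, tb14, tb16, tb6, tb4, tb2, tb6, tb8, tb10, tb6, tb14, tb16, tb6, tb4, tb2, tb6, tb8, tb10, tb6, tb14, tb16, tb6, tb4, tb2, tb6, tb8, tb10, tb6, tb14, tb16, tb6, tb4, tb2, tb6, tb8, tb10, tb6, tb14, tb16, tb6, tb4, tb2, tb6, tb8, tb10, tb6, tb14, tb16, tb6, tb4, tb2, tb6, tb8, tb10, tb6, tb14, tb16, tb6, tb4, tb2, tb6, tb8, tb10, tb6, tb14, tb16, tb6, tb4, tb2, tb6, tb8, tb10, tb6, tb14, tb16]) 0 11880 396 rel36_30 h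
  have h := PR.allR_chain (PR.fixF [tb6, tb4, tb2, tb6, tb8, tb10, tb6, tb14, tb16, tb6, tb4, tb2, tb6, tb8, tb10, tb6, tb14, tb16, tb6, tb4, tb2, tb6, tb8, tb10, tb6, tb14, tb16, tb6, tb4, tb2, tb6, tb8, tb10, tb6, tb14, tb16, tb6, tb4, tb2, tb6, tb8, tb10, tb6, tb14, tb16, tb6, tb4, tb2, tb6, tb8, tb10, tb6, tb14, tb16, tb6, tb4, tb2, tb6, tb8, tb10, tb6, tb14, tb16, tb6, tb4, tb2, tb6, tb8, tb10, tb6, tb14, tb16, tb6, tb4, tb2, tb6, tb8, tb10, tb6, tb14, tb16, tb6, tb4, tb2, tb6, tb8, tb10, tb6, tb14, tb16]) 0 12276 396 rel36_31 h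
  have h := PR.allR_chain (PR.fixF [tb6, tb4, tb2, tb6, tb8, tb10, tb6, tb14, tb16, tb6, tb4, tb2, tb6, tb8, tb10, tb6, tb14, tb16, tb6, tb4, tb2, tb6, tb8, tb10, tb6, tb14, tb16, tb6, tb4, tb2, tb6, tb8, tb10, tb6, tb14, tb16, tb6, tb4, tb2, tb6, tb8, tb10, tb6, tb14, tb16, tb6, tb4, tb2, tb6, tb8, tb10, tb6, tb14, tb16, tb6, tb4, tb2, tb6, tb8, tb10, tb6, tb14, tb16, tb6, tb4, tb2, tb6, tb8, tb10, tb6, tb14, tb16, tb6, tb4, tb2, tb6, tb8, tb10, tb6, tb14, tb16, tb6, tb4, tb2, tb6, tb8, tb10, tb6, tb14, tb16]) 0 12672 396 rel36_32 h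
  have h := PR.allR_chain (PR.fixF [tb6, tb4, tb2, tb6, tb8, tb10, tb6, tb14, tb16, tb6, tb4, tb2, tb6, tb8, tb10, tb6, tb14, tb16, tb6, tb4, tb2, tb6, tb8, tb10, tb6, tb14, tb16, tb6, tb4, tb2, tb6, tb8, tb10, tb6, tb14, tb16, tb6, tb4, tb2, tb6, tb8, tb10, tb6, tb14, tb16, tb6, tb4, tb2, tb6, tb8, tb10, tb6, tb14, tb16, tb6, tb4, tb2, tb6, tb8, tb10, tb6, tb14, tb16, tb6, tb4, tb2, tb6, tb8, tb10, tb6, tb14, tb16, tb6, tb4, tb2, tb6, tb8, tb10, tb6, tb14, tb16, tb6, tb4, tb2, tb6, tb8, tb10, tb6, tb14, tb16]) 0 13068 396 rel36_33 h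
  have h := PR.allR_chain (PR.fixF [tb6, tb4, tb2, tb6, tb8, tb10, tb6, tb14, tb16, tb6, tb4, tb2, tb6, tb8, tb10, tb6, tb14, tb16, tb6, tb4, tb2, tb6, tb8, tb10, tb6, tb14, tb16, tb6, tb4, tb2, tb6, tb8, tb10, tb6, tb14, tb16, tb6, tb4, tb2, tb6, tb8, tb10, tb6, tb14, tb16, tb6, tb4, tb2, tb6, tb8, tb10, tb6, tb14, tb16, tb6, tb4, tb2, tb6, tb8, tb10, tb6, tb14, tb16, tb6, tb4, tb2, tb6, tb8, tb10, tb6, tb14, tb16, tb6, tb4, tb2, tb6, tb8, tb10, tb6, tb14, tb16, tb6, tb4, tb2, tb6, tb8, tb10, tb6, tb14, tb16]) 0 13464 396 rel36_34 h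
  have h := PR.allR_chain (PR.fixF [tb6, tb4, tb2, tb6, tb8, tb10, tb6, tb14, tb16, tb6, tb4, tb2, tb6, tb8, tb10, tb6, tb14, tb16, tb6, tb4, tb2, tb6, tb8, tb10, tb6, tb14, tb16, tb6, tb4, tb2, tb6, tb8, tb10, tb6, tb14, tb16, tb6, tb4, tb2, tb6, tb8, tb10, tb6, tb14, tb16, tb6, tb4, tb2, tb6, tb8, tb10, tb6, tb14, tb16, tb6, tb4, tb2, tb6, tb8, tb10, tb6, tb14, tb16, tb6, tb4, tb2, tb6, tb8, tb10, tb6, tb14, tb16, tb6, tb4, tb2, tb6, tb8, tb10, tb6, tb14, tb16, tb6, tb4, tb2, tb6, tb8, tb10, tb6, tb14, tb16]) 0 13860 220 rel36_35 h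
  exact h

theorem rel37 : ∀ u, 0 ≤ u → u < 14080 → PR.fixF [tb0, tb2, tb4, tb6, tb8, tb10, tb14, tb0, tb2, tb4, tb6, tb8, tb10, tb14, tb0, tb2, tb4, tb6, tb8, tb10, tb14, tb0, tb2, tb4, tb6, tb8, tb10, tb14, tb0, tb2, tb4, tb6, tb8, tb10, tb14, tb0, tb2, tb4, tb6, tb8, tb10, tb14, tb0, tb2, tb4, tb6, tb8, tb10, tb14, tb0, tb2, tb4, tb6, tb8, tb10, tb14, tb0, tb2, tb4, tb6, tb8, tb10, tb14] u = true := by
  have h : ∀ u, 0 ≤ u → u < 0 → PR.fixF [tb0, tb2, tb4, tb6, tb8, tb10, tb14, tb0, tb2, tb4, tb6, tb8, tb10, tb14, tb0, tb2, tb4, tb6, tb8, tb10, tb14, tb0, tb2, tb4, tb6, tb8, tb10, tb14, tb0, tb2, tb4, tb6, tb8, tb10, tb14, tb0, tb2, tb4, tb6, tb8, tb10, tb14, tb0, tb2, tb4, tb6, tb8, tb10, tb14, tb0, tb2, tb4, tb6, tb8, tb10, tb14, tb0, tb2, tb4, tb6, tb8, tb10, tb14] u = true := fun u h1 h2 => absurd h2 (by omega)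
  have h := PR.allR_chain (PR.fixF [tb0, tb2, tb4, tb6, tb8, tb10, tb14, tb0, tb2, tb4, tb6, tb8, tb10, tb14, tb0, tb2, tb4, tb6, tb8, tb10, tb14, tb0, tb2, tb4, tb6, tb8, tb10, tb14, tb0, tb2, tb4, tb6, tb8, tb10, tb14, tb0, tb2, tb4, tb6, tb8, tb10, tb14, tb0, tb2, tb4, tb6, tb8, tb10, tb14, tb0, tb2, tb4, tb6, tb8, tb10, tb14, tb0, tb2, tb4, tb6, tb8, tb10, tb14]) 0 0 567 rel37_0 h
  have h := PR.allR_chain (PR.fixF [tb0, tb2, tb4, tb6, tb8, tb10, tb14, tb0, tb2, tb4, tb6, tb8, tb10, tb14, tb0, tb2, tb4, tb6, tb8, tb10, tb14, tb0, tb2, tb4, tb6, tb8, tb10, tb14, tb0, tb2, tb4, tb6, tb8, tb10, tb14, tb0, tb2, tb4, tb6, tb8, tb10, tb14, tb0, tb2, tb4, tb6, tb8, tb10, tb14, tb0, tb2, tb4, tb6, tb8, tb10, tb14, tb0, tb2, tb4, tb6, tb8, tb10, tb14]) 0 567 567 rel37_1 h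
  have h := PR.allR_chain (PR.fixF [tb0, tb2, tb4, tb6, tb8, tb10, tb14, tb0, tb2, tb4, tb6, tb8, tb10, tb14, tb0, tb2, tb4, tb6, tb8, tb10, tb14, tb0, tb2, tb4, tb6, tb8, tb10, tb14, tb0, tb2, tb4, tb6, tb8, tb10, tb14, tb0, tb2, tb4, tb6, tb8, tb10, tb14, tb0, tb2, tb4, tb6, tb8, tb10, tb14, tb0, tb2, tb4, tb6, tb8, tb10, tb14, tb0, tb2, tb4, tb6, tb8, tb10, tb14]) 0 1134 567 rel37_2 h
  have h := PR.allR_chain (PR.fixF [tb0, tb2, tb4, tb6, tb8, tb10, tb14, tb0, tb2, tb4, tb6, tb8, tb10, tb14, tb0, tb2, tb4, tb6, tb8, tb10, tb14, tb0, tb2, tb4, tb6, tb8, tb10, tb14, tb0, tb2, tb4, tb6, tb8, tb10, tb14, tb0, tb2, tb4, tb6, tb8, tb10, tb14, tb0, tb2, tb4, tb6, tb8, tb10, tb14, tb0, tb2, tb4, tb6, tb8, tb10, tb14, tb0, tb2, tb4, tb6, tb8, tb10, tb14]) 0 1701 567 rel37_3 h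
  have h := PR.allR_chain (PR.fixF [tb0, tb2, tb4, tb6, tb8, tb10, tb14, tb0, tb2, tb4, tb6, tb8, tb10, tb14, tb0, tb2, tb4, tb6, tb8, tb10, tb14, tb0, tb2, tb4, tb6, tb8, tb10, tb14, tb0, tb2, tb4, tb6, tb8, tb10, tb14, tb0, tb2, tb4, tb6, tb8, tb10, tb14, tb0, tb2, tb4, tb6, tb8, tb10, tb14, tb0, tb2, tb4, tb6, tb8, tb10, tb14, tb0, tb2, tb4, tb6, tb8, tb10, tb14]) 0 2268 567 rel37_4 h
  have h := PR.allR_chain (PR.fixF [tb0, tb2, tb4, tb6, tb8, tb10, tb14, tb0, tb2, tb4, tb6, tb8, tb10, tb14, tb0, tb2, tb4, tb6, tb8, tb10, tb14, tb0, tb2, tb4, tb6, tb8, tb10, tb14, tb0, tb2, tb4, tb6, tb8, tb10, tb14, tb0, tb2, tb4, tb6, tb8, tb10, tb14, tb0, tb2, tb4, tb6, tb8, tb10, tb14, tb0, tb2, tb4, tb6, tb8, tb10, tb14, tb0, tb2, tb4, tb6, tb8, tb10, tb14]) 0 2835 567 rel37_5 h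
  have h := PR.allR_chain (PR.fixF [tb0, tb2, tb4, tb6, tb8, tb10, tb14, tb0, tb2, tb4, tb6, tb8, tb10, tb14, tb0, tb2, tb4, tb6, tb8, tb10, tb14, tb0, tb2, tb4, tb6, tb8, tb10, tb14, tb0, tb2, tb4, tb6, tb8, tb10, tb14, tb0, tb2, tb4, tb6, tb8, tb10, tb14, tb0, tb2, tb4, tb6, tb8, tb10, tb14, tb0, tb2, tb4, tb6, tb8, tb10, tb14, tb0, tb2, tb4, tb6, tb8, tb10, tb14]) 0 3402 567 rel37_6 h
  have h := PR.allR_chain (PR.fixF [tb0, tb2, tb4, tb6, tb8, tb10, tb14, tb0, tb2, tb4, tb6, tb8, tb10, tb14, tb0, tb2, tb4, tb6, tb8, tb10, tb14, tb0, tb2, tb4, tb6, tb8, tb10, tb14, tb0, tb2, tb4, tb6, tb8, tb10, tb14, tb0, tb2, tb4, tb6, tb8, tb10, tb14, tb0, tb2, tb4, tb6, tb8, tb10, tb14, tb0, tb2, tb4, tb6, tb8, tb10, tb14, tb0, tb2, tb4, tb6, tb8, tb10, tb14]) 0 3969 567 rel37_7 h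
  have h := PR.allR_chain (PR.fixF [tb0, tb2, tb4, tb6, tb8, tb10, tb14, tb0, tb2, tb4, tb6, tb8, tb10, tb14, tb0, tb2, tb4, tb6, tb8, tb10, tb14, tb0, tb2, tb4, tb6, tb8, tb10, tb14, tb0, tb2, tb4, tb6, tb8, tb10, tb14, tb0, tb2, tb4, tb6, tb8, tb10, tb14, tb0, tb2, tb4, tb6, tb8, tb10, tb14, tb0, tb2, tb4, tb6, tb8, tb10, tb14, tb0, tb2, tb4, tb6, tb8, tb10, tb14]) 0 4536 567 rel37_8 h
  have h := PR.allR_chain (PR.fixF [tb0, tb2, tb4, tb6, tb8, tb10, tb14, tb0, tb2, tb4, tb6, tb8, tb10, tb14, tb0, tb2, tb4, tb6, tb8, tb10, tb14, tb0, tb2, tb4, tb6, tb8, tb10, tb14, tb0, tb2, tb4, tb6, tb8, tb10, tb14, tb0, tb2, tb4, tb6, tb8, tb10, tb14, tb0, tb2, tb4, tb6, tb8, tb10, tb14, tb0, tb2, tb4, tb6, tb8, tb10, tb14, tb0, tb2, tb4, tb6, tb8, tb10, tb14]) 0 5103 567 rel37_9 h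
  have h := PR.allR_chain (PR.fixF [tb0, tb2, tb4, tb6, tb8, tb10, tb14, tb0, tb2, tb4, tb6, tb8, tb10, tb14, tb0, tb2, tb4, tb6, tb8, tb10, tb14, tb0, tb2, tb4, tb6, tb8, tb10, tb14, tb0, tb2, tb4, tb6, tb8, tb10, tb14, tb0, tb2, tb4, tb6, tb8, tb10, tb14, tb0, tb2, tb4, tb6, tb8, tb10, tb14, tb0, tb2, tb4, tb6, tb8, tb10, tb14, tb0, tb2, tb4, tb6, tb8, tb10, tb14]) 0 5670 567 rel37_10 h
  have h := PR.allR_chain (PR.fixF [tb0, tb2, tb4, tb6, tb8, tb10, tb14, tb0, tb2, tb4, tb6, tb8, tb10, tb14, tb0, tb2, tb4, tb6, tb8, tb10, tb14, tb0, tb2, tb4, tb6, tb8, tb10, tb14, tb0, tb2, tb4, tb6, tb8, tb10, tb14, tb0, tb2, tb4, tb6, tb8, tb10, tb14, tb0, tb2, tb4, tb6, tb8, tb10, tb14, tb0, tb2, tb4, tb6, tb8, tb10, tb14, tb0, tb2, tb4, tb6, tb8, tb10, tb14]) 0 6237 567 rel37_11 h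
  have h := PR.allR_chain (PR.fixF [tb0, tb2, tb4, tb6, tb8, tb10, tb14, tb0, tb2, tb4, tb6, tb8, tb10, tb14, tb0, tb2, tb4, tb6, tb8, tb10, tb14, tb0, tb2, tb4, tb6, tb8, tb10, tb14, tb0, tb2, tb4, tb6, tb8, tb10, tb14, tb0, tb2, tb4, tb6, tb8, tb10, tb14, tb0, tb2, tb4, tb6, tb8, tb10, tb14, tb0, tb2, tb4, tb6, tb8, tb10, tb14, tb0, tb2, tb4, tb6, tb8, tb10, tb14]) 0 6804 567 rel37_12 h
  have h := PR.allR_chain (PR.fixF [tb0, tb2, tb4, tb6, tb8, tb10, tb14, tb0, tb2, tb4, tb6, tb8, tb10, tb14, tb0, tb2, tb4, tb6, tb8, tb10, tb14, tb0, tb2, tb4, tb6, tb8, tb10, tb14, tb0, tb2, tb4, tb6, tb8, tb10, tb14, tb0, tb2, tb4, tb6, tb8, tb10, tb14, tb0, tb2, tb4, tb6, tb8, tb10, tb14, tb0, tb2, tb4, tb6, tb8, tb10, tb14, tb0, tb2, tb4, tb6, tb8, tb10, tb14]) 0 7371 567 rel37_13 h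
  have h := PR.allR_chain (PR.fixF [tb0, tb2, tb4, tb6, tb8, tb10, tb14, tb0, tb2, tb4, tb6, tb8, tb10, tb14, tb0, tb2, tb4, tb6, tb8, tb10, tb14, tb0, tb2, tb4, tb6, tb8, tb10, tb14, tb0, tb2, tb4, tb6, tb8, tb10, tb14, tb0, tb2, tb4, tb6, tb8, tb10, tb14, tb0, tb2, tb4, tb6, tb8, tb10, tb14, tb0, tb2, tb4, tb6, tb8, tb10, tb14, tb0, tb2, tb4, tb6, tb8, tb10, tb14]) 0 7938 567 rel37_14 h
  have h := PR.allR_chain (PR.fixF [tb0, tb2, tb4, tb6, tb8, tb10, tb14, tb0, tb2, tb4, tb6, tb8, tb10, tb14, tb0, tb2, tb4, tb6, tb8, tb10, tb14, tb0, tb2, tb4, tb6, tb8, tb10, tb14, tb0, tb2, tb4, tb6, tb8, tb10, tb14, tb0, tb2, tb4, tb6, tb8, tb10, tb14, tb0, tb2, tb4, tb6, tb8, tb10, tb14, tb0, tb2, tb4, tb6, tb8, tb10, tb14, tb0, tb2, tb4, tb6, tb8, tb10, tb14]) 0 8505 567 rel37_15 h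
  have h := PR.allR_chain (PR.fixF [tb0, tb2, tb4, tb6, tb8, tb10, tb14, tb0, tb2, tb4, tb6, tb8, tb10, tb14, tb0, tb2, tb4, tb6, tb8, tb10, tb14, tb0, tb2, tb4, tb6, tb8, tb10, tb14, tb0, tb2, tb4, tb6, tb8, tb10, tb14, tb0, tb2, tb4, tb6, tb8, tb10, tb14, tb0, tb2, tb4, tb6, tb8, tb10, tb14, tb0, tb2, tb4, tb6, tb8, tb10, tb14, tb0, tb2, tb4, tb6, tb8, tb10, tb14]) 0 9072 567 rel37_16 h
  have h := PR.allR_chain (PR.fixF [tb0, tb2, tb4, tb6, tb8, tb10, tb14, tb0, tb2, tb4, tb6, tb8, tb10, tb14, tb0, tb2, tb4, tb6, tb8, tb10, tb14, tb0, tb2, tb4, tb6, tb8, tb10, tb14, tb0, tb2, tb4, tb6, tb8, tb10, tb14, tb0, tb2, tb4, tb6, tb8, tb10, tb14, tb0, tb2, tb4, tb6, tb8, tb10, tb14, tb0, tb2, tb4, tb6, tb8, tb10, tb14, tb0, tb2, tb4, tb6, tb8, tb10, tb14]) 0 9639 567 rel37_17 h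
  have h := PR.allR_chain (PR.fixF [tb0, tb2, tb4, tb6, tb8, tb10, tb14, tb0, tb2, tb4, tb6, tb8, tb10, tb14, tb0, tb2, tb4, tb6, tb8, tb10, tb14, tb0, tb2, tb4, tb6, tb8, tb10, tb14, tb0, tb2, tb4, tb6, tb8, tb10, tb14, tb0, tb2, tb4, tb6, tb8, tb10, tb14, tb0, tb2, tb4, tb6, tb8, tb10, tb14, tb0, tb2, tb4, tb6, tb8, tb10, tb14, tb0, tb2, tb4, tb6, tb8, tb10, tb14]) 0 10206 567 rel37_18 h
  have h := PR.allR_chain (PR.fixF [tb0, tb2, tb4, tb6, tb8, tb10, tb14, tb0, tb2, tb4, tb6, tb8, tb10, tb14, tb0, tb2, tb4, tb6, tb8, tb10, tb14, tb0, tb2, tb4, tb6, tb8, tb10, tb14, tb0, tb2, tb4, tb6, tb8, tb10, tb14, tb0, tb2, tb4, tb6, tb8, tb10, tb14, tb0, tb2, tb4, tb6, tb8, tb10, tb14, tb0, tb2, tb4, tb6, tb8, tb10, tb14, tb0, tb2, tb4, tb6, tb8, tb10, tb14]) 0 10773 567 rel37_19 h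
  have h := PR.allR_chain (PR.fixF [tb0, tb2, tb4, tb6, tb8, tb10, tb14, tb0, tb2, tb4, tb6, tb8, tb10, tb14, tb0, tb2, tb4, tb6, tb8, tb10, tb14, tb0, tb2, tb4, tb6, tb8, tb10, tb14, tb0, tb2, tb4, tb6, tb8, tb10, tb14, tb0, tb2, tb4, tb6, tb8, tb10, tb14, tb0, tb2, tb4, tb6, tb8, tb10, tb14, tb0, tb2, tb4, tb6, tb8, tb10, tb14, tb0, tb2, tb4, tb6, tb8, tb10, tb14]) 0 11340 567 rel37_20 h
  have h := PR.allR_chain (PR.fixF [tb0, tb2, tb4, tb6, tb8, tb10, tb14, tb0, tb2, tb4, tb6, tb8, tb10, tb14, tb0, tb2, tb4, tb6, tb8, tb10, tb14, tb0, tb2, tb4, tb6, tb8, tb10, tb14, tb0, tb2, tb4, tb6, tb8, tb10, tb14, tb0, tb2, tb4, tb6, tb8, tb10, tb14, tb0, tb2, tb4, tb6, tb8, tb10, tb14, tb0, tb2, tb4, tb6, tb8, tb10, tb14, tb0, tb2, tb4, tb6, tb8, tb10, tb14]) 0 11907 567 rel37_21 h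
  have h := PR.allR_chain (PR.fixF [tb0, tb2, tb4, tb6, tb8, tb10, tb14, tb0, tb2, tb4, tb6, tb8, tb10, tb14, tb0, tb2, tb4, tb6, tb8, tb10, tb14, tb0, tb2, tb4, tb6, tb8, tb10, tb14, tb0, tb2, tb4, tb6, tb8, tb10, tb14, tb0, tb2, tb4, tb6, tb8, tb10, tb14, tb0, tb2, tb4, tb6, tb8, tb10, tb14, tb0, tb2, tb4, tb6, tb8, tb10, tb14, tb0, tb2, tb4, tb6, tb8, tb10, tb14]) 0 12474 567 rel37_22 h
  have h := PR.allR_chain (PR.fixF [tb0, tb2, tb4, tb6, tb8, tb10, tb14, tb0, tb2, tb4, tb6, tb8, tb10, tb14, tb0, tb2, tb4, tb6, tb8, tb10, tb14, tb0, tb2, tb4, tb6, tb8, tb10, tb14, tb0, tb2, tb4, tb6, tb8, tb10, tb14, tb0, tb2, tb4, tb6, tb8, tb10, tb14, tb0, tb2, tb4, tb6, tb8, tb10, tb14, tb0, tb2, tb4, tb6, tb8, tb10, tb14, tb0, tb2, tb4, tb6, tb8, tb10, tb14]) 0 13041 567 rel37_23 h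
  have h := PR.allR_chain (PR.fixF [tb0, tb2, tb4, tb6, tb8, tb10, tb14, tb0, tb2, tb4, tb6, tb8, tb10, tb14, tb0, tb2, tb4, tb6, tb8, tb10, tb14, tb0, tb2, tb4, tb6, tb8, tb10, tb14, tb0, tb2, tb4, tb6, tb8, tb10, tb14, tb0, tb2, tb4, tb6, tb8, tb10, tb14, tb0, tb2, tb4, tb6, tb8, tb10, tb14, tb0, tb2, tb4, tb6, tb8, tb10, tb14, tb0, tb2, tb4, tb6, tb8, tb10, tb14]) 0 13608 472 rel37_24 h
  exact h

theorem rel38 : ∀ u, 0 ≤ u → u < 14080 → PR.fixF [tb2, tb4, tb6, tb8, tb10, tb12, tb14, tb2, tb4, tb6, tb8, tb10, tb12, tb14, tb2, tb4, tb6, tb8, tb10, tb12, tb14, tb2, tb4, tb6, tb8, tb10, tb12, tb14, tb2, tb4, tb6, tb8, tb10, tb12, tb14, tb2, tb4, tb6, tb8, tb10, tb12, tb14, tb2, tb4, tb6, tb8, tb10, tb12, tb14, tb2, tb4, tb6, tb8, tb10, tb12, tb14, tb2, tb4, tb6, tb8, tb10, tb12, tb14] u = true := by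
  have h : ∀ u, 0 ≤ u → u < 0 → PR.fixF [tb2, tb4, tb6, tb8, tb10, tb12, tb14, tb2, tb4, tb6, tb8, tb10, tb12, tb14, tb2, tb4, tb6, tb8, tb10, tb12, tb14, tb2, tb4, tb6, tb8, tb10, tb12, tb14, tb2, tb4, tb6, tb8, tb10, tb12, tb14, tb2, tb4, tb6, tb8, tb10, tb12, tb14, tb2, tb4, tb6, tb8, tb10, tb12, tb14, tb2, tb4, tb6, tb8, tb10, tb12, tb14, tb2, tb4, tb6, tb8, tb10, tb12, tb14] u = true := fun u h1 h2 => absurd h2 (by omega)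
  have h := PR.allR_chain (PR.fixF [tb2, tb4, tb6, tb8, tb10, tb12, tb14, tb2, tb4, tb6, tb8, tb10, tb12, tb14, tb2, tb4, tb6, tb8, tb10, tb12, tb14, tb2, tb4, tb6, tb8, tb10, tb12, tb14, tb2, tb4, tb6, tb8, tb10, tb12, tb14, tb2, tb4, tb6, tb8, tb10, tb12, tb14, tb2, tb4, tb6, tb8, tb10, tb12, tb14, tb2, tb4, tb6, tb8, tb10, tb12, tb14, tb2, tb4, tb6, tb8, tb10, tb12, tb14]) 0 0 567 rel38_0 h
  have h := PR.allR_chain (PR.fixF [tb2, tb4, tb6, tb8, tb10, tb12, tb14, tb2, tb4, tb6, tb8, tb10, tb12, tb14, tb2, tb4, tb6, tb8, tb10, tb12, tb14, tb2, tb4, tb6, tb8, tb10, tb12, tb14, tb2, tb4, tb6, tb8, tb10, tb12, tb14, tb2, tb4, tb6, tb8, tb10, tb12, tb14, tb2, tb4, tb6, tb8, tb10, tb12, tb14, tb2, tb4, tb6, tb8, tb10, tb12, tb14, tb2, tb4, tb6, tb8, tb10, tb12, tb14]) 0 567 567 rel38_1 h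
  have h := PR.allR_chain (PR.fixF [tb2, tb4, tb6, tb8, tb10, tb12, tb14, tb2, tb4, tb6, tb8, tb10, tb12, tb14, tb2, tb4, tb6, tb8, tb10, tb12, tb14, tb2, tb4, tb6, tb8, tb10, tb12, tb14, tb2, tb4, tb6, tb8, tb10, tb12, tb14, tb2, tb4, tb6, tb8, tb10, tb12, tb14, tb2, tb4, tb6, tb8, tb10, tb12, tb14, tb2, tb4, tb6, tb8, tb10, tb12, tb14, tb2, tb4, tb6, tb8, tb10, tb12, tb14]) 0 1134 567 rel38_2 h
  have h := PR.allR_chain (PR.fixF [tb2, tb4, tb6, tb8, tb10, tb12, tb14, tb2, tb4, tb6, tb8, tb10, tb12, tb14, tb2, tb4, tb6, tb8, tb10, tb12, tb14, tb2, tb4, tb6, tb8, tb10, tb12, tb14, tb2, tb4, tb6, tb8, tb10, tb12, tb14, tb2, tb4, tb6, tb8, tb10, tb12, tb14, tb2, tb4, tb6, tb8, tb10, tb12, tb14, tb2, tb4, tb6, tb8, tb10, tb12, tb14, tb2, tb4, tb6, tb8, tb10, tb12, tb14]) 0 1701 567 rel38_3 h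
  have h := PR.allR_chain (PR.fixF [tb2, tb4, tb6, tb8, tb10, tb12, tb14, tb2, tb4, tb6, tb8, tb10, tb12, tb14, tb2, tb4, tb6, tb8, tb10, tb12, tb14, tb2, tb4, tb6, tb8, tb10, tb12, tb14, tb2, tb4, tb6, tb8, tb10, tb12, tb14, tb2, tb4, tb6, tb8, tb10, tb12, tb14, tb2, tb4, tb6, tb8, tb10, tb12, tb14, tb2, tb4, tb6, tb8, tb10, tb12, tb14, tb2, tb4, tb6, tb8, tb10, tb12, tb14]) 0 2268 567 rel38_4 h
  have h := PR.allR_chain (PR.fixF [tb2, tb4, tb6, tb8, tb10, tb12, tb14, tb2, tb4, tb6, tb8, tb10, tb12, tb14, tb2, tb4, tb6, tb8, tb10, tb12, tb14, tb2, tb4, tb6, tb8, tb10, tb12, tb14, tb2, tb4, tb6, tb8, tb10, tb12, tb14, tb2, tb4, tb6, tb8, tb10, tb12, tb14, tb2, tb4, tb6, tb8, tb10, tb12, tb14, tb2, tb4, tb6, tb8, tb10, tb12, tb14, tb2, tb4, tb6, tb8, tb10, tb12, tb14]) 0 2835 567 rel38_5 h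
  have h := PR.allR_chain (PR.fixF [tb2, tb4, tb6, tb8, tb10, tb12, tb14, tb2, tb4, tb6, tb8, tb10, tb12, tb14, tb2, tb4, tb6, tb8, tb10, tb12, tb14, tb2, tb4, tb6, tb8, tb10, tb12, tb14, tb2, tb4, tb6, tb8, tb10, tb12, tb14, tb2, tb4, tb6, tb8, tb10, tb12, tb14, tb2, tb4, tb6, tb8, tb10, tb12, tb14, tb2, tb4, tb6, tb8, tb10, tb12, tb14, tb2, tb4, tb6, tb8, tb10, tb12, tb14]) 0 3402 567 rel38_6 h
  have h := PR.allR_chain (PR.fixF [tb2, tb4, tb6, tb8, tb10, tb12, tb14, tb2, tb4, tb6, tb8, tb10, tb12, tb14, tb2, tb4, tb6, tb8, tb10, tb12, tb14, tb2, tb4, tb6, tb8, tb10, tb12, tb14, tb2, tb4, tb6, tb8, tb10, tb12, tb14, tb2, tb4, tb6, tb8, tb10, tb12, tb14, tb2, tb4, tb6, tb8, tb10, tb12, tb14, tb2, tb4, tb6, tb8, tb10, tb12, tb14, tb2, tb4, tb6, tb8, tb10, tb12, tb14]) 0 3969 567 rel38_7 h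
  have h := PR.allR_chain (PR.fixF [tb2, tb4, tb6, tb8, tb10, tb12, tb14, tb2, tb4, tb6, tb8, tb10, tb12, tb14, tb2, tb4, tb6, tb8, tb10, tb12, tb14, tb2, tb4, tb6, tb8, tb10, tb12, tb14, tb2, tb4, tb6, tb8, tb10, tb12, tb14, tb2, tb4, tb6, tb8, tb10, tb12, tb14, tb2, tb4, tb6, tb8, tb10, tb12, tb14, tb2, tb4, tb6, tb8, tb10, tb12, tb14, tb2, tb4, tb6, tb8, tb10, tb12, tb14]) 0 4536 567 rel38_8 h
  have h := PR.allR_chain (PR.fixF [tb2, tb4, tb6, tb8, tb10, tb12, tb14, tb2, tb4, tb6, tb8, tb10, tb12, tb14, tb2, tb4, tb6, tb8, tb10, tb12, tb14, tb2, tb4, tb6, tb8, tb10, tb12, tb14, tb2, tb4, tb6, tb8, tb10, tb12, tb14, tb2, tb4, tb6, tb8, tb10, tb12, tb14, tb2, tb4, tb6, tb8, tb10, tb12, tb14, tb2, tb4, tb6, tb8, tb10, tb12, tb14, tb2, tb4, tb6, tb8, tb10, tb12, tb14]) 0 5103 567 rel38_9 h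
  have h := PR.allR_chain (PR.fixF [tb2, tb4, tb6, tb8, tb10, tb12, tb14, tb2, tb4, tb6, tb8, tb10, tb12, tb14, tb2, tb4, tb6, tb8, tb10, tb12, tb14, tb2, tb4, tb6, tb8, tb10, tb12, tb14, tb2, tb4, tb6, tb8, tb10, tb12, tb14, tb2, tb4, tb6, tb8, tb10, tb12, tb14, tb2, tb4, tb6, tb8, tb10, tb12, tb14, tb2, tb4, tb6, tb8, tb10, tb12, tb14, tb2, tb4, tb6, tb8, tb10, tb12, tb14]) 0 5670 567 rel38_10 h
  have h := PR.allR_chain (PR.fixF [tb2, tb4, tb6, tb8, tb10, tb12, tb14, tb2, tb4, tb6, tb8, tb10, tb12, tb14, tb2, tb4, tb6, tb8, tb10, tb12, tb14, tb2, tb4, tb6, tb8, tb10, tb12, tb14, tb2, tb4, tb6, tb8, tb10, tb12, tb14, tb2, tb4, tb6, tb8, tb10, tb12, tb14, tb2, tb4, tb6, tb8, tb10, tb12, tb14, tb2, tb4, tb6, tb8, tb10, tb12, tb14, tb2, tb4, tb6, tb8, tb10, tb12, tb14]) 0 6237 567 rel38_11 h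
  have h := PR.allR_chain (PR.fixF [tb2, tb4, tb6, tb8, tb10, tb12, tb14, tb2, tb4, tb6, tb8, tb10, tb12, tb14, tb2, tb4, tb6, tb8, tb10, tb12, tb14, tb2, tb4, tb6, tb8, tb10, tb12, tb14, tb2, tb4, tb6, tb8, tb10, tb12, tb14, tb2, tb4, tb6, tb8, tb10, tb12, tb14, tb2, tb4, tb6, tb8, tb10, tb12, tb14, tb2, tb4, tb6, tb8, tb10, tb12, tb14, tb2, tb4, tb6, tb8, tb10, tb12, tb14]) 0 6804 567 rel38_12 h
  have h := PR.allR_chain (PR.fixF [tb2, tb4, tb6, tb8, tb10, tb12, tb14, tb2, tb4, tb6, tb8, tb10, tb12, tb14, tb2, tb4, tb6, tb8, tb10, tb12, tb14, tb2, tb4, tb6, tb8, tb10, tb12, tb14, tb2, tb4, tb6, tb8, tb10, tb12, tb14, tb2, tb4, tb6, tb8, tb10, tb12, tb14, tb2, tb4, tb6, tb8, tb10, tb12, tb14, tb2, tb4, tb6, tb8, tb10, tb12, tb14, tb2, tb4, tb6, tb8, tb10, tb12, tb14]) 0 7371 567 rel38_13 h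
  have h := PR.allR_chain (PR.fixF [tb2, tb4, tb6, tb8, tb10, tb12, tb14, tb2, tb4, tb6, tb8, tb10, tb12, tb14, tb2, tb4, tb6, tb8, tb10, tb12, tb14, tb2, tb4, tb6, tb8, tb10, tb12, tb14, tb2, tb4, tb6, tb8, tb10, tb12, tb14, tb2, tb4, tb6, tb8, tb10, tb12, tb14, tb2, tb4, tb6, tb8, tb10, tb12, tb14, tb2, tb4, tb6, tb8, tb10, tb12, tb14, tb2, tb4, tb6, tb8, tb10, tb12, tb14]) 0 7938 567 rel38_14 h
  have h := PR.allR_chain (PR.fixF [tb2, tb4, tb6, tb8, tb10, tb12, tb14, tb2, tb4, tb6, tb8, tb10, tb12, tb14, tb2, tb4, tb6, tb8, tb10, tb12, tb14, tb2, tb4, tb6, tb8, tb10, tb12, tb14, tb2, tb4, tb6, tb8, tb10, tb12, tb14, tb2, tb4, tb6, tb8, tb10, tb12, tb14, tb2, tb4, tb6, tb8, tb10, tb12, tb14, tb2, tb4, tb6, tb8, tb10, tb12, tb14, tb2, tb4, tb6, tb8, tb10, tb12, tb14]) 0 8505 567 rel38_15 h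
  have h := PR.allR_chain (PR.fixF [tb2, tb4, tb6, tb8, tb10, tb12, tb14, tb2, tb4, tb6, tb8, tb10, tb12, tb14, tb2, tb4, tb6, tb8, tb10, tb12, tb14, tb2, tb4, tb6, tb8, tb10, tb12, tb14, tb2, tb4, tb6, tb8, tb10, tb12, tb14, tb2, tb4, tb6, tb8, tb10, tb12, tb14, tb2, tb4, tb6, tb8, tb10, tb12, tb14, tb2, tb4, tb6, tb8, tb10, tb12, tb14, tb2, tb4, tb6, tb8, tb10, tb12, tb14]) 0 9072 567 rel38_16 h
  have h := PR.allR_chain (PR.fixF [tb2, tb4, tb6, tb8, tb10, tb12, tb14, tb2, tb4, tb6, tb8, tb10, tb12, tb14, tb2, tb4, tb6, tb8, tb10, tb12, tb14, tb2, tb4, tb6, tb8, tb10, tb12, tb14, tb2, tb4, tb6, tb8, tb10, tb12, tb14, tb2, tb4, tb6, tb8, tb10, tb12, tb14, tb2, tb4, tb6, tb8, tb10, tb12, tb14, tb2, tb4, tb6, tb8, tb10, tb12, tb14, tb2, tb4, tb6, tb8, tb10, tb12, tb14]) 0 9639 567 rel38_17 h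
  have h := PR.allR_chain (PR.fixF [tb2, tb4, tb6, tb8, tb10, tb12, tb14, tb2, tb4, tb6, tb8, tb10, tb12, tb14, tb2, tb4, tb6, tb8, tb10, tb12, tb14, tb2, tb4, tb6, tb8, tb10, tb12, tb14, tb2, tb4, tb6, tb8, tb10, tb12, tb14, tb2, tb4, tb6, tb8, tb10, tb12, tb14, tb2, tb4, tb6, tb8, tb10, tb12, tb14, tb2, tb4, tb6, tb8, tb10, tb12, tb14, tb2, tb4, tb6, tb8, tb10, tb12, tb14]) 0 10206 567 rel38_18 h
  have h := PR.allR_chain (PR.fixF [tb2, tb4, tb6, tb8, tb10, tb12, tb14, tb2, tb4, tb6, tb8, tb10, tb12, tb14, tb2, tb4, tb6, tb8, tb10, tb12, tb14, tb2, tb4, tb6, tb8, tb10, tb12, tb14, tb2, tb4, tb6, tb8, tb10, tb12, tb14, tb2, tb4, tb6, tb8, tb10, tb12, tb14, tb2, tb4, tb6, tb8, tb10, tb12, tb14, tb2, tb4, tb6, tb8, tb10, tb12, tb14, tb2, tb4, tb6, tb8, tb10, tb12, tb14]) 0 10773 567 rel38_19 h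
  have h := PR.allR_chain (PR.fixF [tb2, tb4, tb6, tb8, tb10, tb12, tb14, tb2, tb4, tb6, tb8, tb10, tb12, tb14, tb2, tb4, tb6, tb8, tb10, tb12, tb14, tb2, tb4, tb6, tb8, tb10, tb12, tb14, tb2, tb4, tb6, tb8, tb10, tb12, tb14, tb2, tb4, tb6, tb8, tb10, tb12, tb14, tb2, tb4, tb6, tb8, tb10, tb12, tb14, tb2, tb4, tb6, tb8, tb10, tb12, tb14, tb2, tb4, tb6, tb8, tb10, tb12, tb14]) 0 11340 567 rel38_20 h
  have h := PR.allR_chain (PR.fixF [tb2, tb4, tb6, tb8, tb10, tb12, tb14, tb2, tb4, tb6, tb8, tb10, tb12, tb14, tb2, tb4, tb6, tb8, tb10, tb12, tb14, tb2, tb4, tb6, tb8, tb10, tb12, tb14, tb2, tb4, tb6, tb8, tb10, tb12, tb14, tb2, tb4, tb6, tb8, tb10, tb12, tb14, tb2, tb4, tb6, tb8, tb10, tb12, tb14, tb2, tb4, tb6, tb8, tb10, tb12, tb14, tb2, tb4, tb6, tb8, tb10, tb12, tb14]) 0 11907 567 rel38_21 h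
  have h := PR.allR_chain (PR.fixF [tb2, tb4, tb6, tb8, tb10, tb12, tb14, tb2, tb4, tb6, tb8, tb10, tb12, tb14, tb2, tb4, tb6, tb8, tb10, tb12, tb14, tb2, tb4, tb6, tb8, tb10, tb12, tb14, tb2, tb4, tb6, tb8, tb10, tb12, tb14, tb2, tb4, tb6, tb8, tb10, tb12, tb14, tb2, tb4, tb6, tb8, tb10, tb12, tb14, tb2, tb4, tb6, tb8, tb10, tb12, tb14, tb2, tb4, tb6, tb8, tb10, tb12, tb14]) 0 12474 567 rel38_22 h
  have h := PR.allR_chain (PR.fixF [tb2, tb4, tb6, tb8, tb10, tb12, tb14, tb2, tb4, tb6, tb8, tb10, tb12, tb14, tb2, tb4, tb6, tb8, tb10, tb12, tb14, tb2, tb4, tb6, tb8, tb10, tb12, tb14, tb2, tb4, tb6, tb8, tb10, tb12, tb14, tb2, tb4, tb6, tb8, tb10, tb12, tb14, tb2, tb4, tb6, tb8, tb10, tb12, tb14, tb2, tb4, tb6, tb8, tb10, tb12, tb14, tb2, tb4, tb6, tb8, tb10, tb12, tb14]) 0 13041 567 rel38_23 h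
  have h := PR.allR_chain (PR.fixF [tb2, tb4, tb6, tb8, tb10, tb12, tb14, tb2, tb4, tb6, tb8, tb10, tb12, tb14, tb2, tb4, tb6, tb8, tb10, tb12, tb14, tb2, tb4, tb6, tb8, tb10, tb12, tb14, tb2, tb4, tb6, tb8, tb10, tb12, tb14, tb2, tb4, tb6, tb8, tb10, tb12, tb14, tb2, tb4, tb6, tb8, tb10, tb12, tb14, tb2, tb4, tb6, tb8, tb10, tb12, tb14, tb2, tb4, tb6, tb8, tb10, tb12, tb14]) 0 13608 472 rel38_24 h
  exact h

theorem mp0_0 : ∀ u, 0 ≤ u → u < 1 → PR.mapsF [tb2] 0 0 u = true := by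
  have h : ∀ u, 0 ≤ u → u < 0 → PR.mapsF [tb2] 0 0 u = true := fun u h1 h2 => absurd h2 (by omega)
  have h := PR.allR_chain (PR.mapsF [tb2] 0 0) 0 0 1 mp0_0_0 h
  exact h

theorem mp0_1 : ∀ u, 0 ≤ u → u < 1 → PR.mapsF [tb4] 0 0 u = true := by
  have h : ∀ u, 0 ≤ u → u < 0 → PR.mapsF [tb4] 0 0 u = true := fun u h1 h2 => absurd h2 (by omega)
  have h := PR.allR_chain (PR.mapsF [tb4] 0 0) 0 0 1 mp0_1_0 h
  exact h

theorem mp0_2 : ∀ u, 0 ≤ u → u < 1 → PR.mapsF [tb6] 0 0 u = true := by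
  have h : ∀ u, 0 ≤ u → u < 0 → PR.mapsF [tb6] 0 0 u = true := fun u h1 h2 => absurd h2 (by omega)
  have h := PR.allR_chain (PR.mapsF [tb6] 0 0) 0 0 1 mp0_2_0 h
  exact h

theorem mp0_3 : ∀ u, 0 ≤ u → u < 1 → PR.mapsF [tb8] 0 0 u = true := by
  have h : ∀ u, 0 ≤ u → u < 0 → PR.mapsF [tb8] 0 0 u = true := fun u h1 h2 => absurd h2 (by omega)
  have h := PR.allR_chain (PR.mapsF [tb8] 0 0) 0 0 1 mp0_3_0 h
  exact h

theorem mp0_4 : ∀ u, 0 ≤ u → u < 1 → PR.mapsF [tb10] 0 0 u = true := by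
  have h : ∀ u, 0 ≤ u → u < 0 → PR.mapsF [tb10] 0 0 u = true := fun u h1 h2 => absurd h2 (by omega)
  have h := PR.allR_chain (PR.mapsF [tb10] 0 0) 0 0 1 mp0_4_0 h
  exact h

theorem mp0_5 : ∀ u, 0 ≤ u → u < 1 → PR.mapsF [tb12] 0 0 u = true := by
  have h : ∀ u, 0 ≤ u → u < 0 → PR.mapsF [tb12] 0 0 u = true := fun u h1 h2 => absurd h2 (by omega)
  have h := PR.allR_chain (PR.mapsF [tb12] 0 0) 0 0 1 mp0_5_0 h
  exact h

theorem mp0_6 : ∀ u, 0 ≤ u → u < 1 → PR.mapsF [tb14] 0 0 u = true := by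
  have h : ∀ u, 0 ≤ u → u < 0 → PR.mapsF [tb14] 0 0 u = true := fun u h1 h2 => absurd h2 (by omega)
  have h := PR.allR_chain (PR.mapsF [tb14] 0 0) 0 0 1 mp0_6_0 h
  exact h

theorem mp0_7 : ∀ u, 0 ≤ u → u < 1 → PR.mapsF [tb16] 0 0 u = true := by
  have h : ∀ u, 0 ≤ u → u < 0 → PR.mapsF [tb16] 0 0 u = true := fun u h1 h2 => absurd h2 (by omega)
  have h := PR.allR_chain (PR.mapsF [tb16] 0 0) 0 0 1 mp0_7_0 h
  exact h

theorem tre0 : ∀ u, 1 ≤ u → u < 1 → PR.treeF tbW [[tb2], [tb4], [tb6], [tb8], [tb10], [tb12], [tb14], [tb16]] 0 u = true := by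
  have h : ∀ u, 1 ≤ u → u < 1 → PR.treeF tbW [[tb2], [tb4], [tb6], [tb8], [tb10], [tb12], [tb14], [tb16]] 0 u = true := fun u h1 h2 => absurd h2 (by omega)
  exact h

theorem mp1_0 : ∀ u, 1 ≤ u → u < 3160 → PR.mapsF [tb2] 1 3159 u = true := by
  have h : ∀ u, 1 ≤ u → u < 1 → PR.mapsF [tb2] 1 3159 u = true := fun u h1 h2 => absurd h2 (by omega)
  have h := PR.allR_chain (PR.mapsF [tb2] 1 3159) 1 1 3159 mp1_0_0 h
  exact h

theorem mp1_1 : ∀ u, 1 ≤ u → u < 3160 → PR.mapsF [tb4] 1 3159 u = true := by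
  have h : ∀ u, 1 ≤ u → u < 1 → PR.mapsF [tb4] 1 3159 u = true := fun u h1 h2 => absurd h2 (by omega)
  have h := PR.allR_chain (PR.mapsF [tb4] 1 3159) 1 1 3159 mp1_1_0 h
  exact h

theorem mp1_2 : ∀ u, 1 ≤ u → u < 3160 → PR.mapsF [tb6] 1 3159 u = true := by
  have h : ∀ u, 1 ≤ u → u < 1 → PR.mapsF [tb6] 1 3159 u = true := fun u h1 h2 => absurd h2 (by omega)
  have h := PR.allR_chain (PR.mapsF [tb6] 1 3159) 1 1 3159 mp1_2_0 h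
  exact h

theorem mp1_3 : ∀ u, 1 ≤ u → u < 3160 → PR.mapsF [tb8] 1 3159 u = true := by
  have h : ∀ u, 1 ≤ u → u < 1 → PR.mapsF [tb8] 1 3159 u = true := fun u h1 h2 => absurd h2 (by omega)
  have h := PR.allR_chain (PR.mapsF [tb8] 1 3159) 1 1 3159 mp1_3_0 h
  exact h

theorem mp1_4 : ∀ u, 1 ≤ u → u < 3160 → PR.mapsF [tb10] 1 3159 u = true := by
  have h : ∀ u, 1 ≤ u → u < 1 → PR.mapsF [tb10] 1 3159 u = true := fun u h1 h2 => absurd h2 (by omega)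
  have h := PR.allR_chain (PR.mapsF [tb10] 1 3159) 1 1 3159 mp1_4_0 h
  exact h

theorem mp1_5 : ∀ u, 1 ≤ u → u < 3160 → PR.mapsF [tb12] 1 3159 u = true := by
  have h : ∀ u, 1 ≤ u → u < 1 → PR.mapsF [tb12] 1 3159 u = true := fun u h1 h2 => absurd h2 (by omega)
  have h := PR.allR_chain (PR.mapsF [tb12] 1 3159) 1 1 3159 mp1_5_0 h
  exact h

theorem mp1_6 : ∀ u, 1 ≤ u → u < 3160 → PR.mapsF [tb14] 1 3159 u = true := by
  have h : ∀ u, 1 ≤ u → u < 1 → PR.mapsF [tb14] 1 3159 u = true := fun u h1 h2 => absurd h2 (by omega)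
  have h := PR.allR_chain (PR.mapsF [tb14] 1 3159) 1 1 3159 mp1_6_0 h
  exact h

theorem mp1_7 : ∀ u, 1 ≤ u → u < 3160 → PR.mapsF [tb16] 1 3159 u = true := by
  have h : ∀ u, 1 ≤ u → u < 1 → PR.mapsF [tb16] 1 3159 u = true := fun u h1 h2 => absurd h2 (by omega)
  have h := PR.allR_chain (PR.mapsF [tb16] 1 3159) 1 1 3159 mp1_7_0 h
  exact h

theorem tre1 : ∀ u, 2 ≤ u → u < 3160 → PR.treeF tbW [[tb2], [tb4], [tb6], [tb8], [tb10], [tb12], [tb14], [tb16]] 1 u = true := by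
  have h : ∀ u, 2 ≤ u → u < 2 → PR.treeF tbW [[tb2], [tb4], [tb6], [tb8], [tb10], [tb12], [tb14], [tb16]] 1 u = true := fun u h1 h2 => absurd h2 (by omega)
  have h := PR.allR_chain (PR.treeF tbW [[tb2], [tb4], [tb6], [tb8], [tb10], [tb12], [tb14], [tb16]] 1) 2 2 3158 tre1_0 h
  exact h

theorem mp2_0 : ∀ u, 3160 ≤ u → u < 14080 → PR.mapsF [tb2] 3160 14079 u = true := by
  have h : ∀ u, 3160 ≤ u → u < 3160 → PR.mapsF [tb2] 3160 14079 u = true := fun u h1 h2 => absurd h2 (by omega)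
  have h := PR.allR_chain (PR.mapsF [tb2] 3160 14079) 3160 3160 10920 mp2_0_0 h
  exact h

theorem mp2_1 : ∀ u, 3160 ≤ u → u < 14080 → PR.mapsF [tb4] 3160 14079 u = true := by
  have h : ∀ u, 3160 ≤ u → u < 3160 → PR.mapsF [tb4] 3160 14079 u = true := fun u h1 h2 => absurd h2 (by omega)
  have h := PR.allR_chain (PR.mapsF [tb4] 3160 14079) 3160 3160 10920 mp2_1_0 h
  exact h

theorem mp2_2 : ∀ u, 3160 ≤ u → u < 14080 → PR.mapsF [tb6] 3160 14079 u = true := by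
  have h : ∀ u, 3160 ≤ u → u < 3160 → PR.mapsF [tb6] 3160 14079 u = true := fun u h1 h2 => absurd h2 (by omega)
  have h := PR.allR_chain (PR.mapsF [tb6] 3160 14079) 3160 3160 10920 mp2_2_0 h
  exact h

theorem mp2_3 : ∀ u, 3160 ≤ u → u < 14080 → PR.mapsF [tb8] 3160 14079 u = true := by
  have h : ∀ u, 3160 ≤ u → u < 3160 → PR.mapsF [tb8] 3160 14079 u = true := fun u h1 h2 => absurd h2 (by omega)
  have h := PR.allR_chain (PR.mapsF [tb8] 3160 14079) 3160 3160 10920 mp2_3_0 h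
  exact h

theorem mp2_4 : ∀ u, 3160 ≤ u → u < 14080 → PR.mapsF [tb10] 3160 14079 u = true := by
  have h : ∀ u, 3160 ≤ u → u < 3160 → PR.mapsF [tb10] 3160 14079 u = true := fun u h1 h2 => absurd h2 (by omega)
  have h := PR.allR_chain (PR.mapsF [tb10] 3160 14079) 3160 3160 10920 mp2_4_0 h
  exact h

theorem mp2_5 : ∀ u, 3160 ≤ u → u < 14080 → PR.mapsF [tb12] 3160 14079 u = true := by
  have h : ∀ u, 3160 ≤ u → u < 3160 → PR.mapsF [tb12] 3160 14079 u = true := fun u h1 h2 => absurd h2 (by omega)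
  have h := PR.allR_chain (PR.mapsF [tb12] 3160 14079) 3160 3160 10920 mp2_5_0 h
  exact h

theorem mp2_6 : ∀ u, 3160 ≤ u → u < 14080 → PR.mapsF [tb14] 3160 14079 u = true := by
  have h : ∀ u, 3160 ≤ u → u < 3160 → PR.mapsF [tb14] 3160 14079 u = true := fun u h1 h2 => absurd h2 (by omega)
  have h := PR.allR_chain (PR.mapsF [tb14] 3160 14079) 3160 3160 10920 mp2_6_0 h
  exact h

theorem mp2_7 : ∀ u, 3160 ≤ u → u < 14080 → PR.mapsF [tb16] 3160 14079 u = true := by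
  have h : ∀ u, 3160 ≤ u → u < 3160 → PR.mapsF [tb16] 3160 14079 u = true := fun u h1 h2 => absurd h2 (by omega)
  have h := PR.allR_chain (PR.mapsF [tb16] 3160 14079) 3160 3160 10920 mp2_7_0 h
  exact h

theorem tre2 : ∀ u, 3161 ≤ u → u < 14080 → PR.treeF tbW [[tb2], [tb4], [tb6], [tb8], [tb10], [tb12], [tb14], [tb16]] 3160 u = true := by
  have h : ∀ u, 3161 ≤ u → u < 3161 → PR.treeF tbW [[tb2], [tb4], [tb6], [tb8], [tb10], [tb12], [tb14], [tb16]] 3160 u = true := fun u h1 h2 => absurd h2 (by omega)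
  have h := PR.allR_chain (PR.treeF tbW [[tb2], [tb4], [tb6], [tb8], [tb10], [tb12], [tb14], [tb16]] 3160) 3161 3161 10919 tre2_0 h
  exact h

theorem tables : PR.Tables 14080 tbl (fun l => l) Ls := by
  refine ⟨?_, fun l hl => hl, ?_, ?_⟩
  · intro l hl
    simp only [Ls, List.mem_cons, List.mem_nil_iff, or_false] at hl
    rcases hl with rfl | rfl | rfl | rfl | rfl | rfl | rfl | rfl | rfl
    · exact fun u hu => Nat.lt_of_le_of_lt ((PR.mapsF_iff _ _ _ _).mp (rng0 u (Nat.zero_le _) hu)).2 (by norm_num)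
    · exact fun u hu => Nat.lt_of_le_of_lt ((PR.mapsF_iff _ _ _ _).mp (rng2 u (Nat.zero_le _) hu)).2 (by norm_num)
    · exact fun u hu => Nat.lt_of_le_of_lt ((PR.mapsF_iff _ _ _ _).mp (rng4 u (Nat.zero_le _) hu)).2 (by norm_num)
    · exact fun u hu => Nat.lt_of_le_of_lt ((PR.mapsF_iff _ _ _ _).mp (rng6 u (Nat.zero_le _) hu)).2 (by norm_num)
    · exact fun u hu => Nat.lt_of_le_of_lt ((PR.mapsF_iff _ _ _ _).mp (rng8 u (Nat.zero_le _) hu)).2 (by norm_num)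
    · exact fun u hu => Nat.lt_of_le_of_lt ((PR.mapsF_iff _ _ _ _).mp (rng10 u (Nat.zero_le _) hu)).2 (by norm_num)
    · exact fun u hu => Nat.lt_of_le_of_lt ((PR.mapsF_iff _ _ _ _).mp (rng12 u (Nat.zero_le _) hu)).2 (by norm_num)
    · exact fun u hu => Nat.lt_of_le_of_lt ((PR.mapsF_iff _ _ _ _).mp (rng14 u (Nat.zero_le _) hu)).2 (by norm_num)
    · exact fun u hu => Nat.lt_of_le_of_lt ((PR.mapsF_iff _ _ _ _).mp (rng16 u (Nat.zero_le _) hu)).2 (by norm_num)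
  · intro l hl
    simp only [Ls, List.mem_cons, List.mem_nil_iff, or_false] at hl
    rcases hl with rfl | rfl | rfl | rfl | rfl | rfl | rfl | rfl | rfl
    · exact fun u hu => (PR.fixF_iff _ _).mp (sq0 u (Nat.zero_le _) hu)
    · exact fun u hu => (PR.fixF_iff _ _).mp (sq2 u (Nat.zero_le _) hu)
    · exact fun u hu => (PR.fixF_iff _ _).mp (sq4 u (Nat.zero_le _) hu)
    · exact fun u hu => (PR.fixF_iff _ _).mp (sq6 u (Nat.zero_le _) hu)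
    · exact fun u hu => (PR.fixF_iff _ _).mp (sq8 u (Nat.zero_le _) hu)
    · exact fun u hu => (PR.fixF_iff _ _).mp (sq10 u (Nat.zero_le _) hu)
    · exact fun u hu => (PR.fixF_iff _ _).mp (sq12 u (Nat.zero_le _) hu)
    · exact fun u hu => (PR.fixF_iff _ _).mp (sq14 u (Nat.zero_le _) hu)
    · exact fun u hu => (PR.fixF_iff _ _).mp (sq16 u (Nat.zero_le _) hu)
  · intro l hl
    simp only [Ls, List.mem_cons, List.mem_nil_iff, or_false] at hl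
    rcases hl with rfl | rfl | rfl | rfl | rfl | rfl | rfl | rfl | rfl
    · exact fun u hu => (PR.fixF_iff _ _).mp (sq0 u (Nat.zero_le _) hu)
    · exact fun u hu => (PR.fixF_iff _ _).mp (sq2 u (Nat.zero_le _) hu)
    · exact fun u hu => (PR.fixF_iff _ _).mp (sq4 u (Nat.zero_le _) hu)
    · exact fun u hu => (PR.fixF_iff _ _).mp (sq6 u (Nat.zero_le _) hu)
    · exact fun u hu => (PR.fixF_iff _ _).mp (sq8 u (Nat.zero_le _) hu)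
    · exact fun u hu => (PR.fixF_iff _ _).mp (sq10 u (Nat.zero_le _) hu)
    · exact fun u hu => (PR.fixF_iff _ _).mp (sq12 u (Nat.zero_le _) hu)
    · exact fun u hu => (PR.fixF_iff _ _).mp (sq14 u (Nat.zero_le _) hu)
    · exact fun u hu => (PR.fixF_iff _ _).mp (sq16 u (Nat.zero_le _) hu)

theorem relsOK : ∀ r ∈ coxW ++ extraW, ∀ u < 14080, PR.trace (r.map tbl) u = u := by
  intro r hr
  simp only [coxW, extraW, List.mem_append, List.mem_cons, List.mem_nil_iff, or_false, or_assoc] at hr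
  rcases hr with rfl | rfl | rfl | rfl | rfl | rfl | rfl | rfl | rfl | rfl | rfl | rfl | rfl | rfl | rfl | rfl | rfl | rfl | rfl | rfl | rfl | rfl | rfl | rfl | rfl | rfl | rfl | rfl | rfl | rfl | rfl | rfl | rfl | rfl | rfl | rfl | rfl | rfl | rfl
  · exact fun u hu => (PR.fixF_iff _ _).mp (rel0 u (Nat.zero_le _) hu)
  · exact fun u hu => (PR.fixF_iff _ _).mp (rel1 u (Nat.zero_le _) hu)
  · exact fun u hu => (PR.fixF_iff _ _).mp (rel2 u (Nat.zero_le _) hu)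
  · exact fun u hu => (PR.fixF_iff _ _).mp (rel3 u (Nat.zero_le _) hu)
  · exact fun u hu => (PR.fixF_iff _ _).mp (rel4 u (Nat.zero_le _) hu)
  · exact fun u hu => (PR.fixF_iff _ _).mp (rel5 u (Nat.zero_le _) hu)
  · exact fun u hu => (PR.fixF_iff _ _).mp (rel6 u (Nat.zero_le _) hu)
  · exact fun u hu => (PR.fixF_iff _ _).mp (rel7 u (Nat.zero_le _) hu)
  · exact fun u hu => (PR.fixF_iff _ _).mp (rel8 u (Nat.zero_le _) hu)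
  · exact fun u hu => (PR.fixF_iff _ _).mp (rel9 u (Nat.zero_le _) hu)
  · exact fun u hu => (PR.fixF_iff _ _).mp (rel10 u (Nat.zero_le _) hu)
  · exact fun u hu => (PR.fixF_iff _ _).mp (rel11 u (Nat.zero_le _) hu)
  · exact fun u hu => (PR.fixF_iff _ _).mp (rel12 u (Nat.zero_le _) hu)
  · exact fun u hu => (PR.fixF_iff _ _).mp (rel13 u (Nat.zero_le _) hu)
  · exact fun u hu => (PR.fixF_iff _ _).mp (rel14 u (Nat.zero_le _) hu)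
  · exact fun u hu => (PR.fixF_iff _ _).mp (rel15 u (Nat.zero_le _) hu)
  · exact fun u hu => (PR.fixF_iff _ _).mp (rel16 u (Nat.zero_le _) hu)
  · exact fun u hu => (PR.fixF_iff _ _).mp (rel17 u (Nat.zero_le _) hu)
  · exact fun u hu => (PR.fixF_iff _ _).mp (rel18 u (Nat.zero_le _) hu)
  · exact fun u hu => (PR.fixF_iff _ _).mp (rel19 u (Nat.zero_le _) hu)
  · exact fun u hu => (PR.fixF_iff _ _).mp (rel20 u (Nat.zero_le _) hu)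
  · exact fun u hu => (PR.fixF_iff _ _).mp (rel21 u (Nat.zero_le _) hu)
  · exact fun u hu => (PR.fixF_iff _ _).mp (rel22 u (Nat.zero_le _) hu)
  · exact fun u hu => (PR.fixF_iff _ _).mp (rel23 u (Nat.zero_le _) hu)
  · exact fun u hu => (PR.fixF_iff _ _).mp (rel24 u (Nat.zero_le _) hu)
  · exact fun u hu => (PR.fixF_iff _ _).mp (rel25 u (Nat.zero_le _) hu)
  · exact fun u hu => (PR.fixF_iff _ _).mp (rel26 u (Nat.zero_le _) hu)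
  · exact fun u hu => (PR.fixF_iff _ _).mp (rel27 u (Nat.zero_le _) hu)
  · exact fun u hu => (PR.fixF_iff _ _).mp (rel28 u (Nat.zero_le _) hu)
  · exact fun u hu => (PR.fixF_iff _ _).mp (rel29 u (Nat.zero_le _) hu)
  · exact fun u hu => (PR.fixF_iff _ _).mp (rel30 u (Nat.zero_le _) hu)
  · exact fun u hu => (PR.fixF_iff _ _).mp (rel31 u (Nat.zero_le _) hu)
  · exact fun u hu => (PR.fixF_iff _ _).mp (rel32 u (Nat.zero_le _) hu)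
  · exact fun u hu => (PR.fixF_iff _ _).mp (rel33 u (Nat.zero_le _) hu)
  · exact fun u hu => (PR.fixF_iff _ _).mp (rel34 u (Nat.zero_le _) hu)
  · exact fun u hu => (PR.fixF_iff _ _).mp (rel35 u (Nat.zero_le _) hu)
  · exact fun u hu => (PR.fixF_iff _ _).mp (rel36 u (Nat.zero_le _) hu)
  · exact fun u hu => (PR.fixF_iff _ _).mp (rel37 u (Nat.zero_le _) hu)
  · exact fun u hu => (PR.fixF_iff _ _).mp (rel38 u (Nat.zero_le _) hu)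

theorem orbits : PR.Orbits 14080 tbl Ls subs ivs := by
  refine ⟨by decide, ?_, ?_, ?_, ?_, by decide, by decide⟩
  · intro iv hiv s hs
    simp only [ivs, List.mem_cons, List.mem_nil_iff, or_false] at hiv
    simp only [subs, List.mem_cons, List.mem_nil_iff, or_false] at hs
    rcases hiv with rfl | rfl | rfl <;> rcases hs with rfl | rfl | rfl | rfl | rfl | rfl | rfl | rfl
    · exact fun u h1 h2 => ⟨((PR.mapsF_iff _ _ _ _).mp (mp0_0 u h1 h2)).1, Nat.lt_of_le_of_lt ((PR.mapsF_iff _ _ _ _).mp (mp0_0 u h1 h2)).2 (by norm_num)⟩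
    · exact fun u h1 h2 => ⟨((PR.mapsF_iff _ _ _ _).mp (mp0_1 u h1 h2)).1, Nat.lt_of_le_of_lt ((PR.mapsF_iff _ _ _ _).mp (mp0_1 u h1 h2)).2 (by norm_num)⟩
    · exact fun u h1 h2 => ⟨((PR.mapsF_iff _ _ _ _).mp (mp0_2 u h1 h2)).1, Nat.lt_of_le_of_lt ((PR.mapsF_iff _ _ _ _).mp (mp0_2 u h1 h2)).2 (by norm_num)⟩
    · exact fun u h1 h2 => ⟨((PR.mapsF_iff _ _ _ _).mp (mp0_3 u h1 h2)).1, Nat.lt_of_le_of_lt ((PR.mapsF_iff _ _ _ _).mp (mp0_3 u h1 h2)).2 (by norm_num)⟩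
    · exact fun u h1 h2 => ⟨((PR.mapsF_iff _ _ _ _).mp (mp0_4 u h1 h2)).1, Nat.lt_of_le_of_lt ((PR.mapsF_iff _ _ _ _).mp (mp0_4 u h1 h2)).2 (by norm_num)⟩
    · exact fun u h1 h2 => ⟨((PR.mapsF_iff _ _ _ _).mp (mp0_5 u h1 h2)).1, Nat.lt_of_le_of_lt ((PR.mapsF_iff _ _ _ _).mp (mp0_5 u h1 h2)).2 (by norm_num)⟩
    · exact fun u h1 h2 => ⟨((PR.mapsF_iff _ _ _ _).mp (mp0_6 u h1 h2)).1, Nat.lt_of_le_of_lt ((PR.mapsF_iff _ _ _ _).mp (mp0_6 u h1 h2)).2 (by norm_num)⟩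
    · exact fun u h1 h2 => ⟨((PR.mapsF_iff _ _ _ _).mp (mp0_7 u h1 h2)).1, Nat.lt_of_le_of_lt ((PR.mapsF_iff _ _ _ _).mp (mp0_7 u h1 h2)).2 (by norm_num)⟩
    · exact fun u h1 h2 => ⟨((PR.mapsF_iff _ _ _ _).mp (mp1_0 u h1 h2)).1, Nat.lt_of_le_of_lt ((PR.mapsF_iff _ _ _ _).mp (mp1_0 u h1 h2)).2 (by norm_num)⟩
    · exact fun u h1 h2 => ⟨((PR.mapsF_iff _ _ _ _).mp (mp1_1 u h1 h2)).1, Nat.lt_of_le_of_lt ((PR.mapsF_iff _ _ _ _).mp (mp1_1 u h1 h2)).2 (by norm_num)⟩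
    · exact fun u h1 h2 => ⟨((PR.mapsF_iff _ _ _ _).mp (mp1_2 u h1 h2)).1, Nat.lt_of_le_of_lt ((PR.mapsF_iff _ _ _ _).mp (mp1_2 u h1 h2)).2 (by norm_num)⟩
    · exact fun u h1 h2 => ⟨((PR.mapsF_iff _ _ _ _).mp (mp1_3 u h1 h2)).1, Nat.lt_of_le_of_lt ((PR.mapsF_iff _ _ _ _).mp (mp1_3 u h1 h2)).2 (by norm_num)⟩
    · exact fun u h1 h2 => ⟨((PR.mapsF_iff _ _ _ _).mp (mp1_4 u h1 h2)).1, Nat.lt_of_le_of_lt ((PR.mapsF_iff _ _ _ _).mp (mp1_4 u h1 h2)).2 (by norm_num)⟩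
    · exact fun u h1 h2 => ⟨((PR.mapsF_iff _ _ _ _).mp (mp1_5 u h1 h2)).1, Nat.lt_of_le_of_lt ((PR.mapsF_iff _ _ _ _).mp (mp1_5 u h1 h2)).2 (by norm_num)⟩
    · exact fun u h1 h2 => ⟨((PR.mapsF_iff _ _ _ _).mp (mp1_6 u h1 h2)).1, Nat.lt_of_le_of_lt ((PR.mapsF_iff _ _ _ _).mp (mp1_6 u h1 h2)).2 (by norm_num)⟩
    · exact fun u h1 h2 => ⟨((PR.mapsF_iff _ _ _ _).mp (mp1_7 u h1 h2)).1, Nat.lt_of_le_of_lt ((PR.mapsF_iff _ _ _ _).mp (mp1_7 u h1 h2)).2 (by norm_num)⟩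
    · exact fun u h1 h2 => ⟨((PR.mapsF_iff _ _ _ _).mp (mp2_0 u h1 h2)).1, Nat.lt_of_le_of_lt ((PR.mapsF_iff _ _ _ _).mp (mp2_0 u h1 h2)).2 (by norm_num)⟩
    · exact fun u h1 h2 => ⟨((PR.mapsF_iff _ _ _ _).mp (mp2_1 u h1 h2)).1, Nat.lt_of_le_of_lt ((PR.mapsF_iff _ _ _ _).mp (mp2_1 u h1 h2)).2 (by norm_num)⟩
    · exact fun u h1 h2 => ⟨((PR.mapsF_iff _ _ _ _).mp (mp2_2 u h1 h2)).1, Nat.lt_of_le_of_lt ((PR.mapsF_iff _ _ _ _).mp (mp2_2 u h1 h2)).2 (by norm_num)⟩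
    · exact fun u h1 h2 => ⟨((PR.mapsF_iff _ _ _ _).mp (mp2_3 u h1 h2)).1, Nat.lt_of_le_of_lt ((PR.mapsF_iff _ _ _ _).mp (mp2_3 u h1 h2)).2 (by norm_num)⟩
    · exact fun u h1 h2 => ⟨((PR.mapsF_iff _ _ _ _).mp (mp2_4 u h1 h2)).1, Nat.lt_of_le_of_lt ((PR.mapsF_iff _ _ _ _).mp (mp2_4 u h1 h2)).2 (by norm_num)⟩
    · exact fun u h1 h2 => ⟨((PR.mapsF_iff _ _ _ _).mp (mp2_5 u h1 h2)).1, Nat.lt_of_le_of_lt ((PR.mapsF_iff _ _ _ _).mp (mp2_5 u h1 h2)).2 (by norm_num)⟩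
    · exact fun u h1 h2 => ⟨((PR.mapsF_iff _ _ _ _).mp (mp2_6 u h1 h2)).1, Nat.lt_of_le_of_lt ((PR.mapsF_iff _ _ _ _).mp (mp2_6 u h1 h2)).2 (by norm_num)⟩
    · exact fun u h1 h2 => ⟨((PR.mapsF_iff _ _ _ _).mp (mp2_7 u h1 h2)).1, Nat.lt_of_le_of_lt ((PR.mapsF_iff _ _ _ _).mp (mp2_7 u h1 h2)).2 (by norm_num)⟩
  · intro iv hiv
    simp only [ivs, List.mem_cons, List.mem_nil_iff, or_false] at hiv
    rcases hiv with rfl | rfl | rfl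
    · intro u h1 h2
      obtain ⟨s, hs, p, hp⟩ := PR.treeF_sound _ _ _ _ (tre0 u h1 h2)
      exact PR.tree_aux tbl subs _ rfl s hs p _ _ hp
    · intro u h1 h2
      obtain ⟨s, hs, p, hp⟩ := PR.treeF_sound _ _ _ _ (tre1 u h1 h2)
      exact PR.tree_aux tbl subs _ rfl s hs p _ _ hp
    · intro u h1 h2
      obtain ⟨s, hs, p, hp⟩ := PR.treeF_sound _ _ _ _ (tre2 u h1 h2)
      exact PR.tree_aux tbl subs _ rfl s hs p _ _ hp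
  · intro iv hiv
    simp only [ivs, List.mem_cons, List.mem_nil_iff, or_false] at hiv
    rcases hiv with rfl | rfl | rfl
    · exact ⟨[], by decide, root0⟩
    · exact ⟨[0], by decide, root1⟩
    · exact ⟨[0, 2, 4, 6, 8, 10, 14, 6, 8, 16, 14, 6, 4, 2, 0], by decide, root2⟩
  · intro u hu
    simp only [ivs, List.mem_cons, List.mem_nil_iff, or_false, exists_eq_or_imp, exists_eq_left]
    omega

end Cfsg.Agent.Lib.Helper11.Fi22b
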