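import Cfsg.Agent.Lib.Helper11.G24MDefs

set_option autoImplicit false
set_option maxRecDepth 100000

namespace Cfsg.Agent.Lib.Helper11.G24M

open Matrix Cfsg.Lie Cfsg.Agent.Lib.Helper11

theorem gw0 : (xm 11 F4.o : M14) = mat 0 := by decide +kernel

theorem gw2_0 : (xm 0 F4.w * (xm 11 F4.o * (xm 0 F4.w)) : M14) = mx 5043457852333491675348779159705363794711619137586562464371403210980336829395537728395966336755802591389053666459648061 := by decide +kernel
theorem gw2 : (xm 0 F4.w * (xm 11 F4.o * (xm 0 F4.w)) : M14) = mat 2 := by
  rw [gw2_0]; rfl

theorem gw4_0 : (xm 1 F4.o * (xm 7 F4.w * (xm 8 F4.o)) : M14) = mx 2689802583228712053473484361355496411817269942034932260873040226833276920472486109258066404848094362791039600373643582 := by decide +kernel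
theorem gw4_1 : (xm 1 F4.o * (xm 11 F4.o * (mx 2689802583228712053473484361355496411817269942034932260873040226833276920472486109258066404848094362791039600373643582)) : M14) = mx 3756912807546855804902707234340630920914330179013237874656073459688381784094461345139350630920048910130995409266418737 := by decide +kernel
theorem gw4_2 : (xm 8 F4.o * (xm 7 F4.w * (mx 3756912807546855804902707234340630920914330179013237874656073459688381784094461345139350630920048910130995409266418737)) : M14) = mx 3589408473723540165849918120787407589769206967061918355100855582257331143218954748516086757751444193910697195053516897 := by decide +kernel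
theorem gw4 : (xm 8 F4.o * (xm 7 F4.w * (xm 1 F4.o * (xm 11 F4.o * (xm 1 F4.o * (xm 7 F4.w * (xm 8 F4.o)))))) : M14) = mat 4 := by
  rw [gw4_0, gw4_1, gw4_2]; rfl

theorem gw6 : (xm 7 F4.o : M14) = mat 6 := by decide +kernel

theorem gw8_0 : (xm 4 F4.o * (xm 7 F4.o * (xm 7 F4.w)) : M14) = mx 2521728400981938021070413306964936643829934289533830530022414325154616516654985901227598745167995473212809225743634445 := by decide +kernel
theorem gw8_1 : (xm 4 F4.o * (xm 7 F4.o * (mx 2521728400981938021070413306964936643829934289533830530022414325154616516654985901227598745167995473212809225743634445)) : M14) = mx 2521728396578420664699158919778364634563796990304048258670995546554959468328633987706433489942825451379947367265480709 := by decide +kernel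
theorem gw8_2 : (xm 7 F4.w * (xm 7 F4.o * (mx 2521728396578420664699158919778364634563796990304048258670995546554959468328633987706433489942825451379947367265480709)) : M14) = mx 2521728399660882824753532766460435002027584132902578647311444708054401805495197227868889652656425745911026282918584333 := by decide +kernel
theorem gw8 : (xm 7 F4.w * (xm 7 F4.o * (xm 4 F4.o * (xm 7 F4.o * (xm 4 F4.o * (xm 7 F4.o * (xm 7 F4.w)))))) : M14) = mat 8 := by
  rw [gw8_0, gw8_1, gw8_2]; rfl

theorem gw10_0 : (xm 0 F4.o * (xm 11 F4.w * (xm 0 F4.w)) : M14) = mx 7565187449010291638792690519090180508533265753728434141593279327046078003958792835007028163358409965179132974362263569 := by decide +kernel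
theorem gw10_1 : (xm 0 F4.o * (xm 11 F4.o * (mx 7565187449010291638792690519090180508533265753728434141593279327046078003958792835007028163358409965179132974362263569)) : M14) = mx 7565186096247470462448227186478268386222827356324069566896199217113972486065932618754352903712711157588625041177706537 := by decide +kernel
theorem gw10_2 : (xm 0 F4.w * (xm 11 F4.w * (mx 7565186096247470462448227186478268386222827356324069566896199217113972486065932618754352903712711157588625041177706537)) : M14) = mx 2521730503216530417134562846635511249469164032536577167223165139158322049614504118237799146035574191340016635599650849 := by decide +kernel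
theorem gw10 : (xm 0 F4.w * (xm 11 F4.w * (xm 0 F4.o * (xm 11 F4.o * (xm 0 F4.o * (xm 11 F4.w * (xm 0 F4.w)))))) : M14) = mat 10 := by
  rw [gw10_0, gw10_1, gw10_2]; rfl

end Cfsg.Agent.Lib.Helper11.G24M
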