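import Cfsg.Agent.Lib.Helper11.G24Simple
import Cfsg.Agent.Lib.Helper11.G24MR0
import Cfsg.Agent.Lib.Helper11.G24MR1
import Cfsg.Agent.Lib.Helper11.G24MR2
import Cfsg.Agent.Lib.Helper11.G24MW

/-! # The homomorphism to the Chevalley group `G2(4)` -/

set_option autoImplicit false
set_option maxRecDepth 100000

namespace Cfsg.Agent.Lib.Helper11.G24M

open Matrix Cfsg.Lie Cfsg.Agent.Lib.Helper11 Cfsg.Agent.Lib.Helper11.TC

theorem mat_out : ∀ l, l ∉ G24.Ls → mat l = 1 := by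
  intro l hl
  match l, hl with
  | 0, h => exact absurd (by decide) h
  | 1, _ => rfl
  | 2, h => exact absurd (by decide) h
  | 3, _ => rfl
  | 4, h => exact absurd (by decide) h
  | 5, _ => rfl
  | 6, h => exact absurd (by decide) h
  | 7, _ => rfl
  | 8, h => exact absurd (by decide) h
  | 9, _ => rfl
  | 10, h => exact absurd (by decide) h
  | (k + 11), _ => rfl

theorem mat_sq_in : ∀ l ∈ G24.Ls, mat l * mat l = 1 := by decide +kernel

theorem mat_sq (l : ℕ) : mat l * mat l = 1 := by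
  by_cases h : l ∈ G24.Ls
  · exact mat_sq_in l h
  · rw [mat_out l h, one_mul]

def gl (l : ℕ) : GL chevG2.Idx F4 := ⟨mat l, mat l, mat_sq l, mat_sq l⟩

/-- the root elements as units -/
def xu (r : Fin 12) (t : F4) : GL chevG2.Idx F4 := ⟨xm r t, xm r t, xm_sq r t, xm_sq r t⟩

theorem xmem (r : Fin 12) (t : F4) : xu r t ∈ chevG2.group F4 :=
  Subgroup.subset_closure ⟨r, t, rfl⟩

theorem mem0 : gl 0 ∈ chevG2.group F4 := by
  have h : gl 0 = xu 11 F4.o := Units.ext gw0.symm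
  rw [h]
  exact xmem _ _

theorem mem2 : gl 2 ∈ chevG2.group F4 := by
  have h : gl 2 = xu 0 F4.w * (xu 11 F4.o * (xu 0 F4.w)) := Units.ext gw2.symm
  rw [h]
  exact Subgroup.mul_mem _ (xmem _ _) (Subgroup.mul_mem _ (xmem _ _) (xmem _ _))

theorem mem4 : gl 4 ∈ chevG2.group F4 := by
  have h : gl 4 = xu 8 F4.o * (xu 7 F4.w * (xu 1 F4.o * (xu 11 F4.o * (xu 1 F4.o * (xu 7 F4.w * (xu 8 F4.o)))))) := Units.ext gw4.symm
  rw [h]
  exact Subgroup.mul_mem _ (xmem _ _) (Subgroup.mul_mem _ (xmem _ _) (Subgroup.mul_mem _ (xmem _ _) (Subgroup.mul_mem _ (xmem _ _) (Subgroup.mul_mem _ (xmem _ _) (Subgroup.mul_mem _ (xmem _ _) (xmem _ _))))))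

theorem mem6 : gl 6 ∈ chevG2.group F4 := by
  have h : gl 6 = xu 7 F4.o := Units.ext gw6.symm
  rw [h]
  exact xmem _ _

theorem mem8 : gl 8 ∈ chevG2.group F4 := by
  have h : gl 8 = xu 7 F4.w * (xu 7 F4.o * (xu 4 F4.o * (xu 7 F4.o * (xu 4 F4.o * (xu 7 F4.o * (xu 7 F4.w)))))) := Units.ext gw8.symm
  rw [h]
  exact Subgroup.mul_mem _ (xmem _ _) (Subgroup.mul_mem _ (xmem _ _) (Subgroup.mul_mem _ (xmem _ _) (Subgroup.mul_mem _ (xmem _ _) (Subgroup.mul_mem _ (xmem _ _) (Subgroup.mul_mem _ (xmem _ _) (xmem _ _))))))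

theorem mem10 : gl 10 ∈ chevG2.group F4 := by
  have h : gl 10 = xu 0 F4.w * (xu 11 F4.w * (xu 0 F4.o * (xu 11 F4.o * (xu 0 F4.o * (xu 11 F4.w * (xu 0 F4.w)))))) := Units.ext gw10.symm
  rw [h]
  exact Subgroup.mul_mem _ (xmem _ _) (Subgroup.mul_mem _ (xmem _ _) (Subgroup.mul_mem _ (xmem _ _) (Subgroup.mul_mem _ (xmem _ _) (Subgroup.mul_mem _ (xmem _ _) (Subgroup.mul_mem _ (xmem _ _) (xmem _ _))))))

theorem gl_mem (l : ℕ) : gl l ∈ chevG2.group F4 := by
  by_cases h : l ∈ G24.Ls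
  · simp only [G24.Ls, List.mem_cons, List.mem_nil_iff, or_false] at h
    rcases h with rfl | rfl | rfl | rfl | rfl | rfl
    · exact mem0
    · exact mem2
    · exact mem4
    · exact mem6
    · exact mem8
    · exact mem10
  · have h1 : gl l = 1 := Units.ext (mat_out l h)
    rw [h1]; exact Subgroup.one_mem _

def iso (l : ℕ) : chevG2.group F4 := ⟨gl l, gl_mem l⟩

theorem coe_ev (w : List ℕ) :
    (((ev iso w : chevG2.group F4) : GL chevG2.Idx F4) : M14) = (w.map mat).prod := by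
  induction w with
  | nil => rfl
  | cons l w ih =>
    rw [ev_cons, Subgroup.coe_mul, Units.val_mul, ih]
    rfl

theorem one_of_prod (w : List ℕ) (h : (w.map mat).prod = 1) : ev iso w = 1 :=
  Subtype.ext (Units.ext (by rw [coe_ev, h]; rfl))

theorem hrel : ∀ r ∈ G24.coxW ++ G24.extraW, ev iso r = 1 := by
  intro r hr
  simp only [G24.coxW, G24.extraW, List.mem_append, List.mem_cons, List.mem_nil_iff, or_false, or_assoc] at hr
  rcases hr with rfl | rfl | rfl | rfl | rfl | rfl | rfl | rfl | rfl | rfl | rfl | rfl | rfl | rfl | rfl | rfl | rfl | rfl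
  · exact one_of_prod _ rl0
  · exact one_of_prod _ rl1
  · exact one_of_prod _ rl2
  · exact one_of_prod _ rl3
  · exact one_of_prod _ rl4
  · exact one_of_prod _ rl5
  · exact one_of_prod _ rl6
  · exact one_of_prod _ rl7
  · exact one_of_prod _ rl8
  · exact one_of_prod _ rl9
  · exact one_of_prod _ rl10
  · exact one_of_prod _ rl11
  · exact one_of_prod _ rl12
  · exact one_of_prod _ rl13
  · exact one_of_prod _ rl14
  · exact one_of_prod _ rl15
  · exact one_of_prod _ rl16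
  · exact one_of_prod _ rl17

theorem hp : ∀ l ∈ G24.Ls, iso (G24.invL l) = (iso l)⁻¹ := by
  intro l _
  have h1 : iso l * iso l = 1 := Subtype.ext (Units.ext (mat_sq l))
  exact eq_inv_of_mul_eq_one_right h1

theorem mat_ne : mat 0 ≠ 1 := by decide +kernel

theorem exists_hom : ∃ γ : G24S.P →* chevG2.group F4, ∀ l ∈ G24.Ls, γ (G24S.gen l) = iso l :=
  G24S.pres.lift _ iso hp hrel

end Cfsg.Agent.Lib.Helper11.G24M
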