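import Cfsg.Agent.Lib.Helper11.F4
import Cfsg.Prelude.Def_ChevG2

set_option autoImplicit false
set_option maxRecDepth 100000

namespace Cfsg.Agent.Lib.Helper11.G24M

open Matrix Cfsg.Lie Cfsg.Agent.Lib.Helper11

abbrev I14 := chevG2.Idx
abbrev M14 := Matrix chevG2.Idx chevG2.Idx F4

def ix : I14 → ℕ
  | .inl i => i.val
  | .inr u => 2 + u.val

def dg : ℕ → F4
  | 0 => .z
  | 1 => .o
  | 2 => .w
  | _ => .v

/-- the matrix with the given code in base 4 -/
def mx (c : ℕ) : M14 := fun i j => dg (c / 4 ^ (14 * ix i + ix j) % 4)

/-- the root elements -/
abbrev xm (r : Fin 12) (t : F4) : M14 := chevG2.xMat F4 r t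

def mat : ℕ → M14
  | 0 => mx 2521729150453709240790099514023599127158725635132209224178256192717436549913865364864738429985500186886824658565333009
  | 2 => mx 5043457852333491675348779159705363794711619137586562464371403210980336829395537728395966336755802591389053666459648061
  | 4 => mx 3589408473723540165849918120787407589769206967061918355100855582257331143218954748516086757751444193910697195053516897
  | 6 => mx 2521728399660882806161901483582675062865339865278213822725259499483673224965501964527680156813542758874004866407075841
  | 8 => mx 2521728399660882824753532766460435002027584132902578647311444708054401805495197227868889652656425745911026282918584333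
  | 10 => mx 2521730503216530417134562846635511249469164032536577167223165139158322049614504118237799146035574191340016635599650849
  | _ => 1

theorem mx_one : mx 2521728398917789254546942521118719782918566245902573801663234147343039762458737040831439240642369768934420657706369025 = 1 := by decide +kernel

theorem xm_sq : ∀ (r : Fin 12) (t : F4), xm r t * xm r t = 1 := by decide +kernel

end Cfsg.Agent.Lib.Helper11.G24M
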