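import Cfsg.Agent.Lib.Helper11.PRDefs

set_option autoImplicit false
set_option maxRecDepth 1000000

namespace Cfsg.Agent.Lib.Helper11.G24

open Cfsg.Agent.Lib.Helper11

def T10_0_1 : Nat := 1866852710145597370335439161277228019368903890187853239816412163949089983496666813078384967480814650146131988443177208484880003090138876872181305387209716457898634887174397525792718521565034279067563769226178074518826596993173451900370158540396832309998201802120892572492666348212382831977222965881226408943878300581507093479548765584950683208201765146932296588139858790882621675625735871559965816425486073257608120985783794661042706150220149925023501209730223311495403436684368490505746875799326972254786449260831050893995442435027302126686628551615553266369265811073819054302245058120506814399389195413926067824692451287402677942763548362105415683075114399187336881837075499777084089751306241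
def T10_1_2 : Nat := 24570343549506130712956035378870622703691552537430063713505848268318516316399330276122429492004575372601807842784751665494790055233504415585038238366870566254120231392777510929543549273625805489183473103538092146824675109345098714451156852063188102219193054438275819255877474940031445086543718272291722902349353495752715369494603991263616228726907074462195694265638436772305580200917923229602856081173279447053035472437181011701192081
noncomputable def T10_0_2 (i : Nat) : Nat := (Bool.rec T10_0_1 T10_1_2 (Nat.ble 256 i))
noncomputable def tb10 (i : Nat) : Nat := Nat.land (Nat.shiftRight (T10_0_2 i) (Nat.mul (Nat.land i 255) 9)) 511

end Cfsg.Agent.Lib.Helper11.G24
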