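import Cfsg.Agent.Lib.Helper11.PRDefs

set_option autoImplicit false
set_option maxRecDepth 1000000

namespace Cfsg.Agent.Lib.Helper11.G24

open Cfsg.Agent.Lib.Helper11

def T2_0_1 : Nat := 1449971231693953358682544031432706031893382345786604936612213504666512058801254796615974220077080208334168971999829984254198975426379123855010867726691382028061766851212399603311824933131643972091840403022873022039369453441473416225978619600898857477714227448443130685853746120682839962067298178954816342205346348595274948052497277405555749312949378118872201208562715860920161342995412433737047531612226638356714694888766163960147422345754311571784005349827457014964408872218164328827562980438201791284836885752410160861211999610912277765673230961288433054192079201318158239285131283450077565792320021576899569133553762051057040538222851578873803709882073964955020416194083653298876324440704000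
def T2_1_2 : Nat := 24647633183096740948579038782771333379254393913671596751508104615862725405564142887921997975374565183940233516174953161835083714737643136634274419476877587881122024334256772825745911633198217674605934015432169398340198738057859383060316697737174807330874225410340533242745914553777371087582711580999496149200381092221446428256277367074366302619044268927286263634646228490923649053682299806982179066021967556086583635713340347669693737
noncomputable def T2_0_2 (i : Nat) : Nat := (Bool.rec T2_0_1 T2_1_2 (Nat.ble 256 i))
noncomputable def tb2 (i : Nat) : Nat := Nat.land (Nat.shiftRight (T2_0_2 i) (Nat.mul (Nat.land i 255) 9)) 511

end Cfsg.Agent.Lib.Helper11.G24
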