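import Cfsg.Agent.Lib.Helper11.PRDefs

set_option autoImplicit false
set_option maxRecDepth 1000000

namespace Cfsg.Agent.Lib.Helper11.G24

open Cfsg.Agent.Lib.Helper11

def T4_0_1 : Nat := 2160296918220394704035029198237391268065822952915281424729625652474467524546205956428057346236597463863483827271883558178877621329865049264656528765279245656284134704790028596262894870977435004090290860222830577101360420243717706976792005881737723416892068098439116020429327808389797358196877941394564794384073496899566487957090182680216368342569375240790575014072703632579723218596411232008227971093520444213581002371526945821341416560683566032227683077204239702984414260489455047743934278695590640991308193087738570624029774305812078155873161131643494962091971024001399549534466584956336276702864703167553376871198908618203547590497917477211171334773221843536718453193284726548100035678044672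
def T4_1_2 : Nat := 24706472612553593661316838702502075845297903689870646478473646953319340499310436121337805840168617725076767176369350449220587141527435724243904991577526969214956444136660858712200727862144874685827845301505828505073522153369250039231460602837236041980054032596324309050073873908986721460394561606457471102991201686986268607997173956924368527349982888080142371218804595571423717881471282831071098001476238067552494919357432755295213767
noncomputable def T4_0_2 (i : Nat) : Nat := (Bool.rec T4_0_1 T4_1_2 (Nat.ble 256 i))
noncomputable def tb4 (i : Nat) : Nat := Nat.land (Nat.shiftRight (T4_0_2 i) (Nat.mul (Nat.land i 255) 9)) 511

end Cfsg.Agent.Lib.Helper11.G24
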