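import Cfsg.Agent.Lib.Helper11.PRDefs

set_option autoImplicit false
set_option maxRecDepth 1000000

namespace Cfsg.Agent.Lib.Helper11.G24

open Cfsg.Agent.Lib.Helper11

def T6_0_1 : Nat := 1736209585476448671863576065189854501302936634836857839554074959114299113983872771604126946171639233585816197846246750273777569046247403125577313579642030107995605075538993306253634241763730344388945068972328171563233076039117345329805534501549399935100644063686404133069050754945036879770849191383239252651627889131012767993853816956445236984033486925817392485245613121539074974954957467095343733747409595390739657944694275357148141663350807759006922668264562425611266928966911637202403995265362343057509622633034336606201139434066725600766480146665314480271736402853678438613818491948149517351807722117656954397806973952303378714922708949861843687790330848584257639280140728742786542944649728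
def T6_1_2 : Nat := 24587519438088255008006842742833061071814442480182881099978335046301894665382705339452509720819640795914891437731745010919841764033897281722185181988199440025622929271106805471459275040583079912008475167741337233718854902089601870223643700796558781932932118066593721366061100351995871316375592914377864199665726499849848382112202852794693404387680749881936960186154969505936464369235223507984657480321195396009367208759575522815879978
noncomputable def T6_0_2 (i : Nat) : Nat := (Bool.rec T6_0_1 T6_1_2 (Nat.ble 256 i))
noncomputable def tb6 (i : Nat) : Nat := Nat.land (Nat.shiftRight (T6_0_2 i) (Nat.mul (Nat.land i 255) 9)) 511

end Cfsg.Agent.Lib.Helper11.G24
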