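import Cfsg.Agent.Lib.Helper11.PRDefs

set_option autoImplicit false
set_option maxRecDepth 1000000

namespace Cfsg.Agent.Lib.Helper11.G24

open Cfsg.Agent.Lib.Helper11

def T8_0_1 : Nat := 2173503865124591823133414374622500497481894828174615353911400606651633156520336559755240589505071903497033272936021016785006983330729221861238535303608733520832065403356783427430131876709874139640890637662913781855431122450876617558222132966094377298398488308151228988791857820963197499257298131836655275205089205143827841284405982436084730192653863655238561163861568980939913216280052540623917749174855791034282824714857154123594574113943690044599138161998979889731371294149296747412798634179068817757290358822127320450109540928635918781576783438464901068450000005819062647572912772959545817586489764248345979289700176125565886542628367225815564044276812839373012488075190794319113983915196928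
def T8_1_2 : Nat := 24587519438088248252872638090488851331224092933261569321228640349628127559817882967702064535140247992026085397698133070150670582659038163637332457004827135131764293210663255835453927080594359167536705572210138356887116587053666700276678080138918761714620790115716493725331117889939201063450460432344191104614459732122682040474818381567825058932255579951398684859932904563786859477200797350928679373282878667915515533780621422786613446
noncomputable def T8_0_2 (i : Nat) : Nat := (Bool.rec T8_0_1 T8_1_2 (Nat.ble 256 i))
noncomputable def tb8 (i : Nat) : Nat := Nat.land (Nat.shiftRight (T8_0_2 i) (Nat.mul (Nat.land i 255) 9)) 511

end Cfsg.Agent.Lib.Helper11.G24
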