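import Cfsg.Agent.Lib.Helper11.PRDefs

set_option autoImplicit false
set_option maxRecDepth 1000000

namespace Cfsg.Agent.Lib.Helper11.G24

open Cfsg.Agent.Lib.Helper11

def TW_0_1 : Nat := 260261941677427427827747273444356925861934678629884760245917042816470696157868337841713734407612113766035410232237062476641220140153732938170598791673649616672662042784164128546683416535119387900934639790199428521153822559881058067510481231415424749065843408172085228345658831478082717884991882978179504695865181931163309982547906190648835296927001542134894657824250097588307786469160247255236171493937481807042161400090878135603129634221365187359188804014759315381686994633263431079026999549123361044454170349904721388934604159190854984170302919753170413805357402331145351060969985580923317412270471643334649794093378552903909056028767356159876323069169459838252991860205623757746592789555100687392517434639864597201003564290926144150398934585858900717354439640490936509644056445699569834504486121658144332409985090724102410187727327603470193020594189088764978720510863932096279440559762978433944832943330124721488233167215287917557788524992933435787479749526437963989244312529642004930722427710734336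
def TW_1_2 : Nat := 112026482302170265259002318749840826879634235215128847959525730561446294497586763861480240482482373006292283549553961718434894182849881764393241180568184430725152436565487604331823488835949649798552187065457922794241304370573855937964024824494699070590887301166169674628593582896910164144964846480968620353280383180171810675264108774541930984370816735487439814807246837660667319291594961871429026375827874677836792521822701051254653190163284969634934933040011910847590601381554755917780411248095157048687808592828866458221470888362327763872408409073243918250960292307955219005731205316465030659680241417617415922999117957074020
noncomputable def TW_0_2 (i : Nat) : Nat := (Bool.rec TW_0_1 TW_1_2 (Nat.ble 256 i))
noncomputable def tbW (i : Nat) : Nat := Nat.land (Nat.shiftRight (TW_0_2 i) (Nat.mul (Nat.land i 255) 13)) 8191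

end Cfsg.Agent.Lib.Helper11.G24
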