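import Cfsg.Agent.Lib.Helper11.G24PT0
import Cfsg.Agent.Lib.Helper11.G24PT2
import Cfsg.Agent.Lib.Helper11.G24PT4
import Cfsg.Agent.Lib.Helper11.G24PT6
import Cfsg.Agent.Lib.Helper11.G24PT8
import Cfsg.Agent.Lib.Helper11.G24PT10
import Cfsg.Agent.Lib.Helper11.G24PTW

set_option autoImplicit false

namespace Cfsg.Agent.Lib.Helper11.G24

noncomputable def tbl : Nat → Nat → Nat
  | 0 => tb0
  | 2 => tb2
  | 4 => tb4
  | 6 => tb6
  | 8 => tb8
  | 10 => tb10
  | _ => fun u => u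

end Cfsg.Agent.Lib.Helper11.G24
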