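import Cfsg.Agent.Lib.Helper11.PRDefs

set_option autoImplicit false
set_option maxRecDepth 1000000

namespace Cfsg.Agent.Lib.Helper11.G24

open Cfsg.Agent.Lib.Helper11

def T0_0_1 : Nat := 2079861058380424487980122135178645437406351752750347627012156170481818875814590715142136173885527743427102859516716550964177600751270278691082439119335454697662059845977803489585334712616806883648561401701682022992759960409656435704489138814564867680508423368607262665460922140950946263273782423397573190909431192900967061899258378230484032335083589195076253586873325508079971924742694858045845854309815253215403718745428222351286516787704508360486775564241919181990905108829614399954120203565827685750273916611561520449516311275028764461728365447595781992894994173225155179399335128850337645193428568215670598538387942369329766555944187844550572476639130519914244607809307307164390042775585280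
def T0_1_2 : Nat := 24706588667544723439297374234890900328710116179085725650724101573616057233394402354929834092034776844461063797869591179442439660702356328600264031656441453738883155648399122021152284055225734935601330023205590715930492021048819635538038332105327855515005861145855173911907929198327508015738179036207064929221080432066996068277491675207489260674563229273315874981838627281056421814485598159962643885993175874029752397746659958654098633
noncomputable def T0_0_2 (i : Nat) : Nat := (Bool.rec T0_0_1 T0_1_2 (Nat.ble 256 i))
noncomputable def tb0 (i : Nat) : Nat := Nat.land (Nat.shiftRight (T0_0_2 i) (Nat.mul (Nat.land i 255) 9)) 511

end Cfsg.Agent.Lib.Helper11.G24
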