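set_option autoImplicit false

namespace Cfsg.Agent.Lib.Helper11.SuzU1

def coxW : List (List Nat) := [
  [0, 2, 0, 2, 0, 2, 0, 2, 0, 2],
  [0, 4, 0, 4],
  [0, 6, 0, 6],
  [0, 8, 0, 8],
  [0, 10, 0, 10],
  [2, 4, 2, 4, 2, 4],
  [2, 6, 2, 6],
  [2, 8, 2, 8],
  [2, 10, 2, 10, 2, 10],
  [4, 6, 4, 6, 4, 6, 4, 6, 4, 6, 4, 6, 4, 6, 4, 6],
  [4, 8, 4, 8],
  [4, 10, 4, 10],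
  [6, 8, 6, 8, 6, 8],
  [6, 10, 6, 10],
  [8, 10, 8, 10]]

def extraW : List (List Nat) := [
  [0, 6, 4, 6, 4, 6, 4, 6, 4],
  [0, 2, 4, 10, 0, 2, 4, 10, 0, 2, 4, 10, 0, 2, 4, 10, 0, 2, 4, 10],
  [2, 4, 6, 4, 6, 2, 4, 6, 4, 6, 2, 4, 6, 4, 6, 2, 4, 6, 4, 6, 2, 4, 6, 4, 6, 8, 2, 4, 6, 4, 6, 2, 4, 6, 4, 6, 2, 4, 6, 4, 6, 2, 4, 6, 4, 6, 2, 4, 6, 4, 6, 8, 2, 4, 6, 4, 6, 2, 4, 6, 4, 6, 2, 4, 6, 4, 6, 2, 4, 6, 4, 6, 2, 4, 6, 4, 6, 8]]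

def subs : List (List Nat) := [
  [0],
  [2],
  [4],
  [6],
  [8]]

def Ls : List Nat := [0, 2, 4, 6, 8, 10]

end Cfsg.Agent.Lib.Helper11.SuzU1
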