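import Cfsg.Agent.Lib.Helper11.OrderUB
import Cfsg.Agent.Lib.Helper11.Suz1782Enc
import Cfsg.Agent.Lib.Helper11.Suz1782Cert
import Cfsg.Agent.Lib.Helper11.SuzU1Cert
import Cfsg.Agent.Lib.Helper11.SuzU1Pres
import Cfsg.Agent.Lib.Helper11.SuzU2Cert
import Cfsg.Agent.Lib.Helper11.SuzU2Pres
import Cfsg.Agent.Lib.Helper11.SuzU3Cert
import Cfsg.Agent.Lib.Helper11.SuzU3Pres

set_option autoImplicit false
set_option maxRecDepth 100000

namespace Cfsg.Agent.Lib.Helper11.SuzOrder

open Cfsg.Agent.Lib.Helper11 Cfsg.Agent.Lib.Helper11.TC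

theorem b3 : UB.Bound SuzU3.Ls (SuzU3.coxW ++ SuzU3.extraW) (2160 * 1) :=
  UB.Bound.step (n := 2160) (by norm_num)
    (fun act q0 h31 hadm hl => SuzU3.closed act q0 h31 hadm hl) (subs := SuzU3.subs)
    (by decide +kernel) (by decide) (by decide) (by decide +kernel)
    (Ls' := []) (by decide) (by decide) (rels' := []) (by decide) (UB.Bound.nil _)

theorem b2 : UB.Bound SuzU2.Ls (SuzU2.coxW ++ SuzU2.extraW) (280 * (2160 * 1)) :=
  UB.Bound.step (n := 280) (by norm_num)
    (fun act q0 h31 hadm hl => SuzU2.closed act q0 h31 hadm hl) (subs := SuzU2.subs)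
    (by decide +kernel) (by decide) (by decide) (by decide +kernel)
    (by decide) (by decide) (by decide +kernel) b3

theorem b1 : UB.Bound SuzU1.Ls (SuzU1.coxW ++ SuzU1.extraW) (416 * (280 * (2160 * 1))) :=
  UB.Bound.step (n := 416) (by norm_num)
    (fun act q0 h31 hadm hl => SuzU1.closed act q0 h31 hadm hl) (subs := SuzU1.subs)
    (by decide +kernel) (by decide) (by decide) (by decide +kernel)
    (by decide) (by decide) (by decide +kernel) b2

theorem b0 : UB.Bound Suz1782.Ls (Suz1782.coxW ++ Suz1782.extraW) (1782 * (416 * (280 * (2160 * 1)))) :=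
  UB.Bound.step (n := 1782) (by norm_num)
    (fun act q0 h31 hadm hl => Suz1782.closed act q0 h31 hadm hl) (subs := Suz1782.subs)
    (by decide +kernel) (by decide) (by decide) (by decide +kernel)
    (by decide) (by decide) (by decide +kernel) b1

theorem card_le : Finite Cfsg.Spor.Suz ∧ Nat.card Cfsg.Spor.Suz ≤ 448345497600 :=
  UB.card_le_of_bound Suz1782.enc b0

end Cfsg.Agent.Lib.Helper11.SuzOrder
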