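import Cfsg.Agent.Lib.Helper11.GenMaster2
import Cfsg.Agent.Lib.Helper11.G24LB
import Cfsg.Agent.Lib.Helper11.SuzOrderUB

/-! # The group presented on `a, …, f` by the relators of `Suz` in these letters is simple of order `|G2(4)|` -/

set_option autoImplicit false
set_option maxRecDepth 100000

namespace Cfsg.Agent.Lib.Helper11.G24S

open Cfsg.Agent.Lib.Helper11 Cfsg.Agent.Lib.Helper11.TC

abbrev P : Type := GM.WG G24.invL G24.Ls (G24.coxW ++ G24.extraW)

def gen : ℕ → P := GM.wgen G24.invL G24.Ls (G24.coxW ++ G24.extraW)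

theorem pres : GM.Pres P gen G24.invL G24.Ls (G24.coxW ++ G24.extraW) :=
  GM.wg_pres (fun _ hl => hl) (by decide) (by decide) (by decide +kernel)

theorem card_le : Finite P ∧ Nat.card P ≤ 251596800 :=
  GM.card_le_of_bound pres (fun _ => rfl) SuzOrder.b1

def xw : List ℕ := [6, 4, 8, 2, 10, 4, 0]

def cs : List (List ℕ) := [
  [0, 2, 0],
  [0, 2, 10],
  [0, 2, 0],
  [0, 2, 10],
  [0, 2, 0],
  [0, 2, 10]]

theorem simple : IsSimpleGroup P ∧ Nat.card P = 251596800 :=
  GM.simple_master pres (n := 416) (N := 251596800) G24.tables G24.relsOK G24.orbits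
    card_le G24.lbase (by decide) G24.lb (by norm_num) (by decide +kernel) (by decide +kernel)
    13 (by norm_num) xw (by decide) (by decide +kernel) 2 (by decide) cs (by decide +kernel)
    (by decide +kernel) (GM.collapses_of_kill (fun _ => rfl) 10 (by decide +kernel))

end Cfsg.Agent.Lib.Helper11.G24S
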