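import Cfsg.Agent.Lib.Helper11.LBCore
import Cfsg.Agent.Lib.Helper11.He2058Perm
import Cfsg.Agent.Lib.Helper11.He2058LC0

set_option autoImplicit false
set_option maxRecDepth 1000000

namespace Cfsg.Agent.Lib.Helper11.He2058

open Cfsg.Agent.Lib.Helper11

theorem lbc0 : ∀ u, 1 ≤ u → u < 2058 → PR.lbF lP0 lM0 lwT0 u = true := by
  have h : ∀ u, 1 ≤ u → u < 1 → PR.lbF lP0 lM0 lwT0 u = true := fun u h1 h2 => absurd h2 (by omega)
  have h := PR.allR_chain (PR.lbF lP0 lM0 lwT0) 1 1 2057 lb0_0 h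
  exact h

theorem lbc1 : ∀ u, 1 ≤ u → u < 1360 → PR.lbF lP1 lM1 lwT1 u = true := by
  have h : ∀ u, 1 ≤ u → u < 1 → PR.lbF lP1 lM1 lwT1 u = true := fun u h1 h2 => absurd h2 (by omega)
  have h := PR.allR_chain (PR.lbF lP1 lM1 lwT1) 1 1 1359 lb1_0 h
  exact h

theorem lbc2 : ∀ u, 1 ≤ u → u < 360 → PR.lbF lP2 lM2 lwT2 u = true := by
  have h : ∀ u, 1 ≤ u → u < 1 → PR.lbF lP2 lM2 lwT2 u = true := fun u h1 h2 => absurd h2 (by omega)
  have h := PR.allR_chain (PR.lbF lP2 lM2 lwT2) 1 1 359 lb2_0 h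
  exact h

theorem lbc3 : ∀ u, 1 ≤ u → u < 4 → PR.lbF lP3 lM3 lwT3 u = true := by
  have h : ∀ u, 1 ≤ u → u < 1 → PR.lbF lP3 lM3 lwT3 u = true := fun u h1 h2 => absurd h2 (by omega)
  have h := PR.allR_chain (PR.lbF lP3 lM3 lwT3) 1 1 3 lb3_0 h
  exact h

def lbase : List Nat := [0, 1, 279, 2038]

theorem lv0 : 2058 ≤ (MulAction.orbit (PR.stabChain (PR.letterGroup 2058 tbl (fun l => l) Ls) []) (⟨0, by norm_num⟩ : Fin 2058)).ncard :=
  PR.level_lb tables [] 0 (by norm_num) lws0 (by decide +kernel) lP0 lM0 2058 (by norm_num)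
    (by decide +kernel) (by decide +kernel) (fun idx h1 h2 => lbc0 idx h1 h2)

theorem lv1 : 1360 ≤ (MulAction.orbit (PR.stabChain (PR.letterGroup 2058 tbl (fun l => l) Ls) [0]) (⟨1, by norm_num⟩ : Fin 2058)).ncard :=
  PR.level_lb tables [0] 1 (by norm_num) lws1 (by decide +kernel) lP1 lM1 1360 (by norm_num)
    (by decide +kernel) (by decide +kernel) (fun idx h1 h2 => lbc1 idx h1 h2)

theorem lv2 : 360 ≤ (MulAction.orbit (PR.stabChain (PR.letterGroup 2058 tbl (fun l => l) Ls) [0, 1]) (⟨279, by norm_num⟩ : Fin 2058)).ncard :=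
  PR.level_lb tables [0, 1] 279 (by norm_num) lws2 (by decide +kernel) lP2 lM2 360 (by norm_num)
    (by decide +kernel) (by decide +kernel) (fun idx h1 h2 => lbc2 idx h1 h2)

theorem lv3 : 4 ≤ (MulAction.orbit (PR.stabChain (PR.letterGroup 2058 tbl (fun l => l) Ls) [0, 1, 279]) (⟨2038, by norm_num⟩ : Fin 2058)).ncard :=
  PR.level_lb tables [0, 1, 279] 2038 (by norm_num) lws3 (by decide +kernel) lP3 lM3 4 (by norm_num)
    (by decide +kernel) (by decide +kernel) (fun idx h1 h2 => lbc3 idx h1 h2)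

theorem lb (c : ℕ) (hc : c ≤ Nat.card (PR.stabChain (PR.letterGroup 2058 tbl (fun l => l) Ls) lbase)) : 4030387200 * c ≤ Nat.card (PR.letterGroup 2058 tbl (fun l => l) Ls) := by
  have h3 := PR.chain_step (n := 2058) (tbl := tbl) (inv := fun l => l) (Ls := Ls) [0, 1, 279] 2038 (by norm_num) 4 _ lv3 hc
  have h2 := PR.chain_step (n := 2058) (tbl := tbl) (inv := fun l => l) (Ls := Ls) [0, 1] 279 (by norm_num) 360 _ lv2 h3
  have h1 := PR.chain_step (n := 2058) (tbl := tbl) (inv := fun l => l) (Ls := Ls) [0] 1 (by norm_num) 1360 _ lv1 h2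
  have h0 := PR.chain_step (n := 2058) (tbl := tbl) (inv := fun l => l) (Ls := Ls) [] 0 (by norm_num) 2058 _ lv0 h1
  have e : 4030387200 * c = 2058 * (1360 * (360 * (4 * (c)))) := by omega
  rw [e]; exact h0

end Cfsg.Agent.Lib.Helper11.He2058
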