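import Cfsg.Agent.Lib.Helper11.CoxGlue
import Cfsg.Prelude.Def_Spor_He
import Cfsg.Agent.Lib.Helper11.He2058Pres

set_option autoImplicit false

namespace Cfsg.Agent.Lib.Helper11.HeEnc

open Cfsg.Spor Cfsg.Spor.He Cfsg.Agent.Lib.Helper11 Cfsg.Agent.Lib.Helper11.TC

def dec : ℕ → Option Gen
  | 0 => some .a | 2 => some .b | 4 => some .c | 6 => some .d | 8 => some .e | 10 => some .f
  | 12 => some .g | _ => none

def code : Gen → ℕ
  | .a => 0 | .b => 2 | .c => 4 | .d => 6 | .e => 8 | .f => 10 | .g => 12

theorem enc : Cox.Enc edges extra dec code He2058.Ls He2058.coxW He2058.extraW where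
  dec_code := by intro x; cases x <;> rfl
  dec31 := rfl
  node := by intro x; cases x <;> decide
  ls := by decide
  code_ls := by intro x; cases x <;> decide
  c1 := by decide +kernel
  c2 := by decide +kernel
  ex := by
    intro P _ f hf
    have hinv : ∀ x, (f x)⁻¹ = f x := fun x => inv_eq_of_mul_eq_one_left (hf x)
    simp only [extra, He2058.extraW, List.map_cons, List.map_nil, map_mul, map_inv, map_pow,
      FreeGroup.lift_apply_of, ev, Cox.genOf, dec, List.prod_cons, List.prod_nil, pow_succ, pow_zero,
      one_mul, mul_one, mul_inv_rev, hinv, mul_assoc]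
  wl := by decide +kernel

end Cfsg.Agent.Lib.Helper11.HeEnc
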