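import Cfsg.Agent.Lib.Helper11.TCCore
import Cfsg.Agent.Lib.Helper11.HeV0B0
import Cfsg.Agent.Lib.Helper11.HeV0B1
import Cfsg.Agent.Lib.Helper11.HeV0B2
import Cfsg.Agent.Lib.Helper11.HeV0B3
import Cfsg.Agent.Lib.Helper11.HeV0B4
import Cfsg.Agent.Lib.Helper11.HeV0B5
import Cfsg.Agent.Lib.Helper11.HeV0B6
import Cfsg.Agent.Lib.Helper11.HeV0B7
import Cfsg.Agent.Lib.Helper11.HeV0B8
import Cfsg.Agent.Lib.Helper11.HeV0B9
import Cfsg.Agent.Lib.Helper11.HeV0B10
import Cfsg.Agent.Lib.Helper11.HeV0B11
import Cfsg.Agent.Lib.Helper11.HeV0B12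
import Cfsg.Agent.Lib.Helper11.HeV0B13
import Cfsg.Agent.Lib.Helper11.HeV0B14
import Cfsg.Agent.Lib.Helper11.HeV0B15

set_option autoImplicit false
set_option maxRecDepth 100000

namespace Cfsg.Agent.Lib.Helper11.HeV0

open Cfsg.Agent.Lib.Helper11

theorem f0 : F 0 = 32505856 := by decide +kernel

theorem valid {Q : Type*} (act : ℕ → Q → Q) (q0 : Q) (h31 : ∀ x, act 31 x = x)
    (hadm : ∀ a ∈ adm, TC.AdmOK act q0 a) :
    ∀ f < 936553, TC.Valid act q0 F f := by
  have h := TC.valid_zero act q0 F h31 f0
  have h := TC.checkDefs_chain act q0 F 1 10000 dfs0 h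
  have h := TC.checkDefs_chain act q0 F 10001 10000 dfs1 h
  have h := TC.checkDefs_chain act q0 F 20001 10000 dfs2 h
  have h := TC.checkDefs_chain act q0 F 30001 10000 dfs3 h
  have h := TC.checkDefs_chain act q0 F 40001 10000 dfs4 h
  have h := TC.checkDefs_chain act q0 F 50001 10000 dfs5 h
  have h := TC.checkDefs_chain act q0 F 60001 10000 dfs6 h
  have h := TC.checkDefs_chain act q0 F 70001 10000 dfs7 h
  have h := TC.checkDefs_chain act q0 F 80001 10000 dfs8 h
  have h := TC.checkDefs_chain act q0 F 90001 10000 dfs9 h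
  have h := TC.checkDefs_chain act q0 F 100001 10000 dfs10 h
  have h := TC.checkDefs_chain act q0 F 110001 10000 dfs11 h
  have h := TC.checkDefs_chain act q0 F 120001 10000 dfs12 h
  have h := TC.checkDefs_chain act q0 F 130001 10000 dfs13 h
  have h := TC.checkDefs_chain act q0 F 140001 10000 dfs14 h
  have h := TC.checkDefs_chain act q0 F 150001 10000 dfs15 h
  have h := TC.checkDefs_chain act q0 F 160001 10000 dfs16 h
  have h := TC.checkDefs_chain act q0 F 170001 10000 dfs17 h
  have h := TC.checkDefs_chain act q0 F 180001 10000 dfs18 h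
  have h := TC.checkDefs_chain act q0 F 190001 10000 dfs19 h
  have h := TC.checkDefs_chain act q0 F 200001 10000 dfs20 h
  have h := TC.checkDefs_chain act q0 F 210001 10000 dfs21 h
  have h := TC.checkDefs_chain act q0 F 220001 10000 dfs22 h
  have h := TC.checkDefs_chain act q0 F 230001 10000 dfs23 h
  have h := TC.checkDefs_chain act q0 F 240001 10000 dfs24 h
  have h := TC.checkDefs_chain act q0 F 250001 10000 dfs25 h
  have h := TC.checkDefs_chain act q0 F 260001 6563 dfs26 h
  have h := TC.checkBlocks_sound act q0 F h31 adm hadm _ 266564 271664 (by norm_num) blk0 h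
  have h := TC.checkBlocks_sound act q0 F h31 adm hadm _ 271664 276764 (by norm_num) blk1 h
  have h := TC.checkBlocks_sound act q0 F h31 adm hadm _ 276764 281877 (by norm_num) blk2 h
  have h := TC.checkBlocks_sound act q0 F h31 adm hadm _ 281877 286977 (by norm_num) blk3 h
  have h := TC.checkBlocks_sound act q0 F h31 adm hadm _ 286977 292077 (by norm_num) blk4 h
  have h := TC.checkBlocks_sound act q0 F h31 adm hadm _ 292077 297177 (by norm_num) blk5 h
  have h := TC.checkBlocks_sound act q0 F h31 adm hadm _ 297177 302277 (by norm_num) blk6 h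
  have h := TC.checkBlocks_sound act q0 F h31 adm hadm _ 302277 307294 (by norm_num) blk7 h
  have h := TC.checkBlocks_sound act q0 F h31 adm hadm _ 307294 312386 (by norm_num) blk8 h
  have h := TC.checkBlocks_sound act q0 F h31 adm hadm _ 312386 317486 (by norm_num) blk9 h
  have h := TC.checkBlocks_sound act q0 F h31 adm hadm _ 317486 322243 (by norm_num) blk10 h
  have h := TC.checkBlocks_sound act q0 F h31 adm hadm _ 322243 326275 (by norm_num) blk11 h
  have h := TC.checkBlocks_sound act q0 F h31 adm hadm _ 326275 329706 (by norm_num) blk12 h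
  have h := TC.checkBlocks_sound act q0 F h31 adm hadm _ 329706 333400 (by norm_num) blk13 h
  have h := TC.checkBlocks_sound act q0 F h31 adm hadm _ 333400 337343 (by norm_num) blk14 h
  have h := TC.checkBlocks_sound act q0 F h31 adm hadm _ 337343 340763 (by norm_num) blk15 h
  have h := TC.checkBlocks_sound act q0 F h31 adm hadm _ 340763 344766 (by norm_num) blk16 h
  have h := TC.checkBlocks_sound act q0 F h31 adm hadm _ 344766 349341 (by norm_num) blk17 h
  have h := TC.checkBlocks_sound act q0 F h31 adm hadm _ 349341 354397 (by norm_num) blk18 h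
  have h := TC.checkBlocks_sound act q0 F h31 adm hadm _ 354397 359497 (by norm_num) blk19 h
  have h := TC.checkBlocks_sound act q0 F h31 adm hadm _ 359497 364562 (by norm_num) blk20 h
  have h := TC.checkBlocks_sound act q0 F h31 adm hadm _ 364562 369607 (by norm_num) blk21 h
  have h := TC.checkBlocks_sound act q0 F h31 adm hadm _ 369607 374707 (by norm_num) blk22 h
  have h := TC.checkBlocks_sound act q0 F h31 adm hadm _ 374707 379832 (by norm_num) blk23 h
  have h := TC.checkBlocks_sound act q0 F h31 adm hadm _ 379832 384922 (by norm_num) blk24 h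
  have h := TC.checkBlocks_sound act q0 F h31 adm hadm _ 384922 389482 (by norm_num) blk25 h
  have h := TC.checkBlocks_sound act q0 F h31 adm hadm _ 389482 392855 (by norm_num) blk26 h
  have h := TC.checkBlocks_sound act q0 F h31 adm hadm _ 392855 397014 (by norm_num) blk27 h
  have h := TC.checkBlocks_sound act q0 F h31 adm hadm _ 397014 401007 (by norm_num) blk28 h
  have h := TC.checkBlocks_sound act q0 F h31 adm hadm _ 401007 405900 (by norm_num) blk29 h
  have h := TC.checkBlocks_sound act q0 F h31 adm hadm _ 405900 410934 (by norm_num) blk30 h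
  have h := TC.checkBlocks_sound act q0 F h31 adm hadm _ 410934 415463 (by norm_num) blk31 h
  have h := TC.checkBlocks_sound act q0 F h31 adm hadm _ 415463 420050 (by norm_num) blk32 h
  have h := TC.checkBlocks_sound act q0 F h31 adm hadm _ 420050 424952 (by norm_num) blk33 h
  have h := TC.checkBlocks_sound act q0 F h31 adm hadm _ 424952 428562 (by norm_num) blk34 h
  have h := TC.checkBlocks_sound act q0 F h31 adm hadm _ 428562 432222 (by norm_num) blk35 h
  have h := TC.checkBlocks_sound act q0 F h31 adm hadm _ 432222 437320 (by norm_num) blk36 h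
  have h := TC.checkBlocks_sound act q0 F h31 adm hadm _ 437320 442368 (by norm_num) blk37 h
  have h := TC.checkBlocks_sound act q0 F h31 adm hadm _ 442368 447126 (by norm_num) blk38 h
  have h := TC.checkBlocks_sound act q0 F h31 adm hadm _ 447126 452092 (by norm_num) blk39 h
  have h := TC.checkBlocks_sound act q0 F h31 adm hadm _ 452092 456478 (by norm_num) blk40 h
  have h := TC.checkBlocks_sound act q0 F h31 adm hadm _ 456478 459799 (by norm_num) blk41 h
  have h := TC.checkBlocks_sound act q0 F h31 adm hadm _ 459799 463357 (by norm_num) blk42 h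
  have h := TC.checkBlocks_sound act q0 F h31 adm hadm _ 463357 468243 (by norm_num) blk43 h
  have h := TC.checkBlocks_sound act q0 F h31 adm hadm _ 468243 472710 (by norm_num) blk44 h
  have h := TC.checkBlocks_sound act q0 F h31 adm hadm _ 472710 476152 (by norm_num) blk45 h
  have h := TC.checkBlocks_sound act q0 F h31 adm hadm _ 476152 480549 (by norm_num) blk46 h
  have h := TC.checkBlocks_sound act q0 F h31 adm hadm _ 480549 484196 (by norm_num) blk47 h
  have h := TC.checkBlocks_sound act q0 F h31 adm hadm _ 484196 488116 (by norm_num) blk48 h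
  have h := TC.checkBlocks_sound act q0 F h31 adm hadm _ 488116 492051 (by norm_num) blk49 h
  have h := TC.checkBlocks_sound act q0 F h31 adm hadm _ 492051 495808 (by norm_num) blk50 h
  have h := TC.checkBlocks_sound act q0 F h31 adm hadm _ 495808 499824 (by norm_num) blk51 h
  have h := TC.checkBlocks_sound act q0 F h31 adm hadm _ 499824 503552 (by norm_num) blk52 h
  have h := TC.checkBlocks_sound act q0 F h31 adm hadm _ 503552 507371 (by norm_num) blk53 h
  have h := TC.checkBlocks_sound act q0 F h31 adm hadm _ 507371 511285 (by norm_num) blk54 h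
  have h := TC.checkBlocks_sound act q0 F h31 adm hadm _ 511285 514874 (by norm_num) blk55 h
  have h := TC.checkBlocks_sound act q0 F h31 adm hadm _ 514874 518752 (by norm_num) blk56 h
  have h := TC.checkBlocks_sound act q0 F h31 adm hadm _ 518752 522351 (by norm_num) blk57 h
  have h := TC.checkBlocks_sound act q0 F h31 adm hadm _ 522351 526233 (by norm_num) blk58 h
  have h := TC.checkBlocks_sound act q0 F h31 adm hadm _ 526233 530099 (by norm_num) blk59 h
  have h := TC.checkBlocks_sound act q0 F h31 adm hadm _ 530099 533669 (by norm_num) blk60 h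
  have h := TC.checkBlocks_sound act q0 F h31 adm hadm _ 533669 537513 (by norm_num) blk61 h
  have h := TC.checkBlocks_sound act q0 F h31 adm hadm _ 537513 541125 (by norm_num) blk62 h
  have h := TC.checkBlocks_sound act q0 F h31 adm hadm _ 541125 544744 (by norm_num) blk63 h
  have h := TC.checkBlocks_sound act q0 F h31 adm hadm _ 544744 548383 (by norm_num) blk64 h
  have h := TC.checkBlocks_sound act q0 F h31 adm hadm _ 548383 551986 (by norm_num) blk65 h
  have h := TC.checkBlocks_sound act q0 F h31 adm hadm _ 551986 555608 (by norm_num) blk66 h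
  have h := TC.checkBlocks_sound act q0 F h31 adm hadm _ 555608 559303 (by norm_num) blk67 h
  have h := TC.checkBlocks_sound act q0 F h31 adm hadm _ 559303 563033 (by norm_num) blk68 h
  have h := TC.checkBlocks_sound act q0 F h31 adm hadm _ 563033 566607 (by norm_num) blk69 h
  have h := TC.checkBlocks_sound act q0 F h31 adm hadm _ 566607 570139 (by norm_num) blk70 h
  have h := TC.checkBlocks_sound act q0 F h31 adm hadm _ 570139 573472 (by norm_num) blk71 h
  have h := TC.checkBlocks_sound act q0 F h31 adm hadm _ 573472 576807 (by norm_num) blk72 h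
  have h := TC.checkBlocks_sound act q0 F h31 adm hadm _ 576807 580290 (by norm_num) blk73 h
  have h := TC.checkBlocks_sound act q0 F h31 adm hadm _ 580290 583591 (by norm_num) blk74 h
  have h := TC.checkBlocks_sound act q0 F h31 adm hadm _ 583591 586767 (by norm_num) blk75 h
  have h := TC.checkBlocks_sound act q0 F h31 adm hadm _ 586767 590191 (by norm_num) blk76 h
  have h := TC.checkBlocks_sound act q0 F h31 adm hadm _ 590191 593824 (by norm_num) blk77 h
  have h := TC.checkBlocks_sound act q0 F h31 adm hadm _ 593824 597356 (by norm_num) blk78 h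
  have h := TC.checkBlocks_sound act q0 F h31 adm hadm _ 597356 600508 (by norm_num) blk79 h
  have h := TC.checkBlocks_sound act q0 F h31 adm hadm _ 600508 603412 (by norm_num) blk80 h
  have h := TC.checkBlocks_sound act q0 F h31 adm hadm _ 603412 606790 (by norm_num) blk81 h
  have h := TC.checkBlocks_sound act q0 F h31 adm hadm _ 606790 610532 (by norm_num) blk82 h
  have h := TC.checkBlocks_sound act q0 F h31 adm hadm _ 610532 613497 (by norm_num) blk83 h
  have h := TC.checkBlocks_sound act q0 F h31 adm hadm _ 613497 616536 (by norm_num) blk84 h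
  have h := TC.checkBlocks_sound act q0 F h31 adm hadm _ 616536 619826 (by norm_num) blk85 h
  have h := TC.checkBlocks_sound act q0 F h31 adm hadm _ 619826 623028 (by norm_num) blk86 h
  have h := TC.checkBlocks_sound act q0 F h31 adm hadm _ 623028 626586 (by norm_num) blk87 h
  have h := TC.checkBlocks_sound act q0 F h31 adm hadm _ 626586 629434 (by norm_num) blk88 h
  have h := TC.checkBlocks_sound act q0 F h31 adm hadm _ 629434 632785 (by norm_num) blk89 h
  have h := TC.checkBlocks_sound act q0 F h31 adm hadm _ 632785 635996 (by norm_num) blk90 h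
  have h := TC.checkBlocks_sound act q0 F h31 adm hadm _ 635996 639236 (by norm_num) blk91 h
  have h := TC.checkBlocks_sound act q0 F h31 adm hadm _ 639236 642288 (by norm_num) blk92 h
  have h := TC.checkBlocks_sound act q0 F h31 adm hadm _ 642288 645274 (by norm_num) blk93 h
  have h := TC.checkBlocks_sound act q0 F h31 adm hadm _ 645274 648546 (by norm_num) blk94 h
  have h := TC.checkBlocks_sound act q0 F h31 adm hadm _ 648546 651626 (by norm_num) blk95 h
  have h := TC.checkBlocks_sound act q0 F h31 adm hadm _ 651626 654989 (by norm_num) blk96 h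
  have h := TC.checkBlocks_sound act q0 F h31 adm hadm _ 654989 658095 (by norm_num) blk97 h
  have h := TC.checkBlocks_sound act q0 F h31 adm hadm _ 658095 661317 (by norm_num) blk98 h
  have h := TC.checkBlocks_sound act q0 F h31 adm hadm _ 661317 664605 (by norm_num) blk99 h
  have h := TC.checkBlocks_sound act q0 F h31 adm hadm _ 664605 667893 (by norm_num) blk100 h
  have h := TC.checkBlocks_sound act q0 F h31 adm hadm _ 667893 670716 (by norm_num) blk101 h
  have h := TC.checkBlocks_sound act q0 F h31 adm hadm _ 670716 674020 (by norm_num) blk102 h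
  have h := TC.checkBlocks_sound act q0 F h31 adm hadm _ 674020 676923 (by norm_num) blk103 h
  have h := TC.checkBlocks_sound act q0 F h31 adm hadm _ 676923 680145 (by norm_num) blk104 h
  have h := TC.checkBlocks_sound act q0 F h31 adm hadm _ 680145 683611 (by norm_num) blk105 h
  have h := TC.checkBlocks_sound act q0 F h31 adm hadm _ 683611 686343 (by norm_num) blk106 h
  have h := TC.checkBlocks_sound act q0 F h31 adm hadm _ 686343 689490 (by norm_num) blk107 h
  have h := TC.checkBlocks_sound act q0 F h31 adm hadm _ 689490 692455 (by norm_num) blk108 h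
  have h := TC.checkBlocks_sound act q0 F h31 adm hadm _ 692455 695644 (by norm_num) blk109 h
  have h := TC.checkBlocks_sound act q0 F h31 adm hadm _ 695644 699110 (by norm_num) blk110 h
  have h := TC.checkBlocks_sound act q0 F h31 adm hadm _ 699110 702135 (by norm_num) blk111 h
  have h := TC.checkBlocks_sound act q0 F h31 adm hadm _ 702135 705039 (by norm_num) blk112 h
  have h := TC.checkBlocks_sound act q0 F h31 adm hadm _ 705039 707742 (by norm_num) blk113 h
  have h := TC.checkBlocks_sound act q0 F h31 adm hadm _ 707742 710645 (by norm_num) blk114 h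
  have h := TC.checkBlocks_sound act q0 F h31 adm hadm _ 710645 713876 (by norm_num) blk115 h
  have h := TC.checkBlocks_sound act q0 F h31 adm hadm _ 713876 716936 (by norm_num) blk116 h
  have h := TC.checkBlocks_sound act q0 F h31 adm hadm _ 716936 720332 (by norm_num) blk117 h
  have h := TC.checkBlocks_sound act q0 F h31 adm hadm _ 720332 723191 (by norm_num) blk118 h
  have h := TC.checkBlocks_sound act q0 F h31 adm hadm _ 723191 725833 (by norm_num) blk119 h
  have h := TC.checkBlocks_sound act q0 F h31 adm hadm _ 725833 728838 (by norm_num) blk120 h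
  have h := TC.checkBlocks_sound act q0 F h31 adm hadm _ 728838 731873 (by norm_num) blk121 h
  have h := TC.checkBlocks_sound act q0 F h31 adm hadm _ 731873 735116 (by norm_num) blk122 h
  have h := TC.checkBlocks_sound act q0 F h31 adm hadm _ 735116 737778 (by norm_num) blk123 h
  have h := TC.checkBlocks_sound act q0 F h31 adm hadm _ 737778 741047 (by norm_num) blk124 h
  have h := TC.checkBlocks_sound act q0 F h31 adm hadm _ 741047 744400 (by norm_num) blk125 h
  have h := TC.checkBlocks_sound act q0 F h31 adm hadm _ 744400 747413 (by norm_num) blk126 h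
  have h := TC.checkBlocks_sound act q0 F h31 adm hadm _ 747413 750133 (by norm_num) blk127 h
  have h := TC.checkBlocks_sound act q0 F h31 adm hadm _ 750133 752402 (by norm_num) blk128 h
  have h := TC.checkBlocks_sound act q0 F h31 adm hadm _ 752402 755765 (by norm_num) blk129 h
  have h := TC.checkBlocks_sound act q0 F h31 adm hadm _ 755765 759044 (by norm_num) blk130 h
  have h := TC.checkBlocks_sound act q0 F h31 adm hadm _ 759044 761919 (by norm_num) blk131 h
  have h := TC.checkBlocks_sound act q0 F h31 adm hadm _ 761919 764626 (by norm_num) blk132 h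
  have h := TC.checkBlocks_sound act q0 F h31 adm hadm _ 764626 767692 (by norm_num) blk133 h
  have h := TC.checkBlocks_sound act q0 F h31 adm hadm _ 767692 770708 (by norm_num) blk134 h
  have h := TC.checkBlocks_sound act q0 F h31 adm hadm _ 770708 773172 (by norm_num) blk135 h
  have h := TC.checkBlocks_sound act q0 F h31 adm hadm _ 773172 776098 (by norm_num) blk136 h
  have h := TC.checkBlocks_sound act q0 F h31 adm hadm _ 776098 779165 (by norm_num) blk137 h
  have h := TC.checkBlocks_sound act q0 F h31 adm hadm _ 779165 781697 (by norm_num) blk138 h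
  have h := TC.checkBlocks_sound act q0 F h31 adm hadm _ 781697 784887 (by norm_num) blk139 h
  have h := TC.checkBlocks_sound act q0 F h31 adm hadm _ 784887 787697 (by norm_num) blk140 h
  have h := TC.checkBlocks_sound act q0 F h31 adm hadm _ 787697 790009 (by norm_num) blk141 h
  have h := TC.checkBlocks_sound act q0 F h31 adm hadm _ 790009 792613 (by norm_num) blk142 h
  have h := TC.checkBlocks_sound act q0 F h31 adm hadm _ 792613 795320 (by norm_num) blk143 h
  have h := TC.checkBlocks_sound act q0 F h31 adm hadm _ 795320 798783 (by norm_num) blk144 h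
  have h := TC.checkBlocks_sound act q0 F h31 adm hadm _ 798783 802465 (by norm_num) blk145 h
  have h := TC.checkBlocks_sound act q0 F h31 adm hadm _ 802465 805117 (by norm_num) blk146 h
  have h := TC.checkBlocks_sound act q0 F h31 adm hadm _ 805117 807799 (by norm_num) blk147 h
  have h := TC.checkBlocks_sound act q0 F h31 adm hadm _ 807799 810383 (by norm_num) blk148 h
  have h := TC.checkBlocks_sound act q0 F h31 adm hadm _ 810383 813154 (by norm_num) blk149 h
  have h := TC.checkBlocks_sound act q0 F h31 adm hadm _ 813154 815558 (by norm_num) blk150 h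
  have h := TC.checkBlocks_sound act q0 F h31 adm hadm _ 815558 817816 (by norm_num) blk151 h
  have h := TC.checkBlocks_sound act q0 F h31 adm hadm _ 817816 820774 (by norm_num) blk152 h
  have h := TC.checkBlocks_sound act q0 F h31 adm hadm _ 820774 823850 (by norm_num) blk153 h
  have h := TC.checkBlocks_sound act q0 F h31 adm hadm _ 823850 826644 (by norm_num) blk154 h
  have h := TC.checkBlocks_sound act q0 F h31 adm hadm _ 826644 829611 (by norm_num) blk155 h
  have h := TC.checkBlocks_sound act q0 F h31 adm hadm _ 829611 832031 (by norm_num) blk156 h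
  have h := TC.checkBlocks_sound act q0 F h31 adm hadm _ 832031 835197 (by norm_num) blk157 h
  have h := TC.checkBlocks_sound act q0 F h31 adm hadm _ 835197 837607 (by norm_num) blk158 h
  have h := TC.checkBlocks_sound act q0 F h31 adm hadm _ 837607 840048 (by norm_num) blk159 h
  have h := TC.checkBlocks_sound act q0 F h31 adm hadm _ 840048 843166 (by norm_num) blk160 h
  have h := TC.checkBlocks_sound act q0 F h31 adm hadm _ 843166 845119 (by norm_num) blk161 h
  have h := TC.checkBlocks_sound act q0 F h31 adm hadm _ 845119 848016 (by norm_num) blk162 h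
  have h := TC.checkBlocks_sound act q0 F h31 adm hadm _ 848016 850450 (by norm_num) blk163 h
  have h := TC.checkBlocks_sound act q0 F h31 adm hadm _ 850450 852896 (by norm_num) blk164 h
  have h := TC.checkBlocks_sound act q0 F h31 adm hadm _ 852896 855417 (by norm_num) blk165 h
  have h := TC.checkBlocks_sound act q0 F h31 adm hadm _ 855417 858162 (by norm_num) blk166 h
  have h := TC.checkBlocks_sound act q0 F h31 adm hadm _ 858162 860979 (by norm_num) blk167 h
  have h := TC.checkBlocks_sound act q0 F h31 adm hadm _ 860979 863515 (by norm_num) blk168 h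
  have h := TC.checkBlocks_sound act q0 F h31 adm hadm _ 863515 866237 (by norm_num) blk169 h
  have h := TC.checkBlocks_sound act q0 F h31 adm hadm _ 866237 868454 (by norm_num) blk170 h
  have h := TC.checkBlocks_sound act q0 F h31 adm hadm _ 868454 871133 (by norm_num) blk171 h
  have h := TC.checkBlocks_sound act q0 F h31 adm hadm _ 871133 873136 (by norm_num) blk172 h
  have h := TC.checkBlocks_sound act q0 F h31 adm hadm _ 873136 876131 (by norm_num) blk173 h
  have h := TC.checkBlocks_sound act q0 F h31 adm hadm _ 876131 878790 (by norm_num) blk174 h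
  have h := TC.checkBlocks_sound act q0 F h31 adm hadm _ 878790 881273 (by norm_num) blk175 h
  have h := TC.checkBlocks_sound act q0 F h31 adm hadm _ 881273 883684 (by norm_num) blk176 h
  have h := TC.checkBlocks_sound act q0 F h31 adm hadm _ 883684 885868 (by norm_num) blk177 h
  have h := TC.checkBlocks_sound act q0 F h31 adm hadm _ 885868 888505 (by norm_num) blk178 h
  have h := TC.checkBlocks_sound act q0 F h31 adm hadm _ 888505 890711 (by norm_num) blk179 h
  have h := TC.checkBlocks_sound act q0 F h31 adm hadm _ 890711 893017 (by norm_num) blk180 h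
  have h := TC.checkBlocks_sound act q0 F h31 adm hadm _ 893017 895186 (by norm_num) blk181 h
  have h := TC.checkBlocks_sound act q0 F h31 adm hadm _ 895186 897664 (by norm_num) blk182 h
  have h := TC.checkBlocks_sound act q0 F h31 adm hadm _ 897664 900609 (by norm_num) blk183 h
  have h := TC.checkBlocks_sound act q0 F h31 adm hadm _ 900609 903003 (by norm_num) blk184 h
  have h := TC.checkBlocks_sound act q0 F h31 adm hadm _ 903003 905071 (by norm_num) blk185 h
  have h := TC.checkBlocks_sound act q0 F h31 adm hadm _ 905071 907133 (by norm_num) blk186 h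
  have h := TC.checkBlocks_sound act q0 F h31 adm hadm _ 907133 909358 (by norm_num) blk187 h
  have h := TC.checkBlocks_sound act q0 F h31 adm hadm _ 909358 911770 (by norm_num) blk188 h
  have h := TC.checkBlocks_sound act q0 F h31 adm hadm _ 911770 913948 (by norm_num) blk189 h
  have h := TC.checkBlocks_sound act q0 F h31 adm hadm _ 913948 916532 (by norm_num) blk190 h
  have h := TC.checkBlocks_sound act q0 F h31 adm hadm _ 916532 918774 (by norm_num) blk191 h
  have h := TC.checkBlocks_sound act q0 F h31 adm hadm _ 918774 920995 (by norm_num) blk192 h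
  have h := TC.checkBlocks_sound act q0 F h31 adm hadm _ 920995 923247 (by norm_num) blk193 h
  have h := TC.checkBlocks_sound act q0 F h31 adm hadm _ 923247 925322 (by norm_num) blk194 h
  have h := TC.checkBlocks_sound act q0 F h31 adm hadm _ 925322 927603 (by norm_num) blk195 h
  have h := TC.checkBlocks_sound act q0 F h31 adm hadm _ 927603 929835 (by norm_num) blk196 h
  have h := TC.checkBlocks_sound act q0 F h31 adm hadm _ 929835 931988 (by norm_num) blk197 h
  have h := TC.checkBlocks_sound act q0 F h31 adm hadm _ 931988 934056 (by norm_num) blk198 h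
  have h := TC.checkBlocks_sound act q0 F h31 adm hadm _ 934056 936270 (by norm_num) blk199 h
  have h := TC.checkBlocks_sound act q0 F h31 adm hadm _ 936270 936553 (by norm_num) blk200 h
  exact h

theorem closed {Q : Type*} (act : ℕ → Q → Q) (q0 : Q) (h31 : ∀ x, act 31 x = x)
    (hadm : ∀ a ∈ adm, TC.AdmOK act q0 a) (hl : ∀ e ∈ letters, TC.PairOK act e) :
    ∀ e ∈ letters, ∀ u < 266560, ∃ v ≤ 266559, act e.1 (TC.kap act q0 F u) = TC.kap act q0 F v := by
  have hV : ∀ d, d ≤ 1873105 → TC.Valid act q0 F (d / 2) := fun d hd => valid act q0 h31 hadm _ (by omega)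
  intro e he
  have hp := hl e he
  simp only [letters, List.mem_cons, List.mem_nil_iff, or_false] at he
  rcases he with rfl | rfl | rfl | rfl | rfl | rfl | rfl
  · have h : ∀ u < 0, ∃ v ≤ 266559, act ((0, 0) : ℕ × ℕ).1 (TC.kap act q0 F u) = TC.kap act q0 F v := fun u hu => absurd hu (Nat.not_lt_zero u)
    have h := (TC.checkCL_sound act q0 F _ _ _ hp hV _ 0 10000 (by norm_num) cmp0_0 h).2
    have h := (TC.checkCL_sound act q0 F _ _ _ hp hV _ 10000 20000 (by norm_num) cmp0_1 h).2
    have h := (TC.checkCL_sound act q0 F _ _ _ hp hV _ 20000 30000 (by norm_num) cmp0_2 h).2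
    have h := (TC.checkCL_sound act q0 F _ _ _ hp hV _ 30000 40000 (by norm_num) cmp0_3 h).2
    have h := (TC.checkCL_sound act q0 F _ _ _ hp hV _ 40000 50000 (by norm_num) cmp0_4 h).2
    have h := (TC.checkCL_sound act q0 F _ _ _ hp hV _ 50000 60000 (by norm_num) cmp0_5 h).2
    have h := (TC.checkCL_sound act q0 F _ _ _ hp hV _ 60000 70000 (by norm_num) cmp0_6 h).2
    have h := (TC.checkCL_sound act q0 F _ _ _ hp hV _ 70000 80000 (by norm_num) cmp0_7 h).2
    have h := (TC.checkCL_sound act q0 F _ _ _ hp hV _ 80000 90000 (by norm_num) cmp0_8 h).2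
    have h := (TC.checkCL_sound act q0 F _ _ _ hp hV _ 90000 100000 (by norm_num) cmp0_9 h).2
    have h := (TC.checkCL_sound act q0 F _ _ _ hp hV _ 100000 110000 (by norm_num) cmp0_10 h).2
    have h := (TC.checkCL_sound act q0 F _ _ _ hp hV _ 110000 120000 (by norm_num) cmp0_11 h).2
    have h := (TC.checkCL_sound act q0 F _ _ _ hp hV _ 120000 130000 (by norm_num) cmp0_12 h).2
    have h := (TC.checkCL_sound act q0 F _ _ _ hp hV _ 130000 140000 (by norm_num) cmp0_13 h).2
    have h := (TC.checkCL_sound act q0 F _ _ _ hp hV _ 140000 150000 (by norm_num) cmp0_14 h).2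
    have h := (TC.checkCL_sound act q0 F _ _ _ hp hV _ 150000 160000 (by norm_num) cmp0_15 h).2
    have h := (TC.checkCL_sound act q0 F _ _ _ hp hV _ 160000 170000 (by norm_num) cmp0_16 h).2
    have h := (TC.checkCL_sound act q0 F _ _ _ hp hV _ 170000 180000 (by norm_num) cmp0_17 h).2
    have h := (TC.checkCL_sound act q0 F _ _ _ hp hV _ 180000 190000 (by norm_num) cmp0_18 h).2
    have h := (TC.checkCL_sound act q0 F _ _ _ hp hV _ 190000 200000 (by norm_num) cmp0_19 h).2
    have h := (TC.checkCL_sound act q0 F _ _ _ hp hV _ 200000 210000 (by norm_num) cmp0_20 h).2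
    have h := (TC.checkCL_sound act q0 F _ _ _ hp hV _ 210000 220000 (by norm_num) cmp0_21 h).2
    have h := (TC.checkCL_sound act q0 F _ _ _ hp hV _ 220000 230000 (by norm_num) cmp0_22 h).2
    have h := (TC.checkCL_sound act q0 F _ _ _ hp hV _ 230000 240000 (by norm_num) cmp0_23 h).2
    have h := (TC.checkCL_sound act q0 F _ _ _ hp hV _ 240000 250000 (by norm_num) cmp0_24 h).2
    have h := (TC.checkCL_sound act q0 F _ _ _ hp hV _ 250000 260000 (by norm_num) cmp0_25 h).2
    have h := (TC.checkCL_sound act q0 F _ _ _ hp hV _ 260000 266560 (by norm_num) cmp0_26 h).2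
    exact h
  · have h : ∀ u < 0, ∃ v ≤ 266559, act ((2, 2097152) : ℕ × ℕ).1 (TC.kap act q0 F u) = TC.kap act q0 F v := fun u hu => absurd hu (Nat.not_lt_zero u)
    have h := (TC.checkCL_sound act q0 F _ _ _ hp hV _ 0 10000 (by norm_num) cmp1_0 h).2
    have h := (TC.checkCL_sound act q0 F _ _ _ hp hV _ 10000 20000 (by norm_num) cmp1_1 h).2
    have h := (TC.checkCL_sound act q0 F _ _ _ hp hV _ 20000 30000 (by norm_num) cmp1_2 h).2
    have h := (TC.checkCL_sound act q0 F _ _ _ hp hV _ 30000 40000 (by norm_num) cmp1_3 h).2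
    have h := (TC.checkCL_sound act q0 F _ _ _ hp hV _ 40000 50000 (by norm_num) cmp1_4 h).2
    have h := (TC.checkCL_sound act q0 F _ _ _ hp hV _ 50000 60000 (by norm_num) cmp1_5 h).2
    have h := (TC.checkCL_sound act q0 F _ _ _ hp hV _ 60000 70000 (by norm_num) cmp1_6 h).2
    have h := (TC.checkCL_sound act q0 F _ _ _ hp hV _ 70000 80000 (by norm_num) cmp1_7 h).2
    have h := (TC.checkCL_sound act q0 F _ _ _ hp hV _ 80000 90000 (by norm_num) cmp1_8 h).2
    have h := (TC.checkCL_sound act q0 F _ _ _ hp hV _ 90000 100000 (by norm_num) cmp1_9 h).2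
    have h := (TC.checkCL_sound act q0 F _ _ _ hp hV _ 100000 110000 (by norm_num) cmp1_10 h).2
    have h := (TC.checkCL_sound act q0 F _ _ _ hp hV _ 110000 120000 (by norm_num) cmp1_11 h).2
    have h := (TC.checkCL_sound act q0 F _ _ _ hp hV _ 120000 130000 (by norm_num) cmp1_12 h).2
    have h := (TC.checkCL_sound act q0 F _ _ _ hp hV _ 130000 140000 (by norm_num) cmp1_13 h).2
    have h := (TC.checkCL_sound act q0 F _ _ _ hp hV _ 140000 150000 (by norm_num) cmp1_14 h).2
    have h := (TC.checkCL_sound act q0 F _ _ _ hp hV _ 150000 160000 (by norm_num) cmp1_15 h).2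
    have h := (TC.checkCL_sound act q0 F _ _ _ hp hV _ 160000 170000 (by norm_num) cmp1_16 h).2
    have h := (TC.checkCL_sound act q0 F _ _ _ hp hV _ 170000 180000 (by norm_num) cmp1_17 h).2
    have h := (TC.checkCL_sound act q0 F _ _ _ hp hV _ 180000 190000 (by norm_num) cmp1_18 h).2
    have h := (TC.checkCL_sound act q0 F _ _ _ hp hV _ 190000 200000 (by norm_num) cmp1_19 h).2
    have h := (TC.checkCL_sound act q0 F _ _ _ hp hV _ 200000 210000 (by norm_num) cmp1_20 h).2
    have h := (TC.checkCL_sound act q0 F _ _ _ hp hV _ 210000 220000 (by norm_num) cmp1_21 h).2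
    have h := (TC.checkCL_sound act q0 F _ _ _ hp hV _ 220000 230000 (by norm_num) cmp1_22 h).2
    have h := (TC.checkCL_sound act q0 F _ _ _ hp hV _ 230000 240000 (by norm_num) cmp1_23 h).2
    have h := (TC.checkCL_sound act q0 F _ _ _ hp hV _ 240000 250000 (by norm_num) cmp1_24 h).2
    have h := (TC.checkCL_sound act q0 F _ _ _ hp hV _ 250000 260000 (by norm_num) cmp1_25 h).2
    have h := (TC.checkCL_sound act q0 F _ _ _ hp hV _ 260000 266560 (by norm_num) cmp1_26 h).2
    exact h
  · have h : ∀ u < 0, ∃ v ≤ 266559, act ((4, 4194304) : ℕ × ℕ).1 (TC.kap act q0 F u) = TC.kap act q0 F v := fun u hu => absurd hu (Nat.not_lt_zero u)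
    have h := (TC.checkCL_sound act q0 F _ _ _ hp hV _ 0 10000 (by norm_num) cmp2_0 h).2
    have h := (TC.checkCL_sound act q0 F _ _ _ hp hV _ 10000 20000 (by norm_num) cmp2_1 h).2
    have h := (TC.checkCL_sound act q0 F _ _ _ hp hV _ 20000 30000 (by norm_num) cmp2_2 h).2
    have h := (TC.checkCL_sound act q0 F _ _ _ hp hV _ 30000 40000 (by norm_num) cmp2_3 h).2
    have h := (TC.checkCL_sound act q0 F _ _ _ hp hV _ 40000 50000 (by norm_num) cmp2_4 h).2
    have h := (TC.checkCL_sound act q0 F _ _ _ hp hV _ 50000 60000 (by norm_num) cmp2_5 h).2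
    have h := (TC.checkCL_sound act q0 F _ _ _ hp hV _ 60000 70000 (by norm_num) cmp2_6 h).2
    have h := (TC.checkCL_sound act q0 F _ _ _ hp hV _ 70000 80000 (by norm_num) cmp2_7 h).2
    have h := (TC.checkCL_sound act q0 F _ _ _ hp hV _ 80000 90000 (by norm_num) cmp2_8 h).2
    have h := (TC.checkCL_sound act q0 F _ _ _ hp hV _ 90000 100000 (by norm_num) cmp2_9 h).2
    have h := (TC.checkCL_sound act q0 F _ _ _ hp hV _ 100000 110000 (by norm_num) cmp2_10 h).2
    have h := (TC.checkCL_sound act q0 F _ _ _ hp hV _ 110000 120000 (by norm_num) cmp2_11 h).2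
    have h := (TC.checkCL_sound act q0 F _ _ _ hp hV _ 120000 130000 (by norm_num) cmp2_12 h).2
    have h := (TC.checkCL_sound act q0 F _ _ _ hp hV _ 130000 140000 (by norm_num) cmp2_13 h).2
    have h := (TC.checkCL_sound act q0 F _ _ _ hp hV _ 140000 150000 (by norm_num) cmp2_14 h).2
    have h := (TC.checkCL_sound act q0 F _ _ _ hp hV _ 150000 160000 (by norm_num) cmp2_15 h).2
    have h := (TC.checkCL_sound act q0 F _ _ _ hp hV _ 160000 170000 (by norm_num) cmp2_16 h).2
    have h := (TC.checkCL_sound act q0 F _ _ _ hp hV _ 170000 180000 (by norm_num) cmp2_17 h).2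
    have h := (TC.checkCL_sound act q0 F _ _ _ hp hV _ 180000 190000 (by norm_num) cmp2_18 h).2
    have h := (TC.checkCL_sound act q0 F _ _ _ hp hV _ 190000 200000 (by norm_num) cmp2_19 h).2
    have h := (TC.checkCL_sound act q0 F _ _ _ hp hV _ 200000 210000 (by norm_num) cmp2_20 h).2
    have h := (TC.checkCL_sound act q0 F _ _ _ hp hV _ 210000 220000 (by norm_num) cmp2_21 h).2
    have h := (TC.checkCL_sound act q0 F _ _ _ hp hV _ 220000 230000 (by norm_num) cmp2_22 h).2
    have h := (TC.checkCL_sound act q0 F _ _ _ hp hV _ 230000 240000 (by norm_num) cmp2_23 h).2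
    have h := (TC.checkCL_sound act q0 F _ _ _ hp hV _ 240000 250000 (by norm_num) cmp2_24 h).2
    have h := (TC.checkCL_sound act q0 F _ _ _ hp hV _ 250000 260000 (by norm_num) cmp2_25 h).2
    have h := (TC.checkCL_sound act q0 F _ _ _ hp hV _ 260000 266560 (by norm_num) cmp2_26 h).2
    exact h
  · have h : ∀ u < 0, ∃ v ≤ 266559, act ((6, 6291456) : ℕ × ℕ).1 (TC.kap act q0 F u) = TC.kap act q0 F v := fun u hu => absurd hu (Nat.not_lt_zero u)
    have h := (TC.checkCL_sound act q0 F _ _ _ hp hV _ 0 10000 (by norm_num) cmp3_0 h).2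
    have h := (TC.checkCL_sound act q0 F _ _ _ hp hV _ 10000 20000 (by norm_num) cmp3_1 h).2
    have h := (TC.checkCL_sound act q0 F _ _ _ hp hV _ 20000 30000 (by norm_num) cmp3_2 h).2
    have h := (TC.checkCL_sound act q0 F _ _ _ hp hV _ 30000 40000 (by norm_num) cmp3_3 h).2
    have h := (TC.checkCL_sound act q0 F _ _ _ hp hV _ 40000 50000 (by norm_num) cmp3_4 h).2
    have h := (TC.checkCL_sound act q0 F _ _ _ hp hV _ 50000 60000 (by norm_num) cmp3_5 h).2
    have h := (TC.checkCL_sound act q0 F _ _ _ hp hV _ 60000 70000 (by norm_num) cmp3_6 h).2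
    have h := (TC.checkCL_sound act q0 F _ _ _ hp hV _ 70000 80000 (by norm_num) cmp3_7 h).2
    have h := (TC.checkCL_sound act q0 F _ _ _ hp hV _ 80000 90000 (by norm_num) cmp3_8 h).2
    have h := (TC.checkCL_sound act q0 F _ _ _ hp hV _ 90000 100000 (by norm_num) cmp3_9 h).2
    have h := (TC.checkCL_sound act q0 F _ _ _ hp hV _ 100000 110000 (by norm_num) cmp3_10 h).2
    have h := (TC.checkCL_sound act q0 F _ _ _ hp hV _ 110000 120000 (by norm_num) cmp3_11 h).2
    have h := (TC.checkCL_sound act q0 F _ _ _ hp hV _ 120000 130000 (by norm_num) cmp3_12 h).2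
    have h := (TC.checkCL_sound act q0 F _ _ _ hp hV _ 130000 140000 (by norm_num) cmp3_13 h).2
    have h := (TC.checkCL_sound act q0 F _ _ _ hp hV _ 140000 150000 (by norm_num) cmp3_14 h).2
    have h := (TC.checkCL_sound act q0 F _ _ _ hp hV _ 150000 160000 (by norm_num) cmp3_15 h).2
    have h := (TC.checkCL_sound act q0 F _ _ _ hp hV _ 160000 170000 (by norm_num) cmp3_16 h).2
    have h := (TC.checkCL_sound act q0 F _ _ _ hp hV _ 170000 180000 (by norm_num) cmp3_17 h).2
    have h := (TC.checkCL_sound act q0 F _ _ _ hp hV _ 180000 190000 (by norm_num) cmp3_18 h).2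
    have h := (TC.checkCL_sound act q0 F _ _ _ hp hV _ 190000 200000 (by norm_num) cmp3_19 h).2
    have h := (TC.checkCL_sound act q0 F _ _ _ hp hV _ 200000 210000 (by norm_num) cmp3_20 h).2
    have h := (TC.checkCL_sound act q0 F _ _ _ hp hV _ 210000 220000 (by norm_num) cmp3_21 h).2
    have h := (TC.checkCL_sound act q0 F _ _ _ hp hV _ 220000 230000 (by norm_num) cmp3_22 h).2
    have h := (TC.checkCL_sound act q0 F _ _ _ hp hV _ 230000 240000 (by norm_num) cmp3_23 h).2
    have h := (TC.checkCL_sound act q0 F _ _ _ hp hV _ 240000 250000 (by norm_num) cmp3_24 h).2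
    have h := (TC.checkCL_sound act q0 F _ _ _ hp hV _ 250000 260000 (by norm_num) cmp3_25 h).2
    have h := (TC.checkCL_sound act q0 F _ _ _ hp hV _ 260000 266560 (by norm_num) cmp3_26 h).2
    exact h
  · have h : ∀ u < 0, ∃ v ≤ 266559, act ((8, 8388608) : ℕ × ℕ).1 (TC.kap act q0 F u) = TC.kap act q0 F v := fun u hu => absurd hu (Nat.not_lt_zero u)
    have h := (TC.checkCL_sound act q0 F _ _ _ hp hV _ 0 10000 (by norm_num) cmp4_0 h).2
    have h := (TC.checkCL_sound act q0 F _ _ _ hp hV _ 10000 20000 (by norm_num) cmp4_1 h).2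
    have h := (TC.checkCL_sound act q0 F _ _ _ hp hV _ 20000 30000 (by norm_num) cmp4_2 h).2
    have h := (TC.checkCL_sound act q0 F _ _ _ hp hV _ 30000 40000 (by norm_num) cmp4_3 h).2
    have h := (TC.checkCL_sound act q0 F _ _ _ hp hV _ 40000 50000 (by norm_num) cmp4_4 h).2
    have h := (TC.checkCL_sound act q0 F _ _ _ hp hV _ 50000 60000 (by norm_num) cmp4_5 h).2
    have h := (TC.checkCL_sound act q0 F _ _ _ hp hV _ 60000 70000 (by norm_num) cmp4_6 h).2
    have h := (TC.checkCL_sound act q0 F _ _ _ hp hV _ 70000 80000 (by norm_num) cmp4_7 h).2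
    have h := (TC.checkCL_sound act q0 F _ _ _ hp hV _ 80000 90000 (by norm_num) cmp4_8 h).2
    have h := (TC.checkCL_sound act q0 F _ _ _ hp hV _ 90000 100000 (by norm_num) cmp4_9 h).2
    have h := (TC.checkCL_sound act q0 F _ _ _ hp hV _ 100000 110000 (by norm_num) cmp4_10 h).2
    have h := (TC.checkCL_sound act q0 F _ _ _ hp hV _ 110000 120000 (by norm_num) cmp4_11 h).2
    have h := (TC.checkCL_sound act q0 F _ _ _ hp hV _ 120000 130000 (by norm_num) cmp4_12 h).2
    have h := (TC.checkCL_sound act q0 F _ _ _ hp hV _ 130000 140000 (by norm_num) cmp4_13 h).2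
    have h := (TC.checkCL_sound act q0 F _ _ _ hp hV _ 140000 150000 (by norm_num) cmp4_14 h).2
    have h := (TC.checkCL_sound act q0 F _ _ _ hp hV _ 150000 160000 (by norm_num) cmp4_15 h).2
    have h := (TC.checkCL_sound act q0 F _ _ _ hp hV _ 160000 170000 (by norm_num) cmp4_16 h).2
    have h := (TC.checkCL_sound act q0 F _ _ _ hp hV _ 170000 180000 (by norm_num) cmp4_17 h).2
    have h := (TC.checkCL_sound act q0 F _ _ _ hp hV _ 180000 190000 (by norm_num) cmp4_18 h).2
    have h := (TC.checkCL_sound act q0 F _ _ _ hp hV _ 190000 200000 (by norm_num) cmp4_19 h).2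
    have h := (TC.checkCL_sound act q0 F _ _ _ hp hV _ 200000 210000 (by norm_num) cmp4_20 h).2
    have h := (TC.checkCL_sound act q0 F _ _ _ hp hV _ 210000 220000 (by norm_num) cmp4_21 h).2
    have h := (TC.checkCL_sound act q0 F _ _ _ hp hV _ 220000 230000 (by norm_num) cmp4_22 h).2
    have h := (TC.checkCL_sound act q0 F _ _ _ hp hV _ 230000 240000 (by norm_num) cmp4_23 h).2
    have h := (TC.checkCL_sound act q0 F _ _ _ hp hV _ 240000 250000 (by norm_num) cmp4_24 h).2
    have h := (TC.checkCL_sound act q0 F _ _ _ hp hV _ 250000 260000 (by norm_num) cmp4_25 h).2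
    have h := (TC.checkCL_sound act q0 F _ _ _ hp hV _ 260000 266560 (by norm_num) cmp4_26 h).2
    exact h
  · have h : ∀ u < 0, ∃ v ≤ 266559, act ((10, 10485760) : ℕ × ℕ).1 (TC.kap act q0 F u) = TC.kap act q0 F v := fun u hu => absurd hu (Nat.not_lt_zero u)
    have h := (TC.checkCL_sound act q0 F _ _ _ hp hV _ 0 10000 (by norm_num) cmp5_0 h).2
    have h := (TC.checkCL_sound act q0 F _ _ _ hp hV _ 10000 20000 (by norm_num) cmp5_1 h).2
    have h := (TC.checkCL_sound act q0 F _ _ _ hp hV _ 20000 30000 (by norm_num) cmp5_2 h).2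
    have h := (TC.checkCL_sound act q0 F _ _ _ hp hV _ 30000 40000 (by norm_num) cmp5_3 h).2
    have h := (TC.checkCL_sound act q0 F _ _ _ hp hV _ 40000 50000 (by norm_num) cmp5_4 h).2
    have h := (TC.checkCL_sound act q0 F _ _ _ hp hV _ 50000 60000 (by norm_num) cmp5_5 h).2
    have h := (TC.checkCL_sound act q0 F _ _ _ hp hV _ 60000 70000 (by norm_num) cmp5_6 h).2
    have h := (TC.checkCL_sound act q0 F _ _ _ hp hV _ 70000 80000 (by norm_num) cmp5_7 h).2
    have h := (TC.checkCL_sound act q0 F _ _ _ hp hV _ 80000 90000 (by norm_num) cmp5_8 h).2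
    have h := (TC.checkCL_sound act q0 F _ _ _ hp hV _ 90000 100000 (by norm_num) cmp5_9 h).2
    have h := (TC.checkCL_sound act q0 F _ _ _ hp hV _ 100000 110000 (by norm_num) cmp5_10 h).2
    have h := (TC.checkCL_sound act q0 F _ _ _ hp hV _ 110000 120000 (by norm_num) cmp5_11 h).2
    have h := (TC.checkCL_sound act q0 F _ _ _ hp hV _ 120000 130000 (by norm_num) cmp5_12 h).2
    have h := (TC.checkCL_sound act q0 F _ _ _ hp hV _ 130000 140000 (by norm_num) cmp5_13 h).2
    have h := (TC.checkCL_sound act q0 F _ _ _ hp hV _ 140000 150000 (by norm_num) cmp5_14 h).2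
    have h := (TC.checkCL_sound act q0 F _ _ _ hp hV _ 150000 160000 (by norm_num) cmp5_15 h).2
    have h := (TC.checkCL_sound act q0 F _ _ _ hp hV _ 160000 170000 (by norm_num) cmp5_16 h).2
    have h := (TC.checkCL_sound act q0 F _ _ _ hp hV _ 170000 180000 (by norm_num) cmp5_17 h).2
    have h := (TC.checkCL_sound act q0 F _ _ _ hp hV _ 180000 190000 (by norm_num) cmp5_18 h).2
    have h := (TC.checkCL_sound act q0 F _ _ _ hp hV _ 190000 200000 (by norm_num) cmp5_19 h).2
    have h := (TC.checkCL_sound act q0 F _ _ _ hp hV _ 200000 210000 (by norm_num) cmp5_20 h).2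
    have h := (TC.checkCL_sound act q0 F _ _ _ hp hV _ 210000 220000 (by norm_num) cmp5_21 h).2
    have h := (TC.checkCL_sound act q0 F _ _ _ hp hV _ 220000 230000 (by norm_num) cmp5_22 h).2
    have h := (TC.checkCL_sound act q0 F _ _ _ hp hV _ 230000 240000 (by norm_num) cmp5_23 h).2
    have h := (TC.checkCL_sound act q0 F _ _ _ hp hV _ 240000 250000 (by norm_num) cmp5_24 h).2
    have h := (TC.checkCL_sound act q0 F _ _ _ hp hV _ 250000 260000 (by norm_num) cmp5_25 h).2
    have h := (TC.checkCL_sound act q0 F _ _ _ hp hV _ 260000 266560 (by norm_num) cmp5_26 h).2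
    exact h
  · have h : ∀ u < 0, ∃ v ≤ 266559, act ((12, 12582912) : ℕ × ℕ).1 (TC.kap act q0 F u) = TC.kap act q0 F v := fun u hu => absurd hu (Nat.not_lt_zero u)
    have h := (TC.checkCL_sound act q0 F _ _ _ hp hV _ 0 10000 (by norm_num) cmp6_0 h).2
    have h := (TC.checkCL_sound act q0 F _ _ _ hp hV _ 10000 20000 (by norm_num) cmp6_1 h).2
    have h := (TC.checkCL_sound act q0 F _ _ _ hp hV _ 20000 30000 (by norm_num) cmp6_2 h).2
    have h := (TC.checkCL_sound act q0 F _ _ _ hp hV _ 30000 40000 (by norm_num) cmp6_3 h).2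
    have h := (TC.checkCL_sound act q0 F _ _ _ hp hV _ 40000 50000 (by norm_num) cmp6_4 h).2
    have h := (TC.checkCL_sound act q0 F _ _ _ hp hV _ 50000 60000 (by norm_num) cmp6_5 h).2
    have h := (TC.checkCL_sound act q0 F _ _ _ hp hV _ 60000 70000 (by norm_num) cmp6_6 h).2
    have h := (TC.checkCL_sound act q0 F _ _ _ hp hV _ 70000 80000 (by norm_num) cmp6_7 h).2
    have h := (TC.checkCL_sound act q0 F _ _ _ hp hV _ 80000 90000 (by norm_num) cmp6_8 h).2
    have h := (TC.checkCL_sound act q0 F _ _ _ hp hV _ 90000 100000 (by norm_num) cmp6_9 h).2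
    have h := (TC.checkCL_sound act q0 F _ _ _ hp hV _ 100000 110000 (by norm_num) cmp6_10 h).2
    have h := (TC.checkCL_sound act q0 F _ _ _ hp hV _ 110000 120000 (by norm_num) cmp6_11 h).2
    have h := (TC.checkCL_sound act q0 F _ _ _ hp hV _ 120000 130000 (by norm_num) cmp6_12 h).2
    have h := (TC.checkCL_sound act q0 F _ _ _ hp hV _ 130000 140000 (by norm_num) cmp6_13 h).2
    have h := (TC.checkCL_sound act q0 F _ _ _ hp hV _ 140000 150000 (by norm_num) cmp6_14 h).2
    have h := (TC.checkCL_sound act q0 F _ _ _ hp hV _ 150000 160000 (by norm_num) cmp6_15 h).2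
    have h := (TC.checkCL_sound act q0 F _ _ _ hp hV _ 160000 170000 (by norm_num) cmp6_16 h).2
    have h := (TC.checkCL_sound act q0 F _ _ _ hp hV _ 170000 180000 (by norm_num) cmp6_17 h).2
    have h := (TC.checkCL_sound act q0 F _ _ _ hp hV _ 180000 190000 (by norm_num) cmp6_18 h).2
    have h := (TC.checkCL_sound act q0 F _ _ _ hp hV _ 190000 200000 (by norm_num) cmp6_19 h).2
    have h := (TC.checkCL_sound act q0 F _ _ _ hp hV _ 200000 210000 (by norm_num) cmp6_20 h).2
    have h := (TC.checkCL_sound act q0 F _ _ _ hp hV _ 210000 220000 (by norm_num) cmp6_21 h).2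
    have h := (TC.checkCL_sound act q0 F _ _ _ hp hV _ 220000 230000 (by norm_num) cmp6_22 h).2
    have h := (TC.checkCL_sound act q0 F _ _ _ hp hV _ 230000 240000 (by norm_num) cmp6_23 h).2
    have h := (TC.checkCL_sound act q0 F _ _ _ hp hV _ 240000 250000 (by norm_num) cmp6_24 h).2
    have h := (TC.checkCL_sound act q0 F _ _ _ hp hV _ 250000 260000 (by norm_num) cmp6_25 h).2
    have h := (TC.checkCL_sound act q0 F _ _ _ hp hV _ 260000 266560 (by norm_num) cmp6_26 h).2
    exact h

end Cfsg.Agent.Lib.Helper11.HeV0
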