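import Cfsg.Agent.Lib.Helper11.OrderUB
import Cfsg.Agent.Lib.Helper11.HeEnc
import Cfsg.Agent.Lib.Helper11.HeV0Cert
import Cfsg.Agent.Lib.Helper11.HeV0Pres
import Cfsg.Agent.Lib.Helper11.HeV1Cert
import Cfsg.Agent.Lib.Helper11.HeV1Pres

set_option autoImplicit false
set_option maxRecDepth 100000

namespace Cfsg.Agent.Lib.Helper11.HeOrder

open Cfsg.Agent.Lib.Helper11 Cfsg.Agent.Lib.Helper11.TC

theorem b1 : UB.Bound HeV1.Ls (HeV1.coxW ++ HeV1.extraW) (15120 * 1) :=
  UB.Bound.step (n := 15120) (by norm_num)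
    (fun act q0 h31 hadm hl => HeV1.closed act q0 h31 hadm hl) (subs := HeV1.subs)
    (by decide +kernel) (by decide) (by decide) (by decide +kernel)
    (Ls' := []) (by decide) (by decide) (rels' := []) (by decide) (UB.Bound.nil _)

theorem b0 : UB.Bound HeV0.Ls (HeV0.coxW ++ HeV0.extraW) (266560 * (15120 * 1)) :=
  UB.Bound.step (n := 266560) (by norm_num)
    (fun act q0 h31 hadm hl => HeV0.closed act q0 h31 hadm hl) (subs := HeV0.subs)
    (by decide +kernel) (by decide) (by decide) (by decide +kernel)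
    (by decide) (by decide) (by decide +kernel) b1

theorem card_le : Finite Cfsg.Spor.He ∧ Nat.card Cfsg.Spor.He ≤ 4030387200 :=
  UB.card_le_of_bound HeEnc.enc b0

end Cfsg.Agent.Lib.Helper11.HeOrder
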