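import Cfsg.Agent.Lib.Helper11.J1CenR0
import Cfsg.Agent.Lib.Helper11.J1CenR1
import Cfsg.Agent.Lib.Helper11.J1CenR2
import Cfsg.Agent.Lib.Helper11.J1CenR3

/-! # The centraliser of an involution of Janko's group `J1` -/

set_option autoImplicit false
set_option maxRecDepth 100000

namespace Cfsg.Agent.Lib.Helper11.J1Cen

open Matrix Subgroup Cfsg.Agent.Lib.Helper11 Cfsg.Agent.Lib.Helper11.TC Cfsg.Agent.Lib.Helper11.J1M
open Cfsg.Agent.Lib.Helper11.J1Sch

def rows : List (ℕ × ℕ × ℕ × ℕ × ℕ) :=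
  rw0 ++ (rw1 ++ (rw2 ++ (rw3 ++ (rw4 ++ (rw5 ++ (rw6 ++ (rw7 ++ (rw8 ++ (rw9 ++ (rw10 ++ (rw11 ++
    (rw12 ++ (rw13 ++ (rw14 ++ rw15))))))))))))))

theorem rows_ok : ∀ r ∈ rows, RowOK r := by
  intro r hr
  simp only [rows, List.mem_append] at hr
  rcases hr with h | h | h | h | h | h | h | h | h | h | h | h | h | h | h | h
  · exact ok0 r h
  · exact ok1 r h
  · exact ok2 r h
  · exact ok3 r h
  · exact ok4 r h
  · exact ok5 r h
  · exact ok6 r h
  · exact ok7 r h
  · exact ok8 r h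
  · exact ok9 r h
  · exact ok10 r h
  · exact ok11 r h
  · exact ok12 r h
  · exact ok13 r h
  · exact ok14 r h
  · exact ok15 r h

theorem rows_idx : rows.map (fun r => r.1) = List.range 1463 := by decide +kernel

theorem rows_par : ∀ r ∈ rows, r.2.1 < 1463 := by decide +kernel

theorem row_ex {i : ℕ} (hi : i < 1463) : ∃ r ∈ rows, r.1 = i := by
  have h : i ∈ rows.map (fun r => r.1) := by
    rw [rows_idx]
    exact List.mem_range.2 hi
  obtain ⟨r, hr, h1⟩ := List.mem_map.1 h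
  exact ⟨r, hr, h1⟩

def incr : List ℕ → Bool
  | [] => true
  | [_] => true
  | a :: b :: l => decide (a < b) && incr (b :: l)

theorem pw_of_incr : ∀ l : List ℕ, incr l = true → l.Pairwise (· < ·)
  | [], _ => List.Pairwise.nil
  | [a], _ => List.pairwise_singleton _ a
  | a :: b :: l, h => by
    simp only [incr, Bool.and_eq_true, decide_eq_true_eq] at h
    have ih := pw_of_incr (b :: l) h.2
    refine List.pairwise_cons.2 ⟨?_, ih⟩
    intro c hc
    rcases List.mem_cons.1 hc with rfl | hc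
    · exact h.1
    · exact lt_trans h.1 ((List.pairwise_cons.1 ih).1 c hc)

theorem Lc_incr : incr Lc = true := by decide +kernel

theorem Lc_nodup : Lc.Nodup := (pw_of_incr Lc Lc_incr).imp (fun h => ne_of_lt h)

theorem Lc_len : Lc.length = 1463 := by decide +kernel

theorem Dp_len : Dp.length = 1463 := by decide +kernel

theorem root_ok : mat 0 = mx (Lc.getD i0 0) := by decide +kernel

theorem enc_ok {i : ℕ} (hi : i < 1463) : enc (mx (Lc.getD i 0)) = Lc.getD i 0 := by
  obtain ⟨r, hr, rfl⟩ := row_ex hi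
  obtain ⟨_, h2, h3⟩ := rows_ok r hr
  rw [h2, h3]

theorem getD_inj {i j : ℕ} (hi : i < 1463) (hj : j < 1463) (h : Lc.getD i 0 = Lc.getD j 0) :
    i = j := by
  have hi' : i < Lc.length := by rw [Lc_len]; exact hi
  have hj' : j < Lc.length := by rw [Lc_len]; exact hj
  rw [List.getD_eq_getElem _ _ hi', List.getD_eq_getElem _ _ hj'] at h
  exact (List.Nodup.getElem_inj_iff Lc_nodup).1 h

abbrev Γ := ↥Cfsg.Spor.J1

def gen (l : ℕ) : Γ := ⟨gl l, gl_mem l⟩

def t : Γ := gen 0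

theorem gen_sq (l : ℕ) : gen l * gen l = 1 := Subtype.ext (Units.ext (mat_sq l))

theorem gen_inv (l : ℕ) : (gen l)⁻¹ = gen l := inv_eq_of_mul_eq_one_left (gen_sq l)

theorem conj_aux : ∀ n i, i < 1463 → Dp.getD i 0 = n →
    ∃ g : Γ, (((g * t * g⁻¹ : Γ) : Om) : M7) = mx (Lc.getD i 0) := by
  intro n
  induction n using Nat.strong_induction_on with
  | _ n ih =>
    intro i hi hn
    obtain ⟨r, hr, rfl⟩ := row_ex hi
    obtain ⟨h1, h2, _⟩ := rows_ok r hr
    rcases h1 with h0 | ⟨hd, hp, he⟩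
    · rw [h0]
      exact ⟨1, by simp only [one_mul, inv_one, mul_one]; exact root_ok⟩
    · have hp1 : r.2.1 < 1463 := rows_par r hr
      obtain ⟨g, hg⟩ := ih _ (by rw [← hn]; exact hd) r.2.1 hp1 rfl
      refine ⟨gen r.2.2.1 * g, ?_⟩
      have h1 : (gen r.2.2.1 * g * t * (gen r.2.2.1 * g)⁻¹ : Γ) =
          gen r.2.2.1 * (g * t * g⁻¹) * gen r.2.2.1 := by
        rw [_root_.mul_inv_rev, gen_inv]
        simp only [mul_assoc]
      rw [h1]
      show mat r.2.2.1 * (((g * t * g⁻¹ : Γ) : Om) : M7) * mat r.2.2.1 = _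
      rw [hg, hp, he, mul_assoc, mat_sq, mul_one, h2]

theorem conj_ex : ∀ i, i < 1463 →
    ∃ g : Γ, (((g * t * g⁻¹ : Γ) : Om) : M7) = mx (Lc.getD i 0) :=
  fun i hi => conj_aux _ i hi rfl

theorem index_ge : 1463 ≤ (centralizer ({t} : Set Γ)).index := by
  classical
  choose! g hg using conj_ex
  let f : Fin 1463 → Γ ⧸ centralizer ({t} : Set Γ) := fun i => (g i.val : Γ ⧸ _)
  have hf : Function.Injective f := by
    intro i j hij
    have h1 : (g i.val)⁻¹ * g j.val ∈ centralizer ({t} : Set Γ) := QuotientGroup.eq.1 hij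
    rw [mem_centralizer_singleton_iff] at h1
    have hc : ((g i.val)⁻¹ * g j.val) * t = t * ((g i.val)⁻¹ * g j.val) := by
      first
        | exact h1
        | exact h1.symm
    have h2 : g j.val * t * (g j.val)⁻¹ = g i.val * t * (g i.val)⁻¹ := by
      calc g j.val * t * (g j.val)⁻¹ = g i.val * (((g i.val)⁻¹ * g j.val) * t) * (g j.val)⁻¹ := by
            group
        _ = g i.val * (t * ((g i.val)⁻¹ * g j.val)) * (g j.val)⁻¹ := by rw [hc]
        _ = g i.val * t * (g i.val)⁻¹ := by group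
    have h3 : mx (Lc.getD i.val 0) = mx (Lc.getD j.val 0) := by
      rw [← hg i.val i.2, ← hg j.val j.2, h2]
    have h4 : Lc.getD i.val 0 = Lc.getD j.val 0 := by
      rw [← enc_ok i.2, ← enc_ok j.2, h3]
    exact Fin.ext (getD_inj i.2 j.2 h4)
  have h := Nat.card_le_card_of_injective f hf
  rw [Nat.card_fin] at h
  exact h

theorem card_cen_le : Nat.card (centralizer ({t} : Set Γ)) ≤ 120 := by
  have h1 := Subgroup.card_mul_index (centralizer ({t} : Set Γ))
  rw [card_J1] at h1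
  have h2 := index_ge
  by_contra h
  rw [not_le] at h
  have h3 : 121 * 1463 ≤
      Nat.card (centralizer ({t} : Set Γ)) * (centralizer ({t} : Set Γ)).index :=
    Nat.mul_le_mul h h2
  omega

theorem coe_ev_gen (w : List ℕ) : ((ev gen w : Γ) : Om) = ev gl w := by
  induction w with
  | nil => rfl
  | cons l w ih =>
    rw [ev_cons, ev_cons, Subgroup.coe_mul, ih]
    rfl

theorem gen_rel : ∀ r ∈ J1xU0.coxW ++ J1xU0.extraW, ev gen r = 1 := fun r hr =>
  Subtype.ext (by rw [coe_ev_gen, J1M.hrel r hr]; rfl)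

theorem gen_31 : gen 31 = 1 := Subtype.ext (Units.ext (mat_out 31 (by decide)))

theorem ev_mem_closure {Δ : Type*} [Group Δ] (g : ℕ → Δ) (Ls : List ℕ) (w : List ℕ)
    (hw : ∀ l ∈ w, l ∈ Ls) : ev g w ∈ Subgroup.closure {x : Δ | ∃ l ∈ Ls, x = g l} := by
  induction w with
  | nil => exact one_mem _
  | cons l w ih =>
    rw [ev_cons]
    exact mul_mem (subset_closure ⟨l, hw l List.mem_cons_self, rfl⟩)
      (ih fun l' hl' => hw l' (List.mem_cons_of_mem _ hl'))

theorem gen_top : Subgroup.closure {x : Γ | ∃ l ∈ J1xU0.Ls, x = gen l} = ⊤ := by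
  rw [eq_top_iff]
  intro x _
  have hle : Cfsg.Spor.J1 ≤
      (Subgroup.closure {x : Γ | ∃ l ∈ J1xU0.Ls, x = gen l}).map (Cfsg.Spor.J1).subtype :=
    (Subgroup.closure_le _).2 (by
      rintro g (rfl | rfl)
      · exact ⟨ev gen wx, ev_mem_closure gen _ wx (by decide), (coe_ev_gen wx).trans x_eq.symm⟩
      · exact ⟨ev gen wy, ev_mem_closure gen _ wy (by decide), (coe_ev_gen wy).trans y_eq.symm⟩)
  obtain ⟨y, hy, hyx⟩ := hle x.2
  have : y = x := Subtype.ext hyx
  rwa [← this]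

theorem index_H : (Subgroup.closure {g : Γ | ∃ s ∈ J1xU0.subs, g = ev gen s}).index ≤ 1463 ∧
    (Subgroup.closure {g : Γ | ∃ s ∈ J1xU0.subs, g = ev gen s}).index ≠ 0 :=
  UB.index_bound gen gen_31 gen_sq (rels := J1xU0.coxW ++ J1xU0.extraW) (subs := J1xU0.subs)
    (Ls := J1xU0.Ls) gen_rel gen_top (n := 1463) (by norm_num)
    (fun act q0 h31 hadm hl => J1xU0.closed act q0 h31 hadm hl) (by decide +kernel) (by decide)
    (by decide)

theorem card_H_ge : 120 ≤ Nat.card (Subgroup.closure {g : Γ | ∃ s ∈ J1xU0.subs, g = ev gen s}) := by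
  have h1 := Subgroup.card_mul_index (Subgroup.closure {g : Γ | ∃ s ∈ J1xU0.subs, g = ev gen s})
  rw [card_J1] at h1
  have h2 := index_H.1
  by_contra h
  rw [not_le] at h
  have h3 : Nat.card (Subgroup.closure {g : Γ | ∃ s ∈ J1xU0.subs, g = ev gen s}) *
      (Subgroup.closure {g : Γ | ∃ s ∈ J1xU0.subs, g = ev gen s}).index ≤ 119 * 1463 :=
    Nat.mul_le_mul (by omega) h2
  omega

abbrev X := Multiplicative (ZMod 2) × ↥(alternatingGroup (Fin 5))

def s4 : ↥(alternatingGroup (Fin 5)) :=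
  ⟨Equiv.swap 1 2 * Equiv.swap 3 4, Equiv.Perm.mem_alternatingGroup.2 (by decide)⟩

def s6 : ↥(alternatingGroup (Fin 5)) :=
  ⟨Equiv.swap 0 1 * Equiv.swap 3 4, Equiv.Perm.mem_alternatingGroup.2 (by decide)⟩

def s8 : ↥(alternatingGroup (Fin 5)) :=
  ⟨Equiv.swap 1 3 * Equiv.swap 2 4, Equiv.Perm.mem_alternatingGroup.2 (by decide)⟩

def xg : ℕ → X
  | 4 => (Multiplicative.ofAdd 1, s4)
  | 6 => (Multiplicative.ofAdd 1, s6)
  | 8 => (Multiplicative.ofAdd 1, s8)
  | _ => 1

theorem xg_sq : ∀ l, xg l * xg l = 1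
  | 0 => one_mul _
  | 1 => one_mul _
  | 2 => one_mul _
  | 3 => one_mul _
  | 4 => by decide +kernel
  | 5 => one_mul _
  | 6 => by decide +kernel
  | 7 => one_mul _
  | 8 => by decide +kernel
  | (_ + 9) => one_mul _

theorem xg_rel : ∀ r ∈ J1xU1.coxW ++ J1xU1.extraW, ev xg r = 1 := by decide +kernel

theorem ws_nodup : (ws.map (ev xg)).Nodup := by decide +kernel

theorem ws_len : ws.length = 120 := by decide +kernel

theorem ws_let : ∀ w ∈ ws, ∀ l ∈ w, l ∈ J1xU1.Ls := by decide +kernel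

theorem card_X : Nat.card X = 120 := by
  have h2 : Nat.card (Multiplicative (ZMod 2)) = 2 := by
    rw [Nat.card_eq_fintype_card]; rfl
  rw [Nat.card_prod, h2, nat_card_alternatingGroup, Nat.card_fin]
  decide

theorem xg_top : Subgroup.closure {x : X | ∃ l ∈ J1xU1.Ls, x = xg l} = ⊤ := by
  classical
  apply eq_top_of_le_card
  rw [card_X]
  have h1 : ((ws.map (ev xg)).toFinset : Set X) ⊆
      (Subgroup.closure {x : X | ∃ l ∈ J1xU1.Ls, x = xg l} : Set X) := by
    intro x hx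
    simp only [List.coe_toFinset, Set.mem_setOf_eq, List.mem_map] at hx
    obtain ⟨w, hw, rfl⟩ := hx
    exact ev_mem_closure xg _ w (ws_let w hw)
  have h2 := Set.ncard_le_ncard h1 (Set.toFinite _)
  rw [Set.ncard_coe_finset, List.toFinset_card_of_nodup ws_nodup, List.length_map, ws_len] at h2
  exact h2.trans_eq (Nat.card_coe_set_eq _).symm

def dgn (l : ℕ) : X × Γ := (xg l, gen l)

theorem dgn_sq (l : ℕ) : dgn l * dgn l = 1 := Prod.ext (xg_sq l) (gen_sq l)

theorem ev_dgn (w : List ℕ) : ev dgn w = (ev xg w, ev gen w) := by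
  induction w with
  | nil => rfl
  | cons l w ih =>
    rw [ev_cons, ev_cons, ev_cons, ih]
    rfl

theorem sub_rel : ∀ r ∈ J1xU1.coxW ++ J1xU1.extraW, r ∈ J1xU0.coxW ++ J1xU0.extraW := by decide

theorem dgn_rel : ∀ r ∈ J1xU1.coxW ++ J1xU1.extraW, ev dgn r = 1 := by
  intro r hr
  rw [ev_dgn, xg_rel r hr, gen_rel r (sub_rel r hr)]
  rfl

def D : Subgroup (X × Γ) := Subgroup.closure {x : X × Γ | ∃ l ∈ J1xU1.Ls, x = dgn l}

theorem D_bound : Finite D ∧ Nat.card D ≤ 120 := by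
  have h := J1S.b1 (X × Γ) dgn dgn_sq dgn_rel
  exact ⟨h.1, le_trans h.2 (by norm_num)⟩

def π1 : D →* X := (MonoidHom.fst X Γ).comp D.subtype

def π2 : D →* Γ := (MonoidHom.snd X Γ).comp D.subtype

theorem π1_surj : Function.Surjective π1 := by
  have h : D.map (MonoidHom.fst X Γ) = ⊤ := by
    rw [eq_top_iff, ← xg_top, closure_le]
    rintro _ ⟨l, hl, rfl⟩
    exact ⟨dgn l, subset_closure ⟨l, hl, rfl⟩, rfl⟩
  intro x
  have hx : x ∈ D.map (MonoidHom.fst X Γ) := by rw [h]; exact mem_top x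
  obtain ⟨d, hd, rfl⟩ := hx
  exact ⟨⟨d, hd⟩, rfl⟩

theorem comm0 : ∀ l ∈ J1xU1.Ls, mat l * mat 0 = mat 0 * mat l := by decide +kernel

theorem range_le : π2.range ≤ centralizer ({t} : Set Γ) := by
  have h : D ≤ (centralizer ({t} : Set Γ)).comap (MonoidHom.snd X Γ) := by
    unfold D
    rw [closure_le]
    rintro _ ⟨l, hl, rfl⟩
    show gen l ∈ centralizer ({t} : Set Γ)
    rw [mem_centralizer_singleton_iff]
    have hc : gen l * t = t * gen l := Subtype.ext (Units.ext (comm0 l hl))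
    first
      | exact hc
      | exact hc.symm
  rintro _ ⟨d, rfl⟩
  exact h d.2

theorem subs_let : ∀ s ∈ J1xU0.subs, ∀ l ∈ s, l ∈ J1xU1.Ls := by decide

theorem H_le : Subgroup.closure {g : Γ | ∃ s ∈ J1xU0.subs, g = ev gen s} ≤ π2.range := by
  rw [closure_le]
  rintro _ ⟨s, hs, rfl⟩
  refine ⟨⟨ev dgn s, ev_mem_closure dgn _ s (subs_let s hs)⟩, ?_⟩
  show (ev dgn s).2 = ev gen s
  rw [ev_dgn]

theorem range_eq : π2.range = centralizer ({t} : Set Γ) := by
  apply eq_of_le_of_card_ge range_le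
  exact card_cen_le.trans (card_H_ge.trans (card_le_of_le H_le))

theorem card_range_ge : 120 ≤ Nat.card π2.range := card_H_ge.trans (card_le_of_le H_le)

theorem cen_iso : Nonempty (↥(centralizer ({t} : Set Γ)) ≃* X) := by
  haveI := D_bound.1
  have b1 : Function.Bijective π1 :=
    π1_surj.bijective_of_nat_card_le (by rw [card_X]; exact D_bound.2)
  have b2 : Function.Bijective π2.rangeRestrict :=
    π2.rangeRestrict_surjective.bijective_of_nat_card_le (D_bound.2.trans card_range_ge)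
  exact ⟨(MulEquiv.subgroupCongr range_eq).symm.trans
    ((MulEquiv.ofBijective _ b2).symm.trans (MulEquiv.ofBijective _ b1))⟩

theorem order_t : orderOf t = 2 := by
  refine orderOf_eq_prime ?_ ?_
  · rw [pow_two]; exact gen_sq 0
  · intro h
    exact gl_ne (congrArg Subtype.val h)

end Cfsg.Agent.Lib.Helper11.J1Cen
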