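import Cfsg.Agent.Lib.Helper11.J1Mat
import Cfsg.Agent.Lib.Helper3.SchurTriv

/-! # The Schur multiplier of Janko's group `J1` is trivial -/

set_option autoImplicit false
set_option maxRecDepth 100000

namespace Cfsg.Agent.Lib.Helper11.J1Sch

open Matrix Subgroup Cfsg.Agent.Lib.Helper11 Cfsg.Agent.Lib.Helper11.TC Cfsg.Agent.Lib.Helper11.J1M
open Cfsg.Agent.Lib.Helper3.SchurTriv

/-- codes of the eight elements of the elementary abelian subgroup generated by `a`, `c`, `e` -/
def cd : Fin 8 → ℕ
  | 0 => 97017234237464720195340918138392575865960457120487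
  | 1 => 970172338301314200817573430206289219702813104723243
  | 2 => 97017238310797740333575740133326271185722368571883
  | 3 => 97017238310797721331176580668435032554254000425483
  | 4 => 970172342374647182951010110566627775201496581936203
  | 5 => 970172342374647201953409092736331676391102789568363
  | 6 => 97017234237464739197740077603284641592566369565803
  | 7 => 970172338301314181815174448036586145608344441389963

def ew : Fin 8 → List ℕ
  | 0 => []
  | 1 => [0]
  | 2 => [4]
  | 3 => [8]
  | 4 => [0, 4]
  | 5 => [0, 8]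
  | 6 => [4, 8]
  | 7 => [0, 4, 8]

/-- conjugating words -/
def gw : Fin 8 → List ℕ
  | 0 => []
  | 1 => []
  | 2 => [2, 4, 2, 4, 0, 2]
  | 3 => [6, 8, 6, 8, 4, 6, 2, 4, 2, 4, 0, 2]
  | 4 => [2, 4, 0, 2, 4, 2]
  | 5 => [6, 8, 6, 8, 4, 6, 2, 4, 0, 2, 4, 2]
  | 6 => [6, 8, 4, 6, 8, 6, 2, 4, 0, 2, 4, 2]
  | 7 => [6, 8, 4, 6, 8, 6, 2, 4, 2, 4, 0, 2]

def gc : Fin 8 → ℕ
  | 0 => 97017234237464720195340918138392575865960457120487
  | 1 => 97017234237464720195340918138392575865960457120487
  | 2 => 728904837160412803457437630718287729559338300913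
  | 3 => 88197485670422472904855372066939243308282073550503
  | 4 => 801795320564237929985345301935842698460550443673
  | 5 => 652185872739526843198296305995494359158825223
  | 6 => 728904837191070008876915444771516273806084972343
  | 7 => 97017233785212434139609492785667918155551103636063

theorem gp0 : (([] : List ℕ).map mat).prod = mx 97017234237464720195340918138392575865960457120487 := by
  rw [mx_one]; rfl

theorem gp1 : (([] : List ℕ).map mat).prod = mx 97017234237464720195340918138392575865960457120487 := by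
  rw [mx_one]; rfl

theorem gp2_2 : (mat 0 * (mat 2 * (1)) : M7) = mx 199136805501645904159531343756025395808658401103338 := by decide +kernel
theorem gp2_1 : (mat 2 * (mat 4 * (mx 199136805501645904159531343756025395808658401103338)) : M7) = mx 488439134798304079447071785475969958239083996361088 := by decide +kernel
theorem gp2_0 : (mat 2 * (mat 4 * (mx 488439134798304079447071785475969958239083996361088)) : M7) = mx 728904837160412803457437630718287729559338300913 := by decide +kernel
theorem gp2 : ([2, 4, 2, 4, 0, 2].map mat).prod = mx 728904837160412803457437630718287729559338300913 := by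
  simp only [List.map_cons, List.map_nil, List.prod_cons, List.prod_nil]
  rw [gp2_2, gp2_1, gp2_0]

theorem gp3_5 : (mat 0 * (mat 2 * (1)) : M7) = mx 199136805501645904159531343756025395808658401103338 := by decide +kernel
theorem gp3_4 : (mat 2 * (mat 4 * (mx 199136805501645904159531343756025395808658401103338)) : M7) = mx 488439134798304079447071785475969958239083996361088 := by decide +kernel
theorem gp3_3 : (mat 2 * (mat 4 * (mx 488439134798304079447071785475969958239083996361088)) : M7) = mx 728904837160412803457437630718287729559338300913 := by decide +kernel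
theorem gp3_2 : (mat 4 * (mat 6 * (mx 728904837160412803457437630718287729559338300913)) : M7) = mx 856098785853619451010592364274391380041007767866932 := by decide +kernel
theorem gp3_1 : (mat 6 * (mat 8 * (mx 856098785853619451010592364274391380041007767866932)) : M7) = mx 264811182364147628886612325607663667288144901582120 := by decide +kernel
theorem gp3_0 : (mat 6 * (mat 8 * (mx 264811182364147628886612325607663667288144901582120)) : M7) = mx 88197485670422472904855372066939243308282073550503 := by decide +kernel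
theorem gp3 : ([6, 8, 6, 8, 4, 6, 2, 4, 2, 4, 0, 2].map mat).prod = mx 88197485670422472904855372066939243308282073550503 := by
  simp only [List.map_cons, List.map_nil, List.prod_cons, List.prod_nil]
  rw [gp3_5, gp3_4, gp3_3, gp3_2, gp3_1, gp3_0]

theorem gp4_2 : (mat 4 * (mat 2 * (1)) : M7) = mx 877674314961014067537123236812615564086088498558788 := by decide +kernel
theorem gp4_1 : (mat 0 * (mat 2 * (mx 877674314961014067537123236812615564086088498558788)) : M7) = mx 395722439550685653933497114908996468524888343872120 := by decide +kernel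
theorem gp4_0 : (mat 2 * (mat 4 * (mx 395722439550685653933497114908996468524888343872120)) : M7) = mx 801795320564237929985345301935842698460550443673 := by decide +kernel
theorem gp4 : ([2, 4, 0, 2, 4, 2].map mat).prod = mx 801795320564237929985345301935842698460550443673 := by
  simp only [List.map_cons, List.map_nil, List.prod_cons, List.prod_nil]
  rw [gp4_2, gp4_1, gp4_0]

theorem gp5_5 : (mat 4 * (mat 2 * (1)) : M7) = mx 877674314961014067537123236812615564086088498558788 := by decide +kernel
theorem gp5_4 : (mat 0 * (mat 2 * (mx 877674314961014067537123236812615564086088498558788)) : M7) = mx 395722439550685653933497114908996468524888343872120 := by decide +kernel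
theorem gp5_3 : (mat 2 * (mat 4 * (mx 395722439550685653933497114908996468524888343872120)) : M7) = mx 801795320564237929985345301935842698460550443673 := by decide +kernel
theorem gp5_2 : (mat 4 * (mat 6 * (mx 801795320564237929985345301935842698460550443673)) : M7) = mx 90822772368017997879276615999498742408260398891930 := by decide +kernel
theorem gp5_1 : (mat 6 * (mat 8 * (mx 90822772368017997879276615999498742408260398891930)) : M7) = mx 95269714187219044837139818488544811704080305748664 := by decide +kernel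
theorem gp5_0 : (mat 6 * (mat 8 * (mx 95269714187219044837139818488544811704080305748664)) : M7) = mx 652185872739526843198296305995494359158825223 := by decide +kernel
theorem gp5 : ([6, 8, 6, 8, 4, 6, 2, 4, 0, 2, 4, 2].map mat).prod = mx 652185872739526843198296305995494359158825223 := by
  simp only [List.map_cons, List.map_nil, List.prod_cons, List.prod_nil]
  rw [gp5_5, gp5_4, gp5_3, gp5_2, gp5_1, gp5_0]

theorem gp6_5 : (mat 4 * (mat 2 * (1)) : M7) = mx 877674314961014067537123236812615564086088498558788 := by decide +kernel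
theorem gp6_4 : (mat 0 * (mat 2 * (mx 877674314961014067537123236812615564086088498558788)) : M7) = mx 395722439550685653933497114908996468524888343872120 := by decide +kernel
theorem gp6_3 : (mat 2 * (mat 4 * (mx 395722439550685653933497114908996468524888343872120)) : M7) = mx 801795320564237929985345301935842698460550443673 := by decide +kernel
theorem gp6_2 : (mat 8 * (mat 6 * (mx 801795320564237929985345301935842698460550443673)) : M7) = mx 90822772368017800761271394627717564733974387138638 := by decide +kernel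
theorem gp6_1 : (mat 4 * (mat 6 * (mx 90822772368017800761271394627717564733974387138638)) : M7) = mx 90389038889827304915410531523966689692418619713724 := by decide +kernel
theorem gp6_0 : (mat 6 * (mat 8 * (mx 90389038889827304915410531523966689692418619713724)) : M7) = mx 728904837191070008876915444771516273806084972343 := by decide +kernel
theorem gp6 : ([6, 8, 4, 6, 8, 6, 2, 4, 0, 2, 4, 2].map mat).prod = mx 728904837191070008876915444771516273806084972343 := by
  simp only [List.map_cons, List.map_nil, List.prod_cons, List.prod_nil]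
  rw [gp6_5, gp6_4, gp6_3, gp6_2, gp6_1, gp6_0]

theorem gp7_5 : (mat 0 * (mat 2 * (1)) : M7) = mx 199136805501645904159531343756025395808658401103338 := by decide +kernel
theorem gp7_4 : (mat 2 * (mat 4 * (mx 199136805501645904159531343756025395808658401103338)) : M7) = mx 488439134798304079447071785475969958239083996361088 := by decide +kernel
theorem gp7_3 : (mat 2 * (mat 4 * (mx 488439134798304079447071785475969958239083996361088)) : M7) = mx 728904837160412803457437630718287729559338300913 := by decide +kernel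
theorem gp7_2 : (mat 8 * (mat 6 * (mx 728904837160412803457437630718287729559338300913)) : M7) = mx 856098785853617545589510366882503767427456278565188 := by decide +kernel
theorem gp7_1 : (mat 4 * (mat 6 * (mx 856098785853617545589510366882503767427456278565188)) : M7) = mx 318167016214590067045315751206220702448962904723778 := by decide +kernel
theorem gp7_0 : (mat 6 * (mat 8 * (mx 318167016214590067045315751206220702448962904723778)) : M7) = mx 97017233785212434139609492785667918155551103636063 := by decide +kernel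
theorem gp7 : ([6, 8, 4, 6, 8, 6, 2, 4, 2, 4, 0, 2].map mat).prod = mx 97017233785212434139609492785667918155551103636063 := by
  simp only [List.map_cons, List.map_nil, List.prod_cons, List.prod_nil]
  rw [gp7_5, gp7_4, gp7_3, gp7_2, gp7_1, gp7_0]

theorem gp : ∀ i : Fin 8, ((gw i).map mat).prod = mx (gc i) := by
  intro i
  fin_cases i
  · exact gp0
  · exact gp1
  · exact gp2
  · exact gp3
  · exact gp4
  · exact gp5
  · exact gp6
  · exact gp7

theorem cd_sq : ∀ i : Fin 8, mx (cd i) * mx (cd i) = 1 := by decide +kernel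

theorem cd_mul : ∀ i j : Fin 8, ∃ k : Fin 8, mx (cd i) * mx (cd j) = mx (cd k) := by decide +kernel

theorem cd_inj : ∀ i j : Fin 8, mx (cd i) = mx (cd j) → i = j := by decide +kernel

theorem cd_ew : ∀ i : Fin 8, mx (cd i) = ((ew i).map mat).prod := by decide +kernel

theorem cd_conj : ∀ i : Fin 8, i ≠ 0 → mx (gc i) * mx (cd 1) = mx (cd i) * mx (gc i) := by
  decide +kernel

theorem cd_zero : mx (cd 0) = 1 := mx_one

abbrev Om := GL (Fin 7) (ZMod 11)

def E (i : Fin 8) : Om := ⟨mx (cd i), mx (cd i), cd_sq i, cd_sq i⟩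

theorem E_inj : Function.Injective E := by
  intro i j h
  exact cd_inj i j (congrArg (fun x : Om => (x : M7)) h)

theorem E_zero : E 0 = 1 := Units.ext cd_zero

theorem E_mul (i j : Fin 8) : ∃ k, E i * E j = E k := by
  obtain ⟨k, hk⟩ := cd_mul i j
  exact ⟨k, Units.ext hk⟩

theorem E_sq (i : Fin 8) : E i * E i = 1 := Units.ext (cd_sq i)

def V : Subgroup Om where
  carrier := Set.range E
  one_mem' := ⟨0, E_zero⟩
  mul_mem' := by
    rintro _ _ ⟨i, rfl⟩ ⟨j, rfl⟩
    obtain ⟨k, hk⟩ := E_mul i j
    exact ⟨k, hk.symm⟩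
  inv_mem' := by
    rintro _ ⟨i, rfl⟩
    exact ⟨i, (inv_eq_of_mul_eq_one_left (E_sq i)).symm⟩

theorem card_V : Nat.card V = 8 := by
  have h : Nat.card (Set.range E) = Nat.card (Fin 8) := Nat.card_range_of_injective E_inj
  rw [Nat.card_fin] at h
  exact h

theorem gl_mem (l : ℕ) : gl l ∈ Cfsg.Spor.J1 := by
  by_cases h : l ∈ J1x.Ls
  · rw [gl_eq l h]
    exact ev_xy_mem _
  · have : gl l = 1 := Units.ext (mat_out l h)
    rw [this]
    exact Subgroup.one_mem _

theorem ev_gl_mem (w : List ℕ) : ev gl w ∈ Cfsg.Spor.J1 := by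
  induction w with
  | nil => exact Subgroup.one_mem _
  | cons l w ih =>
    rw [ev_cons]
    exact Subgroup.mul_mem _ (gl_mem l) ih

theorem E_eq (i : Fin 8) : E i = ev gl (ew i) := Units.ext (by rw [coe_ev]; exact cd_ew i)

theorem V_le : V ≤ Cfsg.Spor.J1 := by
  rintro _ ⟨i, rfl⟩
  rw [E_eq]
  exact ev_gl_mem _

theorem V_conj : ∀ v ∈ V, v ≠ 1 → ∃ g ∈ Cfsg.Spor.J1, g * E 1 = v * g := by
  rintro _ ⟨i, rfl⟩ hi
  have hi0 : i ≠ 0 := by
    rintro rfl
    exact hi E_zero
  refine ⟨ev gl (gw i), ev_gl_mem _, Units.ext ?_⟩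
  rw [Units.val_mul, Units.val_mul, coe_ev, gp i]
  exact cd_conj i hi0

theorem card_J1 : Nat.card Cfsg.Spor.J1 = 175560 := by
  obtain ⟨e⟩ := iso
  rw [← Nat.card_congr e.toEquiv]
  exact J1S.simple.2

theorem E_ne (i : Fin 8) (hi : i ≠ 0) : E i ≠ 1 := by
  intro h
  exact hi (E_inj (h.trans E_zero.symm))

theorem m12 : E 1 * E 2 = E 4 := Units.ext (by show mx (cd 1) * mx (cd 2) = mx (cd 4); decide +kernel)
theorem m13 : E 1 * E 3 = E 5 := Units.ext (by show mx (cd 1) * mx (cd 3) = mx (cd 5); decide +kernel)
theorem m23 : E 2 * E 3 = E 6 := Units.ext (by show mx (cd 2) * mx (cd 3) = mx (cd 6); decide +kernel)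
theorem m16 : E 1 * E 6 = E 7 := Units.ext (by show mx (cd 1) * mx (cd 6) = mx (cd 7); decide +kernel)

section gen

variable {Γ Ω : Type*} [Group Γ] [Group Ω] {τ : Γ →* Ω} {G : Subgroup Ω}

/-- an elementary abelian Sylow `2`-subgroup of rank at least three with all involutions
conjugate (the first half of the argument of `PStem.false_of_twoLocal`). -/
theorem false_of_elem [Finite Γ] [Finite G] (h : PStem 2 τ G) {V : Subgroup Ω} {v1 : Ω}
    (hVG : V ≤ G) (hv1V : v1 ∈ V) (hv1 : v1 * v1 = 1)
    (hconj : ∀ v ∈ V, v ≠ 1 → ∃ g ∈ G, g * v1 = v * g)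
    (indep : ∃ u ∈ V, ∃ v ∈ V, ∃ w ∈ V, u ≠ 1 ∧ v ≠ 1 ∧ w ≠ 1 ∧ u * v ≠ 1 ∧ u * w ≠ 1 ∧ v * w ≠ 1 ∧
      u * (v * w) ≠ 1)
    (hidx : ¬ 2 ∣ V.relIndex G) : False := by
  obtain ⟨x1, hx1⟩ := h.lift (hVG hv1V)
  have hx11 : τ (x1 * x1) = 1 := by rw [map_mul, hx1, hv1]
  have hsq : ∀ x, (∃ g ∈ G, g * v1 = τ x * g) → x * x = x1 * x1 := fun x ⟨g, hg, e⟩ =>
    h.sq_conj hx11 hg (by rw [hx1]; exact e)
  have hc0 : x1 * x1 = 1 := by
    obtain ⟨u, hu, v, hv, w, hw, n1, n2, n3, n4, n5, n6, n7⟩ := indep
    obtain ⟨A, rfl⟩ := h.lift (hVG hu)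
    obtain ⟨B, rfl⟩ := h.lift (hVG hv)
    obtain ⟨D, rfl⟩ := h.lift (hVG hw)
    have hc := h.comm_of_ker hx11
    have hcc := h.sq_ker hx11
    have sA := hsq A (hconj _ hu n1)
    have sB := hsq B (hconj _ hv n2)
    have sD := hsq D (hconj _ hw n3)
    have sAB := hsq (A * B) (by rw [map_mul]; exact hconj _ (V.mul_mem hu hv) n4)
    have sAD := hsq (A * D) (by rw [map_mul]; exact hconj _ (V.mul_mem hu hw) n5)
    have sBD := hsq (B * D) (by rw [map_mul]; exact hconj _ (V.mul_mem hv hw) n6)
    have sABD := hsq (A * (B * D)) (by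
      rw [map_mul, map_mul]; exact hconj _ (V.mul_mem hu (V.mul_mem hv hw)) n7)
    have e1 := anticomm hc hcc sA sB sAB
    have e2 := anticomm hc hcc sA sD sAD
    have e3 := anticomm hc hcc sA sBD sABD
    have e4 : B * D * A = A * (B * D) := by
      calc B * D * A = B * (D * A) := by group
        _ = B * (A * D * (x1 * x1)) := by rw [e2]
        _ = (B * A) * D * (x1 * x1) := by group
        _ = A * B * ((x1 * x1) * D) * (x1 * x1) := by rw [e1]; group
        _ = A * B * (D * (x1 * x1)) * (x1 * x1) := by rw [hc]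
        _ = A * (B * D) * ((x1 * x1) * (x1 * x1)) := by group
        _ = A * (B * D) := by rw [hcc, mul_one]
    rw [e4] at e3
    exact (mul_eq_left.1 e3.symm)
  have hinv : ∀ x, (∃ g ∈ G, g * v1 = τ x * g) → x * x = 1 := fun x hx => (hsq x hx).trans hc0
  have hV2 : ∀ x, τ x ∈ V → x * x = 1 := by
    intro x hx
    by_cases e : τ x = 1
    · exact h.sq_ker e
    · exact hinv x (hconj _ hx e)
  have hVc : ∀ x y, τ x ∈ V → τ y ∈ V → x * y = y * x := by
    intro x y hx hy
    have h1 := hV2 x hx
    have h2 := hV2 y hy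
    have h3 := hV2 (x * y) (by rw [map_mul]; exact V.mul_mem hx hy)
    have hxi : x⁻¹ = x := inv_eq_of_mul_eq_one_left h1
    have hyi : y⁻¹ = y := inv_eq_of_mul_eq_one_left h2
    symm
    calc y * x = x⁻¹ * (x * y * (x * y)) * y⁻¹ := by group
      _ = x * y := by rw [h3, mul_one, hxi, hyi]
  exact h.false_of_comm Nat.prime_two (V : Set Ω) hVG (by rw [Subgroup.closure_eq]; exact hidx) hVc

end gen

theorem prime_cases {p : ℕ} (hp : p.Prime) (hd : p ∣ 175560) :
    p = 2 ∨ p = 3 ∨ p = 5 ∨ p = 7 ∨ p = 11 ∨ p = 19 := by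
  have h : (175560 : ℕ) = 2 * (2 * (2 * (3 * (5 * (7 * (11 * 19)))))) := by norm_num
  rw [h] at hd
  have pe : ∀ q : ℕ, q.Prime → p ∣ q → p = q := fun q hq hpq =>
    (Nat.prime_dvd_prime_iff_eq hp hq).1 hpq
  rcases (Nat.Prime.dvd_mul hp).1 hd with h1 | hd
  · exact Or.inl (pe 2 (by norm_num) h1)
  rcases (Nat.Prime.dvd_mul hp).1 hd with h1 | hd
  · exact Or.inl (pe 2 (by norm_num) h1)
  rcases (Nat.Prime.dvd_mul hp).1 hd with h1 | hd
  · exact Or.inl (pe 2 (by norm_num) h1)
  rcases (Nat.Prime.dvd_mul hp).1 hd with h1 | hd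
  · exact Or.inr (Or.inl (pe 3 (by norm_num) h1))
  rcases (Nat.Prime.dvd_mul hp).1 hd with h1 | hd
  · exact Or.inr (Or.inr (Or.inl (pe 5 (by norm_num) h1)))
  rcases (Nat.Prime.dvd_mul hp).1 hd with h1 | hd
  · exact Or.inr (Or.inr (Or.inr (Or.inl (pe 7 (by norm_num) h1))))
  rcases (Nat.Prime.dvd_mul hp).1 hd with h1 | hd
  · exact Or.inr (Or.inr (Or.inr (Or.inr (Or.inl (pe 11 (by norm_num) h1)))))
  · exact Or.inr (Or.inr (Or.inr (Or.inr (Or.inr (pe 19 (by norm_num) hd)))))

theorem odd_case {Γ : Type} [Group Γ] [Finite Γ] (τ : Γ →* Om) {p m : ℕ} (hp : p.Prime)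
    (h : PStem p τ Cfsg.Spor.J1) (hm : 175560 = p * m) (hpm : ¬ p ∣ m) : False := by
  haveI : Fact p.Prime := ⟨hp⟩
  obtain ⟨x, hx⟩ := exists_prime_orderOf_dvd_card' (G := Cfsg.Spor.J1) p
    (by rw [card_J1, hm]; exact Dvd.intro _ rfl)
  refine h.false_of_cyclic hp (x : Om) x.2 (m := m) ?_ hpm
  rw [Subgroup.orderOf_coe, hx, card_J1, hm]

theorem no_pstem (p : ℕ) (hp : p.Prime) (Γ : Type) [Group Γ] [Finite Γ] (τ : Γ →* Om)
    (h : PStem p τ Cfsg.Spor.J1) : False := by
  by_cases hd : p ∣ 175560
  · rcases prime_cases hp hd with rfl | rfl | rfl | rfl | rfl | rfl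
    · refine false_of_elem h V_le (v1 := E 1) ⟨1, rfl⟩ (E_sq 1) V_conj ?_ ?_
      · refine ⟨E 1, ⟨1, rfl⟩, E 2, ⟨2, rfl⟩, E 3, ⟨3, rfl⟩, E_ne 1 (by decide), E_ne 2 (by decide),
          E_ne 3 (by decide), ?_, ?_, ?_, ?_⟩
        · rw [m12]; exact E_ne 4 (by decide)
        · rw [m13]; exact E_ne 5 (by decide)
        · rw [m23]; exact E_ne 6 (by decide)
        · rw [m23, m16]; exact E_ne 7 (by decide)
      · exact not_dvd_relIndex V_le (m := 21945) (by rw [card_J1, card_V]) (by norm_num)
    · exact odd_case τ hp h (m := 58520) (by norm_num) (by norm_num)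
    · exact odd_case τ hp h (m := 35112) (by norm_num) (by norm_num)
    · exact odd_case τ hp h (m := 25080) (by norm_num) (by norm_num)
    · exact odd_case τ hp h (m := 15960) (by norm_num) (by norm_num)
    · exact odd_case τ hp h (m := 9240) (by norm_num) (by norm_num)
  · refine h.false_of_cyclic hp (1 : Om) (Subgroup.one_mem _) (m := 175560) ?_ hd
    rw [orderOf_one, one_mul, card_J1]

theorem schur : Cfsg.HasCyclicSchurMultiplier ↥Cfsg.Spor.J1 1 :=
  hasCyclic_one Cfsg.Spor.J1 (ker_eq_bot_of_prime Cfsg.Spor.J1 no_pstem)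

end Cfsg.Agent.Lib.Helper11.J1Sch
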