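import Cfsg.Agent.Lib.Helper11.J2aLT

set_option autoImplicit false
set_option maxRecDepth 1000000
set_option Elab.async false

namespace Cfsg.Agent.Lib.Helper11.J2a

open Cfsg.Agent.Lib.Helper11

theorem lb0_0 : PR.allR (PR.lbF lP0 lM0 lwT0) 1 99 = true := by decide +kernel

theorem lb1_0 : PR.allR (PR.lbF lP1 lM1 lwT1) 1 62 = true := by decide +kernel

theorem lb2_0 : PR.allR (PR.lbF lP2 lM2 lwT2) 1 31 = true := by decide +kernel

theorem lb3_0 : PR.allR (PR.lbF lP3 lM3 lwT3) 1 2 = true := by decide +kernel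

end Cfsg.Agent.Lib.Helper11.J2a
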