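import Cfsg.Agent.Lib.Helper11.GenMaster2
import Cfsg.Agent.Lib.Helper11.J2aLB
import Cfsg.Agent.Lib.Helper11.SuzOrderUB

/-! # The group presented on `a, …, e` by the relators of `Suz` in these letters is simple of order `|J2|` -/

set_option autoImplicit false
set_option maxRecDepth 100000

namespace Cfsg.Agent.Lib.Helper11.J2S

open Cfsg.Agent.Lib.Helper11 Cfsg.Agent.Lib.Helper11.TC

abbrev P : Type := GM.WG J2a.invL J2a.Ls (J2a.coxW ++ J2a.extraW)

def gen : ℕ → P := GM.wgen J2a.invL J2a.Ls (J2a.coxW ++ J2a.extraW)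

theorem pres : GM.Pres P gen J2a.invL J2a.Ls (J2a.coxW ++ J2a.extraW) :=
  GM.wg_pres (fun _ hl => hl) (by decide) (by decide) (by decide +kernel)

theorem card_le : Finite P ∧ Nat.card P ≤ 604800 :=
  GM.card_le_of_bound pres (fun _ => rfl) SuzOrder.b2

def xw : List ℕ := [0, 2]

def cs : List (List ℕ) := [[2, 0, 4, 6], [2, 0, 4, 6, 4, 6, 4], [2, 0, 4, 6], [2, 0, 4, 6, 4, 6, 4]]

theorem simple : IsSimpleGroup P ∧ Nat.card P = 604800 :=
  GM.simple_master pres (n := 100) (N := 604800) J2a.tables J2a.relsOK J2a.orbits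
    card_le J2a.lbase (by decide) J2a.lb (by norm_num) (by decide +kernel) (by decide +kernel)
    5 (by norm_num) xw (by decide) (by decide +kernel) 0 (by decide) cs (by decide +kernel)
    (by decide +kernel) (GM.collapses_of_kill (fun _ => rfl) 6 (by decide +kernel))

/-- the faithful permutation representation of degree 100 -/
theorem exists_faithful : ∃ φ : P →* Equiv.Perm (Fin 100), Function.Injective φ := by
  obtain ⟨φ, hφ⟩ := GM.exists_rep pres J2a.tables J2a.relsOK
  obtain ⟨_, h2, _⟩ := GM.order_master J2a.tables φ hφ card_le J2a.lbase (by decide)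
    J2a.lb (by norm_num)
  exact ⟨φ, h2⟩

end Cfsg.Agent.Lib.Helper11.J2S
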