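import Cfsg.Agent.Lib.Helper11.PRDefs

set_option autoImplicit false
set_option maxRecDepth 1000000

namespace Cfsg.Agent.Lib.Helper11.J2a

open Cfsg.Agent.Lib.Helper11

def T2_0_1 : Nat := 2118407769117190308568805873036681772305221177759735284637108580157167520822300295229123353085798978578663633653325330374427140212663524736427843118767481594822730821183047977375675477076747881504557132889948319
noncomputable def tb2 (i : Nat) : Nat := Nat.land (Nat.shiftRight T2_0_1 (Nat.mul (Nat.land i 255) 7)) 127

end Cfsg.Agent.Lib.Helper11.J2a
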