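import Cfsg.Agent.Lib.Helper11.PRDefs

set_option autoImplicit false
set_option maxRecDepth 1000000

namespace Cfsg.Agent.Lib.Helper11.J2a

open Cfsg.Agent.Lib.Helper11

def T4_0_1 : Nat := 2842431488103808070876699154537632612094100052536762985273329733165128946485652629818490556482553031341859123979320722636752259600316116311909618373626490010518009160574249826536701249803197905762597928237633559
noncomputable def tb4 (i : Nat) : Nat := Nat.land (Nat.shiftRight T4_0_1 (Nat.mul (Nat.land i 255) 7)) 127

end Cfsg.Agent.Lib.Helper11.J2a
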