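import Cfsg.Agent.Lib.Helper11.PRDefs

set_option autoImplicit false
set_option maxRecDepth 1000000

namespace Cfsg.Agent.Lib.Helper11.J2a

open Cfsg.Agent.Lib.Helper11

def T6_0_1 : Nat := 1816100917442764491363923547421343020080693525581499006075874044212036447007248418841484042642427026440083724791889235532628453602312139930388266234725000912979658300396679858548938520236594114996709471040817584
noncomputable def tb6 (i : Nat) : Nat := Nat.land (Nat.shiftRight T6_0_1 (Nat.mul (Nat.land i 255) 7)) 127

end Cfsg.Agent.Lib.Helper11.J2a
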