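import Cfsg.Agent.Lib.Helper11.PRDefs

set_option autoImplicit false
set_option maxRecDepth 1000000

namespace Cfsg.Agent.Lib.Helper11.J2a

open Cfsg.Agent.Lib.Helper11

def T8_0_1 : Nat := 3522706947122194443429359793394495323088252276252121115266879588520564844949267385001263304523520767608379098371255808450742776535625596642377342576012730912920795559115441597830058019639816876632321551031869464
noncomputable def tb8 (i : Nat) : Nat := Nat.land (Nat.shiftRight T8_0_1 (Nat.mul (Nat.land i 255) 7)) 127

end Cfsg.Agent.Lib.Helper11.J2a
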