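import Cfsg.Agent.Lib.Helper11.PRDefs

set_option autoImplicit false
set_option maxRecDepth 1000000

namespace Cfsg.Agent.Lib.Helper11.J2a

open Cfsg.Agent.Lib.Helper11

def TW_0_1 : Nat := 10298332606981068700864352540337229862116769281961931057002134687284406214952724050990070618748942700328426639549705030586271403292999829886934577867974338289012349691878867521889122089834092093996915180646442167027245637604950636412939213642851342836031757526683018878154339512708207904176686595783983486460756827008637279483723776
noncomputable def tbW (i : Nat) : Nat := Nat.land (Nat.shiftRight TW_0_1 (Nat.mul (Nat.land i 255) 11)) 2047

end Cfsg.Agent.Lib.Helper11.J2a
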