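import Cfsg.Agent.Lib.Helper11.PRDefs

set_option autoImplicit false
set_option maxRecDepth 1000000

namespace Cfsg.Agent.Lib.Helper11.J2a

open Cfsg.Agent.Lib.Helper11

def T0_0_1 : Nat := 536677450651831383883243137107645775223434196483970832758648692180903881376494433013675205880980823364693529269740900756261072344936543247510112964994233780498164941539387455158928119441856384603484783534080001
noncomputable def tb0 (i : Nat) : Nat := Nat.land (Nat.shiftRight T0_0_1 (Nat.mul (Nat.land i 255) 7)) 127

end Cfsg.Agent.Lib.Helper11.J2a
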