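set_option autoImplicit false

namespace Cfsg.Agent.Lib.Helper11.J3x

def coxW : List (List Nat) := [
  [0, 2, 0, 2, 0, 2, 0, 2, 0, 2, 0, 2, 0, 2, 0, 2, 0, 2, 0, 2, 0, 2, 0, 2, 0, 2, 0, 2, 0, 2, 0, 2, 0, 2]]

def extraW : List (List Nat) := [
  [0, 2, 4, 0, 2, 4, 0, 2, 4, 0, 2, 4],
  [2, 4, 2, 4, 2, 4, 2, 4, 2, 4, 2, 4],
  [0, 2, 0, 4, 0, 4, 0, 4, 2, 0, 4, 0, 4, 2, 4, 2, 4, 0, 4],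
  [4, 6, 4, 6],
  [0, 4, 0, 4, 6, 0, 6, 0, 6, 0, 6, 4],
  [0, 4, 0, 6, 4, 0, 6, 0, 6, 0, 4, 6],
  [0, 2, 4, 6, 2, 0, 4, 0, 4, 2, 6, 0, 4, 0, 4, 0, 4, 2, 4, 0, 4],
  [0, 2, 4, 0, 2, 4, 6, 2, 0, 4, 2, 0, 2, 4, 2, 0, 6, 4, 0, 2, 4, 2],
  [0, 2, 4, 2, 0, 2, 4, 2, 4, 6, 0, 6, 2, 6, 2, 0, 2, 6, 2, 4, 2, 6, 4]]

def subs : List (List Nat) := [
  [0],
  [2],
  [4]]

def Ls : List Nat := [0, 2, 4, 6]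

def invL : Nat → Nat

  | l => l

def ivs : List (Nat × Nat) := [(0, 1), (1, 86), (86, 766), (766, 2126), (2126, 3486), (3486, 5526), (5526, 6036), (6036, 6156)]

end Cfsg.Agent.Lib.Helper11.J3x
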