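import Cfsg.Agent.Lib.Helper11.PRMain
import Cfsg.Agent.Lib.Helper11.J3xPres
import Cfsg.Agent.Lib.Helper11.J3xPC0

set_option autoImplicit false
set_option maxRecDepth 1000000

namespace Cfsg.Agent.Lib.Helper11.J3x

open Cfsg.Agent.Lib.Helper11

theorem rng0 : ∀ u, 0 ≤ u → u < 6156 → PR.mapsF [tb0] 0 6155 u = true := by
  have h : ∀ u, 0 ≤ u → u < 0 → PR.mapsF [tb0] 0 6155 u = true := fun u h1 h2 => absurd h2 (by omega)
  have h := PR.allR_chain (PR.mapsF [tb0] 0 6155) 0 0 6156 rng0_0 h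
  exact h

theorem sq0 : ∀ u, 0 ≤ u → u < 6156 → PR.fixF [tb0, tb0] u = true := by
  have h : ∀ u, 0 ≤ u → u < 0 → PR.fixF [tb0, tb0] u = true := fun u h1 h2 => absurd h2 (by omega)
  have h := PR.allR_chain (PR.fixF [tb0, tb0]) 0 0 6156 sq0_0 h
  exact h

theorem rng2 : ∀ u, 0 ≤ u → u < 6156 → PR.mapsF [tb2] 0 6155 u = true := by
  have h : ∀ u, 0 ≤ u → u < 0 → PR.mapsF [tb2] 0 6155 u = true := fun u h1 h2 => absurd h2 (by omega)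
  have h := PR.allR_chain (PR.mapsF [tb2] 0 6155) 0 0 6156 rng2_0 h
  exact h

theorem sq2 : ∀ u, 0 ≤ u → u < 6156 → PR.fixF [tb2, tb2] u = true := by
  have h : ∀ u, 0 ≤ u → u < 0 → PR.fixF [tb2, tb2] u = true := fun u h1 h2 => absurd h2 (by omega)
  have h := PR.allR_chain (PR.fixF [tb2, tb2]) 0 0 6156 sq2_0 h
  exact h

theorem rng4 : ∀ u, 0 ≤ u → u < 6156 → PR.mapsF [tb4] 0 6155 u = true := by
  have h : ∀ u, 0 ≤ u → u < 0 → PR.mapsF [tb4] 0 6155 u = true := fun u h1 h2 => absurd h2 (by omega)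
  have h := PR.allR_chain (PR.mapsF [tb4] 0 6155) 0 0 6156 rng4_0 h
  exact h

theorem sq4 : ∀ u, 0 ≤ u → u < 6156 → PR.fixF [tb4, tb4] u = true := by
  have h : ∀ u, 0 ≤ u → u < 0 → PR.fixF [tb4, tb4] u = true := fun u h1 h2 => absurd h2 (by omega)
  have h := PR.allR_chain (PR.fixF [tb4, tb4]) 0 0 6156 sq4_0 h
  exact h

theorem rng6 : ∀ u, 0 ≤ u → u < 6156 → PR.mapsF [tb6] 0 6155 u = true := by
  have h : ∀ u, 0 ≤ u → u < 0 → PR.mapsF [tb6] 0 6155 u = true := fun u h1 h2 => absurd h2 (by omega)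
  have h := PR.allR_chain (PR.mapsF [tb6] 0 6155) 0 0 6156 rng6_0 h
  exact h

theorem sq6 : ∀ u, 0 ≤ u → u < 6156 → PR.fixF [tb6, tb6] u = true := by
  have h : ∀ u, 0 ≤ u → u < 0 → PR.fixF [tb6, tb6] u = true := fun u h1 h2 => absurd h2 (by omega)
  have h := PR.allR_chain (PR.fixF [tb6, tb6]) 0 0 6156 sq6_0 h
  exact h

theorem rel0 : ∀ u, 0 ≤ u → u < 6156 → PR.fixF [tb0, tb2, tb0, tb2, tb0, tb2, tb0, tb2, tb0, tb2, tb0, tb2, tb0, tb2, tb0, tb2, tb0, tb2, tb0, tb2, tb0, tb2, tb0, tb2, tb0, tb2, tb0, tb2, tb0, tb2, tb0, tb2, tb0, tb2] u = true := by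
  have h : ∀ u, 0 ≤ u → u < 0 → PR.fixF [tb0, tb2, tb0, tb2, tb0, tb2, tb0, tb2, tb0, tb2, tb0, tb2, tb0, tb2, tb0, tb2, tb0, tb2, tb0, tb2, tb0, tb2, tb0, tb2, tb0, tb2, tb0, tb2, tb0, tb2, tb0, tb2, tb0, tb2] u = true := fun u h1 h2 => absurd h2 (by omega)
  have h := PR.allR_chain (PR.fixF [tb0, tb2, tb0, tb2, tb0, tb2, tb0, tb2, tb0, tb2, tb0, tb2, tb0, tb2, tb0, tb2, tb0, tb2, tb0, tb2, tb0, tb2, tb0, tb2, tb0, tb2, tb0, tb2, tb0, tb2, tb0, tb2, tb0, tb2]) 0 0 6156 rel0_0 h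
  exact h

theorem rel1 : ∀ u, 0 ≤ u → u < 6156 → PR.fixF [tb0, tb2, tb4, tb0, tb2, tb4, tb0, tb2, tb4, tb0, tb2, tb4] u = true := by
  have h : ∀ u, 0 ≤ u → u < 0 → PR.fixF [tb0, tb2, tb4, tb0, tb2, tb4, tb0, tb2, tb4, tb0, tb2, tb4] u = true := fun u h1 h2 => absurd h2 (by omega)
  have h := PR.allR_chain (PR.fixF [tb0, tb2, tb4, tb0, tb2, tb4, tb0, tb2, tb4, tb0, tb2, tb4]) 0 0 6156 rel1_0 h
  exact h

theorem rel2 : ∀ u, 0 ≤ u → u < 6156 → PR.fixF [tb2, tb4, tb2, tb4, tb2, tb4, tb2, tb4, tb2, tb4, tb2, tb4] u = true := by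
  have h : ∀ u, 0 ≤ u → u < 0 → PR.fixF [tb2, tb4, tb2, tb4, tb2, tb4, tb2, tb4, tb2, tb4, tb2, tb4] u = true := fun u h1 h2 => absurd h2 (by omega)
  have h := PR.allR_chain (PR.fixF [tb2, tb4, tb2, tb4, tb2, tb4, tb2, tb4, tb2, tb4, tb2, tb4]) 0 0 6156 rel2_0 h
  exact h

theorem rel3 : ∀ u, 0 ≤ u → u < 6156 → PR.fixF [tb0, tb2, tb0, tb4, tb0, tb4, tb0, tb4, tb2, tb0, tb4, tb0, tb4, tb2, tb4, tb2, tb4, tb0, tb4] u = true := by
  have h : ∀ u, 0 ≤ u → u < 0 → PR.fixF [tb0, tb2, tb0, tb4, tb0, tb4, tb0, tb4, tb2, tb0, tb4, tb0, tb4, tb2, tb4, tb2, tb4, tb0, tb4] u = true := fun u h1 h2 => absurd h2 (by omega)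
  have h := PR.allR_chain (PR.fixF [tb0, tb2, tb0, tb4, tb0, tb4, tb0, tb4, tb2, tb0, tb4, tb0, tb4, tb2, tb4, tb2, tb4, tb0, tb4]) 0 0 6156 rel3_0 h
  exact h

theorem rel4 : ∀ u, 0 ≤ u → u < 6156 → PR.fixF [tb4, tb6, tb4, tb6] u = true := by
  have h : ∀ u, 0 ≤ u → u < 0 → PR.fixF [tb4, tb6, tb4, tb6] u = true := fun u h1 h2 => absurd h2 (by omega)
  have h := PR.allR_chain (PR.fixF [tb4, tb6, tb4, tb6]) 0 0 6156 rel4_0 h
  exact h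

theorem rel5 : ∀ u, 0 ≤ u → u < 6156 → PR.fixF [tb0, tb4, tb0, tb4, tb6, tb0, tb6, tb0, tb6, tb0, tb6, tb4] u = true := by
  have h : ∀ u, 0 ≤ u → u < 0 → PR.fixF [tb0, tb4, tb0, tb4, tb6, tb0, tb6, tb0, tb6, tb0, tb6, tb4] u = true := fun u h1 h2 => absurd h2 (by omega)
  have h := PR.allR_chain (PR.fixF [tb0, tb4, tb0, tb4, tb6, tb0, tb6, tb0, tb6, tb0, tb6, tb4]) 0 0 6156 rel5_0 h
  exact h

theorem rel6 : ∀ u, 0 ≤ u → u < 6156 → PR.fixF [tb0, tb4, tb0, tb6, tb4, tb0, tb6, tb0, tb6, tb0, tb4, tb6] u = true := by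
  have h : ∀ u, 0 ≤ u → u < 0 → PR.fixF [tb0, tb4, tb0, tb6, tb4, tb0, tb6, tb0, tb6, tb0, tb4, tb6] u = true := fun u h1 h2 => absurd h2 (by omega)
  have h := PR.allR_chain (PR.fixF [tb0, tb4, tb0, tb6, tb4, tb0, tb6, tb0, tb6, tb0, tb4, tb6]) 0 0 6156 rel6_0 h
  exact h

theorem rel7 : ∀ u, 0 ≤ u → u < 6156 → PR.fixF [tb0, tb2, tb4, tb6, tb2, tb0, tb4, tb0, tb4, tb2, tb6, tb0, tb4, tb0, tb4, tb0, tb4, tb2, tb4, tb0, tb4] u = true := by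
  have h : ∀ u, 0 ≤ u → u < 0 → PR.fixF [tb0, tb2, tb4, tb6, tb2, tb0, tb4, tb0, tb4, tb2, tb6, tb0, tb4, tb0, tb4, tb0, tb4, tb2, tb4, tb0, tb4] u = true := fun u h1 h2 => absurd h2 (by omega)
  have h := PR.allR_chain (PR.fixF [tb0, tb2, tb4, tb6, tb2, tb0, tb4, tb0, tb4, tb2, tb6, tb0, tb4, tb0, tb4, tb0, tb4, tb2, tb4, tb0, tb4]) 0 0 6156 rel7_0 h
  exact h

theorem rel8 : ∀ u, 0 ≤ u → u < 6156 → PR.fixF [tb0, tb2, tb4, tb0, tb2, tb4, tb6, tb2, tb0, tb4, tb2, tb0, tb2, tb4, tb2, tb0, tb6, tb4, tb0, tb2, tb4, tb2] u = true := by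
  have h : ∀ u, 0 ≤ u → u < 0 → PR.fixF [tb0, tb2, tb4, tb0, tb2, tb4, tb6, tb2, tb0, tb4, tb2, tb0, tb2, tb4, tb2, tb0, tb6, tb4, tb0, tb2, tb4, tb2] u = true := fun u h1 h2 => absurd h2 (by omega)
  have h := PR.allR_chain (PR.fixF [tb0, tb2, tb4, tb0, tb2, tb4, tb6, tb2, tb0, tb4, tb2, tb0, tb2, tb4, tb2, tb0, tb6, tb4, tb0, tb2, tb4, tb2]) 0 0 6156 rel8_0 h
  exact h

theorem rel9 : ∀ u, 0 ≤ u → u < 6156 → PR.fixF [tb0, tb2, tb4, tb2, tb0, tb2, tb4, tb2, tb4, tb6, tb0, tb6, tb2, tb6, tb2, tb0, tb2, tb6, tb2, tb4, tb2, tb6, tb4] u = true := by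
  have h : ∀ u, 0 ≤ u → u < 0 → PR.fixF [tb0, tb2, tb4, tb2, tb0, tb2, tb4, tb2, tb4, tb6, tb0, tb6, tb2, tb6, tb2, tb0, tb2, tb6, tb2, tb4, tb2, tb6, tb4] u = true := fun u h1 h2 => absurd h2 (by omega)
  have h := PR.allR_chain (PR.fixF [tb0, tb2, tb4, tb2, tb0, tb2, tb4, tb2, tb4, tb6, tb0, tb6, tb2, tb6, tb2, tb0, tb2, tb6, tb2, tb4, tb2, tb6, tb4]) 0 0 6156 rel9_0 h
  exact h

theorem mp0_0 : ∀ u, 0 ≤ u → u < 1 → PR.mapsF [tb0] 0 0 u = true := by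
  have h : ∀ u, 0 ≤ u → u < 0 → PR.mapsF [tb0] 0 0 u = true := fun u h1 h2 => absurd h2 (by omega)
  have h := PR.allR_chain (PR.mapsF [tb0] 0 0) 0 0 1 mp0_0_0 h
  exact h

theorem mp0_1 : ∀ u, 0 ≤ u → u < 1 → PR.mapsF [tb2] 0 0 u = true := by
  have h : ∀ u, 0 ≤ u → u < 0 → PR.mapsF [tb2] 0 0 u = true := fun u h1 h2 => absurd h2 (by omega)
  have h := PR.allR_chain (PR.mapsF [tb2] 0 0) 0 0 1 mp0_1_0 h
  exact h

theorem mp0_2 : ∀ u, 0 ≤ u → u < 1 → PR.mapsF [tb4] 0 0 u = true := by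
  have h : ∀ u, 0 ≤ u → u < 0 → PR.mapsF [tb4] 0 0 u = true := fun u h1 h2 => absurd h2 (by omega)
  have h := PR.allR_chain (PR.mapsF [tb4] 0 0) 0 0 1 mp0_2_0 h
  exact h

theorem tre0 : ∀ u, 1 ≤ u → u < 1 → PR.treeF tbW [[tb0], [tb2], [tb4]] 0 u = true := by
  have h : ∀ u, 1 ≤ u → u < 1 → PR.treeF tbW [[tb0], [tb2], [tb4]] 0 u = true := fun u h1 h2 => absurd h2 (by omega)
  exact h

theorem mp1_0 : ∀ u, 1 ≤ u → u < 86 → PR.mapsF [tb0] 1 85 u = true := by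
  have h : ∀ u, 1 ≤ u → u < 1 → PR.mapsF [tb0] 1 85 u = true := fun u h1 h2 => absurd h2 (by omega)
  have h := PR.allR_chain (PR.mapsF [tb0] 1 85) 1 1 85 mp1_0_0 h
  exact h

theorem mp1_1 : ∀ u, 1 ≤ u → u < 86 → PR.mapsF [tb2] 1 85 u = true := by
  have h : ∀ u, 1 ≤ u → u < 1 → PR.mapsF [tb2] 1 85 u = true := fun u h1 h2 => absurd h2 (by omega)
  have h := PR.allR_chain (PR.mapsF [tb2] 1 85) 1 1 85 mp1_1_0 h
  exact h

theorem mp1_2 : ∀ u, 1 ≤ u → u < 86 → PR.mapsF [tb4] 1 85 u = true := by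
  have h : ∀ u, 1 ≤ u → u < 1 → PR.mapsF [tb4] 1 85 u = true := fun u h1 h2 => absurd h2 (by omega)
  have h := PR.allR_chain (PR.mapsF [tb4] 1 85) 1 1 85 mp1_2_0 h
  exact h

theorem tre1 : ∀ u, 2 ≤ u → u < 86 → PR.treeF tbW [[tb0], [tb2], [tb4]] 1 u = true := by
  have h : ∀ u, 2 ≤ u → u < 2 → PR.treeF tbW [[tb0], [tb2], [tb4]] 1 u = true := fun u h1 h2 => absurd h2 (by omega)
  have h := PR.allR_chain (PR.treeF tbW [[tb0], [tb2], [tb4]] 1) 2 2 84 tre1_0 h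
  exact h

theorem mp2_0 : ∀ u, 86 ≤ u → u < 766 → PR.mapsF [tb0] 86 765 u = true := by
  have h : ∀ u, 86 ≤ u → u < 86 → PR.mapsF [tb0] 86 765 u = true := fun u h1 h2 => absurd h2 (by omega)
  have h := PR.allR_chain (PR.mapsF [tb0] 86 765) 86 86 680 mp2_0_0 h
  exact h

theorem mp2_1 : ∀ u, 86 ≤ u → u < 766 → PR.mapsF [tb2] 86 765 u = true := by
  have h : ∀ u, 86 ≤ u → u < 86 → PR.mapsF [tb2] 86 765 u = true := fun u h1 h2 => absurd h2 (by omega)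
  have h := PR.allR_chain (PR.mapsF [tb2] 86 765) 86 86 680 mp2_1_0 h
  exact h

theorem mp2_2 : ∀ u, 86 ≤ u → u < 766 → PR.mapsF [tb4] 86 765 u = true := by
  have h : ∀ u, 86 ≤ u → u < 86 → PR.mapsF [tb4] 86 765 u = true := fun u h1 h2 => absurd h2 (by omega)
  have h := PR.allR_chain (PR.mapsF [tb4] 86 765) 86 86 680 mp2_2_0 h
  exact h

theorem tre2 : ∀ u, 87 ≤ u → u < 766 → PR.treeF tbW [[tb0], [tb2], [tb4]] 86 u = true := by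
  have h : ∀ u, 87 ≤ u → u < 87 → PR.treeF tbW [[tb0], [tb2], [tb4]] 86 u = true := fun u h1 h2 => absurd h2 (by omega)
  have h := PR.allR_chain (PR.treeF tbW [[tb0], [tb2], [tb4]] 86) 87 87 679 tre2_0 h
  exact h

theorem mp3_0 : ∀ u, 766 ≤ u → u < 2126 → PR.mapsF [tb0] 766 2125 u = true := by
  have h : ∀ u, 766 ≤ u → u < 766 → PR.mapsF [tb0] 766 2125 u = true := fun u h1 h2 => absurd h2 (by omega)
  have h := PR.allR_chain (PR.mapsF [tb0] 766 2125) 766 766 1360 mp3_0_0 h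
  exact h

theorem mp3_1 : ∀ u, 766 ≤ u → u < 2126 → PR.mapsF [tb2] 766 2125 u = true := by
  have h : ∀ u, 766 ≤ u → u < 766 → PR.mapsF [tb2] 766 2125 u = true := fun u h1 h2 => absurd h2 (by omega)
  have h := PR.allR_chain (PR.mapsF [tb2] 766 2125) 766 766 1360 mp3_1_0 h
  exact h

theorem mp3_2 : ∀ u, 766 ≤ u → u < 2126 → PR.mapsF [tb4] 766 2125 u = true := by
  have h : ∀ u, 766 ≤ u → u < 766 → PR.mapsF [tb4] 766 2125 u = true := fun u h1 h2 => absurd h2 (by omega)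
  have h := PR.allR_chain (PR.mapsF [tb4] 766 2125) 766 766 1360 mp3_2_0 h
  exact h

theorem tre3 : ∀ u, 767 ≤ u → u < 2126 → PR.treeF tbW [[tb0], [tb2], [tb4]] 766 u = true := by
  have h : ∀ u, 767 ≤ u → u < 767 → PR.treeF tbW [[tb0], [tb2], [tb4]] 766 u = true := fun u h1 h2 => absurd h2 (by omega)
  have h := PR.allR_chain (PR.treeF tbW [[tb0], [tb2], [tb4]] 766) 767 767 1359 tre3_0 h
  exact h

theorem mp4_0 : ∀ u, 2126 ≤ u → u < 3486 → PR.mapsF [tb0] 2126 3485 u = true := by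
  have h : ∀ u, 2126 ≤ u → u < 2126 → PR.mapsF [tb0] 2126 3485 u = true := fun u h1 h2 => absurd h2 (by omega)
  have h := PR.allR_chain (PR.mapsF [tb0] 2126 3485) 2126 2126 1360 mp4_0_0 h
  exact h

theorem mp4_1 : ∀ u, 2126 ≤ u → u < 3486 → PR.mapsF [tb2] 2126 3485 u = true := by
  have h : ∀ u, 2126 ≤ u → u < 2126 → PR.mapsF [tb2] 2126 3485 u = true := fun u h1 h2 => absurd h2 (by omega)
  have h := PR.allR_chain (PR.mapsF [tb2] 2126 3485) 2126 2126 1360 mp4_1_0 h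
  exact h

theorem mp4_2 : ∀ u, 2126 ≤ u → u < 3486 → PR.mapsF [tb4] 2126 3485 u = true := by
  have h : ∀ u, 2126 ≤ u → u < 2126 → PR.mapsF [tb4] 2126 3485 u = true := fun u h1 h2 => absurd h2 (by omega)
  have h := PR.allR_chain (PR.mapsF [tb4] 2126 3485) 2126 2126 1360 mp4_2_0 h
  exact h

theorem tre4 : ∀ u, 2127 ≤ u → u < 3486 → PR.treeF tbW [[tb0], [tb2], [tb4]] 2126 u = true := by
  have h : ∀ u, 2127 ≤ u → u < 2127 → PR.treeF tbW [[tb0], [tb2], [tb4]] 2126 u = true := fun u h1 h2 => absurd h2 (by omega)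
  have h := PR.allR_chain (PR.treeF tbW [[tb0], [tb2], [tb4]] 2126) 2127 2127 1359 tre4_0 h
  exact h

theorem mp5_0 : ∀ u, 3486 ≤ u → u < 5526 → PR.mapsF [tb0] 3486 5525 u = true := by
  have h : ∀ u, 3486 ≤ u → u < 3486 → PR.mapsF [tb0] 3486 5525 u = true := fun u h1 h2 => absurd h2 (by omega)
  have h := PR.allR_chain (PR.mapsF [tb0] 3486 5525) 3486 3486 2040 mp5_0_0 h
  exact h

theorem mp5_1 : ∀ u, 3486 ≤ u → u < 5526 → PR.mapsF [tb2] 3486 5525 u = true := by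
  have h : ∀ u, 3486 ≤ u → u < 3486 → PR.mapsF [tb2] 3486 5525 u = true := fun u h1 h2 => absurd h2 (by omega)
  have h := PR.allR_chain (PR.mapsF [tb2] 3486 5525) 3486 3486 2040 mp5_1_0 h
  exact h

theorem mp5_2 : ∀ u, 3486 ≤ u → u < 5526 → PR.mapsF [tb4] 3486 5525 u = true := by
  have h : ∀ u, 3486 ≤ u → u < 3486 → PR.mapsF [tb4] 3486 5525 u = true := fun u h1 h2 => absurd h2 (by omega)
  have h := PR.allR_chain (PR.mapsF [tb4] 3486 5525) 3486 3486 2040 mp5_2_0 h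
  exact h

theorem tre5 : ∀ u, 3487 ≤ u → u < 5526 → PR.treeF tbW [[tb0], [tb2], [tb4]] 3486 u = true := by
  have h : ∀ u, 3487 ≤ u → u < 3487 → PR.treeF tbW [[tb0], [tb2], [tb4]] 3486 u = true := fun u h1 h2 => absurd h2 (by omega)
  have h := PR.allR_chain (PR.treeF tbW [[tb0], [tb2], [tb4]] 3486) 3487 3487 2039 tre5_0 h
  exact h

theorem mp6_0 : ∀ u, 5526 ≤ u → u < 6036 → PR.mapsF [tb0] 5526 6035 u = true := by
  have h : ∀ u, 5526 ≤ u → u < 5526 → PR.mapsF [tb0] 5526 6035 u = true := fun u h1 h2 => absurd h2 (by omega)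
  have h := PR.allR_chain (PR.mapsF [tb0] 5526 6035) 5526 5526 510 mp6_0_0 h
  exact h

theorem mp6_1 : ∀ u, 5526 ≤ u → u < 6036 → PR.mapsF [tb2] 5526 6035 u = true := by
  have h : ∀ u, 5526 ≤ u → u < 5526 → PR.mapsF [tb2] 5526 6035 u = true := fun u h1 h2 => absurd h2 (by omega)
  have h := PR.allR_chain (PR.mapsF [tb2] 5526 6035) 5526 5526 510 mp6_1_0 h
  exact h

theorem mp6_2 : ∀ u, 5526 ≤ u → u < 6036 → PR.mapsF [tb4] 5526 6035 u = true := by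
  have h : ∀ u, 5526 ≤ u → u < 5526 → PR.mapsF [tb4] 5526 6035 u = true := fun u h1 h2 => absurd h2 (by omega)
  have h := PR.allR_chain (PR.mapsF [tb4] 5526 6035) 5526 5526 510 mp6_2_0 h
  exact h

theorem tre6 : ∀ u, 5527 ≤ u → u < 6036 → PR.treeF tbW [[tb0], [tb2], [tb4]] 5526 u = true := by
  have h : ∀ u, 5527 ≤ u → u < 5527 → PR.treeF tbW [[tb0], [tb2], [tb4]] 5526 u = true := fun u h1 h2 => absurd h2 (by omega)
  have h := PR.allR_chain (PR.treeF tbW [[tb0], [tb2], [tb4]] 5526) 5527 5527 509 tre6_0 h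
  exact h

theorem mp7_0 : ∀ u, 6036 ≤ u → u < 6156 → PR.mapsF [tb0] 6036 6155 u = true := by
  have h : ∀ u, 6036 ≤ u → u < 6036 → PR.mapsF [tb0] 6036 6155 u = true := fun u h1 h2 => absurd h2 (by omega)
  have h := PR.allR_chain (PR.mapsF [tb0] 6036 6155) 6036 6036 120 mp7_0_0 h
  exact h

theorem mp7_1 : ∀ u, 6036 ≤ u → u < 6156 → PR.mapsF [tb2] 6036 6155 u = true := by
  have h : ∀ u, 6036 ≤ u → u < 6036 → PR.mapsF [tb2] 6036 6155 u = true := fun u h1 h2 => absurd h2 (by omega)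
  have h := PR.allR_chain (PR.mapsF [tb2] 6036 6155) 6036 6036 120 mp7_1_0 h
  exact h

theorem mp7_2 : ∀ u, 6036 ≤ u → u < 6156 → PR.mapsF [tb4] 6036 6155 u = true := by
  have h : ∀ u, 6036 ≤ u → u < 6036 → PR.mapsF [tb4] 6036 6155 u = true := fun u h1 h2 => absurd h2 (by omega)
  have h := PR.allR_chain (PR.mapsF [tb4] 6036 6155) 6036 6036 120 mp7_2_0 h
  exact h

theorem tre7 : ∀ u, 6037 ≤ u → u < 6156 → PR.treeF tbW [[tb0], [tb2], [tb4]] 6036 u = true := by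
  have h : ∀ u, 6037 ≤ u → u < 6037 → PR.treeF tbW [[tb0], [tb2], [tb4]] 6036 u = true := fun u h1 h2 => absurd h2 (by omega)
  have h := PR.allR_chain (PR.treeF tbW [[tb0], [tb2], [tb4]] 6036) 6037 6037 119 tre7_0 h
  exact h

theorem tables : PR.Tables 6156 tbl invL Ls := by
  refine ⟨?_, by decide, ?_, ?_⟩
  · intro l hl
    simp only [Ls, List.mem_cons, List.mem_nil_iff, or_false] at hl
    rcases hl with rfl | rfl | rfl | rfl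
    · exact fun u hu => Nat.lt_of_le_of_lt ((PR.mapsF_iff _ _ _ _).mp (rng0 u (Nat.zero_le _) hu)).2 (by norm_num)
    · exact fun u hu => Nat.lt_of_le_of_lt ((PR.mapsF_iff _ _ _ _).mp (rng2 u (Nat.zero_le _) hu)).2 (by norm_num)
    · exact fun u hu => Nat.lt_of_le_of_lt ((PR.mapsF_iff _ _ _ _).mp (rng4 u (Nat.zero_le _) hu)).2 (by norm_num)
    · exact fun u hu => Nat.lt_of_le_of_lt ((PR.mapsF_iff _ _ _ _).mp (rng6 u (Nat.zero_le _) hu)).2 (by norm_num)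
  · intro l hl
    simp only [Ls, List.mem_cons, List.mem_nil_iff, or_false] at hl
    rcases hl with rfl | rfl | rfl | rfl
    · exact fun u hu => (PR.fixF_iff _ _).mp (sq0 u (Nat.zero_le _) hu)
    · exact fun u hu => (PR.fixF_iff _ _).mp (sq2 u (Nat.zero_le _) hu)
    · exact fun u hu => (PR.fixF_iff _ _).mp (sq4 u (Nat.zero_le _) hu)
    · exact fun u hu => (PR.fixF_iff _ _).mp (sq6 u (Nat.zero_le _) hu)
  · intro l hl
    simp only [Ls, List.mem_cons, List.mem_nil_iff, or_false] at hl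
    rcases hl with rfl | rfl | rfl | rfl
    · exact fun u hu => (PR.fixF_iff _ _).mp (sq0 u (Nat.zero_le _) hu)
    · exact fun u hu => (PR.fixF_iff _ _).mp (sq2 u (Nat.zero_le _) hu)
    · exact fun u hu => (PR.fixF_iff _ _).mp (sq4 u (Nat.zero_le _) hu)
    · exact fun u hu => (PR.fixF_iff _ _).mp (sq6 u (Nat.zero_le _) hu)

theorem relsOK : ∀ r ∈ coxW ++ extraW, ∀ u < 6156, PR.trace (r.map tbl) u = u := by
  intro r hr
  simp only [coxW, extraW, List.mem_append, List.mem_cons, List.mem_nil_iff, or_false, or_assoc] at hr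
  rcases hr with rfl | rfl | rfl | rfl | rfl | rfl | rfl | rfl | rfl | rfl
  · exact fun u hu => (PR.fixF_iff _ _).mp (rel0 u (Nat.zero_le _) hu)
  · exact fun u hu => (PR.fixF_iff _ _).mp (rel1 u (Nat.zero_le _) hu)
  · exact fun u hu => (PR.fixF_iff _ _).mp (rel2 u (Nat.zero_le _) hu)
  · exact fun u hu => (PR.fixF_iff _ _).mp (rel3 u (Nat.zero_le _) hu)
  · exact fun u hu => (PR.fixF_iff _ _).mp (rel4 u (Nat.zero_le _) hu)
  · exact fun u hu => (PR.fixF_iff _ _).mp (rel5 u (Nat.zero_le _) hu)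
  · exact fun u hu => (PR.fixF_iff _ _).mp (rel6 u (Nat.zero_le _) hu)
  · exact fun u hu => (PR.fixF_iff _ _).mp (rel7 u (Nat.zero_le _) hu)
  · exact fun u hu => (PR.fixF_iff _ _).mp (rel8 u (Nat.zero_le _) hu)
  · exact fun u hu => (PR.fixF_iff _ _).mp (rel9 u (Nat.zero_le _) hu)

theorem orbits : PR.Orbits 6156 tbl Ls subs ivs := by
  refine ⟨by decide, ?_, ?_, ?_, ?_, by decide, by decide⟩
  · intro iv hiv s hs
    simp only [ivs, List.mem_cons, List.mem_nil_iff, or_false] at hiv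
    simp only [subs, List.mem_cons, List.mem_nil_iff, or_false] at hs
    rcases hiv with rfl | rfl | rfl | rfl | rfl | rfl | rfl | rfl <;> rcases hs with rfl | rfl | rfl
    · exact fun u h1 h2 => ⟨((PR.mapsF_iff _ _ _ _).mp (mp0_0 u h1 h2)).1, Nat.lt_of_le_of_lt ((PR.mapsF_iff _ _ _ _).mp (mp0_0 u h1 h2)).2 (by norm_num)⟩
    · exact fun u h1 h2 => ⟨((PR.mapsF_iff _ _ _ _).mp (mp0_1 u h1 h2)).1, Nat.lt_of_le_of_lt ((PR.mapsF_iff _ _ _ _).mp (mp0_1 u h1 h2)).2 (by norm_num)⟩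
    · exact fun u h1 h2 => ⟨((PR.mapsF_iff _ _ _ _).mp (mp0_2 u h1 h2)).1, Nat.lt_of_le_of_lt ((PR.mapsF_iff _ _ _ _).mp (mp0_2 u h1 h2)).2 (by norm_num)⟩
    · exact fun u h1 h2 => ⟨((PR.mapsF_iff _ _ _ _).mp (mp1_0 u h1 h2)).1, Nat.lt_of_le_of_lt ((PR.mapsF_iff _ _ _ _).mp (mp1_0 u h1 h2)).2 (by norm_num)⟩
    · exact fun u h1 h2 => ⟨((PR.mapsF_iff _ _ _ _).mp (mp1_1 u h1 h2)).1, Nat.lt_of_le_of_lt ((PR.mapsF_iff _ _ _ _).mp (mp1_1 u h1 h2)).2 (by norm_num)⟩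
    · exact fun u h1 h2 => ⟨((PR.mapsF_iff _ _ _ _).mp (mp1_2 u h1 h2)).1, Nat.lt_of_le_of_lt ((PR.mapsF_iff _ _ _ _).mp (mp1_2 u h1 h2)).2 (by norm_num)⟩
    · exact fun u h1 h2 => ⟨((PR.mapsF_iff _ _ _ _).mp (mp2_0 u h1 h2)).1, Nat.lt_of_le_of_lt ((PR.mapsF_iff _ _ _ _).mp (mp2_0 u h1 h2)).2 (by norm_num)⟩
    · exact fun u h1 h2 => ⟨((PR.mapsF_iff _ _ _ _).mp (mp2_1 u h1 h2)).1, Nat.lt_of_le_of_lt ((PR.mapsF_iff _ _ _ _).mp (mp2_1 u h1 h2)).2 (by norm_num)⟩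
    · exact fun u h1 h2 => ⟨((PR.mapsF_iff _ _ _ _).mp (mp2_2 u h1 h2)).1, Nat.lt_of_le_of_lt ((PR.mapsF_iff _ _ _ _).mp (mp2_2 u h1 h2)).2 (by norm_num)⟩
    · exact fun u h1 h2 => ⟨((PR.mapsF_iff _ _ _ _).mp (mp3_0 u h1 h2)).1, Nat.lt_of_le_of_lt ((PR.mapsF_iff _ _ _ _).mp (mp3_0 u h1 h2)).2 (by norm_num)⟩
    · exact fun u h1 h2 => ⟨((PR.mapsF_iff _ _ _ _).mp (mp3_1 u h1 h2)).1, Nat.lt_of_le_of_lt ((PR.mapsF_iff _ _ _ _).mp (mp3_1 u h1 h2)).2 (by norm_num)⟩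
    · exact fun u h1 h2 => ⟨((PR.mapsF_iff _ _ _ _).mp (mp3_2 u h1 h2)).1, Nat.lt_of_le_of_lt ((PR.mapsF_iff _ _ _ _).mp (mp3_2 u h1 h2)).2 (by norm_num)⟩
    · exact fun u h1 h2 => ⟨((PR.mapsF_iff _ _ _ _).mp (mp4_0 u h1 h2)).1, Nat.lt_of_le_of_lt ((PR.mapsF_iff _ _ _ _).mp (mp4_0 u h1 h2)).2 (by norm_num)⟩
    · exact fun u h1 h2 => ⟨((PR.mapsF_iff _ _ _ _).mp (mp4_1 u h1 h2)).1, Nat.lt_of_le_of_lt ((PR.mapsF_iff _ _ _ _).mp (mp4_1 u h1 h2)).2 (by norm_num)⟩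
    · exact fun u h1 h2 => ⟨((PR.mapsF_iff _ _ _ _).mp (mp4_2 u h1 h2)).1, Nat.lt_of_le_of_lt ((PR.mapsF_iff _ _ _ _).mp (mp4_2 u h1 h2)).2 (by norm_num)⟩
    · exact fun u h1 h2 => ⟨((PR.mapsF_iff _ _ _ _).mp (mp5_0 u h1 h2)).1, Nat.lt_of_le_of_lt ((PR.mapsF_iff _ _ _ _).mp (mp5_0 u h1 h2)).2 (by norm_num)⟩
    · exact fun u h1 h2 => ⟨((PR.mapsF_iff _ _ _ _).mp (mp5_1 u h1 h2)).1, Nat.lt_of_le_of_lt ((PR.mapsF_iff _ _ _ _).mp (mp5_1 u h1 h2)).2 (by norm_num)⟩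
    · exact fun u h1 h2 => ⟨((PR.mapsF_iff _ _ _ _).mp (mp5_2 u h1 h2)).1, Nat.lt_of_le_of_lt ((PR.mapsF_iff _ _ _ _).mp (mp5_2 u h1 h2)).2 (by norm_num)⟩
    · exact fun u h1 h2 => ⟨((PR.mapsF_iff _ _ _ _).mp (mp6_0 u h1 h2)).1, Nat.lt_of_le_of_lt ((PR.mapsF_iff _ _ _ _).mp (mp6_0 u h1 h2)).2 (by norm_num)⟩
    · exact fun u h1 h2 => ⟨((PR.mapsF_iff _ _ _ _).mp (mp6_1 u h1 h2)).1, Nat.lt_of_le_of_lt ((PR.mapsF_iff _ _ _ _).mp (mp6_1 u h1 h2)).2 (by norm_num)⟩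
    · exact fun u h1 h2 => ⟨((PR.mapsF_iff _ _ _ _).mp (mp6_2 u h1 h2)).1, Nat.lt_of_le_of_lt ((PR.mapsF_iff _ _ _ _).mp (mp6_2 u h1 h2)).2 (by norm_num)⟩
    · exact fun u h1 h2 => ⟨((PR.mapsF_iff _ _ _ _).mp (mp7_0 u h1 h2)).1, Nat.lt_of_le_of_lt ((PR.mapsF_iff _ _ _ _).mp (mp7_0 u h1 h2)).2 (by norm_num)⟩
    · exact fun u h1 h2 => ⟨((PR.mapsF_iff _ _ _ _).mp (mp7_1 u h1 h2)).1, Nat.lt_of_le_of_lt ((PR.mapsF_iff _ _ _ _).mp (mp7_1 u h1 h2)).2 (by norm_num)⟩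
    · exact fun u h1 h2 => ⟨((PR.mapsF_iff _ _ _ _).mp (mp7_2 u h1 h2)).1, Nat.lt_of_le_of_lt ((PR.mapsF_iff _ _ _ _).mp (mp7_2 u h1 h2)).2 (by norm_num)⟩
  · intro iv hiv
    simp only [ivs, List.mem_cons, List.mem_nil_iff, or_false] at hiv
    rcases hiv with rfl | rfl | rfl | rfl | rfl | rfl | rfl | rfl
    · intro u h1 h2
      obtain ⟨s, hs, p, hp⟩ := PR.treeF_sound _ _ _ _ (tre0 u h1 h2)
      exact PR.tree_aux tbl subs _ rfl s hs p _ _ hp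
    · intro u h1 h2
      obtain ⟨s, hs, p, hp⟩ := PR.treeF_sound _ _ _ _ (tre1 u h1 h2)
      exact PR.tree_aux tbl subs _ rfl s hs p _ _ hp
    · intro u h1 h2
      obtain ⟨s, hs, p, hp⟩ := PR.treeF_sound _ _ _ _ (tre2 u h1 h2)
      exact PR.tree_aux tbl subs _ rfl s hs p _ _ hp
    · intro u h1 h2
      obtain ⟨s, hs, p, hp⟩ := PR.treeF_sound _ _ _ _ (tre3 u h1 h2)
      exact PR.tree_aux tbl subs _ rfl s hs p _ _ hp
    · intro u h1 h2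
      obtain ⟨s, hs, p, hp⟩ := PR.treeF_sound _ _ _ _ (tre4 u h1 h2)
      exact PR.tree_aux tbl subs _ rfl s hs p _ _ hp
    · intro u h1 h2
      obtain ⟨s, hs, p, hp⟩ := PR.treeF_sound _ _ _ _ (tre5 u h1 h2)
      exact PR.tree_aux tbl subs _ rfl s hs p _ _ hp
    · intro u h1 h2
      obtain ⟨s, hs, p, hp⟩ := PR.treeF_sound _ _ _ _ (tre6 u h1 h2)
      exact PR.tree_aux tbl subs _ rfl s hs p _ _ hp
    · intro u h1 h2
      obtain ⟨s, hs, p, hp⟩ := PR.treeF_sound _ _ _ _ (tre7 u h1 h2)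
      exact PR.tree_aux tbl subs _ rfl s hs p _ _ hp
  · intro iv hiv
    simp only [ivs, List.mem_cons, List.mem_nil_iff, or_false] at hiv
    rcases hiv with rfl | rfl | rfl | rfl | rfl | rfl | rfl | rfl
    · exact ⟨[], by decide, root0⟩
    · exact ⟨[6], by decide, root1⟩
    · exact ⟨[6, 0, 6], by decide, root2⟩
    · exact ⟨[6, 2, 6], by decide, root3⟩
    · exact ⟨[6, 2, 0, 2, 6], by decide, root4⟩
    · exact ⟨[6, 0, 2, 6, 0, 6], by decide, root5⟩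
    · exact ⟨[6, 0, 6, 2, 6, 0, 6], by decide, root6⟩
    · exact ⟨[6, 0, 2, 4, 0, 6, 2, 6], by decide, root7⟩
  · intro u hu
    simp only [ivs, List.mem_cons, List.mem_nil_iff, or_false, exists_eq_or_imp, exists_eq_left]
    omega

end Cfsg.Agent.Lib.Helper11.J3x
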