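import Cfsg.Agent.Lib.Helper11.TCCore
import Cfsg.Agent.Lib.Helper11.J3xU1B0

set_option autoImplicit false
set_option maxRecDepth 100000

namespace Cfsg.Agent.Lib.Helper11.J3xU1

open Cfsg.Agent.Lib.Helper11

theorem f0 : F 0 = 32505856 := by decide +kernel

theorem valid {Q : Type*} (act : ℕ → Q → Q) (q0 : Q) (h31 : ∀ x, act 31 x = x)
    (hadm : ∀ a ∈ adm, TC.AdmOK act q0 a) :
    ∀ f < 3250, TC.Valid act q0 F f := by
  have h := TC.valid_zero act q0 F h31 f0
  have h := TC.checkDefs_chain act q0 F 1 1788 dfs0 h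
  have h := TC.checkBlocks_sound act q0 F h31 adm hadm _ 1789 3250 (by norm_num) blk0 h
  exact h

theorem closed {Q : Type*} (act : ℕ → Q → Q) (q0 : Q) (h31 : ∀ x, act 31 x = x)
    (hadm : ∀ a ∈ adm, TC.AdmOK act q0 a) (hl : ∀ e ∈ letters, TC.PairOK act e) :
    ∀ e ∈ letters, ∀ u < 240, ∃ v ≤ 239, act e.1 (TC.kap act q0 F u) = TC.kap act q0 F v := by
  have hV : ∀ d, d ≤ 6499 → TC.Valid act q0 F (d / 2) := fun d hd => valid act q0 h31 hadm _ (by omega)
  intro e he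
  have hp := hl e he
  simp only [letters, List.mem_cons, List.mem_nil_iff, or_false] at he
  rcases he with rfl | rfl | rfl
  · have h : ∀ u < 0, ∃ v ≤ 239, act ((0, 0) : ℕ × ℕ).1 (TC.kap act q0 F u) = TC.kap act q0 F v := fun u hu => absurd hu (Nat.not_lt_zero u)
    have h := (TC.checkCL_sound act q0 F _ _ _ hp hV _ 0 240 (by norm_num) cmp0_0 h).2
    exact h
  · have h : ∀ u < 0, ∃ v ≤ 239, act ((2, 2097152) : ℕ × ℕ).1 (TC.kap act q0 F u) = TC.kap act q0 F v := fun u hu => absurd hu (Nat.not_lt_zero u)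
    have h := (TC.checkCL_sound act q0 F _ _ _ hp hV _ 0 240 (by norm_num) cmp1_0 h).2
    exact h
  · have h : ∀ u < 0, ∃ v ≤ 239, act ((4, 4194304) : ℕ × ℕ).1 (TC.kap act q0 F u) = TC.kap act q0 F v := fun u hu => absurd hu (Nat.not_lt_zero u)
    have h := (TC.checkCL_sound act q0 F _ _ _ hp hV _ 0 240 (by norm_num) cmp2_0 h).2
    exact h

end Cfsg.Agent.Lib.Helper11.J3xU1
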