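set_option autoImplicit false

namespace Cfsg.Agent.Lib.Helper11.J3xU1

def coxW : List (List Nat) := [
  [0, 2, 0, 2, 0, 2, 0, 2, 0, 2, 0, 2, 0, 2, 0, 2, 0, 2, 0, 2, 0, 2, 0, 2, 0, 2, 0, 2, 0, 2, 0, 2, 0, 2]]

def extraW : List (List Nat) := [
  [0, 2, 4, 0, 2, 4, 0, 2, 4, 0, 2, 4],
  [2, 4, 2, 4, 2, 4, 2, 4, 2, 4, 2, 4],
  [0, 2, 0, 4, 0, 4, 0, 4, 2, 0, 4, 0, 4, 2, 4, 2, 4, 0, 4]]

def subs : List (List Nat) := [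
  [0],
  [2]]

def Ls : List Nat := [0, 2, 4]

end Cfsg.Agent.Lib.Helper11.J3xU1
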