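import Cfsg.Agent.Lib.Helper11.J3xU2F

set_option autoImplicit false
set_option maxRecDepth 100000
set_option Elab.async false

namespace Cfsg.Agent.Lib.Helper11.J3xU2

open Cfsg.Agent.Lib.Helper11

theorem dfs0 : TC.checkDefs F 1 33 = true := by decide +kernel

theorem blk0 : TC.checkBlocks F adm [(0, 1, 5554704756116574407574022527073423990935339487942319415611385666958849015806989931602997190408129613202300522958385860870126371302995209149104806528602396683637366084762945763206477543884089498459149437004788269121)] 34 35 = true := by decide +kernel

theorem cmp0_0 : TC.checkCL F 69 33 (0, 0) [(34, 23651122374723983492082084221630369797959077486680331636665228469615841555328488546924912478314626115528160086612948136780097218420356475117978859319459790630811017059088515866325933929509033848086783350325025482924359682)] 0 34 = true := by decide +kernel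

theorem cmp1_0 : TC.checkCL F 69 33 (2, 2097152) [(34, 24004124456211148180804153739128075416144162114009686028438861702006885088602970494677767913757560155868303040853768112792215473306542041813093611239342850381400618559180987434801349211975822297557749690369427362210119684)] 0 34 = true := by decide +kernel

end Cfsg.Agent.Lib.Helper11.J3xU2
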