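import Cfsg.Agent.Lib.Helper11.GenMaster2
import Cfsg.Agent.Lib.Helper11.J3xLB
import Cfsg.Agent.Lib.Helper11.J3xU0Cert
import Cfsg.Agent.Lib.Helper11.J3xU0Pres
import Cfsg.Agent.Lib.Helper11.J3xU1Cert
import Cfsg.Agent.Lib.Helper11.J3xU1Pres
import Cfsg.Agent.Lib.Helper11.J3xU2Cert
import Cfsg.Agent.Lib.Helper11.J3xU2Pres

/-! # A presentation on four involutions (found by computer) defining a simple group of order
`50232960`, with a subgroup of order `8160` and index `6156` generated by three of them -/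

set_option autoImplicit false
set_option maxRecDepth 100000

namespace Cfsg.Agent.Lib.Helper11.J3S

open Cfsg.Agent.Lib.Helper11 Cfsg.Agent.Lib.Helper11.TC

abbrev P : Type := GM.WG J3x.invL J3x.Ls (J3x.coxW ++ J3x.extraW)

def gen : ℕ → P := GM.wgen J3x.invL J3x.Ls (J3x.coxW ++ J3x.extraW)

theorem pres : GM.Pres P gen J3x.invL J3x.Ls (J3x.coxW ++ J3x.extraW) :=
  GM.wg_pres (fun _ hl => hl) (by decide) (by decide) (by decide +kernel)

theorem b2 : UB.Bound J3xU2.Ls (J3xU2.coxW ++ J3xU2.extraW) (34 * 1) :=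
  UB.Bound.step (n := 34) (by norm_num)
    (fun act q0 h31 hadm hl => J3xU2.closed act q0 h31 hadm hl) (subs := J3xU2.subs)
    (by decide +kernel) (by decide) (by decide) (by decide +kernel)
    (Ls' := []) (by decide) (by decide) (rels' := []) (by decide) (UB.Bound.nil _)

theorem b1 : UB.Bound J3xU1.Ls (J3xU1.coxW ++ J3xU1.extraW) (240 * (34 * 1)) :=
  UB.Bound.step (n := 240) (by norm_num)
    (fun act q0 h31 hadm hl => J3xU1.closed act q0 h31 hadm hl) (subs := J3xU1.subs)
    (by decide +kernel) (by decide) (by decide) (by decide +kernel)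
    (by decide) (by decide) (by decide +kernel) b2

theorem b0 : UB.Bound J3xU0.Ls (J3xU0.coxW ++ J3xU0.extraW) (6156 * (240 * (34 * 1))) :=
  UB.Bound.step (n := 6156) (by norm_num)
    (fun act q0 h31 hadm hl => J3xU0.closed act q0 h31 hadm hl) (subs := J3xU0.subs)
    (by decide +kernel) (by decide) (by decide) (by decide +kernel)
    (by decide) (by decide) (by decide +kernel) b1

theorem card_le : Finite P ∧ Nat.card P ≤ 50232960 :=
  GM.card_le_of_bound pres (fun _ => rfl) b0

def xw : List ℕ := [2, 0, 6, 2, 0]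

def cs : List (List ℕ) := [
  [6, 0, 4, 6, 2, 0, 2, 0, 2, 0],
  [6, 0, 4, 6, 2, 0, 2, 0, 2],
  [6, 0, 4, 6, 2, 0, 2, 0, 2, 0],
  [6, 0, 4, 6, 2, 0, 2, 0, 2]]

theorem simple : IsSimpleGroup P ∧ Nat.card P = 50232960 :=
  GM.simple_master pres (n := 6156) (N := 50232960) J3x.tables J3x.relsOK J3x.orbits
    card_le J3x.lbase (by decide) J3x.lb (by norm_num) (by decide +kernel) (by decide +kernel)
    19 (by norm_num) xw (by decide) (by decide +kernel) 0 (by decide) cs (by decide +kernel)
    (by decide +kernel) (GM.collapses_of_kill (fun _ => rfl) 10 (by decide +kernel))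

theorem index_eq : (Subgroup.closure {g | ∃ s ∈ J3x.subs, g = ev gen s}).index = 6156 :=
  GM.index_master pres (n := 6156)
    (fun act q0 h31 hadm hl => J3xU0.closed act q0 h31 hadm hl) (subs := J3x.subs)
    (by decide +kernel) (by decide) J3x.tables J3x.relsOK J3x.orbits

end Cfsg.Agent.Lib.Helper11.J3S
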