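import Cfsg.Agent.Lib.Helper11.TCDefs

set_option autoImplicit false
set_option maxRecDepth 100000

namespace Cfsg.Agent.Lib.Helper11.J3xU2

open Cfsg.Agent.Lib.Helper11
def t0_1 : Nat := 41781012418386628281937485972878539683282918278983103055993058201901607608000040017671979091288597823619960986440902891580547098295792205572653935221457619203948263427257432380680858664381974836930506472816719876759698013993057600923344455120482367051893250250585469695274618724037204095811079591976899387982162176814406537436020433258072385920630686071948844239500846237360537078148676947654692202075540588730242370096303968082523053842111008880104737090024035916447744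

noncomputable def F (i : Nat) : Nat := Nat.land (Nat.shiftRight t0_1 (Nat.mul (Nat.land i 255) 45)) 35184372088831

def adm : List TC.Adm := [
  (false, 2, 726, [(0, 0), (2, 2097152), (0, 0), (2, 2097152), (0, 0), (2, 2097152), (0, 0), (2, 2097152), (0, 0), (2, 2097152), (0, 0), (2, 2097152), (0, 0), (2, 2097152), (0, 0), (2, 2097152), (0, 0), (2, 2097152), (0, 0), (2, 2097152), (0, 0), (2, 2097152), (0, 0), (2, 2097152), (0, 0), (2, 2097152), (0, 0), (2, 2097152), (0, 0), (2, 2097152), (0, 0), (2, 2097152), (0, 0)])]

def letters : List (Nat × Nat) := [(0, 0), (2, 2097152)]

end Cfsg.Agent.Lib.Helper11.J3xU2
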