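set_option autoImplicit false

namespace Cfsg.Agent.Lib.Helper11.L37a

def rels : List (List Nat) := [
  [0, 0, 0],
  [1, 1, 1],
  [1, 2, 1, 2, 1, 2],
  [0, 2, 0, 2, 0, 2],
  [1, 4, 1, 4],
  [0, 4, 0, 4],
  [1, 6, 1, 6],
  [0, 6, 0, 6],
  [1, 8, 1, 8],
  [0, 8, 0, 8],
  [2, 4, 2, 4, 2, 4, 2, 4, 2, 4, 2, 4, 2, 4, 2, 4],
  [2, 6, 2, 6],
  [2, 8, 2, 8],
  [4, 6, 4, 6, 4, 6],
  [4, 8, 4, 8],
  [6, 8, 6, 8, 6, 8],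
  [8, 4, 2, 4, 2, 4, 2, 4, 2]]

def subs : List (List Nat) := [[2], [4], [6], [8]]

def Ls : List Nat := [0, 1, 2, 4, 6, 8]

def invL : Nat → Nat
  | 0 => 1
  | 1 => 0
  | l => l

end Cfsg.Agent.Lib.Helper11.L37a
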