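import Cfsg.Agent.Lib.Helper11.L37bF

set_option autoImplicit false
set_option maxRecDepth 100000
set_option Elab.async false

namespace Cfsg.Agent.Lib.Helper11.L37b

open Cfsg.Agent.Lib.Helper11

theorem dfs0 : TC.checkDefs F 1 22 = true := by decide +kernel

theorem blk0 : TC.checkBlocks F adm [(2, 2, 49326829440633592081785428409057287), (1, 1, 422212540563477), (14, 1, 457397046870049), (9, 1, 42), (18, 1, 226492458), (1, 1, 35184606969859), (0, 1, 411047400833541279159926358143566380506869137421), (17, 1, 319703526722283171551988046234838246102352789523), (16, 1, 1438665772248944810230081219513583332980189822987), (15, 1, 23988143614488558203425923357308605812491202438953176437047459708988602394194049456306187665455), (6, 1, 8046611731095553214875959329), (3, 1, 8665581898312248718560067615), (1, 1, 281475245146135), (4, 1, 598134623305765), (13, 1, 44), (12, 1, 318767148), (0, 1, 1301650325864821189846058063118895216726747643983), (6, 1, 1856910206503447969107279879), (3, 1, 1237940186860722647285628933), (7, 1, 4951760895012779383838474257), (5, 1, 4951763625130867108626825233), (4, 1, 140737844871177), (7, 1, 6808671249088860528673030167), (8, 1, 776422897278663276800383060915104860787676545059), (0, 1, 776422897278636017247136997130212523371535532126), (5, 1, 6189701081872217801538666517),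 (0, 1, 822094834334235215355620519536647051536987324457), (11, 1, 913438719334496612580080729364464473389108559920), (2, 1, 457397252390939), (3, 1, 15164770498762143596336382000), (4, 1, 1811995611365478), (10, 1, 492581599313949)] 23 56 = true := by decide +kernel

theorem cmp0_0 : TC.checkCL F 111 20 (2, 2097152) [(21, 289599873934431982152536258082789367059181276166260802258183213346342075804994912528954338850718229332147818263709969757598083559981113)] 0 21 = true := by decide +kernel

theorem cmp1_0 : TC.checkCL F 111 20 (4, 4194304) [(21, 116407796930197724671189954071840198911154557624535345809682560993473794465194179472815218271766819706607059717831206723165678959853647)] 0 21 = true := by decide +kernel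

theorem cmp2_0 : TC.checkCL F 111 20 (6, 6291456) [(21, 309474373009581364075813711161827006393459969640772914523615444111850062400695749890174610689502790610981812163658453300934313661956098)] 0 21 = true := by decide +kernel

theorem cmp3_0 : TC.checkCL F 111 20 (8, 8388608) [(21, 286760616844698464709876416408519429371811100459280631171177407824898836837788177496503898008990126098432260519225910991703264085409873)] 0 21 = true := by decide +kernel

end Cfsg.Agent.Lib.Helper11.L37b
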