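import Cfsg.Agent.Lib.Helper11.L37cF

set_option autoImplicit false
set_option maxRecDepth 100000
set_option Elab.async false

namespace Cfsg.Agent.Lib.Helper11.L37c

open Cfsg.Agent.Lib.Helper11

theorem dfs0 : TC.checkDefs F 1 15 = true := by decide +kernel

theorem blk0 : TC.checkBlocks F adm [(0, 1, 15644439530850541947328634474035263805830799420352714055097421567304299256827960188177328635933)] 16 17 = true := by decide +kernel

theorem cmp0_0 : TC.checkCL F 33 15 (2, 2097152) [(16, 69992040401939666586245363678298567031493575656075207549545324797251191155559339162992109285399330818)] 0 16 = true := by decide +kernel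

theorem cmp1_0 : TC.checkCL F 33 15 (4, 4194304) [(16, 67804787591232187887875344755606266277379175098671113233675996941409805916437436629877409863885127684)] 0 16 = true := by decide +kernel

end Cfsg.Agent.Lib.Helper11.L37c
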