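set_option autoImplicit false

namespace Cfsg.Agent.Lib.Helper11.L37c

def coxW : List (List Nat) := [
  [2, 4, 2, 4, 2, 4, 2, 4, 2, 4, 2, 4, 2, 4, 2, 4]]

def extraW : List (List Nat) := [
  ]

def subs : List (List Nat) := [
  ]

def Ls : List Nat := [2, 4]

end Cfsg.Agent.Lib.Helper11.L37c
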