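import Cfsg.Agent.Lib.Helper11.WordGroup
import Cfsg.Agent.Lib.Helper11.L37Mat
import Cfsg.Agent.Lib.Helper11.L37aCert
import Cfsg.Agent.Lib.Helper11.L37aPres
import Cfsg.Agent.Lib.Helper11.L37bCert
import Cfsg.Agent.Lib.Helper11.L37bPres
import Cfsg.Agent.Lib.Helper11.L37cCert
import Cfsg.Agent.Lib.Helper11.L37cPres
import Cfsg.Agent.Lib.Helper18.SLGen
import Cfsg.Agent.S0243

/-! # A presentation of `PSL(3, 7)` -/

set_option autoImplicit false
set_option maxRecDepth 100000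
set_option maxHeartbeats 400000

namespace Cfsg.Agent.Lib.Helper11.L37

open Matrix Cfsg.Agent.Lib.Helper11 Cfsg.Agent.Lib.Helper11.TC

abbrev SL3 := Matrix.SpecialLinearGroup (Fin 3) (ZMod 7)
abbrev PSL3 := Matrix.ProjectiveSpecialLinearGroup (Fin 3) (ZMod 7)

/-- the presented group -/
abbrev P : Type := GM.WG L37a.invL L37a.Ls L37a.rels

/-- its generators -/
def gen : ℕ → P := GM.wgen L37a.invL L37a.Ls L37a.rels

theorem hout : ∀ l, l ∉ L37a.Ls → L37a.invL l ∉ L37a.Ls := by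
  intro l hl
  match l, hl with
  | 0, hl => exact absurd (by decide) hl
  | 1, hl => exact absurd (by decide) hl
  | (k + 2), hl => exact hl

theorem pres : GM.Pres P gen L37a.invL L37a.Ls L37a.rels :=
  GM.wg_pres hout (by decide) (by decide) (by decide)

theorem b2 : UB.Bound L37c.Ls (L37c.coxW ++ L37c.extraW) (16 * 1) :=
  UB.Bound.step (n := 16) (by norm_num)
    (fun act q0 h31 hadm hl => L37c.closed act q0 h31 hadm hl) (subs := L37c.subs)
    (by decide +kernel) (by decide) (by decide) (by decide +kernel)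
    (Ls' := []) (by decide) (by decide) (rels' := []) (by decide) (UB.Bound.nil _)

theorem b1 : UB.Bound L37b.Ls (L37b.coxW ++ L37b.extraW) (21 * (16 * 1)) :=
  UB.Bound.step (n := 21) (by norm_num)
    (fun act q0 h31 hadm hl => L37b.closed act q0 h31 hadm hl) (subs := L37b.subs)
    (by decide +kernel) (by decide) (by decide) (by decide +kernel)
    (by decide) (by decide) (by decide +kernel) b2

theorem card_le : Finite P ∧ Nat.card P ≤ 1876896 :=
  GM.card_bound pres (n := 5586) (by norm_num)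
    (fun act q0 h31 hadm hl => L37a.closed act q0 h31 hadm hl) (subs := L37a.subs)
    (by decide +kernel) (by decide) (Ls' := L37b.Ls) (by decide) (by decide) (by decide +kernel)
    (by decide +kernel) b1

theorem det_mat (l : ℕ) : (mat l).det = 1 := by
  match l with
  | 0 => decide +kernel
  | 1 => decide +kernel
  | 2 => decide +kernel
  | 3 => exact det_one
  | 4 => decide +kernel
  | 5 => exact det_one
  | 6 => decide +kernel
  | 7 => exact det_one
  | 8 => decide +kernel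
  | (k + 9) => exact det_one

/-- the matrices as elements of `SL(3, 7)` -/
def sl (l : ℕ) : SL3 := ⟨mat l, det_mat l⟩

theorem coe_ev (w : List ℕ) : ((ev sl w : SL3) : M3) = (w.map mat).prod := by
  induction w with
  | nil => rfl
  | cons l w ih => rw [ev_cons, Matrix.SpecialLinearGroup.coe_mul, ih]; rfl

/-- their images in `PSL(3, 7)` -/
def pl (l : ℕ) : PSL3 := QuotientGroup.mk (sl l)

theorem pl_ev (w : List ℕ) : ev pl w = QuotientGroup.mk (ev sl w) :=
  (GM.map_ev' (QuotientGroup.mk' _) sl w).symm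

theorem scalar_eq : ∀ c : ZMod 7, Matrix.scalar (Fin 3) c = !![c,0,0;0,c,0;0,0,c] := by
  decide +kernel

theorem one_of_scalar (w : List ℕ) (c : ZMod 7) (hc : c ^ 3 = 1)
    (h : (w.map mat).prod = !![c,0,0;0,c,0;0,0,c]) : ev pl w = 1 := by
  rw [pl_ev, QuotientGroup.eq_one_iff, Matrix.SpecialLinearGroup.mem_center_iff]
  refine ⟨c, by simpa using hc, ?_⟩
  rw [coe_ev, h, scalar_eq]

theorem hrel : ∀ r ∈ L37a.rels, ev pl r = 1 := by
  intro r hr
  simp only [L37a.rels, List.mem_cons, List.mem_nil_iff, or_false] at hr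
  rcases hr with rfl | rfl | rfl | rfl | rfl | rfl | rfl | rfl | rfl | rfl | rfl | rfl | rfl | rfl | rfl | rfl | rfl
  · exact one_of_scalar _ 1 (by decide) rl0
  · exact one_of_scalar _ 1 (by decide) rl1
  · exact one_of_scalar _ 1 (by decide) rl2
  · exact one_of_scalar _ 1 (by decide) rl3
  · exact one_of_scalar _ 4 (by decide) rl4
  · exact one_of_scalar _ 2 (by decide) rl5
  · exact one_of_scalar _ 2 (by decide) rl6
  · exact one_of_scalar _ 4 (by decide) rl7
  · exact one_of_scalar _ 4 (by decide) rl8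
  · exact one_of_scalar _ 2 (by decide) rl9
  · exact one_of_scalar _ 1 (by decide) rl10
  · exact one_of_scalar _ 1 (by decide) rl11
  · exact one_of_scalar _ 1 (by decide) rl12
  · exact one_of_scalar _ 1 (by decide) rl13
  · exact one_of_scalar _ 1 (by decide) rl14
  · exact one_of_scalar _ 1 (by decide) rl15
  · exact one_of_scalar _ 1 (by decide) rl16

theorem mat_inv : ∀ l ∈ L37a.Ls, mat l * mat (L37a.invL l) = 1 := by decide +kernel

theorem hp : ∀ l ∈ L37a.Ls, pl (L37a.invL l) = (pl l)⁻¹ := by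
  intro l hl
  have h1 : sl l * sl (L37a.invL l) = 1 := Subtype.ext (mat_inv l hl)
  have h2 : pl l * pl (L37a.invL l) = 1 := by
    show (QuotientGroup.mk (sl l * sl (L37a.invL l)) : PSL3) = 1
    rw [h1]; rfl
  exact eq_inv_of_mul_eq_one_right h2

theorem tv_pow {i j : Fin 3} (h : i ≠ j) (n : ℕ) :
    (Matrix.SpecialLinearGroup.transvection h (1 : ZMod 7)) ^ n =
      Matrix.SpecialLinearGroup.transvection h (n : ZMod 7) := by
  induction n with
  | zero => simp
  | succ n ih => rw [pow_succ, ih, Nat.cast_succ, Matrix.SpecialLinearGroup.transvection_add]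

theorem ev_mem (K : Subgroup PSL3) (hK : ∀ l ∈ L37a.Ls, pl l ∈ K) (w : List ℕ)
    (hw : ∀ l ∈ w, l ∈ L37a.Ls) : ev pl w ∈ K := by
  induction w with
  | nil => exact K.one_mem
  | cons l w ih =>
    rw [ev_cons]
    exact K.mul_mem (hK l (hw l List.mem_cons_self)) (ih (fun l' hl' => hw l' (List.mem_cons_of_mem _ hl')))

theorem mem_of_word (K : Subgroup PSL3) (hK : ∀ l ∈ L37a.Ls, pl l ∈ K) {i j : Fin 3} (h : i ≠ j)
    (w : List ℕ) (hw : ∀ l ∈ w, l ∈ L37a.Ls)
    (he : (w.map mat).prod = (1 : M3) + Matrix.single i j 1) (c : ZMod 7) :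
    (QuotientGroup.mk (Matrix.SpecialLinearGroup.transvection h c) : PSL3) ∈ K := by
  have h1 := ev_mem K hK w hw
  have h2 : ev sl w = Matrix.SpecialLinearGroup.transvection h 1 := Subtype.ext (by rw [coe_ev, he]; rfl)
  rw [pl_ev, h2] at h1
  have h3 := K.pow_mem h1 c.val
  rw [← QuotientGroup.mk_pow, tv_pow, ZMod.natCast_zmod_val] at h3
  exact h3

theorem tw01 : ([0, 2, 4, 2, 0, 4, 6, 4, 2, 1, 4, 2, 0, 6, 4, 2, 0, 4, 2, 6, 4, 2, 1, 1, 4, 1, 4].map mat).prod = (1 : M3) + Matrix.single 0 1 1 := by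
  rw [tv01]; decide +kernel

theorem tw10 : ([1, 2, 4, 2, 0, 6, 4, 2, 0, 4, 2, 1, 4, 6, 4, 2, 0, 4, 2, 6, 4, 2, 0, 1, 4, 1, 4, 1, 4, 1, 4].map mat).prod = (1 : M3) + Matrix.single 1 0 1 := by
  rw [tv10]; decide +kernel

theorem tw12 : ([0, 4, 2, 4, 2, 0, 6, 4, 2, 0, 4, 2, 1, 6, 4, 2, 1, 4, 2, 6, 4, 2, 0, 8, 1, 4, 1, 4].map mat).prod = (1 : M3) + Matrix.single 1 2 1 := by
  rw [tv12]; decide +kernel

theorem tw21 : ([1, 2, 4, 2, 0, 8, 6, 4, 2, 1, 4, 2, 0, 6, 4, 2, 0, 4, 2, 6, 4, 2, 1, 4].map mat).prod = (1 : M3) + Matrix.single 2 1 1 := by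
  rw [tv21]; decide +kernel

theorem tw20 : ([0, 6, 4, 2, 4, 2, 1, 6, 4, 2, 1, 4, 2, 0, 6, 4, 2, 0, 4, 2, 6, 4, 2, 1, 8, 6, 1, 4, 1, 4].map mat).prod = (1 : M3) + Matrix.single 2 0 1 := by
  rw [tv20]; decide +kernel

theorem tw02 : ([1, 2, 6, 4, 2, 1, 8, 6, 4, 2, 0, 4, 2, 1, 6, 4, 2, 1, 4, 2, 6, 4, 2, 0, 4, 6, 1, 4, 1, 4].map mat).prod = (1 : M3) + Matrix.single 0 2 1 := by
  rw [tv02]; decide +kernel

theorem exists_word : ∀ i j : Fin 3, i ≠ j → ∃ w : List ℕ, (∀ l ∈ w, l ∈ L37a.Ls) ∧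
    (w.map mat).prod = (1 : M3) + Matrix.single i j 1 := by
  intro i j h
  match i, j, h with
  | 0, 0, h => exact absurd rfl h
  | 0, 1, _ => exact ⟨_, by decide, tw01⟩
  | 0, 2, _ => exact ⟨_, by decide, tw02⟩
  | 1, 0, _ => exact ⟨_, by decide, tw10⟩
  | 1, 1, h => exact absurd rfl h
  | 1, 2, _ => exact ⟨_, by decide, tw12⟩
  | 2, 0, _ => exact ⟨_, by decide, tw20⟩
  | 2, 1, _ => exact ⟨_, by decide, tw21⟩
  | 2, 2, h => exact absurd rfl h

theorem prime7 : Fact (Nat.Prime 7) := ⟨by norm_num⟩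

theorem top_of_mem (K : Subgroup PSL3) (hK : ∀ l ∈ L37a.Ls, pl l ∈ K) : K = ⊤ := by
  have := prime7
  rw [eq_top_iff]
  intro x _
  obtain ⟨A, rfl⟩ := QuotientGroup.mk_surjective x
  refine Cfsg.Agent.Lib.Helper18.SL_transvection_induction (F := ZMod 7)
    (fun A => (QuotientGroup.mk A : PSL3) ∈ K) ?_ ?_ A
  · intro i j h c
    obtain ⟨w, hw, he⟩ := exists_word i j h
    exact mem_of_word K hK h w hw he c
  · intro A B hA hB
    exact K.mul_mem hA hB

theorem card_PSL3 : Nat.card PSL3 = 1876896 := by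
  have := prime7
  have h := Cfsg.Agent.S0243.result (F := ZMod 7) (q := 7) (ZMod.card 7) 3 (by norm_num)
  simp only [Fin.prod_univ_three] at h
  norm_num [-Nat.card_eq_fintype_card] at h
  have h' : 3 * (6 * Nat.card PSL3) = 33784128 := h
  omega

/-- the presented group is `PSL(3, 7)` -/
theorem exists_iso : ∃ e : P ≃* PSL3, ∀ l ∈ L37a.Ls, e (gen l) = pl l := by
  obtain ⟨β, hβ⟩ := pres.lift PSL3 pl hp hrel
  have hsurj : Function.Surjective β := by
    rw [← MonoidHom.range_eq_top]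
    apply top_of_mem
    intro l hl
    exact ⟨gen l, hβ l hl⟩
  have := card_le.1
  have hbij := Function.Surjective.bijective_of_nat_card_le hsurj (by rw [card_PSL3]; exact card_le.2)
  exact ⟨MulEquiv.ofBijective β hbij, hβ⟩

theorem card_P : Nat.card P = 1876896 := by
  obtain ⟨e, _⟩ := exists_iso
  rw [Nat.card_congr e.toEquiv, card_PSL3]

theorem simple_P : IsSimpleGroup P := by
  have := prime7
  obtain ⟨e, _⟩ := exists_iso
  rw [e.isSimpleGroup_congr]
  exact Cfsg.Agent.Lib.Helper18.PSL_isSimpleGroup (F := ZMod 7) (by simp)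

end Cfsg.Agent.Lib.Helper11.L37
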