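import Cfsg.Agent.Lib.Helper11.TCDefs

set_option autoImplicit false
set_option maxRecDepth 100000

namespace Cfsg.Agent.Lib.Helper11.L37b

open Cfsg.Agent.Lib.Helper11
def t0_1 : Nat := 5355549491038803631430102513786818291099886505960760399172758407031399445046424776489670980353703191766433918066865894954231985734197717104595773244768941181407896079588136136979858680920517699059493608452777246726848610297568742760476251425629705584785294868026900965373594874423890629838586562656648555429769625329901104960498014156959372086293340849479874908031194718243722250760137827505447498919363388684739133643008155093215703037807338310374761704869350406137392185936408885209607229775240516175102214086242938591269868156331572738923370775385555314363894738138265514380047888881162007183007528161023642897437533913317848743315341959135720500607875298194518663919425832911617432808011739979997812975488580244680860328712290888931135087623768375296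

noncomputable def F (i : Nat) : Nat := Nat.land (Nat.shiftRight t0_1 (Nat.mul (Nat.land i 255) 45)) 35184372088831

def adm : List TC.Adm := [
  (false, 8, 176, [(4, 4194304), (2, 2097152), (4, 4194304), (2, 2097152), (4, 4194304), (2, 2097152), (4, 4194304), (2, 2097152)]),
  (false, 2, 66, [(6, 6291456), (2, 2097152), (6, 6291456)]),
  (false, 4, 66, [(8, 8388608), (4, 4194304), (8, 8388608)]),
  (false, 6, 110, [(4, 4194304), (6, 6291456), (4, 4194304), (6, 6291456), (4, 4194304)]),
  (false, 6, 66, [(2, 2097152), (6, 6291456), (2, 2097152)]),
  (false, 4, 110, [(6, 6291456), (4, 4194304), (6, 6291456), (4, 4194304), (6, 6291456)]),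
  (false, 6, 110, [(8, 8388608), (6, 6291456), (8, 8388608), (6, 6291456), (8, 8388608)]),
  (false, 8, 110, [(6, 6291456), (8, 8388608), (6, 6291456), (8, 8388608), (6, 6291456)]),
  (false, 4, 176, [(2, 2097152), (4, 4194304), (2, 2097152), (4, 4194304), (2, 2097152), (8, 8388608), (4, 4194304), (2, 2097152)]),
  (true, 31, 22, [(2, 2097152)]),
  (false, 8, 66, [(4, 4194304), (8, 8388608), (4, 4194304)]),
  (false, 2, 176, [(4, 4194304), (2, 2097152), (8, 8388608), (4, 4194304), (2, 2097152), (4, 4194304), (2, 2097152), (4, 4194304)]),
  (false, 4, 44, [(4, 4194304), (31, 32505856)]),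
  (true, 31, 22, [(4, 4194304)]),
  (false, 2, 66, [(8, 8388608), (2, 2097152), (8, 8388608)]),
  (false, 2, 330, [(4, 4194304), (2, 2097152), (4, 4194304), (2, 2097152), (4, 4194304), (2, 2097152), (4, 4194304), (2, 2097152), (4, 4194304), (2, 2097152), (4, 4194304), (2, 2097152), (4, 4194304), (2, 2097152), (4, 4194304)]),
  (false, 2, 176, [(8, 8388608), (4, 4194304), (2, 2097152), (4, 4194304), (2, 2097152), (4, 4194304), (2, 2097152), (4, 4194304)]),
  (false, 4, 176, [(2, 2097152), (4, 4194304), (2, 2097152), (4, 4194304), (2, 2097152), (4, 4194304), (2, 2097152), (8, 8388608)]),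
  (false, 2, 44, [(2, 2097152), (31, 32505856)])]

def letters : List (Nat × Nat) := [(2, 2097152), (4, 4194304), (6, 6291456), (8, 8388608)]

end Cfsg.Agent.Lib.Helper11.L37b
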