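import Cfsg.Agent.Lib.Helper11.TCDefs

set_option autoImplicit false
set_option maxRecDepth 100000

namespace Cfsg.Agent.Lib.Helper11.L37c

open Cfsg.Agent.Lib.Helper11
def t0_1 : Nat := 2787685920362595709782236976464812965957817455000732437936947464275187618679350489061217996060350686437225614871505657419800594611630170564349834635259790792994351377661886786939643263998470832526761666958984874025481757786112

noncomputable def F (i : Nat) : Nat := Nat.land (Nat.shiftRight t0_1 (Nat.mul (Nat.land i 255) 45)) 35184372088831

def adm : List TC.Adm := [
  (false, 2, 330, [(4, 4194304), (2, 2097152), (4, 4194304), (2, 2097152), (4, 4194304), (2, 2097152), (4, 4194304), (2, 2097152), (4, 4194304), (2, 2097152), (4, 4194304), (2, 2097152), (4, 4194304), (2, 2097152), (4, 4194304)])]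

def letters : List (Nat × Nat) := [(2, 2097152), (4, 4194304)]

end Cfsg.Agent.Lib.Helper11.L37c
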