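import Cfsg.Agent.Lib.Helper11.M11xPT

set_option autoImplicit false
set_option maxRecDepth 1000000
set_option Elab.async false

namespace Cfsg.Agent.Lib.Helper11.M11x

open Cfsg.Agent.Lib.Helper11

theorem rng0_0 : PR.allR (PR.mapsF [tb0] 0 10) 0 11 = true := by decide +kernel

theorem sq0_0 : PR.allR (PR.fixF [tb0, tb0]) 0 11 = true := by decide +kernel

theorem rng2_0 : PR.allR (PR.mapsF [tb2] 0 10) 0 11 = true := by decide +kernel

theorem sq2_0 : PR.allR (PR.fixF [tb2, tb3]) 0 11 = true := by decide +kernel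

theorem rng3_0 : PR.allR (PR.mapsF [tb3] 0 10) 0 11 = true := by decide +kernel

theorem sq3_0 : PR.allR (PR.fixF [tb3, tb2]) 0 11 = true := by decide +kernel

theorem rel0_0 : PR.allR (PR.fixF [tb2, tb2, tb2, tb2]) 0 11 = true := by decide +kernel

theorem rel1_0 : PR.allR (PR.fixF [tb0, tb2, tb0, tb2, tb0, tb2, tb0, tb2, tb0, tb2, tb0, tb2, tb0, tb2, tb0, tb2, tb0, tb2, tb0, tb2, tb0, tb2]) 0 11 = true := by decide +kernel

theorem rel2_0 : PR.allR (PR.fixF [tb0, tb2, tb2, tb0, tb2, tb2, tb0, tb2, tb2, tb0, tb2, tb2, tb0, tb2, tb2, tb0, tb2, tb2]) 0 11 = true := by decide +kernel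

theorem rel3_0 : PR.allR (PR.fixF [tb0, tb2, tb0, tb2, tb0, tb3, tb0, tb2, tb0, tb2, tb2, tb0, tb3, tb0, tb2, tb0, tb3, tb0, tb3]) 0 11 = true := by decide +kernel

theorem mp0_0_0 : PR.allR (PR.mapsF [tb0, tb2, tb0, tb2, tb0, tb3, tb0, tb2] 0 0) 0 1 = true := by decide +kernel

theorem mp0_1_0 : PR.allR (PR.mapsF [tb2] 0 0) 0 1 = true := by decide +kernel

theorem mp1_0_0 : PR.allR (PR.mapsF [tb0, tb2, tb0, tb2, tb0, tb3, tb0, tb2] 1 10) 1 10 = true := by decide +kernel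

theorem mp1_1_0 : PR.allR (PR.mapsF [tb2] 1 10) 1 10 = true := by decide +kernel

theorem tre1_0 : PR.allR (PR.treeF tbW [[tb0, tb2, tb0, tb2, tb0, tb3, tb0, tb2], [tb2]] 1) 2 9 = true := by decide +kernel

theorem root0 : PR.trace [] 0 = 0 := by decide +kernel

theorem root1 : PR.trace [tb0] 0 = 1 := by decide +kernel

end Cfsg.Agent.Lib.Helper11.M11x
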