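set_option autoImplicit false

namespace Cfsg.Agent.Lib.Helper11.M11x

def coxW : List (List Nat) := [
  [2, 2, 2, 2]]

def extraW : List (List Nat) := [
  [0, 2, 0, 2, 0, 2, 0, 2, 0, 2, 0, 2, 0, 2, 0, 2, 0, 2, 0, 2, 0, 2],
  [0, 2, 2, 0, 2, 2, 0, 2, 2, 0, 2, 2, 0, 2, 2, 0, 2, 2],
  [0, 2, 0, 2, 0, 3, 0, 2, 0, 2, 2, 0, 3, 0, 2, 0, 3, 0, 3]]

def subs : List (List Nat) := [
  [0, 2, 0, 2, 0, 3, 0, 2],
  [2]]

def Ls : List Nat := [0, 2, 3]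

def invL : Nat → Nat
  | 2 => 3
  | 3 => 2
  | l => l

def ivs : List (Nat × Nat) := [(0, 1), (1, 11)]

end Cfsg.Agent.Lib.Helper11.M11x
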