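import Cfsg.Agent.Lib.Helper11.PRMain
import Cfsg.Agent.Lib.Helper11.M11xPres
import Cfsg.Agent.Lib.Helper11.M11xPC0

set_option autoImplicit false
set_option maxRecDepth 1000000

namespace Cfsg.Agent.Lib.Helper11.M11x

open Cfsg.Agent.Lib.Helper11

theorem rng0 : ∀ u, 0 ≤ u → u < 11 → PR.mapsF [tb0] 0 10 u = true := by
  have h : ∀ u, 0 ≤ u → u < 0 → PR.mapsF [tb0] 0 10 u = true := fun u h1 h2 => absurd h2 (by omega)
  have h := PR.allR_chain (PR.mapsF [tb0] 0 10) 0 0 11 rng0_0 h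
  exact h

theorem sq0 : ∀ u, 0 ≤ u → u < 11 → PR.fixF [tb0, tb0] u = true := by
  have h : ∀ u, 0 ≤ u → u < 0 → PR.fixF [tb0, tb0] u = true := fun u h1 h2 => absurd h2 (by omega)
  have h := PR.allR_chain (PR.fixF [tb0, tb0]) 0 0 11 sq0_0 h
  exact h

theorem rng2 : ∀ u, 0 ≤ u → u < 11 → PR.mapsF [tb2] 0 10 u = true := by
  have h : ∀ u, 0 ≤ u → u < 0 → PR.mapsF [tb2] 0 10 u = true := fun u h1 h2 => absurd h2 (by omega)
  have h := PR.allR_chain (PR.mapsF [tb2] 0 10) 0 0 11 rng2_0 h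
  exact h

theorem sq2 : ∀ u, 0 ≤ u → u < 11 → PR.fixF [tb2, tb3] u = true := by
  have h : ∀ u, 0 ≤ u → u < 0 → PR.fixF [tb2, tb3] u = true := fun u h1 h2 => absurd h2 (by omega)
  have h := PR.allR_chain (PR.fixF [tb2, tb3]) 0 0 11 sq2_0 h
  exact h

theorem rng3 : ∀ u, 0 ≤ u → u < 11 → PR.mapsF [tb3] 0 10 u = true := by
  have h : ∀ u, 0 ≤ u → u < 0 → PR.mapsF [tb3] 0 10 u = true := fun u h1 h2 => absurd h2 (by omega)
  have h := PR.allR_chain (PR.mapsF [tb3] 0 10) 0 0 11 rng3_0 h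
  exact h

theorem sq3 : ∀ u, 0 ≤ u → u < 11 → PR.fixF [tb3, tb2] u = true := by
  have h : ∀ u, 0 ≤ u → u < 0 → PR.fixF [tb3, tb2] u = true := fun u h1 h2 => absurd h2 (by omega)
  have h := PR.allR_chain (PR.fixF [tb3, tb2]) 0 0 11 sq3_0 h
  exact h

theorem rel0 : ∀ u, 0 ≤ u → u < 11 → PR.fixF [tb2, tb2, tb2, tb2] u = true := by
  have h : ∀ u, 0 ≤ u → u < 0 → PR.fixF [tb2, tb2, tb2, tb2] u = true := fun u h1 h2 => absurd h2 (by omega)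
  have h := PR.allR_chain (PR.fixF [tb2, tb2, tb2, tb2]) 0 0 11 rel0_0 h
  exact h

theorem rel1 : ∀ u, 0 ≤ u → u < 11 → PR.fixF [tb0, tb2, tb0, tb2, tb0, tb2, tb0, tb2, tb0, tb2, tb0, tb2, tb0, tb2, tb0, tb2, tb0, tb2, tb0, tb2, tb0, tb2] u = true := by
  have h : ∀ u, 0 ≤ u → u < 0 → PR.fixF [tb0, tb2, tb0, tb2, tb0, tb2, tb0, tb2, tb0, tb2, tb0, tb2, tb0, tb2, tb0, tb2, tb0, tb2, tb0, tb2, tb0, tb2] u = true := fun u h1 h2 => absurd h2 (by omega)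
  have h := PR.allR_chain (PR.fixF [tb0, tb2, tb0, tb2, tb0, tb2, tb0, tb2, tb0, tb2, tb0, tb2, tb0, tb2, tb0, tb2, tb0, tb2, tb0, tb2, tb0, tb2]) 0 0 11 rel1_0 h
  exact h

theorem rel2 : ∀ u, 0 ≤ u → u < 11 → PR.fixF [tb0, tb2, tb2, tb0, tb2, tb2, tb0, tb2, tb2, tb0, tb2, tb2, tb0, tb2, tb2, tb0, tb2, tb2] u = true := by
  have h : ∀ u, 0 ≤ u → u < 0 → PR.fixF [tb0, tb2, tb2, tb0, tb2, tb2, tb0, tb2, tb2, tb0, tb2, tb2, tb0, tb2, tb2, tb0, tb2, tb2] u = true := fun u h1 h2 => absurd h2 (by omega)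
  have h := PR.allR_chain (PR.fixF [tb0, tb2, tb2, tb0, tb2, tb2, tb0, tb2, tb2, tb0, tb2, tb2, tb0, tb2, tb2, tb0, tb2, tb2]) 0 0 11 rel2_0 h
  exact h

theorem rel3 : ∀ u, 0 ≤ u → u < 11 → PR.fixF [tb0, tb2, tb0, tb2, tb0, tb3, tb0, tb2, tb0, tb2, tb2, tb0, tb3, tb0, tb2, tb0, tb3, tb0, tb3] u = true := by
  have h : ∀ u, 0 ≤ u → u < 0 → PR.fixF [tb0, tb2, tb0, tb2, tb0, tb3, tb0, tb2, tb0, tb2, tb2, tb0, tb3, tb0, tb2, tb0, tb3, tb0, tb3] u = true := fun u h1 h2 => absurd h2 (by omega)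
  have h := PR.allR_chain (PR.fixF [tb0, tb2, tb0, tb2, tb0, tb3, tb0, tb2, tb0, tb2, tb2, tb0, tb3, tb0, tb2, tb0, tb3, tb0, tb3]) 0 0 11 rel3_0 h
  exact h

theorem mp0_0 : ∀ u, 0 ≤ u → u < 1 → PR.mapsF [tb0, tb2, tb0, tb2, tb0, tb3, tb0, tb2] 0 0 u = true := by
  have h : ∀ u, 0 ≤ u → u < 0 → PR.mapsF [tb0, tb2, tb0, tb2, tb0, tb3, tb0, tb2] 0 0 u = true := fun u h1 h2 => absurd h2 (by omega)
  have h := PR.allR_chain (PR.mapsF [tb0, tb2, tb0, tb2, tb0, tb3, tb0, tb2] 0 0) 0 0 1 mp0_0_0 h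
  exact h

theorem mp0_1 : ∀ u, 0 ≤ u → u < 1 → PR.mapsF [tb2] 0 0 u = true := by
  have h : ∀ u, 0 ≤ u → u < 0 → PR.mapsF [tb2] 0 0 u = true := fun u h1 h2 => absurd h2 (by omega)
  have h := PR.allR_chain (PR.mapsF [tb2] 0 0) 0 0 1 mp0_1_0 h
  exact h

theorem tre0 : ∀ u, 1 ≤ u → u < 1 → PR.treeF tbW [[tb0, tb2, tb0, tb2, tb0, tb3, tb0, tb2], [tb2]] 0 u = true := by
  have h : ∀ u, 1 ≤ u → u < 1 → PR.treeF tbW [[tb0, tb2, tb0, tb2, tb0, tb3, tb0, tb2], [tb2]] 0 u = true := fun u h1 h2 => absurd h2 (by omega)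
  exact h

theorem mp1_0 : ∀ u, 1 ≤ u → u < 11 → PR.mapsF [tb0, tb2, tb0, tb2, tb0, tb3, tb0, tb2] 1 10 u = true := by
  have h : ∀ u, 1 ≤ u → u < 1 → PR.mapsF [tb0, tb2, tb0, tb2, tb0, tb3, tb0, tb2] 1 10 u = true := fun u h1 h2 => absurd h2 (by omega)
  have h := PR.allR_chain (PR.mapsF [tb0, tb2, tb0, tb2, tb0, tb3, tb0, tb2] 1 10) 1 1 10 mp1_0_0 h
  exact h

theorem mp1_1 : ∀ u, 1 ≤ u → u < 11 → PR.mapsF [tb2] 1 10 u = true := by
  have h : ∀ u, 1 ≤ u → u < 1 → PR.mapsF [tb2] 1 10 u = true := fun u h1 h2 => absurd h2 (by omega)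
  have h := PR.allR_chain (PR.mapsF [tb2] 1 10) 1 1 10 mp1_1_0 h
  exact h

theorem tre1 : ∀ u, 2 ≤ u → u < 11 → PR.treeF tbW [[tb0, tb2, tb0, tb2, tb0, tb3, tb0, tb2], [tb2]] 1 u = true := by
  have h : ∀ u, 2 ≤ u → u < 2 → PR.treeF tbW [[tb0, tb2, tb0, tb2, tb0, tb3, tb0, tb2], [tb2]] 1 u = true := fun u h1 h2 => absurd h2 (by omega)
  have h := PR.allR_chain (PR.treeF tbW [[tb0, tb2, tb0, tb2, tb0, tb3, tb0, tb2], [tb2]] 1) 2 2 9 tre1_0 h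
  exact h

theorem tables : PR.Tables 11 tbl invL Ls := by
  refine ⟨?_, by decide, ?_, ?_⟩
  · intro l hl
    simp only [Ls, List.mem_cons, List.mem_nil_iff, or_false] at hl
    rcases hl with rfl | rfl | rfl
    · exact fun u hu => Nat.lt_of_le_of_lt ((PR.mapsF_iff _ _ _ _).mp (rng0 u (Nat.zero_le _) hu)).2 (by norm_num)
    · exact fun u hu => Nat.lt_of_le_of_lt ((PR.mapsF_iff _ _ _ _).mp (rng2 u (Nat.zero_le _) hu)).2 (by norm_num)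
    · exact fun u hu => Nat.lt_of_le_of_lt ((PR.mapsF_iff _ _ _ _).mp (rng3 u (Nat.zero_le _) hu)).2 (by norm_num)
  · intro l hl
    simp only [Ls, List.mem_cons, List.mem_nil_iff, or_false] at hl
    rcases hl with rfl | rfl | rfl
    · exact fun u hu => (PR.fixF_iff _ _).mp (sq0 u (Nat.zero_le _) hu)
    · exact fun u hu => (PR.fixF_iff _ _).mp (sq2 u (Nat.zero_le _) hu)
    · exact fun u hu => (PR.fixF_iff _ _).mp (sq3 u (Nat.zero_le _) hu)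
  · intro l hl
    simp only [Ls, List.mem_cons, List.mem_nil_iff, or_false] at hl
    rcases hl with rfl | rfl | rfl
    · exact fun u hu => (PR.fixF_iff _ _).mp (sq0 u (Nat.zero_le _) hu)
    · exact fun u hu => (PR.fixF_iff _ _).mp (sq3 u (Nat.zero_le _) hu)
    · exact fun u hu => (PR.fixF_iff _ _).mp (sq2 u (Nat.zero_le _) hu)

theorem relsOK : ∀ r ∈ coxW ++ extraW, ∀ u < 11, PR.trace (r.map tbl) u = u := by
  intro r hr
  simp only [coxW, extraW, List.mem_append, List.mem_cons, List.mem_nil_iff, or_false, or_assoc] at hr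
  rcases hr with rfl | rfl | rfl | rfl
  · exact fun u hu => (PR.fixF_iff _ _).mp (rel0 u (Nat.zero_le _) hu)
  · exact fun u hu => (PR.fixF_iff _ _).mp (rel1 u (Nat.zero_le _) hu)
  · exact fun u hu => (PR.fixF_iff _ _).mp (rel2 u (Nat.zero_le _) hu)
  · exact fun u hu => (PR.fixF_iff _ _).mp (rel3 u (Nat.zero_le _) hu)

theorem orbits : PR.Orbits 11 tbl Ls subs ivs := by
  refine ⟨by decide, ?_, ?_, ?_, ?_, by decide, by decide⟩
  · intro iv hiv s hs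
    simp only [ivs, List.mem_cons, List.mem_nil_iff, or_false] at hiv
    simp only [subs, List.mem_cons, List.mem_nil_iff, or_false] at hs
    rcases hiv with rfl | rfl <;> rcases hs with rfl | rfl
    · exact fun u h1 h2 => ⟨((PR.mapsF_iff _ _ _ _).mp (mp0_0 u h1 h2)).1, Nat.lt_of_le_of_lt ((PR.mapsF_iff _ _ _ _).mp (mp0_0 u h1 h2)).2 (by norm_num)⟩
    · exact fun u h1 h2 => ⟨((PR.mapsF_iff _ _ _ _).mp (mp0_1 u h1 h2)).1, Nat.lt_of_le_of_lt ((PR.mapsF_iff _ _ _ _).mp (mp0_1 u h1 h2)).2 (by norm_num)⟩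
    · exact fun u h1 h2 => ⟨((PR.mapsF_iff _ _ _ _).mp (mp1_0 u h1 h2)).1, Nat.lt_of_le_of_lt ((PR.mapsF_iff _ _ _ _).mp (mp1_0 u h1 h2)).2 (by norm_num)⟩
    · exact fun u h1 h2 => ⟨((PR.mapsF_iff _ _ _ _).mp (mp1_1 u h1 h2)).1, Nat.lt_of_le_of_lt ((PR.mapsF_iff _ _ _ _).mp (mp1_1 u h1 h2)).2 (by norm_num)⟩
  · intro iv hiv
    simp only [ivs, List.mem_cons, List.mem_nil_iff, or_false] at hiv
    rcases hiv with rfl | rfl
    · intro u h1 h2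
      obtain ⟨s, hs, p, hp⟩ := PR.treeF_sound _ _ _ _ (tre0 u h1 h2)
      exact PR.tree_aux tbl subs _ rfl s hs p _ _ hp
    · intro u h1 h2
      obtain ⟨s, hs, p, hp⟩ := PR.treeF_sound _ _ _ _ (tre1 u h1 h2)
      exact PR.tree_aux tbl subs _ rfl s hs p _ _ hp
  · intro iv hiv
    simp only [ivs, List.mem_cons, List.mem_nil_iff, or_false] at hiv
    rcases hiv with rfl | rfl
    · exact ⟨[], by decide, root0⟩
    · exact ⟨[0], by decide, root1⟩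
  · intro u hu
    simp only [ivs, List.mem_cons, List.mem_nil_iff, or_false, exists_eq_or_imp, exists_eq_left]
    omega

end Cfsg.Agent.Lib.Helper11.M11x
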