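import Cfsg.Agent.Lib.Helper11.M11xU1F

set_option autoImplicit false
set_option maxRecDepth 100000
set_option Elab.async false

namespace Cfsg.Agent.Lib.Helper11.M11xU1

open Cfsg.Agent.Lib.Helper11

theorem dfs0 : TC.checkDefs F 1 1 = true := by decide +kernel

theorem cmp0_0 : TC.checkCL F 3 1 (0, 0) [(2, 12582914)] 0 2 = true := by decide +kernel

end Cfsg.Agent.Lib.Helper11.M11xU1
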