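set_option autoImplicit false

namespace Cfsg.Agent.Lib.Helper11.M11xU1

def coxW : List (List Nat) := [
  ]

def extraW : List (List Nat) := [
  ]

def subs : List (List Nat) := [
  ]

def Ls : List Nat := [0]

end Cfsg.Agent.Lib.Helper11.M11xU1
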