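import Cfsg.Agent.Lib.Helper11.GenMaster2
import Cfsg.Agent.Lib.Helper11.M11xLB
import Cfsg.Agent.Lib.Helper11.M11xU0Cert
import Cfsg.Agent.Lib.Helper11.M11xU1Cert
import Cfsg.Agent.Lib.Helper11.M11xU1Pres

/-! # The presentation `a² = b⁴ = (ab)¹¹ = (ab²)⁶ = ababab⁻¹abab²ab⁻¹abab⁻¹ab⁻¹ = 1`
defines a simple group of order `7920` -/

set_option autoImplicit false
set_option maxRecDepth 100000

namespace Cfsg.Agent.Lib.Helper11.M11S

open Cfsg.Agent.Lib.Helper11 Cfsg.Agent.Lib.Helper11.TC

abbrev P : Type := GM.WG M11x.invL M11x.Ls (M11x.coxW ++ M11x.extraW)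

def gen : ℕ → P := GM.wgen M11x.invL M11x.Ls (M11x.coxW ++ M11x.extraW)

theorem hout : ∀ l, l ∉ M11x.Ls → M11x.invL l ∉ M11x.Ls := by
  intro l hl
  match l, hl with
  | 0, h => exact absurd (by decide) h
  | 1, _ => decide
  | 2, h => exact absurd (by decide) h
  | 3, h => exact absurd (by decide) h
  | (k + 4), h => exact h

theorem pres : GM.Pres P gen M11x.invL M11x.Ls (M11x.coxW ++ M11x.extraW) :=
  GM.wg_pres hout (by decide) (by decide) (by decide +kernel)

theorem b1 : UB.Bound M11xU1.Ls (M11xU1.coxW ++ M11xU1.extraW) (2 * 1) :=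
  UB.Bound.step (n := 2) (by norm_num)
    (fun act q0 h31 hadm hl => M11xU1.closed act q0 h31 hadm hl) (subs := M11xU1.subs)
    (by decide +kernel) (by decide) (by decide) (by decide +kernel)
    (Ls' := []) (by decide) (by decide) (rels' := []) (by decide) (UB.Bound.nil _)

theorem card_le : Finite P ∧ Nat.card P ≤ 7920 :=
  GM.card_bound pres (n := 3960) (by norm_num)
    (fun act q0 h31 hadm hl => M11xU0.closed act q0 h31 hadm hl) (subs := [[0]])
    (by decide +kernel) (by decide) (Ls' := M11xU1.Ls) (by decide) (by decide) (by decide +kernel)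
    (by decide +kernel) b1

/-- killing the generator `a` kills everything -/
theorem collapses : GM.Collapses M11x.invL M11x.Ls (M11x.coxW ++ M11x.extraW) 0 := by
  intro Γ _ g hinv h31 hrel hs
  have r1 := hrel [2, 2, 2, 2] (by decide)
  have r2 := hrel [0, 2, 0, 2, 0, 2, 0, 2, 0, 2, 0, 2, 0, 2, 0, 2, 0, 2, 0, 2, 0, 2] (by decide)
  simp only [ev_cons, ev_nil, mul_one, hs, one_mul] at r1 r2
  have h2 : g 2 = 1 := by
    have e4 : g 2 ^ 4 = 1 := by rw [← r1]; simp only [pow_succ, pow_zero, one_mul, mul_assoc]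
    have e11 : g 2 ^ 11 = 1 := by rw [← r2]; simp only [pow_succ, pow_zero, one_mul, mul_assoc]
    have : g 2 ^ 12 = 1 := by
      have : g 2 ^ 12 = (g 2 ^ 4) ^ 3 := by rw [← pow_mul]
      rw [this, e4, one_pow]
    have h : g 2 ^ 12 = g 2 ^ 11 * g 2 := pow_succ _ _
    rw [this, e11, one_mul] at h
    exact h.symm
  have h3 : g 3 = (g 2)⁻¹ := hinv 2
  intro l hl
  simp only [M11x.Ls, List.mem_cons, List.mem_nil_iff, or_false] at hl
  rcases hl with rfl | rfl | rfl
  · exact hs
  · exact h2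
  · rw [h3, h2, inv_one]

def xw : List ℕ := [0, 3]

def cs : List (List ℕ) := [
  [2, 0, 2, 0, 3, 0, 2],
  [2, 0, 2, 0, 3, 0, 2, 0]]

theorem simple : IsSimpleGroup P ∧ Nat.card P = 7920 :=
  GM.simple_master pres (n := 11) (N := 7920) M11x.tables M11x.relsOK M11x.orbits
    card_le M11x.lbase (by decide) M11x.lb (by norm_num) (by decide +kernel) (by decide +kernel)
    11 (by norm_num) xw (by decide) (by decide +kernel) 0 (by decide) cs (by decide +kernel)
    (by decide +kernel) collapses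

end Cfsg.Agent.Lib.Helper11.M11S
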