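import Cfsg.Agent.Lib.Helper11.PRDefs

set_option autoImplicit false
set_option maxRecDepth 1000000

namespace Cfsg.Agent.Lib.Helper11.M11x

open Cfsg.Agent.Lib.Helper11

def T2_0_1 : Nat := 11448358085680
noncomputable def tb2 (i : Nat) : Nat := Nat.land (Nat.shiftRight T2_0_1 (Nat.mul (Nat.land i 255) 4)) 15

end Cfsg.Agent.Lib.Helper11.M11x
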