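import Cfsg.Agent.Lib.Helper11.M11xPT0
import Cfsg.Agent.Lib.Helper11.M11xPT2
import Cfsg.Agent.Lib.Helper11.M11xPT3
import Cfsg.Agent.Lib.Helper11.M11xPTW

set_option autoImplicit false

namespace Cfsg.Agent.Lib.Helper11.M11x

noncomputable def tbl : Nat → Nat → Nat
  | 0 => tb0
  | 2 => tb2
  | 3 => tb3
  | _ => fun u => u

end Cfsg.Agent.Lib.Helper11.M11x
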