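import Cfsg.Agent.Lib.Helper11.TCDefs

set_option autoImplicit false
set_option maxRecDepth 100000

namespace Cfsg.Agent.Lib.Helper11.M11xU1

open Cfsg.Agent.Lib.Helper11
def t0_1 : Nat := 35184404594688

noncomputable def F (i : Nat) : Nat := Nat.land (Nat.shiftRight t0_1 (Nat.mul (Nat.land i 255) 45)) 35184372088831

def adm : List TC.Adm := [
  ]

def letters : List (Nat × Nat) := [(0, 0)]

end Cfsg.Agent.Lib.Helper11.M11xU1
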