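import Cfsg.Agent.Lib.Helper11.O73MDefs
import Cfsg.Prelude.Def_Classical

set_option autoImplicit false
set_option maxRecDepth 100000

namespace Cfsg.Agent.Lib.Helper11.O73M

open Matrix

theorem isoQ6 : ∀ u : I7 → ZMod 3, Cfsg.quadFormOdd 3 (ZMod 3) (mat 6 *ᵥ u) = Cfsg.quadFormOdd 3 (ZMod 3) u := by
  decide +kernel

theorem isoQ8 : ∀ u : I7 → ZMod 3, Cfsg.quadFormOdd 3 (ZMod 3) (mat 8 *ᵥ u) = Cfsg.quadFormOdd 3 (ZMod 3) u := by
  decide +kernel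

end Cfsg.Agent.Lib.Helper11.O73M
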