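import Cfsg.Agent.Lib.Helper11.O73Simple
import Cfsg.Agent.Lib.Helper11.O73MR0
import Cfsg.Agent.Lib.Helper11.O73MR1
import Cfsg.Agent.Lib.Helper11.O73MR2
import Cfsg.Agent.Lib.Helper11.O73MI0
import Cfsg.Agent.Lib.Helper11.O73MI1
import Cfsg.Agent.Lib.Helper11.O73MI2
import Cfsg.Agent.Lib.Helper11.O73MI3

/-! # The homomorphism to the orthogonal group `O7(3)` -/

set_option autoImplicit false
set_option maxRecDepth 100000

namespace Cfsg.Agent.Lib.Helper11.O73M

open Matrix Cfsg.Agent.Lib.Helper11 Cfsg.Agent.Lib.Helper11.TC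

abbrev Iso7 := Cfsg.isometryGroup (ZMod 3) (Cfsg.quadFormOdd 3 (ZMod 3))

theorem mat_out : ∀ l, l ∉ O73.Ls → mat l = 1 := by
  intro l hl
  match l, hl with
  | 0, _ => rfl
  | 1, _ => rfl
  | 2, h => exact absurd (by decide) h
  | 3, _ => rfl
  | 4, h => exact absurd (by decide) h
  | 5, _ => rfl
  | 6, h => exact absurd (by decide) h
  | 7, _ => rfl
  | 8, h => exact absurd (by decide) h
  | 9, _ => rfl
  | 10, h => exact absurd (by decide) h
  | 11, _ => rfl
  | 12, h => exact absurd (by decide) h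
  | 13, _ => rfl
  | 14, h => exact absurd (by decide) h
  | 15, _ => rfl
  | 16, h => exact absurd (by decide) h
  | (k + 17), _ => rfl

theorem mat_sq_in : ∀ l ∈ O73.Ls, mat l * mat l = 1 := by decide +kernel

theorem mat_sq (l : ℕ) : mat l * mat l = 1 := by
  by_cases h : l ∈ O73.Ls
  · exact mat_sq_in l h
  · rw [mat_out l h, one_mul]

theorem isoQ (l : ℕ) (u : I7 → ZMod 3) :
    Cfsg.quadFormOdd 3 (ZMod 3) (mat l *ᵥ u) = Cfsg.quadFormOdd 3 (ZMod 3) u := by
  by_cases h : l ∈ O73.Ls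
  · simp only [O73.Ls, List.mem_cons, List.mem_nil_iff, or_false] at h
    rcases h with rfl | rfl | rfl | rfl | rfl | rfl | rfl | rfl
    · exact isoQ2 u
    · exact isoQ4 u
    · exact isoQ6 u
    · exact isoQ8 u
    · exact isoQ10 u
    · exact isoQ12 u
    · exact isoQ14 u
    · exact isoQ16 u
  · rw [mat_out l h, one_mulVec]

def gl (l : ℕ) : GL I7 (ZMod 3) := ⟨mat l, mat l, mat_sq l, mat_sq l⟩

def iso (l : ℕ) : Iso7 := ⟨gl l, fun u _ => isoQ l u⟩

theorem coe_ev (w : List ℕ) : (((ev iso w : Iso7) : GL I7 (ZMod 3)) : M7) = (w.map mat).prod := by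
  induction w with
  | nil => rfl
  | cons l w ih =>
    rw [ev_cons, Subgroup.coe_mul, Units.val_mul, ih]
    rfl

theorem one_of_prod (w : List ℕ) (h : (w.map mat).prod = 1) : ev iso w = 1 :=
  Subtype.ext (Units.ext (by rw [coe_ev, h]; rfl))

theorem hrel : ∀ r ∈ O73.coxW ++ O73.extraW, ev iso r = 1 := by
  intro r hr
  simp only [O73.coxW, O73.extraW, List.mem_append, List.mem_cons, List.mem_nil_iff, or_false, or_assoc] at hr
  rcases hr with rfl | rfl | rfl | rfl | rfl | rfl | rfl | rfl | rfl | rfl | rfl | rfl | rfl | rfl | rfl | rfl | rfl | rfl | rfl | rfl | rfl | rfl | rfl | rfl | rfl | rfl | rfl | rfl | rfl | rfl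
  · exact one_of_prod _ rl0
  · exact one_of_prod _ rl1
  · exact one_of_prod _ rl2
  · exact one_of_prod _ rl3
  · exact one_of_prod _ rl4
  · exact one_of_prod _ rl5
  · exact one_of_prod _ rl6
  · exact one_of_prod _ rl7
  · exact one_of_prod _ rl8
  · exact one_of_prod _ rl9
  · exact one_of_prod _ rl10
  · exact one_of_prod _ rl11
  · exact one_of_prod _ rl12
  · exact one_of_prod _ rl13
  · exact one_of_prod _ rl14
  · exact one_of_prod _ rl15
  · exact one_of_prod _ rl16
  · exact one_of_prod _ rl17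
  · exact one_of_prod _ rl18
  · exact one_of_prod _ rl19
  · exact one_of_prod _ rl20
  · exact one_of_prod _ rl21
  · exact one_of_prod _ rl22
  · exact one_of_prod _ rl23
  · exact one_of_prod _ rl24
  · exact one_of_prod _ rl25
  · exact one_of_prod _ rl26
  · exact one_of_prod _ rl27
  · exact one_of_prod _ rl28
  · exact one_of_prod _ rl29

theorem hp : ∀ l ∈ O73.Ls, iso (O73.invL l) = (iso l)⁻¹ := by
  intro l _
  have h1 : iso l * iso l = 1 := Subtype.ext (Units.ext (mat_sq l))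
  exact eq_inv_of_mul_eq_one_right h1

theorem ncomm : mat 2 * mat 4 ≠ mat 4 * mat 2 := by decide +kernel

theorem exists_hom : ∃ γ : O73S.P →* Iso7, ∀ l ∈ O73.Ls, γ (O73S.gen l) = iso l :=
  O73S.pres.lift Iso7 iso hp hrel

end Cfsg.Agent.Lib.Helper11.O73M
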