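set_option autoImplicit false

namespace Cfsg.Agent.Lib.Helper11.O73

def coxW : List (List Nat) := [
  [2, 4, 2, 4, 2, 4],
  [2, 6, 2, 6],
  [2, 8, 2, 8],
  [2, 14, 2, 14],
  [2, 10, 2, 10],
  [2, 12, 2, 12],
  [2, 16, 2, 16],
  [4, 6, 4, 6, 4, 6],
  [4, 8, 4, 8],
  [4, 14, 4, 14],
  [4, 10, 4, 10],
  [4, 12, 4, 12],
  [4, 16, 4, 16],
  [6, 8, 6, 8, 6, 8],
  [6, 14, 6, 14, 6, 14],
  [6, 10, 6, 10],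
  [6, 12, 6, 12],
  [6, 16, 6, 16],
  [8, 14, 8, 14],
  [8, 10, 8, 10, 8, 10],
  [8, 12, 8, 12],
  [8, 16, 8, 16],
  [14, 10, 14, 10],
  [14, 12, 14, 12],
  [14, 16, 14, 16, 14, 16],
  [10, 12, 10, 12, 10, 12],
  [10, 16, 10, 16],
  [12, 16, 12, 16]]

def extraW : List (List Nat) := [
  [6, 4, 2, 6, 8, 10, 6, 14, 16, 6, 4, 2, 6, 8, 10, 6, 14, 16, 6, 4, 2, 6, 8, 10, 6, 14, 16, 6, 4, 2, 6, 8, 10, 6, 14, 16, 6, 4, 2, 6, 8, 10, 6, 14, 16, 6, 4, 2, 6, 8, 10, 6, 14, 16, 6, 4, 2, 6, 8, 10, 6, 14, 16, 6, 4, 2, 6, 8, 10, 6, 14, 16, 6, 4, 2, 6, 8, 10, 6, 14, 16, 6, 4, 2, 6, 8, 10, 6, 14, 16],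
  [2, 4, 6, 8, 10, 12, 14, 2, 4, 6, 8, 10, 12, 14, 2, 4, 6, 8, 10, 12, 14, 2, 4, 6, 8, 10, 12, 14, 2, 4, 6, 8, 10, 12, 14, 2, 4, 6, 8, 10, 12, 14, 2, 4, 6, 8, 10, 12, 14, 2, 4, 6, 8, 10, 12, 14, 2, 4, 6, 8, 10, 12, 14]]

def subs : List (List Nat) := [
  [2],
  [4],
  [6],
  [8],
  [10],
  [12],
  [14]]

def Ls : List Nat := [2, 4, 6, 8, 10, 12, 14, 16]

def invL : Nat → Nat

  | l => l

def ivs : List (Nat × Nat) := [(0, 1), (1, 289), (289, 919), (919, 3159)]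

end Cfsg.Agent.Lib.Helper11.O73
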