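import Cfsg.Agent.Lib.Helper11.PRMain
import Cfsg.Agent.Lib.Helper11.O73Pres
import Cfsg.Agent.Lib.Helper11.O73PC0
import Cfsg.Agent.Lib.Helper11.O73PC1

set_option autoImplicit false
set_option maxRecDepth 1000000

namespace Cfsg.Agent.Lib.Helper11.O73

open Cfsg.Agent.Lib.Helper11

theorem rng2 : ∀ u, 0 ≤ u → u < 3159 → PR.mapsF [tb2] 0 3158 u = true := by
  have h : ∀ u, 0 ≤ u → u < 0 → PR.mapsF [tb2] 0 3158 u = true := fun u h1 h2 => absurd h2 (by omega)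
  have h := PR.allR_chain (PR.mapsF [tb2] 0 3158) 0 0 3159 rng2_0 h
  exact h

theorem sq2 : ∀ u, 0 ≤ u → u < 3159 → PR.fixF [tb2, tb2] u = true := by
  have h : ∀ u, 0 ≤ u → u < 0 → PR.fixF [tb2, tb2] u = true := fun u h1 h2 => absurd h2 (by omega)
  have h := PR.allR_chain (PR.fixF [tb2, tb2]) 0 0 3159 sq2_0 h
  exact h

theorem rng4 : ∀ u, 0 ≤ u → u < 3159 → PR.mapsF [tb4] 0 3158 u = true := by
  have h : ∀ u, 0 ≤ u → u < 0 → PR.mapsF [tb4] 0 3158 u = true := fun u h1 h2 => absurd h2 (by omega)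
  have h := PR.allR_chain (PR.mapsF [tb4] 0 3158) 0 0 3159 rng4_0 h
  exact h

theorem sq4 : ∀ u, 0 ≤ u → u < 3159 → PR.fixF [tb4, tb4] u = true := by
  have h : ∀ u, 0 ≤ u → u < 0 → PR.fixF [tb4, tb4] u = true := fun u h1 h2 => absurd h2 (by omega)
  have h := PR.allR_chain (PR.fixF [tb4, tb4]) 0 0 3159 sq4_0 h
  exact h

theorem rng6 : ∀ u, 0 ≤ u → u < 3159 → PR.mapsF [tb6] 0 3158 u = true := by
  have h : ∀ u, 0 ≤ u → u < 0 → PR.mapsF [tb6] 0 3158 u = true := fun u h1 h2 => absurd h2 (by omega)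
  have h := PR.allR_chain (PR.mapsF [tb6] 0 3158) 0 0 3159 rng6_0 h
  exact h

theorem sq6 : ∀ u, 0 ≤ u → u < 3159 → PR.fixF [tb6, tb6] u = true := by
  have h : ∀ u, 0 ≤ u → u < 0 → PR.fixF [tb6, tb6] u = true := fun u h1 h2 => absurd h2 (by omega)
  have h := PR.allR_chain (PR.fixF [tb6, tb6]) 0 0 3159 sq6_0 h
  exact h

theorem rng8 : ∀ u, 0 ≤ u → u < 3159 → PR.mapsF [tb8] 0 3158 u = true := by
  have h : ∀ u, 0 ≤ u → u < 0 → PR.mapsF [tb8] 0 3158 u = true := fun u h1 h2 => absurd h2 (by omega)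
  have h := PR.allR_chain (PR.mapsF [tb8] 0 3158) 0 0 3159 rng8_0 h
  exact h

theorem sq8 : ∀ u, 0 ≤ u → u < 3159 → PR.fixF [tb8, tb8] u = true := by
  have h : ∀ u, 0 ≤ u → u < 0 → PR.fixF [tb8, tb8] u = true := fun u h1 h2 => absurd h2 (by omega)
  have h := PR.allR_chain (PR.fixF [tb8, tb8]) 0 0 3159 sq8_0 h
  exact h

theorem rng10 : ∀ u, 0 ≤ u → u < 3159 → PR.mapsF [tb10] 0 3158 u = true := by
  have h : ∀ u, 0 ≤ u → u < 0 → PR.mapsF [tb10] 0 3158 u = true := fun u h1 h2 => absurd h2 (by omega)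
  have h := PR.allR_chain (PR.mapsF [tb10] 0 3158) 0 0 3159 rng10_0 h
  exact h

theorem sq10 : ∀ u, 0 ≤ u → u < 3159 → PR.fixF [tb10, tb10] u = true := by
  have h : ∀ u, 0 ≤ u → u < 0 → PR.fixF [tb10, tb10] u = true := fun u h1 h2 => absurd h2 (by omega)
  have h := PR.allR_chain (PR.fixF [tb10, tb10]) 0 0 3159 sq10_0 h
  exact h

theorem rng12 : ∀ u, 0 ≤ u → u < 3159 → PR.mapsF [tb12] 0 3158 u = true := by
  have h : ∀ u, 0 ≤ u → u < 0 → PR.mapsF [tb12] 0 3158 u = true := fun u h1 h2 => absurd h2 (by omega)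
  have h := PR.allR_chain (PR.mapsF [tb12] 0 3158) 0 0 3159 rng12_0 h
  exact h

theorem sq12 : ∀ u, 0 ≤ u → u < 3159 → PR.fixF [tb12, tb12] u = true := by
  have h : ∀ u, 0 ≤ u → u < 0 → PR.fixF [tb12, tb12] u = true := fun u h1 h2 => absurd h2 (by omega)
  have h := PR.allR_chain (PR.fixF [tb12, tb12]) 0 0 3159 sq12_0 h
  exact h

theorem rng14 : ∀ u, 0 ≤ u → u < 3159 → PR.mapsF [tb14] 0 3158 u = true := by
  have h : ∀ u, 0 ≤ u → u < 0 → PR.mapsF [tb14] 0 3158 u = true := fun u h1 h2 => absurd h2 (by omega)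
  have h := PR.allR_chain (PR.mapsF [tb14] 0 3158) 0 0 3159 rng14_0 h
  exact h

theorem sq14 : ∀ u, 0 ≤ u → u < 3159 → PR.fixF [tb14, tb14] u = true := by
  have h : ∀ u, 0 ≤ u → u < 0 → PR.fixF [tb14, tb14] u = true := fun u h1 h2 => absurd h2 (by omega)
  have h := PR.allR_chain (PR.fixF [tb14, tb14]) 0 0 3159 sq14_0 h
  exact h

theorem rng16 : ∀ u, 0 ≤ u → u < 3159 → PR.mapsF [tb16] 0 3158 u = true := by
  have h : ∀ u, 0 ≤ u → u < 0 → PR.mapsF [tb16] 0 3158 u = true := fun u h1 h2 => absurd h2 (by omega)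
  have h := PR.allR_chain (PR.mapsF [tb16] 0 3158) 0 0 3159 rng16_0 h
  exact h

theorem sq16 : ∀ u, 0 ≤ u → u < 3159 → PR.fixF [tb16, tb16] u = true := by
  have h : ∀ u, 0 ≤ u → u < 0 → PR.fixF [tb16, tb16] u = true := fun u h1 h2 => absurd h2 (by omega)
  have h := PR.allR_chain (PR.fixF [tb16, tb16]) 0 0 3159 sq16_0 h
  exact h

theorem rel0 : ∀ u, 0 ≤ u → u < 3159 → PR.fixF [tb2, tb4, tb2, tb4, tb2, tb4] u = true := by
  have h : ∀ u, 0 ≤ u → u < 0 → PR.fixF [tb2, tb4, tb2, tb4, tb2, tb4] u = true := fun u h1 h2 => absurd h2 (by omega)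
  have h := PR.allR_chain (PR.fixF [tb2, tb4, tb2, tb4, tb2, tb4]) 0 0 3159 rel0_0 h
  exact h

theorem rel1 : ∀ u, 0 ≤ u → u < 3159 → PR.fixF [tb2, tb6, tb2, tb6] u = true := by
  have h : ∀ u, 0 ≤ u → u < 0 → PR.fixF [tb2, tb6, tb2, tb6] u = true := fun u h1 h2 => absurd h2 (by omega)
  have h := PR.allR_chain (PR.fixF [tb2, tb6, tb2, tb6]) 0 0 3159 rel1_0 h
  exact h

theorem rel2 : ∀ u, 0 ≤ u → u < 3159 → PR.fixF [tb2, tb8, tb2, tb8] u = true := by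
  have h : ∀ u, 0 ≤ u → u < 0 → PR.fixF [tb2, tb8, tb2, tb8] u = true := fun u h1 h2 => absurd h2 (by omega)
  have h := PR.allR_chain (PR.fixF [tb2, tb8, tb2, tb8]) 0 0 3159 rel2_0 h
  exact h

theorem rel3 : ∀ u, 0 ≤ u → u < 3159 → PR.fixF [tb2, tb14, tb2, tb14] u = true := by
  have h : ∀ u, 0 ≤ u → u < 0 → PR.fixF [tb2, tb14, tb2, tb14] u = true := fun u h1 h2 => absurd h2 (by omega)
  have h := PR.allR_chain (PR.fixF [tb2, tb14, tb2, tb14]) 0 0 3159 rel3_0 h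
  exact h

theorem rel4 : ∀ u, 0 ≤ u → u < 3159 → PR.fixF [tb2, tb10, tb2, tb10] u = true := by
  have h : ∀ u, 0 ≤ u → u < 0 → PR.fixF [tb2, tb10, tb2, tb10] u = true := fun u h1 h2 => absurd h2 (by omega)
  have h := PR.allR_chain (PR.fixF [tb2, tb10, tb2, tb10]) 0 0 3159 rel4_0 h
  exact h

theorem rel5 : ∀ u, 0 ≤ u → u < 3159 → PR.fixF [tb2, tb12, tb2, tb12] u = true := by
  have h : ∀ u, 0 ≤ u → u < 0 → PR.fixF [tb2, tb12, tb2, tb12] u = true := fun u h1 h2 => absurd h2 (by omega)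
  have h := PR.allR_chain (PR.fixF [tb2, tb12, tb2, tb12]) 0 0 3159 rel5_0 h
  exact h

theorem rel6 : ∀ u, 0 ≤ u → u < 3159 → PR.fixF [tb2, tb16, tb2, tb16] u = true := by
  have h : ∀ u, 0 ≤ u → u < 0 → PR.fixF [tb2, tb16, tb2, tb16] u = true := fun u h1 h2 => absurd h2 (by omega)
  have h := PR.allR_chain (PR.fixF [tb2, tb16, tb2, tb16]) 0 0 3159 rel6_0 h
  exact h

theorem rel7 : ∀ u, 0 ≤ u → u < 3159 → PR.fixF [tb4, tb6, tb4, tb6, tb4, tb6] u = true := by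
  have h : ∀ u, 0 ≤ u → u < 0 → PR.fixF [tb4, tb6, tb4, tb6, tb4, tb6] u = true := fun u h1 h2 => absurd h2 (by omega)
  have h := PR.allR_chain (PR.fixF [tb4, tb6, tb4, tb6, tb4, tb6]) 0 0 3159 rel7_0 h
  exact h

theorem rel8 : ∀ u, 0 ≤ u → u < 3159 → PR.fixF [tb4, tb8, tb4, tb8] u = true := by
  have h : ∀ u, 0 ≤ u → u < 0 → PR.fixF [tb4, tb8, tb4, tb8] u = true := fun u h1 h2 => absurd h2 (by omega)
  have h := PR.allR_chain (PR.fixF [tb4, tb8, tb4, tb8]) 0 0 3159 rel8_0 h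
  exact h

theorem rel9 : ∀ u, 0 ≤ u → u < 3159 → PR.fixF [tb4, tb14, tb4, tb14] u = true := by
  have h : ∀ u, 0 ≤ u → u < 0 → PR.fixF [tb4, tb14, tb4, tb14] u = true := fun u h1 h2 => absurd h2 (by omega)
  have h := PR.allR_chain (PR.fixF [tb4, tb14, tb4, tb14]) 0 0 3159 rel9_0 h
  exact h

theorem rel10 : ∀ u, 0 ≤ u → u < 3159 → PR.fixF [tb4, tb10, tb4, tb10] u = true := by
  have h : ∀ u, 0 ≤ u → u < 0 → PR.fixF [tb4, tb10, tb4, tb10] u = true := fun u h1 h2 => absurd h2 (by omega)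
  have h := PR.allR_chain (PR.fixF [tb4, tb10, tb4, tb10]) 0 0 3159 rel10_0 h
  exact h

theorem rel11 : ∀ u, 0 ≤ u → u < 3159 → PR.fixF [tb4, tb12, tb4, tb12] u = true := by
  have h : ∀ u, 0 ≤ u → u < 0 → PR.fixF [tb4, tb12, tb4, tb12] u = true := fun u h1 h2 => absurd h2 (by omega)
  have h := PR.allR_chain (PR.fixF [tb4, tb12, tb4, tb12]) 0 0 3159 rel11_0 h
  exact h

theorem rel12 : ∀ u, 0 ≤ u → u < 3159 → PR.fixF [tb4, tb16, tb4, tb16] u = true := by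
  have h : ∀ u, 0 ≤ u → u < 0 → PR.fixF [tb4, tb16, tb4, tb16] u = true := fun u h1 h2 => absurd h2 (by omega)
  have h := PR.allR_chain (PR.fixF [tb4, tb16, tb4, tb16]) 0 0 3159 rel12_0 h
  exact h

theorem rel13 : ∀ u, 0 ≤ u → u < 3159 → PR.fixF [tb6, tb8, tb6, tb8, tb6, tb8] u = true := by
  have h : ∀ u, 0 ≤ u → u < 0 → PR.fixF [tb6, tb8, tb6, tb8, tb6, tb8] u = true := fun u h1 h2 => absurd h2 (by omega)
  have h := PR.allR_chain (PR.fixF [tb6, tb8, tb6, tb8, tb6, tb8]) 0 0 3159 rel13_0 h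
  exact h

theorem rel14 : ∀ u, 0 ≤ u → u < 3159 → PR.fixF [tb6, tb14, tb6, tb14, tb6, tb14] u = true := by
  have h : ∀ u, 0 ≤ u → u < 0 → PR.fixF [tb6, tb14, tb6, tb14, tb6, tb14] u = true := fun u h1 h2 => absurd h2 (by omega)
  have h := PR.allR_chain (PR.fixF [tb6, tb14, tb6, tb14, tb6, tb14]) 0 0 3159 rel14_0 h
  exact h

theorem rel15 : ∀ u, 0 ≤ u → u < 3159 → PR.fixF [tb6, tb10, tb6, tb10] u = true := by
  have h : ∀ u, 0 ≤ u → u < 0 → PR.fixF [tb6, tb10, tb6, tb10] u = true := fun u h1 h2 => absurd h2 (by omega)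
  have h := PR.allR_chain (PR.fixF [tb6, tb10, tb6, tb10]) 0 0 3159 rel15_0 h
  exact h

theorem rel16 : ∀ u, 0 ≤ u → u < 3159 → PR.fixF [tb6, tb12, tb6, tb12] u = true := by
  have h : ∀ u, 0 ≤ u → u < 0 → PR.fixF [tb6, tb12, tb6, tb12] u = true := fun u h1 h2 => absurd h2 (by omega)
  have h := PR.allR_chain (PR.fixF [tb6, tb12, tb6, tb12]) 0 0 3159 rel16_0 h
  exact h

theorem rel17 : ∀ u, 0 ≤ u → u < 3159 → PR.fixF [tb6, tb16, tb6, tb16] u = true := by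
  have h : ∀ u, 0 ≤ u → u < 0 → PR.fixF [tb6, tb16, tb6, tb16] u = true := fun u h1 h2 => absurd h2 (by omega)
  have h := PR.allR_chain (PR.fixF [tb6, tb16, tb6, tb16]) 0 0 3159 rel17_0 h
  exact h

theorem rel18 : ∀ u, 0 ≤ u → u < 3159 → PR.fixF [tb8, tb14, tb8, tb14] u = true := by
  have h : ∀ u, 0 ≤ u → u < 0 → PR.fixF [tb8, tb14, tb8, tb14] u = true := fun u h1 h2 => absurd h2 (by omega)
  have h := PR.allR_chain (PR.fixF [tb8, tb14, tb8, tb14]) 0 0 3159 rel18_0 h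
  exact h

theorem rel19 : ∀ u, 0 ≤ u → u < 3159 → PR.fixF [tb8, tb10, tb8, tb10, tb8, tb10] u = true := by
  have h : ∀ u, 0 ≤ u → u < 0 → PR.fixF [tb8, tb10, tb8, tb10, tb8, tb10] u = true := fun u h1 h2 => absurd h2 (by omega)
  have h := PR.allR_chain (PR.fixF [tb8, tb10, tb8, tb10, tb8, tb10]) 0 0 3159 rel19_0 h
  exact h

theorem rel20 : ∀ u, 0 ≤ u → u < 3159 → PR.fixF [tb8, tb12, tb8, tb12] u = true := by
  have h : ∀ u, 0 ≤ u → u < 0 → PR.fixF [tb8, tb12, tb8, tb12] u = true := fun u h1 h2 => absurd h2 (by omega)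
  have h := PR.allR_chain (PR.fixF [tb8, tb12, tb8, tb12]) 0 0 3159 rel20_0 h
  exact h

theorem rel21 : ∀ u, 0 ≤ u → u < 3159 → PR.fixF [tb8, tb16, tb8, tb16] u = true := by
  have h : ∀ u, 0 ≤ u → u < 0 → PR.fixF [tb8, tb16, tb8, tb16] u = true := fun u h1 h2 => absurd h2 (by omega)
  have h := PR.allR_chain (PR.fixF [tb8, tb16, tb8, tb16]) 0 0 3159 rel21_0 h
  exact h

theorem rel22 : ∀ u, 0 ≤ u → u < 3159 → PR.fixF [tb14, tb10, tb14, tb10] u = true := by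
  have h : ∀ u, 0 ≤ u → u < 0 → PR.fixF [tb14, tb10, tb14, tb10] u = true := fun u h1 h2 => absurd h2 (by omega)
  have h := PR.allR_chain (PR.fixF [tb14, tb10, tb14, tb10]) 0 0 3159 rel22_0 h
  exact h

theorem rel23 : ∀ u, 0 ≤ u → u < 3159 → PR.fixF [tb14, tb12, tb14, tb12] u = true := by
  have h : ∀ u, 0 ≤ u → u < 0 → PR.fixF [tb14, tb12, tb14, tb12] u = true := fun u h1 h2 => absurd h2 (by omega)
  have h := PR.allR_chain (PR.fixF [tb14, tb12, tb14, tb12]) 0 0 3159 rel23_0 h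
  exact h

theorem rel24 : ∀ u, 0 ≤ u → u < 3159 → PR.fixF [tb14, tb16, tb14, tb16, tb14, tb16] u = true := by
  have h : ∀ u, 0 ≤ u → u < 0 → PR.fixF [tb14, tb16, tb14, tb16, tb14, tb16] u = true := fun u h1 h2 => absurd h2 (by omega)
  have h := PR.allR_chain (PR.fixF [tb14, tb16, tb14, tb16, tb14, tb16]) 0 0 3159 rel24_0 h
  exact h

theorem rel25 : ∀ u, 0 ≤ u → u < 3159 → PR.fixF [tb10, tb12, tb10, tb12, tb10, tb12] u = true := by
  have h : ∀ u, 0 ≤ u → u < 0 → PR.fixF [tb10, tb12, tb10, tb12, tb10, tb12] u = true := fun u h1 h2 => absurd h2 (by omega)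
  have h := PR.allR_chain (PR.fixF [tb10, tb12, tb10, tb12, tb10, tb12]) 0 0 3159 rel25_0 h
  exact h

theorem rel26 : ∀ u, 0 ≤ u → u < 3159 → PR.fixF [tb10, tb16, tb10, tb16] u = true := by
  have h : ∀ u, 0 ≤ u → u < 0 → PR.fixF [tb10, tb16, tb10, tb16] u = true := fun u h1 h2 => absurd h2 (by omega)
  have h := PR.allR_chain (PR.fixF [tb10, tb16, tb10, tb16]) 0 0 3159 rel26_0 h
  exact h

theorem rel27 : ∀ u, 0 ≤ u → u < 3159 → PR.fixF [tb12, tb16, tb12, tb16] u = true := by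
  have h : ∀ u, 0 ≤ u → u < 0 → PR.fixF [tb12, tb16, tb12, tb16] u = true := fun u h1 h2 => absurd h2 (by omega)
  have h := PR.allR_chain (PR.fixF [tb12, tb16, tb12, tb16]) 0 0 3159 rel27_0 h
  exact h

theorem rel28 : ∀ u, 0 ≤ u → u < 3159 → PR.fixF [tb6, tb4, tb2, tb6, tb8, tb10, tb6, tb14, tb16, tb6, tb4, tb2, tb6, tb8, tb10, tb6, tb14, tb16, tb6, tb4, tb2, tb6, tb8, tb10, tb6, tb14, tb16, tb6, tb4, tb2, tb6, tb8, tb10, tb6, tb14, tb16, tb6, tb4, tb2, tb6, tb8, tb10, tb6, tb14, tb16, tb6, tb4, tb2, tb6, tb8, tb10, tb6, tb14, tb16, tb6, tb4, tb2, tb6, tb8, tb10, tb6, tb14, tb16, tb6, tb4, tb2, tb6, tb8, tb10, tb6, tb14, tb16, tb6, tb4, tb2, tb6, tb8, tb10, tb6, tb14, tb16, tb6, tb4, tb2, tb6, tb8, tb10, tb6, tb14, tb16] u = true := by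
  have h : ∀ u, 0 ≤ u → u < 0 → PR.fixF [tb6, tb4, tb2, tb6, tb8, tb10, tb6, tb14, tb16, tb6, tb4, tb2, tb6, tb8, tb10, tb6, tb14, tb16, tb6, tb4, tb2, tb6, tb8, tb10, tb6, tb14, tb16, tb6, tb4, tb2, tb6, tb8, tb10, tb6, tb14, tb16, tb6, tb4, tb2, tb6, tb8, tb10, tb6, tb14, tb16, tb6, tb4, tb2, tb6, tb8, tb10, tb6, tb14, tb16, tb6, tb4, tb2, tb6, tb8, tb10, tb6, tb14, tb16, tb6, tb4, tb2, tb6, tb8, tb10, tb6, tb14, tb16, tb6, tb4, tb2, tb6, tb8, tb10, tb6, tb14, tb16, tb6, tb4, tb2, tb6, tb8, tb10, tb6, tb14, tb16] u = true := fun u h1 h2 => absurd h2 (by omega)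
  have h := PR.allR_chain (PR.fixF [tb6, tb4, tb2, tb6, tb8, tb10, tb6, tb14, tb16, tb6, tb4, tb2, tb6, tb8, tb10, tb6, tb14, tb16, tb6, tb4, tb2, tb6, tb8, tb10, tb6, tb14, tb16, tb6, tb4, tb2, tb6, tb8, tb10, tb6, tb14, tb16, tb6, tb4, tb2, tb6, tb8, tb10, tb6, tb14, tb16, tb6, tb4, tb2, tb6, tb8, tb10, tb6, tb14, tb16, tb6, tb4, tb2, tb6, tb8, tb10, tb6, tb14, tb16, tb6, tb4, tb2, tb6, tb8, tb10, tb6, tb14, tb16, tb6, tb4, tb2, tb6, tb8, tb10, tb6, tb14, tb16, tb6, tb4, tb2, tb6, tb8, tb10, tb6, tb14, tb16]) 0 0 3159 rel28_0 h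
  exact h

theorem rel29 : ∀ u, 0 ≤ u → u < 3159 → PR.fixF [tb2, tb4, tb6, tb8, tb10, tb12, tb14, tb2, tb4, tb6, tb8, tb10, tb12, tb14, tb2, tb4, tb6, tb8, tb10, tb12, tb14, tb2, tb4, tb6, tb8, tb10, tb12, tb14, tb2, tb4, tb6, tb8, tb10, tb12, tb14, tb2, tb4, tb6, tb8, tb10, tb12, tb14, tb2, tb4, tb6, tb8, tb10, tb12, tb14, tb2, tb4, tb6, tb8, tb10, tb12, tb14, tb2, tb4, tb6, tb8, tb10, tb12, tb14] u = true := by
  have h : ∀ u, 0 ≤ u → u < 0 → PR.fixF [tb2, tb4, tb6, tb8, tb10, tb12, tb14, tb2, tb4, tb6, tb8, tb10, tb12, tb14, tb2, tb4, tb6, tb8, tb10, tb12, tb14, tb2, tb4, tb6, tb8, tb10, tb12, tb14, tb2, tb4, tb6, tb8, tb10, tb12, tb14, tb2, tb4, tb6, tb8, tb10, tb12, tb14, tb2, tb4, tb6, tb8, tb10, tb12, tb14, tb2, tb4, tb6, tb8, tb10, tb12, tb14, tb2, tb4, tb6, tb8, tb10, tb12, tb14] u = true := fun u h1 h2 => absurd h2 (by omega)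
  have h := PR.allR_chain (PR.fixF [tb2, tb4, tb6, tb8, tb10, tb12, tb14, tb2, tb4, tb6, tb8, tb10, tb12, tb14, tb2, tb4, tb6, tb8, tb10, tb12, tb14, tb2, tb4, tb6, tb8, tb10, tb12, tb14, tb2, tb4, tb6, tb8, tb10, tb12, tb14, tb2, tb4, tb6, tb8, tb10, tb12, tb14, tb2, tb4, tb6, tb8, tb10, tb12, tb14, tb2, tb4, tb6, tb8, tb10, tb12, tb14, tb2, tb4, tb6, tb8, tb10, tb12, tb14]) 0 0 3159 rel29_0 h
  exact h

theorem mp0_0 : ∀ u, 0 ≤ u → u < 1 → PR.mapsF [tb2] 0 0 u = true := by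
  have h : ∀ u, 0 ≤ u → u < 0 → PR.mapsF [tb2] 0 0 u = true := fun u h1 h2 => absurd h2 (by omega)
  have h := PR.allR_chain (PR.mapsF [tb2] 0 0) 0 0 1 mp0_0_0 h
  exact h

theorem mp0_1 : ∀ u, 0 ≤ u → u < 1 → PR.mapsF [tb4] 0 0 u = true := by
  have h : ∀ u, 0 ≤ u → u < 0 → PR.mapsF [tb4] 0 0 u = true := fun u h1 h2 => absurd h2 (by omega)
  have h := PR.allR_chain (PR.mapsF [tb4] 0 0) 0 0 1 mp0_1_0 h
  exact h

theorem mp0_2 : ∀ u, 0 ≤ u → u < 1 → PR.mapsF [tb6] 0 0 u = true := by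
  have h : ∀ u, 0 ≤ u → u < 0 → PR.mapsF [tb6] 0 0 u = true := fun u h1 h2 => absurd h2 (by omega)
  have h := PR.allR_chain (PR.mapsF [tb6] 0 0) 0 0 1 mp0_2_0 h
  exact h

theorem mp0_3 : ∀ u, 0 ≤ u → u < 1 → PR.mapsF [tb8] 0 0 u = true := by
  have h : ∀ u, 0 ≤ u → u < 0 → PR.mapsF [tb8] 0 0 u = true := fun u h1 h2 => absurd h2 (by omega)
  have h := PR.allR_chain (PR.mapsF [tb8] 0 0) 0 0 1 mp0_3_0 h
  exact h

theorem mp0_4 : ∀ u, 0 ≤ u → u < 1 → PR.mapsF [tb10] 0 0 u = true := by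
  have h : ∀ u, 0 ≤ u → u < 0 → PR.mapsF [tb10] 0 0 u = true := fun u h1 h2 => absurd h2 (by omega)
  have h := PR.allR_chain (PR.mapsF [tb10] 0 0) 0 0 1 mp0_4_0 h
  exact h

theorem mp0_5 : ∀ u, 0 ≤ u → u < 1 → PR.mapsF [tb12] 0 0 u = true := by
  have h : ∀ u, 0 ≤ u → u < 0 → PR.mapsF [tb12] 0 0 u = true := fun u h1 h2 => absurd h2 (by omega)
  have h := PR.allR_chain (PR.mapsF [tb12] 0 0) 0 0 1 mp0_5_0 h
  exact h

theorem mp0_6 : ∀ u, 0 ≤ u → u < 1 → PR.mapsF [tb14] 0 0 u = true := by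
  have h : ∀ u, 0 ≤ u → u < 0 → PR.mapsF [tb14] 0 0 u = true := fun u h1 h2 => absurd h2 (by omega)
  have h := PR.allR_chain (PR.mapsF [tb14] 0 0) 0 0 1 mp0_6_0 h
  exact h

theorem tre0 : ∀ u, 1 ≤ u → u < 1 → PR.treeF tbW [[tb2], [tb4], [tb6], [tb8], [tb10], [tb12], [tb14]] 0 u = true := by
  have h : ∀ u, 1 ≤ u → u < 1 → PR.treeF tbW [[tb2], [tb4], [tb6], [tb8], [tb10], [tb12], [tb14]] 0 u = true := fun u h1 h2 => absurd h2 (by omega)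
  exact h

theorem mp1_0 : ∀ u, 1 ≤ u → u < 289 → PR.mapsF [tb2] 1 288 u = true := by
  have h : ∀ u, 1 ≤ u → u < 1 → PR.mapsF [tb2] 1 288 u = true := fun u h1 h2 => absurd h2 (by omega)
  have h := PR.allR_chain (PR.mapsF [tb2] 1 288) 1 1 288 mp1_0_0 h
  exact h

theorem mp1_1 : ∀ u, 1 ≤ u → u < 289 → PR.mapsF [tb4] 1 288 u = true := by
  have h : ∀ u, 1 ≤ u → u < 1 → PR.mapsF [tb4] 1 288 u = true := fun u h1 h2 => absurd h2 (by omega)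
  have h := PR.allR_chain (PR.mapsF [tb4] 1 288) 1 1 288 mp1_1_0 h
  exact h

theorem mp1_2 : ∀ u, 1 ≤ u → u < 289 → PR.mapsF [tb6] 1 288 u = true := by
  have h : ∀ u, 1 ≤ u → u < 1 → PR.mapsF [tb6] 1 288 u = true := fun u h1 h2 => absurd h2 (by omega)
  have h := PR.allR_chain (PR.mapsF [tb6] 1 288) 1 1 288 mp1_2_0 h
  exact h

theorem mp1_3 : ∀ u, 1 ≤ u → u < 289 → PR.mapsF [tb8] 1 288 u = true := by
  have h : ∀ u, 1 ≤ u → u < 1 → PR.mapsF [tb8] 1 288 u = true := fun u h1 h2 => absurd h2 (by omega)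
  have h := PR.allR_chain (PR.mapsF [tb8] 1 288) 1 1 288 mp1_3_0 h
  exact h

theorem mp1_4 : ∀ u, 1 ≤ u → u < 289 → PR.mapsF [tb10] 1 288 u = true := by
  have h : ∀ u, 1 ≤ u → u < 1 → PR.mapsF [tb10] 1 288 u = true := fun u h1 h2 => absurd h2 (by omega)
  have h := PR.allR_chain (PR.mapsF [tb10] 1 288) 1 1 288 mp1_4_0 h
  exact h

theorem mp1_5 : ∀ u, 1 ≤ u → u < 289 → PR.mapsF [tb12] 1 288 u = true := by
  have h : ∀ u, 1 ≤ u → u < 1 → PR.mapsF [tb12] 1 288 u = true := fun u h1 h2 => absurd h2 (by omega)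
  have h := PR.allR_chain (PR.mapsF [tb12] 1 288) 1 1 288 mp1_5_0 h
  exact h

theorem mp1_6 : ∀ u, 1 ≤ u → u < 289 → PR.mapsF [tb14] 1 288 u = true := by
  have h : ∀ u, 1 ≤ u → u < 1 → PR.mapsF [tb14] 1 288 u = true := fun u h1 h2 => absurd h2 (by omega)
  have h := PR.allR_chain (PR.mapsF [tb14] 1 288) 1 1 288 mp1_6_0 h
  exact h

theorem tre1 : ∀ u, 2 ≤ u → u < 289 → PR.treeF tbW [[tb2], [tb4], [tb6], [tb8], [tb10], [tb12], [tb14]] 1 u = true := by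
  have h : ∀ u, 2 ≤ u → u < 2 → PR.treeF tbW [[tb2], [tb4], [tb6], [tb8], [tb10], [tb12], [tb14]] 1 u = true := fun u h1 h2 => absurd h2 (by omega)
  have h := PR.allR_chain (PR.treeF tbW [[tb2], [tb4], [tb6], [tb8], [tb10], [tb12], [tb14]] 1) 2 2 287 tre1_0 h
  exact h

theorem mp2_0 : ∀ u, 289 ≤ u → u < 919 → PR.mapsF [tb2] 289 918 u = true := by
  have h : ∀ u, 289 ≤ u → u < 289 → PR.mapsF [tb2] 289 918 u = true := fun u h1 h2 => absurd h2 (by omega)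
  have h := PR.allR_chain (PR.mapsF [tb2] 289 918) 289 289 630 mp2_0_0 h
  exact h

theorem mp2_1 : ∀ u, 289 ≤ u → u < 919 → PR.mapsF [tb4] 289 918 u = true := by
  have h : ∀ u, 289 ≤ u → u < 289 → PR.mapsF [tb4] 289 918 u = true := fun u h1 h2 => absurd h2 (by omega)
  have h := PR.allR_chain (PR.mapsF [tb4] 289 918) 289 289 630 mp2_1_0 h
  exact h

theorem mp2_2 : ∀ u, 289 ≤ u → u < 919 → PR.mapsF [tb6] 289 918 u = true := by
  have h : ∀ u, 289 ≤ u → u < 289 → PR.mapsF [tb6] 289 918 u = true := fun u h1 h2 => absurd h2 (by omega)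
  have h := PR.allR_chain (PR.mapsF [tb6] 289 918) 289 289 630 mp2_2_0 h
  exact h

theorem mp2_3 : ∀ u, 289 ≤ u → u < 919 → PR.mapsF [tb8] 289 918 u = true := by
  have h : ∀ u, 289 ≤ u → u < 289 → PR.mapsF [tb8] 289 918 u = true := fun u h1 h2 => absurd h2 (by omega)
  have h := PR.allR_chain (PR.mapsF [tb8] 289 918) 289 289 630 mp2_3_0 h
  exact h

theorem mp2_4 : ∀ u, 289 ≤ u → u < 919 → PR.mapsF [tb10] 289 918 u = true := by
  have h : ∀ u, 289 ≤ u → u < 289 → PR.mapsF [tb10] 289 918 u = true := fun u h1 h2 => absurd h2 (by omega)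
  have h := PR.allR_chain (PR.mapsF [tb10] 289 918) 289 289 630 mp2_4_0 h
  exact h

theorem mp2_5 : ∀ u, 289 ≤ u → u < 919 → PR.mapsF [tb12] 289 918 u = true := by
  have h : ∀ u, 289 ≤ u → u < 289 → PR.mapsF [tb12] 289 918 u = true := fun u h1 h2 => absurd h2 (by omega)
  have h := PR.allR_chain (PR.mapsF [tb12] 289 918) 289 289 630 mp2_5_0 h
  exact h

theorem mp2_6 : ∀ u, 289 ≤ u → u < 919 → PR.mapsF [tb14] 289 918 u = true := by
  have h : ∀ u, 289 ≤ u → u < 289 → PR.mapsF [tb14] 289 918 u = true := fun u h1 h2 => absurd h2 (by omega)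
  have h := PR.allR_chain (PR.mapsF [tb14] 289 918) 289 289 630 mp2_6_0 h
  exact h

theorem tre2 : ∀ u, 290 ≤ u → u < 919 → PR.treeF tbW [[tb2], [tb4], [tb6], [tb8], [tb10], [tb12], [tb14]] 289 u = true := by
  have h : ∀ u, 290 ≤ u → u < 290 → PR.treeF tbW [[tb2], [tb4], [tb6], [tb8], [tb10], [tb12], [tb14]] 289 u = true := fun u h1 h2 => absurd h2 (by omega)
  have h := PR.allR_chain (PR.treeF tbW [[tb2], [tb4], [tb6], [tb8], [tb10], [tb12], [tb14]] 289) 290 290 629 tre2_0 h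
  exact h

theorem mp3_0 : ∀ u, 919 ≤ u → u < 3159 → PR.mapsF [tb2] 919 3158 u = true := by
  have h : ∀ u, 919 ≤ u → u < 919 → PR.mapsF [tb2] 919 3158 u = true := fun u h1 h2 => absurd h2 (by omega)
  have h := PR.allR_chain (PR.mapsF [tb2] 919 3158) 919 919 2240 mp3_0_0 h
  exact h

theorem mp3_1 : ∀ u, 919 ≤ u → u < 3159 → PR.mapsF [tb4] 919 3158 u = true := by
  have h : ∀ u, 919 ≤ u → u < 919 → PR.mapsF [tb4] 919 3158 u = true := fun u h1 h2 => absurd h2 (by omega)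
  have h := PR.allR_chain (PR.mapsF [tb4] 919 3158) 919 919 2240 mp3_1_0 h
  exact h

theorem mp3_2 : ∀ u, 919 ≤ u → u < 3159 → PR.mapsF [tb6] 919 3158 u = true := by
  have h : ∀ u, 919 ≤ u → u < 919 → PR.mapsF [tb6] 919 3158 u = true := fun u h1 h2 => absurd h2 (by omega)
  have h := PR.allR_chain (PR.mapsF [tb6] 919 3158) 919 919 2240 mp3_2_0 h
  exact h

theorem mp3_3 : ∀ u, 919 ≤ u → u < 3159 → PR.mapsF [tb8] 919 3158 u = true := by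
  have h : ∀ u, 919 ≤ u → u < 919 → PR.mapsF [tb8] 919 3158 u = true := fun u h1 h2 => absurd h2 (by omega)
  have h := PR.allR_chain (PR.mapsF [tb8] 919 3158) 919 919 2240 mp3_3_0 h
  exact h

theorem mp3_4 : ∀ u, 919 ≤ u → u < 3159 → PR.mapsF [tb10] 919 3158 u = true := by
  have h : ∀ u, 919 ≤ u → u < 919 → PR.mapsF [tb10] 919 3158 u = true := fun u h1 h2 => absurd h2 (by omega)
  have h := PR.allR_chain (PR.mapsF [tb10] 919 3158) 919 919 2240 mp3_4_0 h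
  exact h

theorem mp3_5 : ∀ u, 919 ≤ u → u < 3159 → PR.mapsF [tb12] 919 3158 u = true := by
  have h : ∀ u, 919 ≤ u → u < 919 → PR.mapsF [tb12] 919 3158 u = true := fun u h1 h2 => absurd h2 (by omega)
  have h := PR.allR_chain (PR.mapsF [tb12] 919 3158) 919 919 2240 mp3_5_0 h
  exact h

theorem mp3_6 : ∀ u, 919 ≤ u → u < 3159 → PR.mapsF [tb14] 919 3158 u = true := by
  have h : ∀ u, 919 ≤ u → u < 919 → PR.mapsF [tb14] 919 3158 u = true := fun u h1 h2 => absurd h2 (by omega)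
  have h := PR.allR_chain (PR.mapsF [tb14] 919 3158) 919 919 2240 mp3_6_0 h
  exact h

theorem tre3 : ∀ u, 920 ≤ u → u < 3159 → PR.treeF tbW [[tb2], [tb4], [tb6], [tb8], [tb10], [tb12], [tb14]] 919 u = true := by
  have h : ∀ u, 920 ≤ u → u < 920 → PR.treeF tbW [[tb2], [tb4], [tb6], [tb8], [tb10], [tb12], [tb14]] 919 u = true := fun u h1 h2 => absurd h2 (by omega)
  have h := PR.allR_chain (PR.treeF tbW [[tb2], [tb4], [tb6], [tb8], [tb10], [tb12], [tb14]] 919) 920 920 2239 tre3_0 h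
  exact h

theorem tables : PR.Tables 3159 tbl invL Ls := by
  refine ⟨?_, by decide, ?_, ?_⟩
  · intro l hl
    simp only [Ls, List.mem_cons, List.mem_nil_iff, or_false] at hl
    rcases hl with rfl | rfl | rfl | rfl | rfl | rfl | rfl | rfl
    · exact fun u hu => Nat.lt_of_le_of_lt ((PR.mapsF_iff _ _ _ _).mp (rng2 u (Nat.zero_le _) hu)).2 (by norm_num)
    · exact fun u hu => Nat.lt_of_le_of_lt ((PR.mapsF_iff _ _ _ _).mp (rng4 u (Nat.zero_le _) hu)).2 (by norm_num)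
    · exact fun u hu => Nat.lt_of_le_of_lt ((PR.mapsF_iff _ _ _ _).mp (rng6 u (Nat.zero_le _) hu)).2 (by norm_num)
    · exact fun u hu => Nat.lt_of_le_of_lt ((PR.mapsF_iff _ _ _ _).mp (rng8 u (Nat.zero_le _) hu)).2 (by norm_num)
    · exact fun u hu => Nat.lt_of_le_of_lt ((PR.mapsF_iff _ _ _ _).mp (rng10 u (Nat.zero_le _) hu)).2 (by norm_num)
    · exact fun u hu => Nat.lt_of_le_of_lt ((PR.mapsF_iff _ _ _ _).mp (rng12 u (Nat.zero_le _) hu)).2 (by norm_num)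
    · exact fun u hu => Nat.lt_of_le_of_lt ((PR.mapsF_iff _ _ _ _).mp (rng14 u (Nat.zero_le _) hu)).2 (by norm_num)
    · exact fun u hu => Nat.lt_of_le_of_lt ((PR.mapsF_iff _ _ _ _).mp (rng16 u (Nat.zero_le _) hu)).2 (by norm_num)
  · intro l hl
    simp only [Ls, List.mem_cons, List.mem_nil_iff, or_false] at hl
    rcases hl with rfl | rfl | rfl | rfl | rfl | rfl | rfl | rfl
    · exact fun u hu => (PR.fixF_iff _ _).mp (sq2 u (Nat.zero_le _) hu)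
    · exact fun u hu => (PR.fixF_iff _ _).mp (sq4 u (Nat.zero_le _) hu)
    · exact fun u hu => (PR.fixF_iff _ _).mp (sq6 u (Nat.zero_le _) hu)
    · exact fun u hu => (PR.fixF_iff _ _).mp (sq8 u (Nat.zero_le _) hu)
    · exact fun u hu => (PR.fixF_iff _ _).mp (sq10 u (Nat.zero_le _) hu)
    · exact fun u hu => (PR.fixF_iff _ _).mp (sq12 u (Nat.zero_le _) hu)
    · exact fun u hu => (PR.fixF_iff _ _).mp (sq14 u (Nat.zero_le _) hu)
    · exact fun u hu => (PR.fixF_iff _ _).mp (sq16 u (Nat.zero_le _) hu)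
  · intro l hl
    simp only [Ls, List.mem_cons, List.mem_nil_iff, or_false] at hl
    rcases hl with rfl | rfl | rfl | rfl | rfl | rfl | rfl | rfl
    · exact fun u hu => (PR.fixF_iff _ _).mp (sq2 u (Nat.zero_le _) hu)
    · exact fun u hu => (PR.fixF_iff _ _).mp (sq4 u (Nat.zero_le _) hu)
    · exact fun u hu => (PR.fixF_iff _ _).mp (sq6 u (Nat.zero_le _) hu)
    · exact fun u hu => (PR.fixF_iff _ _).mp (sq8 u (Nat.zero_le _) hu)
    · exact fun u hu => (PR.fixF_iff _ _).mp (sq10 u (Nat.zero_le _) hu)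
    · exact fun u hu => (PR.fixF_iff _ _).mp (sq12 u (Nat.zero_le _) hu)
    · exact fun u hu => (PR.fixF_iff _ _).mp (sq14 u (Nat.zero_le _) hu)
    · exact fun u hu => (PR.fixF_iff _ _).mp (sq16 u (Nat.zero_le _) hu)

theorem relsOK : ∀ r ∈ coxW ++ extraW, ∀ u < 3159, PR.trace (r.map tbl) u = u := by
  intro r hr
  simp only [coxW, extraW, List.mem_append, List.mem_cons, List.mem_nil_iff, or_false, or_assoc] at hr
  rcases hr with rfl | rfl | rfl | rfl | rfl | rfl | rfl | rfl | rfl | rfl | rfl | rfl | rfl | rfl | rfl | rfl | rfl | rfl | rfl | rfl | rfl | rfl | rfl | rfl | rfl | rfl | rfl | rfl | rfl | rfl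
  · exact fun u hu => (PR.fixF_iff _ _).mp (rel0 u (Nat.zero_le _) hu)
  · exact fun u hu => (PR.fixF_iff _ _).mp (rel1 u (Nat.zero_le _) hu)
  · exact fun u hu => (PR.fixF_iff _ _).mp (rel2 u (Nat.zero_le _) hu)
  · exact fun u hu => (PR.fixF_iff _ _).mp (rel3 u (Nat.zero_le _) hu)
  · exact fun u hu => (PR.fixF_iff _ _).mp (rel4 u (Nat.zero_le _) hu)
  · exact fun u hu => (PR.fixF_iff _ _).mp (rel5 u (Nat.zero_le _) hu)
  · exact fun u hu => (PR.fixF_iff _ _).mp (rel6 u (Nat.zero_le _) hu)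
  · exact fun u hu => (PR.fixF_iff _ _).mp (rel7 u (Nat.zero_le _) hu)
  · exact fun u hu => (PR.fixF_iff _ _).mp (rel8 u (Nat.zero_le _) hu)
  · exact fun u hu => (PR.fixF_iff _ _).mp (rel9 u (Nat.zero_le _) hu)
  · exact fun u hu => (PR.fixF_iff _ _).mp (rel10 u (Nat.zero_le _) hu)
  · exact fun u hu => (PR.fixF_iff _ _).mp (rel11 u (Nat.zero_le _) hu)
  · exact fun u hu => (PR.fixF_iff _ _).mp (rel12 u (Nat.zero_le _) hu)
  · exact fun u hu => (PR.fixF_iff _ _).mp (rel13 u (Nat.zero_le _) hu)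
  · exact fun u hu => (PR.fixF_iff _ _).mp (rel14 u (Nat.zero_le _) hu)
  · exact fun u hu => (PR.fixF_iff _ _).mp (rel15 u (Nat.zero_le _) hu)
  · exact fun u hu => (PR.fixF_iff _ _).mp (rel16 u (Nat.zero_le _) hu)
  · exact fun u hu => (PR.fixF_iff _ _).mp (rel17 u (Nat.zero_le _) hu)
  · exact fun u hu => (PR.fixF_iff _ _).mp (rel18 u (Nat.zero_le _) hu)
  · exact fun u hu => (PR.fixF_iff _ _).mp (rel19 u (Nat.zero_le _) hu)
  · exact fun u hu => (PR.fixF_iff _ _).mp (rel20 u (Nat.zero_le _) hu)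
  · exact fun u hu => (PR.fixF_iff _ _).mp (rel21 u (Nat.zero_le _) hu)
  · exact fun u hu => (PR.fixF_iff _ _).mp (rel22 u (Nat.zero_le _) hu)
  · exact fun u hu => (PR.fixF_iff _ _).mp (rel23 u (Nat.zero_le _) hu)
  · exact fun u hu => (PR.fixF_iff _ _).mp (rel24 u (Nat.zero_le _) hu)
  · exact fun u hu => (PR.fixF_iff _ _).mp (rel25 u (Nat.zero_le _) hu)
  · exact fun u hu => (PR.fixF_iff _ _).mp (rel26 u (Nat.zero_le _) hu)
  · exact fun u hu => (PR.fixF_iff _ _).mp (rel27 u (Nat.zero_le _) hu)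
  · exact fun u hu => (PR.fixF_iff _ _).mp (rel28 u (Nat.zero_le _) hu)
  · exact fun u hu => (PR.fixF_iff _ _).mp (rel29 u (Nat.zero_le _) hu)

theorem orbits : PR.Orbits 3159 tbl Ls subs ivs := by
  refine ⟨by decide, ?_, ?_, ?_, ?_, by decide, by decide⟩
  · intro iv hiv s hs
    simp only [ivs, List.mem_cons, List.mem_nil_iff, or_false] at hiv
    simp only [subs, List.mem_cons, List.mem_nil_iff, or_false] at hs
    rcases hiv with rfl | rfl | rfl | rfl <;> rcases hs with rfl | rfl | rfl | rfl | rfl | rfl | rfl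
    · exact fun u h1 h2 => ⟨((PR.mapsF_iff _ _ _ _).mp (mp0_0 u h1 h2)).1, Nat.lt_of_le_of_lt ((PR.mapsF_iff _ _ _ _).mp (mp0_0 u h1 h2)).2 (by norm_num)⟩
    · exact fun u h1 h2 => ⟨((PR.mapsF_iff _ _ _ _).mp (mp0_1 u h1 h2)).1, Nat.lt_of_le_of_lt ((PR.mapsF_iff _ _ _ _).mp (mp0_1 u h1 h2)).2 (by norm_num)⟩
    · exact fun u h1 h2 => ⟨((PR.mapsF_iff _ _ _ _).mp (mp0_2 u h1 h2)).1, Nat.lt_of_le_of_lt ((PR.mapsF_iff _ _ _ _).mp (mp0_2 u h1 h2)).2 (by norm_num)⟩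
    · exact fun u h1 h2 => ⟨((PR.mapsF_iff _ _ _ _).mp (mp0_3 u h1 h2)).1, Nat.lt_of_le_of_lt ((PR.mapsF_iff _ _ _ _).mp (mp0_3 u h1 h2)).2 (by norm_num)⟩
    · exact fun u h1 h2 => ⟨((PR.mapsF_iff _ _ _ _).mp (mp0_4 u h1 h2)).1, Nat.lt_of_le_of_lt ((PR.mapsF_iff _ _ _ _).mp (mp0_4 u h1 h2)).2 (by norm_num)⟩
    · exact fun u h1 h2 => ⟨((PR.mapsF_iff _ _ _ _).mp (mp0_5 u h1 h2)).1, Nat.lt_of_le_of_lt ((PR.mapsF_iff _ _ _ _).mp (mp0_5 u h1 h2)).2 (by norm_num)⟩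
    · exact fun u h1 h2 => ⟨((PR.mapsF_iff _ _ _ _).mp (mp0_6 u h1 h2)).1, Nat.lt_of_le_of_lt ((PR.mapsF_iff _ _ _ _).mp (mp0_6 u h1 h2)).2 (by norm_num)⟩
    · exact fun u h1 h2 => ⟨((PR.mapsF_iff _ _ _ _).mp (mp1_0 u h1 h2)).1, Nat.lt_of_le_of_lt ((PR.mapsF_iff _ _ _ _).mp (mp1_0 u h1 h2)).2 (by norm_num)⟩
    · exact fun u h1 h2 => ⟨((PR.mapsF_iff _ _ _ _).mp (mp1_1 u h1 h2)).1, Nat.lt_of_le_of_lt ((PR.mapsF_iff _ _ _ _).mp (mp1_1 u h1 h2)).2 (by norm_num)⟩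
    · exact fun u h1 h2 => ⟨((PR.mapsF_iff _ _ _ _).mp (mp1_2 u h1 h2)).1, Nat.lt_of_le_of_lt ((PR.mapsF_iff _ _ _ _).mp (mp1_2 u h1 h2)).2 (by norm_num)⟩
    · exact fun u h1 h2 => ⟨((PR.mapsF_iff _ _ _ _).mp (mp1_3 u h1 h2)).1, Nat.lt_of_le_of_lt ((PR.mapsF_iff _ _ _ _).mp (mp1_3 u h1 h2)).2 (by norm_num)⟩
    · exact fun u h1 h2 => ⟨((PR.mapsF_iff _ _ _ _).mp (mp1_4 u h1 h2)).1, Nat.lt_of_le_of_lt ((PR.mapsF_iff _ _ _ _).mp (mp1_4 u h1 h2)).2 (by norm_num)⟩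
    · exact fun u h1 h2 => ⟨((PR.mapsF_iff _ _ _ _).mp (mp1_5 u h1 h2)).1, Nat.lt_of_le_of_lt ((PR.mapsF_iff _ _ _ _).mp (mp1_5 u h1 h2)).2 (by norm_num)⟩
    · exact fun u h1 h2 => ⟨((PR.mapsF_iff _ _ _ _).mp (mp1_6 u h1 h2)).1, Nat.lt_of_le_of_lt ((PR.mapsF_iff _ _ _ _).mp (mp1_6 u h1 h2)).2 (by norm_num)⟩
    · exact fun u h1 h2 => ⟨((PR.mapsF_iff _ _ _ _).mp (mp2_0 u h1 h2)).1, Nat.lt_of_le_of_lt ((PR.mapsF_iff _ _ _ _).mp (mp2_0 u h1 h2)).2 (by norm_num)⟩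
    · exact fun u h1 h2 => ⟨((PR.mapsF_iff _ _ _ _).mp (mp2_1 u h1 h2)).1, Nat.lt_of_le_of_lt ((PR.mapsF_iff _ _ _ _).mp (mp2_1 u h1 h2)).2 (by norm_num)⟩
    · exact fun u h1 h2 => ⟨((PR.mapsF_iff _ _ _ _).mp (mp2_2 u h1 h2)).1, Nat.lt_of_le_of_lt ((PR.mapsF_iff _ _ _ _).mp (mp2_2 u h1 h2)).2 (by norm_num)⟩
    · exact fun u h1 h2 => ⟨((PR.mapsF_iff _ _ _ _).mp (mp2_3 u h1 h2)).1, Nat.lt_of_le_of_lt ((PR.mapsF_iff _ _ _ _).mp (mp2_3 u h1 h2)).2 (by norm_num)⟩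
    · exact fun u h1 h2 => ⟨((PR.mapsF_iff _ _ _ _).mp (mp2_4 u h1 h2)).1, Nat.lt_of_le_of_lt ((PR.mapsF_iff _ _ _ _).mp (mp2_4 u h1 h2)).2 (by norm_num)⟩
    · exact fun u h1 h2 => ⟨((PR.mapsF_iff _ _ _ _).mp (mp2_5 u h1 h2)).1, Nat.lt_of_le_of_lt ((PR.mapsF_iff _ _ _ _).mp (mp2_5 u h1 h2)).2 (by norm_num)⟩
    · exact fun u h1 h2 => ⟨((PR.mapsF_iff _ _ _ _).mp (mp2_6 u h1 h2)).1, Nat.lt_of_le_of_lt ((PR.mapsF_iff _ _ _ _).mp (mp2_6 u h1 h2)).2 (by norm_num)⟩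
    · exact fun u h1 h2 => ⟨((PR.mapsF_iff _ _ _ _).mp (mp3_0 u h1 h2)).1, Nat.lt_of_le_of_lt ((PR.mapsF_iff _ _ _ _).mp (mp3_0 u h1 h2)).2 (by norm_num)⟩
    · exact fun u h1 h2 => ⟨((PR.mapsF_iff _ _ _ _).mp (mp3_1 u h1 h2)).1, Nat.lt_of_le_of_lt ((PR.mapsF_iff _ _ _ _).mp (mp3_1 u h1 h2)).2 (by norm_num)⟩
    · exact fun u h1 h2 => ⟨((PR.mapsF_iff _ _ _ _).mp (mp3_2 u h1 h2)).1, Nat.lt_of_le_of_lt ((PR.mapsF_iff _ _ _ _).mp (mp3_2 u h1 h2)).2 (by norm_num)⟩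
    · exact fun u h1 h2 => ⟨((PR.mapsF_iff _ _ _ _).mp (mp3_3 u h1 h2)).1, Nat.lt_of_le_of_lt ((PR.mapsF_iff _ _ _ _).mp (mp3_3 u h1 h2)).2 (by norm_num)⟩
    · exact fun u h1 h2 => ⟨((PR.mapsF_iff _ _ _ _).mp (mp3_4 u h1 h2)).1, Nat.lt_of_le_of_lt ((PR.mapsF_iff _ _ _ _).mp (mp3_4 u h1 h2)).2 (by norm_num)⟩
    · exact fun u h1 h2 => ⟨((PR.mapsF_iff _ _ _ _).mp (mp3_5 u h1 h2)).1, Nat.lt_of_le_of_lt ((PR.mapsF_iff _ _ _ _).mp (mp3_5 u h1 h2)).2 (by norm_num)⟩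
    · exact fun u h1 h2 => ⟨((PR.mapsF_iff _ _ _ _).mp (mp3_6 u h1 h2)).1, Nat.lt_of_le_of_lt ((PR.mapsF_iff _ _ _ _).mp (mp3_6 u h1 h2)).2 (by norm_num)⟩
  · intro iv hiv
    simp only [ivs, List.mem_cons, List.mem_nil_iff, or_false] at hiv
    rcases hiv with rfl | rfl | rfl | rfl
    · intro u h1 h2
      obtain ⟨s, hs, p, hp⟩ := PR.treeF_sound _ _ _ _ (tre0 u h1 h2)
      exact PR.tree_aux tbl subs _ rfl s hs p _ _ hp
    · intro u h1 h2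
      obtain ⟨s, hs, p, hp⟩ := PR.treeF_sound _ _ _ _ (tre1 u h1 h2)
      exact PR.tree_aux tbl subs _ rfl s hs p _ _ hp
    · intro u h1 h2
      obtain ⟨s, hs, p, hp⟩ := PR.treeF_sound _ _ _ _ (tre2 u h1 h2)
      exact PR.tree_aux tbl subs _ rfl s hs p _ _ hp
    · intro u h1 h2
      obtain ⟨s, hs, p, hp⟩ := PR.treeF_sound _ _ _ _ (tre3 u h1 h2)
      exact PR.tree_aux tbl subs _ rfl s hs p _ _ hp
  · intro iv hiv
    simp only [ivs, List.mem_cons, List.mem_nil_iff, or_false] at hiv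
    rcases hiv with rfl | rfl | rfl | rfl
    · exact ⟨[], by decide, root0⟩
    · exact ⟨[16], by decide, root1⟩
    · exact ⟨[16, 14, 6, 4, 8, 6, 14, 16], by decide, root2⟩
    · exact ⟨[16, 14, 6, 4, 2, 8, 6, 4, 10, 8, 6, 14, 16], by decide, root3⟩
  · intro u hu
    simp only [ivs, List.mem_cons, List.mem_nil_iff, or_false, exists_eq_or_imp, exists_eq_left]
    omega

end Cfsg.Agent.Lib.Helper11.O73
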