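import Cfsg.Agent.Lib.Helper11.LBCore
import Cfsg.Agent.Lib.Helper11.O73Perm
import Cfsg.Agent.Lib.Helper11.O73LC0

set_option autoImplicit false
set_option maxRecDepth 1000000

namespace Cfsg.Agent.Lib.Helper11.O73

open Cfsg.Agent.Lib.Helper11

theorem lbc0 : ∀ u, 1 ≤ u → u < 3159 → PR.lbF lP0 lM0 lwT0 u = true := by
  have h : ∀ u, 1 ≤ u → u < 1 → PR.lbF lP0 lM0 lwT0 u = true := fun u h1 h2 => absurd h2 (by omega)
  have h := PR.allR_chain (PR.lbF lP0 lM0 lwT0) 1 1 3158 lb0_0 h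
  exact h

theorem lbc1 : ∀ u, 1 ≤ u → u < 2240 → PR.lbF lP1 lM1 lwT1 u = true := by
  have h : ∀ u, 1 ≤ u → u < 1 → PR.lbF lP1 lM1 lwT1 u = true := fun u h1 h2 => absurd h2 (by omega)
  have h := PR.allR_chain (PR.lbF lP1 lM1 lwT1) 1 1 2239 lb1_0 h
  exact h

theorem lbc2 : ∀ u, 1 ≤ u → u < 648 → PR.lbF lP2 lM2 lwT2 u = true := by
  have h : ∀ u, 1 ≤ u → u < 1 → PR.lbF lP2 lM2 lwT2 u = true := fun u h1 h2 => absurd h2 (by omega)
  have h := PR.allR_chain (PR.lbF lP2 lM2 lwT2) 1 1 647 lb2_0 h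
  exact h

def lbase : List Nat := [0, 919, 1010]

theorem lv0 : 3159 ≤ (MulAction.orbit (PR.stabChain (PR.letterGroup 3159 tbl invL Ls) []) (⟨0, by norm_num⟩ : Fin 3159)).ncard :=
  PR.level_lb tables [] 0 (by norm_num) lws0 (by decide +kernel) lP0 lM0 3159 (by norm_num)
    (by decide +kernel) (by decide +kernel) (fun idx h1 h2 => lbc0 idx h1 h2)

theorem lv1 : 2240 ≤ (MulAction.orbit (PR.stabChain (PR.letterGroup 3159 tbl invL Ls) [0]) (⟨919, by norm_num⟩ : Fin 3159)).ncard :=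
  PR.level_lb tables [0] 919 (by norm_num) lws1 (by decide +kernel) lP1 lM1 2240 (by norm_num)
    (by decide +kernel) (by decide +kernel) (fun idx h1 h2 => lbc1 idx h1 h2)

theorem lv2 : 648 ≤ (MulAction.orbit (PR.stabChain (PR.letterGroup 3159 tbl invL Ls) [0, 919]) (⟨1010, by norm_num⟩ : Fin 3159)).ncard :=
  PR.level_lb tables [0, 919] 1010 (by norm_num) lws2 (by decide +kernel) lP2 lM2 648 (by norm_num)
    (by decide +kernel) (by decide +kernel) (fun idx h1 h2 => lbc2 idx h1 h2)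

theorem lb (c : ℕ) (hc : c ≤ Nat.card (PR.stabChain (PR.letterGroup 3159 tbl invL Ls) lbase)) : 4585351680 * c ≤ Nat.card (PR.letterGroup 3159 tbl invL Ls) := by
  have h2 := PR.chain_step (n := 3159) (tbl := tbl) (inv := invL) (Ls := Ls) [0, 919] 1010 (by norm_num) 648 _ lv2 hc
  have h1 := PR.chain_step (n := 3159) (tbl := tbl) (inv := invL) (Ls := Ls) [0] 919 (by norm_num) 2240 _ lv1 h2
  have h0 := PR.chain_step (n := 3159) (tbl := tbl) (inv := invL) (Ls := Ls) [] 0 (by norm_num) 3159 _ lv0 h1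
  have e : 4585351680 * c = 3159 * (2240 * (648 * (c))) := by omega
  rw [e]; exact h0

end Cfsg.Agent.Lib.Helper11.O73
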