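import Mathlib

set_option autoImplicit false

namespace Cfsg.Agent.Lib.Helper11.O73M

open Matrix

abbrev I7 := Unit ⊕ (Fin 3 ⊕ Fin 3)
abbrev M7 := Matrix I7 I7 (ZMod 3)

def ix : I7 → ℕ
  | .inl _ => 0
  | .inr (.inl i) => 1 + i.val
  | .inr (.inr i) => 4 + i.val

/-- the matrix with the given code in base 3 -/
def mx (c : ℕ) : M7 := fun i j => ((c / 3 ^ (7 * ix i + ix j) % 3 : ℕ) : ZMod 3)

def mat : ℕ → M7
  | 2 => mx 5932944465311440035110
  | 4 => mx 6992912779967134185266
  | 6 => mx 159533790428164363034150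
  | 8 => mx 159566357601133082915186
  | 10 => mx 86465355216307927509111
  | 12 => mx 94890598209487751107106
  | 14 => mx 106136306372184431108168
  | 16 => mx 104081810592268556553602
  | _ => 1

theorem mx_one : mx 79778602595634228233767 = 1 := by decide +kernel

end Cfsg.Agent.Lib.Helper11.O73M
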