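import Cfsg.Agent.Lib.Helper11.O73PT2
import Cfsg.Agent.Lib.Helper11.O73PT4
import Cfsg.Agent.Lib.Helper11.O73PT6
import Cfsg.Agent.Lib.Helper11.O73PT8
import Cfsg.Agent.Lib.Helper11.O73PT10
import Cfsg.Agent.Lib.Helper11.O73PT12
import Cfsg.Agent.Lib.Helper11.O73PT14
import Cfsg.Agent.Lib.Helper11.O73PT16
import Cfsg.Agent.Lib.Helper11.O73PTW

set_option autoImplicit false

namespace Cfsg.Agent.Lib.Helper11.O73

noncomputable def tbl : Nat → Nat → Nat
  | 2 => tb2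
  | 4 => tb4
  | 6 => tb6
  | 8 => tb8
  | 10 => tb10
  | 12 => tb12
  | 14 => tb14
  | 16 => tb16
  | _ => fun u => u

end Cfsg.Agent.Lib.Helper11.O73
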