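import Cfsg.Agent.Lib.Helper11.GenMaster2
import Cfsg.Agent.Lib.Helper11.O73LB
import Cfsg.Agent.Lib.Helper11.Fi22OrderUB

/-! # The group presented on `b, …, i` by the relators of `Fi22` in these letters is simple of order `|O7(3)|` -/

set_option autoImplicit false
set_option maxRecDepth 100000

namespace Cfsg.Agent.Lib.Helper11.O73S

open Cfsg.Agent.Lib.Helper11 Cfsg.Agent.Lib.Helper11.TC

abbrev P : Type := GM.WG O73.invL O73.Ls (O73.coxW ++ O73.extraW)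

def gen : ℕ → P := GM.wgen O73.invL O73.Ls (O73.coxW ++ O73.extraW)

theorem pres : GM.Pres P gen O73.invL O73.Ls (O73.coxW ++ O73.extraW) :=
  GM.wg_pres (fun _ hl => hl) (by decide) (by decide) (by decide +kernel)

theorem card_le : Finite P ∧ Nat.card P ≤ 4585351680 :=
  GM.card_le_of_bound pres (fun _ => rfl) Fi22Order.b1

def xw : List ℕ := [12, 10, 16, 8, 14, 4, 6, 2]

def cs : List (List ℕ) := [
  [4, 6, 8, 10, 12, 14, 6, 8, 10, 16, 14, 6, 4, 8, 6, 14, 8, 10, 6, 2],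
  [4, 6, 8, 10, 12, 14, 6, 8, 10, 16, 14, 6, 4, 8, 6, 14, 8, 10, 6, 4],
  [4, 6, 8, 10, 12, 14, 6, 8, 10, 16, 14, 6, 4, 8, 6, 14, 8, 10, 6, 2],
  [4, 6, 8, 10, 12, 14, 6, 8, 10, 16, 14, 6, 4, 8, 6, 14, 8, 10, 6, 4],
  [4, 6, 8, 10, 12, 14, 6, 8, 10, 16, 14, 6, 4, 8, 6, 14, 8, 10, 6, 2],
  [4, 6, 8, 10, 12, 14, 6, 8, 10, 16, 14, 6, 4, 8, 6, 14, 8, 10, 6, 4],
  [4, 6, 8, 10, 12, 14, 6, 8, 10, 16, 14, 6, 4, 8, 6, 14, 8, 10, 6, 2],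
  [4, 6, 8, 10, 12, 14, 6, 8, 10, 16, 14, 6, 4, 8, 6, 14, 8, 10, 6, 4],
  [4, 6, 8, 10, 12, 14, 6, 8, 10, 16, 14, 6, 4, 8, 6, 14, 8, 10, 6, 2],
  [4, 6, 8, 10, 12, 14, 6, 8, 10, 16, 14, 6, 4, 8, 6, 14, 8, 10, 6, 4],
  [4, 6, 8, 10, 12, 14, 6, 8, 10, 16, 14, 6, 4, 8, 6, 14, 8, 10, 6, 2],
  [4, 6, 8, 10, 12, 14, 6, 8, 10, 16, 14, 6, 4, 8, 6, 14, 8, 10, 6, 4],
  [4, 6, 8, 10, 12, 14, 6, 8, 10, 16, 14, 6, 4, 8, 6, 14, 8, 10, 6, 2],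
  [4, 6, 8, 10, 12, 14, 6, 8, 10, 16, 14, 6, 4, 8, 6, 14, 8, 10, 6, 4]]

theorem simple : IsSimpleGroup P ∧ Nat.card P = 4585351680 :=
  GM.simple_master pres (n := 3159) (N := 4585351680) O73.tables O73.relsOK O73.orbits
    card_le O73.lbase (by decide) O73.lb (by norm_num) (by decide +kernel) (by decide +kernel)
    13 (by norm_num) xw (by decide) (by decide +kernel) 2 (by decide) cs (by decide +kernel)
    (by decide +kernel) (GM.collapses_of_kill (fun _ => rfl) 10 (by decide +kernel))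

end Cfsg.Agent.Lib.Helper11.O73S
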