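import Cfsg.Agent.Lib.Helper11.ONEnc

set_option autoImplicit false

namespace Cfsg.Agent.Lib.Helper11.ONEnc

open Cfsg.Agent.Lib.Helper11 Cfsg.Agent.Lib.Helper11.TC

/-- killing the generator `a` kills everything -/
theorem collapses : GM.Collapses ONa.invL ONa.Ls (ONa.coxW ++ ONa.extraW) 2 := by
  intro Γ _ g hinv h31 hrel hs
  have sq : ∀ l, ONa.invL l = l → g l * g l = 1 := by
    intro l hl
    have := hinv l
    rw [hl] at this
    nth_rewrite 1 [this]
    simp
  have s4 := sq 4 rfl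
  have s6 := sq 6 rfl
  have s8 := sq 8 rfl
  have s10 := sq 10 rfl
  have s12 := sq 12 rfl
  have step : ∀ x y : Γ, x = 1 → y * y = 1 → x * (y * (x * (y * (x * y)))) = 1 → y = 1 := by
    intro x y hx hy h
    subst hx
    simp only [one_mul] at h
    rw [hy, mul_one] at h
    exact h
  have r1 := hrel [2, 4, 2, 4, 2, 4] (by decide)
  have r2 := hrel [4, 6, 4, 6, 4, 6] (by decide)
  have r3 := hrel [2, 12, 8, 6, 8, 6, 8, 6, 8, 6] (by decide)
  have r4 := hrel [10, 12, 10, 12, 10, 12] (by decide)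
  have r5 := hrel [8, 10, 8, 10, 8, 10] (by decide)
  have r6 := hrel [2, 12, 1, 1] (by decide)
  have r7 := hrel [4, 6, 8, 0, 4, 6, 8, 0, 4, 6, 8, 0, 4, 6, 8, 0, 4, 6, 8, 0] (by decide)
  simp only [ev_cons, ev_nil, mul_one] at r1 r2 r3 r4 r5 r6 r7
  have h4 : g 4 = 1 := step _ _ hs s4 r1
  have h6 : g 6 = 1 := step _ _ h4 s6 r2
  have h12 : g 12 = 1 := by
    rw [hs, h6] at r3
    simp only [one_mul, mul_one] at r3
    rw [s8, mul_one, s8, mul_one] at r3
    exact r3
  have h10 : g 10 = 1 := by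
    have : g 12 * (g 10 * (g 12 * (g 10 * (g 12 * g 10)))) = 1 := by
      rw [h12] at r4 ⊢
      simpa using r4
    exact step _ _ h12 s10 this
  have h8 : g 8 = 1 := by
    have : g 10 * (g 8 * (g 10 * (g 8 * (g 10 * g 8)))) = 1 := by
      rw [h10] at r5 ⊢
      simpa using r5
    exact step _ _ h10 s8 this
  have h1 : g 1 = (g 0)⁻¹ := hinv 0
  have h0 : g 0 = 1 := by
    rw [hs, h12, h1] at r6
    rw [h4, h6, h8] at r7
    simp only [one_mul] at r6 r7
    have e2 : g 0 * g 0 = 1 := by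
      have := congrArg (fun t => g 0 * (g 0 * t)) r6
      simpa using this.symm
    rw [e2, mul_one, e2, mul_one] at r7
    exact r7
  intro l hl
  simp only [ONa.Ls, List.mem_cons, List.mem_nil_iff, or_false] at hl
  rcases hl with rfl | rfl | rfl | rfl | rfl | rfl | rfl | rfl
  · exact h0
  · rw [h1, h0, inv_one]
  · exact hs
  · exact h4
  · exact h6
  · exact h8
  · exact h10
  · exact h12

end Cfsg.Agent.Lib.Helper11.ONEnc
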