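import Cfsg.Agent.Lib.Helper11.GenMaster
import Cfsg.Prelude.Def_Spor_ON
import Cfsg.Agent.Lib.Helper11.ONaPres

/-! # The presentation of the O'Nan group in terms of letters -/

set_option autoImplicit false

namespace Cfsg.Agent.Lib.Helper11.ONEnc

open Cfsg.Spor Cfsg.Spor.ON Cfsg.Agent.Lib.Helper11 Cfsg.Agent.Lib.Helper11.TC

def code : Gen → ℕ
  | .g => 0 | .a => 2 | .b => 4 | .c => 6 | .d => 8 | .e => 10 | .f => 12

/-- letters to group elements, given the images of the generators -/
def genOf {P : Type*} [Group P] (f : Gen → P) : ℕ → P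
  | 0 => f .g | 1 => (f .g)⁻¹ | 2 => f .a | 4 => f .b | 6 => f .c | 8 => f .d | 10 => f .e
  | 12 => f .f | _ => 1

theorem genOf_code {P : Type*} [Group P] (f : Gen → P) (x : Gen) : genOf f (code x) = f x := by
  cases x <;> rfl

theorem c1 : ∀ r ∈ ONa.coxW, ∃ x ∈ coxNodes edges, ∃ y ∈ coxNodes edges,
    r = Cox.cw edges code x y := by decide +kernel

theorem c2 : ∀ x ∈ coxNodes edges, ∀ y ∈ coxNodes edges,
    x = y ∨ Cox.cw edges code x y ∈ ONa.coxW ∨ Cox.cw' edges code x y ∈ ONa.coxW := by
  decide +kernel

theorem node_iff (x : Gen) : x ∈ coxNodes edges ↔ x ≠ .g := by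
  cases x <;> decide

theorem ex (P : Type) [Group P] (f : Gen → P) (hf : ∀ x, x ≠ Gen.g → f x * f x = 1) :
    extra.map (FreeGroup.lift f) = ONa.extraW.map (ev (genOf f)) := by
  have ha : (f .a)⁻¹ = f .a := inv_eq_of_mul_eq_one_left (hf _ (by decide))
  have hb : (f .b)⁻¹ = f .b := inv_eq_of_mul_eq_one_left (hf _ (by decide))
  have hc : (f .c)⁻¹ = f .c := inv_eq_of_mul_eq_one_left (hf _ (by decide))
  have hd : (f .d)⁻¹ = f .d := inv_eq_of_mul_eq_one_left (hf _ (by decide))
  have he : (f .e)⁻¹ = f .e := inv_eq_of_mul_eq_one_left (hf _ (by decide))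
  have hff : (f .f)⁻¹ = f .f := inv_eq_of_mul_eq_one_left (hf _ (by decide))
  simp only [extra, ONa.extraW, List.map_cons, List.map_nil, map_mul, map_inv, map_pow,
    FreeGroup.lift_apply_of, ev, genOf, List.prod_cons, List.prod_nil, pow_succ, pow_zero,
    one_mul, mul_one, mul_inv_rev, ha, hb, hc, hd, he, hff, mul_assoc]

/-- the letters in the presented group -/
noncomputable def gen : ℕ → ON := genOf (PresentedGroup.of : Gen → ON)

theorem of_sq (x : Gen) (hx : x ≠ .g) : (PresentedGroup.of x : ON) * PresentedGroup.of x = 1 :=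
  Cox.of_sq x ((node_iff x).mpr hx)

theorem genOf_inv {P : Type*} [Group P] (f : Gen → P) (hf : ∀ x, x ≠ Gen.g → f x * f x = 1)
    (l : ℕ) : genOf f (ONa.invL l) = (genOf f l)⁻¹ := by
  have h : ∀ x, x ≠ Gen.g → f x = (f x)⁻¹ := fun x hx => eq_inv_of_mul_eq_one_left (hf x hx)
  match l with
  | 0 => rfl
  | 1 => exact (inv_inv _).symm
  | 2 => exact h _ (by decide)
  | 3 => exact inv_one.symm
  | 4 => exact h _ (by decide)
  | 5 => exact inv_one.symm
  | 6 => exact h _ (by decide)
  | 7 => exact inv_one.symm
  | 8 => exact h _ (by decide)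
  | 9 => exact inv_one.symm
  | 10 => exact h _ (by decide)
  | 11 => exact inv_one.symm
  | 12 => exact h _ (by decide)
  | (k + 13) => exact inv_one.symm

theorem pres : GM.Pres ON gen ONa.invL ONa.Ls (ONa.coxW ++ ONa.extraW) where
  h31 := rfl
  hinv := genOf_inv _ of_sq
  hrel := by
    intro r hr
    rcases List.mem_append.mp hr with hr | hr
    · obtain ⟨x, hx, y, hy, rfl⟩ := c1 r hr
      unfold Cox.cw
      rw [Cox.ev_flatten_replicate]
      simp only [ev_cons, ev_nil, mul_one, gen, genOf_code]
      have hm : (FreeGroup.of x * FreeGroup.of y) ^ coxLabel edges x y ∈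
        coxRelators edges ∪ {r | r ∈ extra} := Or.inl ⟨x, hx, y, hy, rfl⟩
      have := PresentedGroup.one_of_mem hm
      simpa [PresentedGroup.of] using this
    · have h := ex ON PresentedGroup.of of_sq
      have hm : ev gen r ∈ ONa.extraW.map (ev gen) := List.mem_map_of_mem hr
      rw [gen, ← h] at hm
      obtain ⟨r0, hr0, hr1⟩ := List.mem_map.mp hm
      rw [gen, ← hr1, Cox.lift_of_eq_mk]
      exact PresentedGroup.one_of_mem (Or.inr hr0)
  hgen := by
    rw [eq_top_iff, ← PresentedGroup.closure_range_of, Subgroup.closure_le]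
    rintro _ ⟨x, rfl⟩
    apply Subgroup.subset_closure
    exact ⟨code x, by cases x <;> decide, (genOf_code _ x).symm⟩
  lift := by
    intro P _ p hp hw
    have hsq : ∀ x, x ≠ Gen.g → p (code x) * p (code x) = 1 := by
      intro x hx
      have h1 : code x ∈ ONa.Ls := by cases x <;> decide
      have h2 : ONa.invL (code x) = code x := by
        cases x
        · exact absurd rfl hx
        all_goals rfl
      have h3 := hp _ h1
      rw [h2] at h3
      nth_rewrite 1 [h3]
      simp
    have hgp : ∀ l ∈ ONa.Ls, genOf (fun x => p (code x)) l = p l := by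
      intro l hl
      simp only [ONa.Ls, List.mem_cons, List.mem_nil_iff, or_false] at hl
      rcases hl with rfl | rfl | rfl | rfl | rfl | rfl | rfl | rfl
      · rfl
      · exact (hp 0 (by decide)).symm
      all_goals rfl
    have hev : ∀ r : List ℕ, (∀ l ∈ r, l ∈ ONa.Ls) →
        ev (genOf (fun x => p (code x))) r = ev p r := by
      intro r hr
      induction r with
      | nil => rfl
      | cons l r ih =>
        rw [ev_cons, ev_cons, hgp l (hr l List.mem_cons_self),
          ih (fun l' hl' => hr l' (List.mem_cons_of_mem _ hl'))]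
    have hwl : ∀ r ∈ ONa.coxW ++ ONa.extraW, ∀ l ∈ r, l ∈ ONa.Ls := by decide +kernel
    have hlift : ∀ r ∈ coxRelators edges ∪ {r | r ∈ extra},
        FreeGroup.lift (fun x => p (code x)) r = 1 := by
      intro r hr
      rcases hr with ⟨x, hx, y, hy, rfl⟩ | hr
      · simp only [map_pow, map_mul, FreeGroup.lift_apply_of]
        rcases c2 x hx y hy with rfl | h | h
        · simp [coxLabel, hsq x ((node_iff x).mp hx)]
        · have := hw _ (List.mem_append_left _ h)
          unfold Cox.cw at this
          rw [Cox.ev_flatten_replicate] at this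
          simpa only [ev_cons, ev_nil, mul_one] using this
        · have := hw _ (List.mem_append_left _ h)
          unfold Cox.cw' at this
          rw [Cox.ev_flatten_replicate] at this
          simp only [ev_cons, ev_nil, mul_one] at this
          exact Cox.pow_swap _ _ _ this
      · have h := ex P (fun x => p (code x)) hsq
        have hm : FreeGroup.lift (fun x => p (code x)) r ∈
            extra.map (FreeGroup.lift (fun x => p (code x))) := List.mem_map_of_mem hr
        rw [h] at hm
        obtain ⟨w, hw0, hw1⟩ := List.mem_map.mp hm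
        rw [← hw1, hev w (hwl w (List.mem_append_right _ hw0))]
        exact hw _ (List.mem_append_right _ hw0)
    refine ⟨PresentedGroup.toGroup hlift, ?_⟩
    intro l hl
    simp only [ONa.Ls, List.mem_cons, List.mem_nil_iff, or_false] at hl
    rcases hl with rfl | rfl | rfl | rfl | rfl | rfl | rfl | rfl
    · exact PresentedGroup.toGroup.of hlift
    · show (PresentedGroup.toGroup hlift) (PresentedGroup.of Gen.g)⁻¹ = _
      rw [map_inv, PresentedGroup.toGroup.of]
      exact (hp 0 (by decide)).symm
    all_goals exact PresentedGroup.toGroup.of hlift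
  invm := by decide
  l31 := by decide
  wl := by decide +kernel

end Cfsg.Agent.Lib.Helper11.ONEnc
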