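import Cfsg.Agent.Lib.Helper11.ONaLT

set_option autoImplicit false
set_option maxRecDepth 1000000
set_option Elab.async false

namespace Cfsg.Agent.Lib.Helper11.ONa

open Cfsg.Agent.Lib.Helper11

theorem lb0_0 : PR.allR (PR.lbF lP0 lM0 lwT0) 1 40000 = true := by decide +kernel

theorem lb0_1 : PR.allR (PR.lbF lP0 lM0 lwT0) 40001 40000 = true := by decide +kernel

theorem lb0_2 : PR.allR (PR.lbF lP0 lM0 lwT0) 80001 40000 = true := by decide +kernel

theorem lb0_3 : PR.allR (PR.lbF lP0 lM0 lwT0) 120001 2759 = true := by decide +kernel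

theorem lb1_0 : PR.allR (PR.lbF lP1 lM1 lwT1) 1 38810 = true := by decide +kernel

theorem lb1_1 : PR.allR (PR.lbF lP1 lM1 lwT1) 38811 19842 = true := by decide +kernel

theorem lb2_0 : PR.allR (PR.lbF lP2 lM2 lwT2) 1 63 = true := by decide +kernel

end Cfsg.Agent.Lib.Helper11.ONa
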