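import Cfsg.Agent.Lib.Helper11.ONaPT

set_option autoImplicit false
set_option maxRecDepth 1000000
set_option Elab.async false

namespace Cfsg.Agent.Lib.Helper11.ONa

open Cfsg.Agent.Lib.Helper11

theorem rel0_1 : PR.allR (PR.fixF [tb2, tb4, tb2, tb4, tb2, tb4]) 40000 40000 = true := by decide +kernel

theorem rel0_2 : PR.allR (PR.fixF [tb2, tb4, tb2, tb4, tb2, tb4]) 80000 40000 = true := by decide +kernel

theorem rel0_3 : PR.allR (PR.fixF [tb2, tb4, tb2, tb4, tb2, tb4]) 120000 2760 = true := by decide +kernel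

theorem rel1_0 : PR.allR (PR.fixF [tb2, tb6, tb2, tb6]) 0 40000 = true := by decide +kernel

theorem rel1_1 : PR.allR (PR.fixF [tb2, tb6, tb2, tb6]) 40000 40000 = true := by decide +kernel

theorem rel1_2 : PR.allR (PR.fixF [tb2, tb6, tb2, tb6]) 80000 40000 = true := by decide +kernel

theorem rel1_3 : PR.allR (PR.fixF [tb2, tb6, tb2, tb6]) 120000 2760 = true := by decide +kernel

theorem rel2_0 : PR.allR (PR.fixF [tb2, tb8, tb2, tb8]) 0 40000 = true := by decide +kernel

theorem rel2_1 : PR.allR (PR.fixF [tb2, tb8, tb2, tb8]) 40000 40000 = true := by decide +kernel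

theorem rel2_2 : PR.allR (PR.fixF [tb2, tb8, tb2, tb8]) 80000 40000 = true := by decide +kernel

theorem rel2_3 : PR.allR (PR.fixF [tb2, tb8, tb2, tb8]) 120000 2760 = true := by decide +kernel

theorem rel3_0 : PR.allR (PR.fixF [tb2, tb10, tb2, tb10]) 0 40000 = true := by decide +kernel

theorem rel3_1 : PR.allR (PR.fixF [tb2, tb10, tb2, tb10]) 40000 40000 = true := by decide +kernel

theorem rel3_2 : PR.allR (PR.fixF [tb2, tb10, tb2, tb10]) 80000 40000 = true := by decide +kernel

theorem rel3_3 : PR.allR (PR.fixF [tb2, tb10, tb2, tb10]) 120000 2760 = true := by decide +kernel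

theorem rel4_0 : PR.allR (PR.fixF [tb2, tb12, tb2, tb12]) 0 40000 = true := by decide +kernel

theorem rel4_1 : PR.allR (PR.fixF [tb2, tb12, tb2, tb12]) 40000 40000 = true := by decide +kernel

theorem rel4_2 : PR.allR (PR.fixF [tb2, tb12, tb2, tb12]) 80000 40000 = true := by decide +kernel

theorem rel4_3 : PR.allR (PR.fixF [tb2, tb12, tb2, tb12]) 120000 2760 = true := by decide +kernel

theorem rel5_0 : PR.allR (PR.fixF [tb4, tb6, tb4, tb6, tb4, tb6]) 0 40000 = true := by decide +kernel

theorem rel5_1 : PR.allR (PR.fixF [tb4, tb6, tb4, tb6, tb4, tb6]) 40000 40000 = true := by decide +kernel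

theorem rel5_2 : PR.allR (PR.fixF [tb4, tb6, tb4, tb6, tb4, tb6]) 80000 40000 = true := by decide +kernel

end Cfsg.Agent.Lib.Helper11.ONa
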