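import Cfsg.Agent.Lib.Helper11.ONaPT

set_option autoImplicit false
set_option maxRecDepth 1000000
set_option Elab.async false

namespace Cfsg.Agent.Lib.Helper11.ONa

open Cfsg.Agent.Lib.Helper11

theorem rel5_3 : PR.allR (PR.fixF [tb4, tb6, tb4, tb6, tb4, tb6]) 120000 2760 = true := by decide +kernel

theorem rel6_0 : PR.allR (PR.fixF [tb4, tb8, tb4, tb8]) 0 40000 = true := by decide +kernel

theorem rel6_1 : PR.allR (PR.fixF [tb4, tb8, tb4, tb8]) 40000 40000 = true := by decide +kernel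

theorem rel6_2 : PR.allR (PR.fixF [tb4, tb8, tb4, tb8]) 80000 40000 = true := by decide +kernel

theorem rel6_3 : PR.allR (PR.fixF [tb4, tb8, tb4, tb8]) 120000 2760 = true := by decide +kernel

theorem rel7_0 : PR.allR (PR.fixF [tb4, tb10, tb4, tb10]) 0 40000 = true := by decide +kernel

theorem rel7_1 : PR.allR (PR.fixF [tb4, tb10, tb4, tb10]) 40000 40000 = true := by decide +kernel

theorem rel7_2 : PR.allR (PR.fixF [tb4, tb10, tb4, tb10]) 80000 40000 = true := by decide +kernel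

theorem rel7_3 : PR.allR (PR.fixF [tb4, tb10, tb4, tb10]) 120000 2760 = true := by decide +kernel

theorem rel8_0 : PR.allR (PR.fixF [tb4, tb12, tb4, tb12]) 0 40000 = true := by decide +kernel

theorem rel8_1 : PR.allR (PR.fixF [tb4, tb12, tb4, tb12]) 40000 40000 = true := by decide +kernel

theorem rel8_2 : PR.allR (PR.fixF [tb4, tb12, tb4, tb12]) 80000 40000 = true := by decide +kernel

theorem rel8_3 : PR.allR (PR.fixF [tb4, tb12, tb4, tb12]) 120000 2760 = true := by decide +kernel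

theorem rel9_0 : PR.allR (PR.fixF [tb6, tb8, tb6, tb8, tb6, tb8, tb6, tb8, tb6, tb8, tb6, tb8, tb6, tb8, tb6, tb8]) 0 25000 = true := by decide +kernel

theorem rel9_1 : PR.allR (PR.fixF [tb6, tb8, tb6, tb8, tb6, tb8, tb6, tb8, tb6, tb8, tb6, tb8, tb6, tb8, tb6, tb8]) 25000 25000 = true := by decide +kernel

theorem rel9_2 : PR.allR (PR.fixF [tb6, tb8, tb6, tb8, tb6, tb8, tb6, tb8, tb6, tb8, tb6, tb8, tb6, tb8, tb6, tb8]) 50000 25000 = true := by decide +kernel

theorem rel9_3 : PR.allR (PR.fixF [tb6, tb8, tb6, tb8, tb6, tb8, tb6, tb8, tb6, tb8, tb6, tb8, tb6, tb8, tb6, tb8]) 75000 25000 = true := by decide +kernel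

end Cfsg.Agent.Lib.Helper11.ONa
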