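import Cfsg.Agent.Lib.Helper11.ONaPT

set_option autoImplicit false
set_option maxRecDepth 1000000
set_option Elab.async false

namespace Cfsg.Agent.Lib.Helper11.ONa

open Cfsg.Agent.Lib.Helper11

theorem rel9_4 : PR.allR (PR.fixF [tb6, tb8, tb6, tb8, tb6, tb8, tb6, tb8, tb6, tb8, tb6, tb8, tb6, tb8, tb6, tb8]) 100000 22760 = true := by decide +kernel

theorem rel10_0 : PR.allR (PR.fixF [tb6, tb10, tb6, tb10]) 0 40000 = true := by decide +kernel

theorem rel10_1 : PR.allR (PR.fixF [tb6, tb10, tb6, tb10]) 40000 40000 = true := by decide +kernel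

theorem rel10_2 : PR.allR (PR.fixF [tb6, tb10, tb6, tb10]) 80000 40000 = true := by decide +kernel

theorem rel10_3 : PR.allR (PR.fixF [tb6, tb10, tb6, tb10]) 120000 2760 = true := by decide +kernel

theorem rel11_0 : PR.allR (PR.fixF [tb6, tb12, tb6, tb12]) 0 40000 = true := by decide +kernel

theorem rel11_1 : PR.allR (PR.fixF [tb6, tb12, tb6, tb12]) 40000 40000 = true := by decide +kernel

theorem rel11_2 : PR.allR (PR.fixF [tb6, tb12, tb6, tb12]) 80000 40000 = true := by decide +kernel

theorem rel11_3 : PR.allR (PR.fixF [tb6, tb12, tb6, tb12]) 120000 2760 = true := by decide +kernel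

theorem rel12_0 : PR.allR (PR.fixF [tb8, tb10, tb8, tb10, tb8, tb10]) 0 40000 = true := by decide +kernel

theorem rel12_1 : PR.allR (PR.fixF [tb8, tb10, tb8, tb10, tb8, tb10]) 40000 40000 = true := by decide +kernel

theorem rel12_2 : PR.allR (PR.fixF [tb8, tb10, tb8, tb10, tb8, tb10]) 80000 40000 = true := by decide +kernel

theorem rel12_3 : PR.allR (PR.fixF [tb8, tb10, tb8, tb10, tb8, tb10]) 120000 2760 = true := by decide +kernel

theorem rel13_0 : PR.allR (PR.fixF [tb8, tb12, tb8, tb12]) 0 40000 = true := by decide +kernel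

theorem rel13_1 : PR.allR (PR.fixF [tb8, tb12, tb8, tb12]) 40000 40000 = true := by decide +kernel

theorem rel13_2 : PR.allR (PR.fixF [tb8, tb12, tb8, tb12]) 80000 40000 = true := by decide +kernel

theorem rel13_3 : PR.allR (PR.fixF [tb8, tb12, tb8, tb12]) 120000 2760 = true := by decide +kernel

theorem rel14_0 : PR.allR (PR.fixF [tb10, tb12, tb10, tb12, tb10, tb12]) 0 40000 = true := by decide +kernel

theorem rel14_1 : PR.allR (PR.fixF [tb10, tb12, tb10, tb12, tb10, tb12]) 40000 40000 = true := by decide +kernel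

end Cfsg.Agent.Lib.Helper11.ONa
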