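import Cfsg.Agent.Lib.Helper11.ONaPT

set_option autoImplicit false
set_option maxRecDepth 1000000
set_option Elab.async false

namespace Cfsg.Agent.Lib.Helper11.ONa

open Cfsg.Agent.Lib.Helper11

theorem rel14_2 : PR.allR (PR.fixF [tb10, tb12, tb10, tb12, tb10, tb12]) 80000 40000 = true := by decide +kernel

theorem rel14_3 : PR.allR (PR.fixF [tb10, tb12, tb10, tb12, tb10, tb12]) 120000 2760 = true := by decide +kernel

theorem rel15_0 : PR.allR (PR.fixF [tb2, tb12, tb1, tb1]) 0 40000 = true := by decide +kernel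

theorem rel15_1 : PR.allR (PR.fixF [tb2, tb12, tb1, tb1]) 40000 40000 = true := by decide +kernel

theorem rel15_2 : PR.allR (PR.fixF [tb2, tb12, tb1, tb1]) 80000 40000 = true := by decide +kernel

theorem rel15_3 : PR.allR (PR.fixF [tb2, tb12, tb1, tb1]) 120000 2760 = true := by decide +kernel

theorem rel16_0 : PR.allR (PR.fixF [tb2, tb12, tb8, tb6, tb8, tb6, tb8, tb6, tb8, tb6]) 0 40000 = true := by decide +kernel

theorem rel16_1 : PR.allR (PR.fixF [tb2, tb12, tb8, tb6, tb8, tb6, tb8, tb6, tb8, tb6]) 40000 40000 = true := by decide +kernel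

theorem rel16_2 : PR.allR (PR.fixF [tb2, tb12, tb8, tb6, tb8, tb6, tb8, tb6, tb8, tb6]) 80000 40000 = true := by decide +kernel

theorem rel16_3 : PR.allR (PR.fixF [tb2, tb12, tb8, tb6, tb8, tb6, tb8, tb6, tb8, tb6]) 120000 2760 = true := by decide +kernel

theorem rel17_0 : PR.allR (PR.fixF [tb6, tb1, tb8, tb1, tb8, tb6, tb8, tb0, tb8, tb0]) 0 40000 = true := by decide +kernel

theorem rel17_1 : PR.allR (PR.fixF [tb6, tb1, tb8, tb1, tb8, tb6, tb8, tb0, tb8, tb0]) 40000 40000 = true := by decide +kernel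

theorem rel17_2 : PR.allR (PR.fixF [tb6, tb1, tb8, tb1, tb8, tb6, tb8, tb0, tb8, tb0]) 80000 40000 = true := by decide +kernel

end Cfsg.Agent.Lib.Helper11.ONa
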