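import Cfsg.Agent.Lib.Helper11.ONaPT

set_option autoImplicit false
set_option maxRecDepth 1000000
set_option Elab.async false

namespace Cfsg.Agent.Lib.Helper11.ONa

open Cfsg.Agent.Lib.Helper11

theorem rel17_3 : PR.allR (PR.fixF [tb6, tb1, tb8, tb1, tb8, tb6, tb8, tb0, tb8, tb0]) 120000 2760 = true := by decide +kernel

theorem rel18_0 : PR.allR (PR.fixF [tb8, tb1, tb6, tb1, tb6, tb8, tb6, tb0, tb6, tb0]) 0 40000 = true := by decide +kernel

theorem rel18_1 : PR.allR (PR.fixF [tb8, tb1, tb6, tb1, tb6, tb8, tb6, tb0, tb6, tb0]) 40000 40000 = true := by decide +kernel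

theorem rel18_2 : PR.allR (PR.fixF [tb8, tb1, tb6, tb1, tb6, tb8, tb6, tb0, tb6, tb0]) 80000 40000 = true := by decide +kernel

theorem rel18_3 : PR.allR (PR.fixF [tb8, tb1, tb6, tb1, tb6, tb8, tb6, tb0, tb6, tb0]) 120000 2760 = true := by decide +kernel

theorem rel19_0 : PR.allR (PR.fixF [tb4, tb6, tb8, tb0, tb4, tb6, tb8, tb0, tb4, tb6, tb8, tb0, tb4, tb6, tb8, tb0, tb4, tb6, tb8, tb0]) 0 20000 = true := by decide +kernel

theorem rel19_1 : PR.allR (PR.fixF [tb4, tb6, tb8, tb0, tb4, tb6, tb8, tb0, tb4, tb6, tb8, tb0, tb4, tb6, tb8, tb0, tb4, tb6, tb8, tb0]) 20000 20000 = true := by decide +kernel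

theorem rel19_2 : PR.allR (PR.fixF [tb4, tb6, tb8, tb0, tb4, tb6, tb8, tb0, tb4, tb6, tb8, tb0, tb4, tb6, tb8, tb0, tb4, tb6, tb8, tb0]) 40000 20000 = true := by decide +kernel

theorem rel19_3 : PR.allR (PR.fixF [tb4, tb6, tb8, tb0, tb4, tb6, tb8, tb0, tb4, tb6, tb8, tb0, tb4, tb6, tb8, tb0, tb4, tb6, tb8, tb0]) 60000 20000 = true := by decide +kernel

theorem rel19_4 : PR.allR (PR.fixF [tb4, tb6, tb8, tb0, tb4, tb6, tb8, tb0, tb4, tb6, tb8, tb0, tb4, tb6, tb8, tb0, tb4, tb6, tb8, tb0]) 80000 20000 = true := by decide +kernel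

end Cfsg.Agent.Lib.Helper11.ONa
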