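import Cfsg.Agent.Lib.Helper11.ONaPT

set_option autoImplicit false
set_option maxRecDepth 1000000
set_option Elab.async false

namespace Cfsg.Agent.Lib.Helper11.ONa

open Cfsg.Agent.Lib.Helper11

theorem rel19_5 : PR.allR (PR.fixF [tb4, tb6, tb8, tb0, tb4, tb6, tb8, tb0, tb4, tb6, tb8, tb0, tb4, tb6, tb8, tb0, tb4, tb6, tb8, tb0]) 100000 20000 = true := by decide +kernel

theorem rel19_6 : PR.allR (PR.fixF [tb4, tb6, tb8, tb0, tb4, tb6, tb8, tb0, tb4, tb6, tb8, tb0, tb4, tb6, tb8, tb0, tb4, tb6, tb8, tb0]) 120000 2760 = true := by decide +kernel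

theorem rel20_0 : PR.allR (PR.fixF [tb0, tb4, tb6, tb0, tb6, tb4, tb0, tb4, tb6, tb0, tb6]) 0 36363 = true := by decide +kernel

theorem rel20_1 : PR.allR (PR.fixF [tb0, tb4, tb6, tb0, tb6, tb4, tb0, tb4, tb6, tb0, tb6]) 36363 36363 = true := by decide +kernel

theorem rel20_2 : PR.allR (PR.fixF [tb0, tb4, tb6, tb0, tb6, tb4, tb0, tb4, tb6, tb0, tb6]) 72726 36363 = true := by decide +kernel

theorem rel20_3 : PR.allR (PR.fixF [tb0, tb4, tb6, tb0, tb6, tb4, tb0, tb4, tb6, tb0, tb6]) 109089 13671 = true := by decide +kernel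

theorem rel21_0 : PR.allR (PR.fixF [tb0, tb10, tb8, tb0, tb8, tb10, tb0, tb10, tb8, tb0, tb8]) 0 36363 = true := by decide +kernel

theorem rel21_1 : PR.allR (PR.fixF [tb0, tb10, tb8, tb0, tb8, tb10, tb0, tb10, tb8, tb0, tb8]) 36363 36363 = true := by decide +kernel

theorem rel21_2 : PR.allR (PR.fixF [tb0, tb10, tb8, tb0, tb8, tb10, tb0, tb10, tb8, tb0, tb8]) 72726 36363 = true := by decide +kernel

end Cfsg.Agent.Lib.Helper11.ONa
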