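import Cfsg.Agent.Lib.Helper11.PRMain
import Cfsg.Agent.Lib.Helper11.ONaPres
import Cfsg.Agent.Lib.Helper11.ONaPC0
import Cfsg.Agent.Lib.Helper11.ONaPC1
import Cfsg.Agent.Lib.Helper11.ONaPC2
import Cfsg.Agent.Lib.Helper11.ONaPC3
import Cfsg.Agent.Lib.Helper11.ONaPC4
import Cfsg.Agent.Lib.Helper11.ONaPC5
import Cfsg.Agent.Lib.Helper11.ONaPC6
import Cfsg.Agent.Lib.Helper11.ONaPC7

set_option autoImplicit false
set_option maxRecDepth 1000000

namespace Cfsg.Agent.Lib.Helper11.ONa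

open Cfsg.Agent.Lib.Helper11

theorem rng0 : ∀ u, 0 ≤ u → u < 122760 → PR.mapsF [tb0] 0 122759 u = true := by
  have h : ∀ u, 0 ≤ u → u < 0 → PR.mapsF [tb0] 0 122759 u = true := fun u h1 h2 => absurd h2 (by omega)
  have h := PR.allR_chain (PR.mapsF [tb0] 0 122759) 0 0 40000 rng0_0 h
  have h := PR.allR_chain (PR.mapsF [tb0] 0 122759) 0 40000 40000 rng0_1 h
  have h := PR.allR_chain (PR.mapsF [tb0] 0 122759) 0 80000 40000 rng0_2 h
  have h := PR.allR_chain (PR.mapsF [tb0] 0 122759) 0 120000 2760 rng0_3 h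
  exact h

theorem sq0 : ∀ u, 0 ≤ u → u < 122760 → PR.fixF [tb0, tb1] u = true := by
  have h : ∀ u, 0 ≤ u → u < 0 → PR.fixF [tb0, tb1] u = true := fun u h1 h2 => absurd h2 (by omega)
  have h := PR.allR_chain (PR.fixF [tb0, tb1]) 0 0 40000 sq0_0 h
  have h := PR.allR_chain (PR.fixF [tb0, tb1]) 0 40000 40000 sq0_1 h
  have h := PR.allR_chain (PR.fixF [tb0, tb1]) 0 80000 40000 sq0_2 h
  have h := PR.allR_chain (PR.fixF [tb0, tb1]) 0 120000 2760 sq0_3 h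
  exact h

theorem rng1 : ∀ u, 0 ≤ u → u < 122760 → PR.mapsF [tb1] 0 122759 u = true := by
  have h : ∀ u, 0 ≤ u → u < 0 → PR.mapsF [tb1] 0 122759 u = true := fun u h1 h2 => absurd h2 (by omega)
  have h := PR.allR_chain (PR.mapsF [tb1] 0 122759) 0 0 40000 rng1_0 h
  have h := PR.allR_chain (PR.mapsF [tb1] 0 122759) 0 40000 40000 rng1_1 h
  have h := PR.allR_chain (PR.mapsF [tb1] 0 122759) 0 80000 40000 rng1_2 h
  have h := PR.allR_chain (PR.mapsF [tb1] 0 122759) 0 120000 2760 rng1_3 h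
  exact h

theorem sq1 : ∀ u, 0 ≤ u → u < 122760 → PR.fixF [tb1, tb0] u = true := by
  have h : ∀ u, 0 ≤ u → u < 0 → PR.fixF [tb1, tb0] u = true := fun u h1 h2 => absurd h2 (by omega)
  have h := PR.allR_chain (PR.fixF [tb1, tb0]) 0 0 40000 sq1_0 h
  have h := PR.allR_chain (PR.fixF [tb1, tb0]) 0 40000 40000 sq1_1 h
  have h := PR.allR_chain (PR.fixF [tb1, tb0]) 0 80000 40000 sq1_2 h
  have h := PR.allR_chain (PR.fixF [tb1, tb0]) 0 120000 2760 sq1_3 h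
  exact h

theorem rng2 : ∀ u, 0 ≤ u → u < 122760 → PR.mapsF [tb2] 0 122759 u = true := by
  have h : ∀ u, 0 ≤ u → u < 0 → PR.mapsF [tb2] 0 122759 u = true := fun u h1 h2 => absurd h2 (by omega)
  have h := PR.allR_chain (PR.mapsF [tb2] 0 122759) 0 0 40000 rng2_0 h
  have h := PR.allR_chain (PR.mapsF [tb2] 0 122759) 0 40000 40000 rng2_1 h
  have h := PR.allR_chain (PR.mapsF [tb2] 0 122759) 0 80000 40000 rng2_2 h
  have h := PR.allR_chain (PR.mapsF [tb2] 0 122759) 0 120000 2760 rng2_3 h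
  exact h

theorem sq2 : ∀ u, 0 ≤ u → u < 122760 → PR.fixF [tb2, tb2] u = true := by
  have h : ∀ u, 0 ≤ u → u < 0 → PR.fixF [tb2, tb2] u = true := fun u h1 h2 => absurd h2 (by omega)
  have h := PR.allR_chain (PR.fixF [tb2, tb2]) 0 0 40000 sq2_0 h
  have h := PR.allR_chain (PR.fixF [tb2, tb2]) 0 40000 40000 sq2_1 h
  have h := PR.allR_chain (PR.fixF [tb2, tb2]) 0 80000 40000 sq2_2 h
  have h := PR.allR_chain (PR.fixF [tb2, tb2]) 0 120000 2760 sq2_3 h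
  exact h

theorem rng4 : ∀ u, 0 ≤ u → u < 122760 → PR.mapsF [tb4] 0 122759 u = true := by
  have h : ∀ u, 0 ≤ u → u < 0 → PR.mapsF [tb4] 0 122759 u = true := fun u h1 h2 => absurd h2 (by omega)
  have h := PR.allR_chain (PR.mapsF [tb4] 0 122759) 0 0 40000 rng4_0 h
  have h := PR.allR_chain (PR.mapsF [tb4] 0 122759) 0 40000 40000 rng4_1 h
  have h := PR.allR_chain (PR.mapsF [tb4] 0 122759) 0 80000 40000 rng4_2 h
  have h := PR.allR_chain (PR.mapsF [tb4] 0 122759) 0 120000 2760 rng4_3 h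
  exact h

theorem sq4 : ∀ u, 0 ≤ u → u < 122760 → PR.fixF [tb4, tb4] u = true := by
  have h : ∀ u, 0 ≤ u → u < 0 → PR.fixF [tb4, tb4] u = true := fun u h1 h2 => absurd h2 (by omega)
  have h := PR.allR_chain (PR.fixF [tb4, tb4]) 0 0 40000 sq4_0 h
  have h := PR.allR_chain (PR.fixF [tb4, tb4]) 0 40000 40000 sq4_1 h
  have h := PR.allR_chain (PR.fixF [tb4, tb4]) 0 80000 40000 sq4_2 h
  have h := PR.allR_chain (PR.fixF [tb4, tb4]) 0 120000 2760 sq4_3 h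
  exact h

theorem rng6 : ∀ u, 0 ≤ u → u < 122760 → PR.mapsF [tb6] 0 122759 u = true := by
  have h : ∀ u, 0 ≤ u → u < 0 → PR.mapsF [tb6] 0 122759 u = true := fun u h1 h2 => absurd h2 (by omega)
  have h := PR.allR_chain (PR.mapsF [tb6] 0 122759) 0 0 40000 rng6_0 h
  have h := PR.allR_chain (PR.mapsF [tb6] 0 122759) 0 40000 40000 rng6_1 h
  have h := PR.allR_chain (PR.mapsF [tb6] 0 122759) 0 80000 40000 rng6_2 h
  have h := PR.allR_chain (PR.mapsF [tb6] 0 122759) 0 120000 2760 rng6_3 h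
  exact h

theorem sq6 : ∀ u, 0 ≤ u → u < 122760 → PR.fixF [tb6, tb6] u = true := by
  have h : ∀ u, 0 ≤ u → u < 0 → PR.fixF [tb6, tb6] u = true := fun u h1 h2 => absurd h2 (by omega)
  have h := PR.allR_chain (PR.fixF [tb6, tb6]) 0 0 40000 sq6_0 h
  have h := PR.allR_chain (PR.fixF [tb6, tb6]) 0 40000 40000 sq6_1 h
  have h := PR.allR_chain (PR.fixF [tb6, tb6]) 0 80000 40000 sq6_2 h
  have h := PR.allR_chain (PR.fixF [tb6, tb6]) 0 120000 2760 sq6_3 h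
  exact h

theorem rng8 : ∀ u, 0 ≤ u → u < 122760 → PR.mapsF [tb8] 0 122759 u = true := by
  have h : ∀ u, 0 ≤ u → u < 0 → PR.mapsF [tb8] 0 122759 u = true := fun u h1 h2 => absurd h2 (by omega)
  have h := PR.allR_chain (PR.mapsF [tb8] 0 122759) 0 0 40000 rng8_0 h
  have h := PR.allR_chain (PR.mapsF [tb8] 0 122759) 0 40000 40000 rng8_1 h
  have h := PR.allR_chain (PR.mapsF [tb8] 0 122759) 0 80000 40000 rng8_2 h
  have h := PR.allR_chain (PR.mapsF [tb8] 0 122759) 0 120000 2760 rng8_3 h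
  exact h

theorem sq8 : ∀ u, 0 ≤ u → u < 122760 → PR.fixF [tb8, tb8] u = true := by
  have h : ∀ u, 0 ≤ u → u < 0 → PR.fixF [tb8, tb8] u = true := fun u h1 h2 => absurd h2 (by omega)
  have h := PR.allR_chain (PR.fixF [tb8, tb8]) 0 0 40000 sq8_0 h
  have h := PR.allR_chain (PR.fixF [tb8, tb8]) 0 40000 40000 sq8_1 h
  have h := PR.allR_chain (PR.fixF [tb8, tb8]) 0 80000 40000 sq8_2 h
  have h := PR.allR_chain (PR.fixF [tb8, tb8]) 0 120000 2760 sq8_3 h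
  exact h

theorem rng10 : ∀ u, 0 ≤ u → u < 122760 → PR.mapsF [tb10] 0 122759 u = true := by
  have h : ∀ u, 0 ≤ u → u < 0 → PR.mapsF [tb10] 0 122759 u = true := fun u h1 h2 => absurd h2 (by omega)
  have h := PR.allR_chain (PR.mapsF [tb10] 0 122759) 0 0 40000 rng10_0 h
  have h := PR.allR_chain (PR.mapsF [tb10] 0 122759) 0 40000 40000 rng10_1 h
  have h := PR.allR_chain (PR.mapsF [tb10] 0 122759) 0 80000 40000 rng10_2 h
  have h := PR.allR_chain (PR.mapsF [tb10] 0 122759) 0 120000 2760 rng10_3 h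
  exact h

theorem sq10 : ∀ u, 0 ≤ u → u < 122760 → PR.fixF [tb10, tb10] u = true := by
  have h : ∀ u, 0 ≤ u → u < 0 → PR.fixF [tb10, tb10] u = true := fun u h1 h2 => absurd h2 (by omega)
  have h := PR.allR_chain (PR.fixF [tb10, tb10]) 0 0 40000 sq10_0 h
  have h := PR.allR_chain (PR.fixF [tb10, tb10]) 0 40000 40000 sq10_1 h
  have h := PR.allR_chain (PR.fixF [tb10, tb10]) 0 80000 40000 sq10_2 h
  have h := PR.allR_chain (PR.fixF [tb10, tb10]) 0 120000 2760 sq10_3 h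
  exact h

theorem rng12 : ∀ u, 0 ≤ u → u < 122760 → PR.mapsF [tb12] 0 122759 u = true := by
  have h : ∀ u, 0 ≤ u → u < 0 → PR.mapsF [tb12] 0 122759 u = true := fun u h1 h2 => absurd h2 (by omega)
  have h := PR.allR_chain (PR.mapsF [tb12] 0 122759) 0 0 40000 rng12_0 h
  have h := PR.allR_chain (PR.mapsF [tb12] 0 122759) 0 40000 40000 rng12_1 h
  have h := PR.allR_chain (PR.mapsF [tb12] 0 122759) 0 80000 40000 rng12_2 h
  have h := PR.allR_chain (PR.mapsF [tb12] 0 122759) 0 120000 2760 rng12_3 h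
  exact h

theorem sq12 : ∀ u, 0 ≤ u → u < 122760 → PR.fixF [tb12, tb12] u = true := by
  have h : ∀ u, 0 ≤ u → u < 0 → PR.fixF [tb12, tb12] u = true := fun u h1 h2 => absurd h2 (by omega)
  have h := PR.allR_chain (PR.fixF [tb12, tb12]) 0 0 40000 sq12_0 h
  have h := PR.allR_chain (PR.fixF [tb12, tb12]) 0 40000 40000 sq12_1 h
  have h := PR.allR_chain (PR.fixF [tb12, tb12]) 0 80000 40000 sq12_2 h
  have h := PR.allR_chain (PR.fixF [tb12, tb12]) 0 120000 2760 sq12_3 h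
  exact h

theorem rel0 : ∀ u, 0 ≤ u → u < 122760 → PR.fixF [tb2, tb4, tb2, tb4, tb2, tb4] u = true := by
  have h : ∀ u, 0 ≤ u → u < 0 → PR.fixF [tb2, tb4, tb2, tb4, tb2, tb4] u = true := fun u h1 h2 => absurd h2 (by omega)
  have h := PR.allR_chain (PR.fixF [tb2, tb4, tb2, tb4, tb2, tb4]) 0 0 40000 rel0_0 h
  have h := PR.allR_chain (PR.fixF [tb2, tb4, tb2, tb4, tb2, tb4]) 0 40000 40000 rel0_1 h
  have h := PR.allR_chain (PR.fixF [tb2, tb4, tb2, tb4, tb2, tb4]) 0 80000 40000 rel0_2 h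
  have h := PR.allR_chain (PR.fixF [tb2, tb4, tb2, tb4, tb2, tb4]) 0 120000 2760 rel0_3 h
  exact h

theorem rel1 : ∀ u, 0 ≤ u → u < 122760 → PR.fixF [tb2, tb6, tb2, tb6] u = true := by
  have h : ∀ u, 0 ≤ u → u < 0 → PR.fixF [tb2, tb6, tb2, tb6] u = true := fun u h1 h2 => absurd h2 (by omega)
  have h := PR.allR_chain (PR.fixF [tb2, tb6, tb2, tb6]) 0 0 40000 rel1_0 h
  have h := PR.allR_chain (PR.fixF [tb2, tb6, tb2, tb6]) 0 40000 40000 rel1_1 h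
  have h := PR.allR_chain (PR.fixF [tb2, tb6, tb2, tb6]) 0 80000 40000 rel1_2 h
  have h := PR.allR_chain (PR.fixF [tb2, tb6, tb2, tb6]) 0 120000 2760 rel1_3 h
  exact h

theorem rel2 : ∀ u, 0 ≤ u → u < 122760 → PR.fixF [tb2, tb8, tb2, tb8] u = true := by
  have h : ∀ u, 0 ≤ u → u < 0 → PR.fixF [tb2, tb8, tb2, tb8] u = true := fun u h1 h2 => absurd h2 (by omega)
  have h := PR.allR_chain (PR.fixF [tb2, tb8, tb2, tb8]) 0 0 40000 rel2_0 h
  have h := PR.allR_chain (PR.fixF [tb2, tb8, tb2, tb8]) 0 40000 40000 rel2_1 h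
  have h := PR.allR_chain (PR.fixF [tb2, tb8, tb2, tb8]) 0 80000 40000 rel2_2 h
  have h := PR.allR_chain (PR.fixF [tb2, tb8, tb2, tb8]) 0 120000 2760 rel2_3 h
  exact h

theorem rel3 : ∀ u, 0 ≤ u → u < 122760 → PR.fixF [tb2, tb10, tb2, tb10] u = true := by
  have h : ∀ u, 0 ≤ u → u < 0 → PR.fixF [tb2, tb10, tb2, tb10] u = true := fun u h1 h2 => absurd h2 (by omega)
  have h := PR.allR_chain (PR.fixF [tb2, tb10, tb2, tb10]) 0 0 40000 rel3_0 h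
  have h := PR.allR_chain (PR.fixF [tb2, tb10, tb2, tb10]) 0 40000 40000 rel3_1 h
  have h := PR.allR_chain (PR.fixF [tb2, tb10, tb2, tb10]) 0 80000 40000 rel3_2 h
  have h := PR.allR_chain (PR.fixF [tb2, tb10, tb2, tb10]) 0 120000 2760 rel3_3 h
  exact h

theorem rel4 : ∀ u, 0 ≤ u → u < 122760 → PR.fixF [tb2, tb12, tb2, tb12] u = true := by
  have h : ∀ u, 0 ≤ u → u < 0 → PR.fixF [tb2, tb12, tb2, tb12] u = true := fun u h1 h2 => absurd h2 (by omega)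
  have h := PR.allR_chain (PR.fixF [tb2, tb12, tb2, tb12]) 0 0 40000 rel4_0 h
  have h := PR.allR_chain (PR.fixF [tb2, tb12, tb2, tb12]) 0 40000 40000 rel4_1 h
  have h := PR.allR_chain (PR.fixF [tb2, tb12, tb2, tb12]) 0 80000 40000 rel4_2 h
  have h := PR.allR_chain (PR.fixF [tb2, tb12, tb2, tb12]) 0 120000 2760 rel4_3 h
  exact h

theorem rel5 : ∀ u, 0 ≤ u → u < 122760 → PR.fixF [tb4, tb6, tb4, tb6, tb4, tb6] u = true := by
  have h : ∀ u, 0 ≤ u → u < 0 → PR.fixF [tb4, tb6, tb4, tb6, tb4, tb6] u = true := fun u h1 h2 => absurd h2 (by omega)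
  have h := PR.allR_chain (PR.fixF [tb4, tb6, tb4, tb6, tb4, tb6]) 0 0 40000 rel5_0 h
  have h := PR.allR_chain (PR.fixF [tb4, tb6, tb4, tb6, tb4, tb6]) 0 40000 40000 rel5_1 h
  have h := PR.allR_chain (PR.fixF [tb4, tb6, tb4, tb6, tb4, tb6]) 0 80000 40000 rel5_2 h
  have h := PR.allR_chain (PR.fixF [tb4, tb6, tb4, tb6, tb4, tb6]) 0 120000 2760 rel5_3 h
  exact h

theorem rel6 : ∀ u, 0 ≤ u → u < 122760 → PR.fixF [tb4, tb8, tb4, tb8] u = true := by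
  have h : ∀ u, 0 ≤ u → u < 0 → PR.fixF [tb4, tb8, tb4, tb8] u = true := fun u h1 h2 => absurd h2 (by omega)
  have h := PR.allR_chain (PR.fixF [tb4, tb8, tb4, tb8]) 0 0 40000 rel6_0 h
  have h := PR.allR_chain (PR.fixF [tb4, tb8, tb4, tb8]) 0 40000 40000 rel6_1 h
  have h := PR.allR_chain (PR.fixF [tb4, tb8, tb4, tb8]) 0 80000 40000 rel6_2 h
  have h := PR.allR_chain (PR.fixF [tb4, tb8, tb4, tb8]) 0 120000 2760 rel6_3 h
  exact h

theorem rel7 : ∀ u, 0 ≤ u → u < 122760 → PR.fixF [tb4, tb10, tb4, tb10] u = true := by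
  have h : ∀ u, 0 ≤ u → u < 0 → PR.fixF [tb4, tb10, tb4, tb10] u = true := fun u h1 h2 => absurd h2 (by omega)
  have h := PR.allR_chain (PR.fixF [tb4, tb10, tb4, tb10]) 0 0 40000 rel7_0 h
  have h := PR.allR_chain (PR.fixF [tb4, tb10, tb4, tb10]) 0 40000 40000 rel7_1 h
  have h := PR.allR_chain (PR.fixF [tb4, tb10, tb4, tb10]) 0 80000 40000 rel7_2 h
  have h := PR.allR_chain (PR.fixF [tb4, tb10, tb4, tb10]) 0 120000 2760 rel7_3 h
  exact h

theorem rel8 : ∀ u, 0 ≤ u → u < 122760 → PR.fixF [tb4, tb12, tb4, tb12] u = true := by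
  have h : ∀ u, 0 ≤ u → u < 0 → PR.fixF [tb4, tb12, tb4, tb12] u = true := fun u h1 h2 => absurd h2 (by omega)
  have h := PR.allR_chain (PR.fixF [tb4, tb12, tb4, tb12]) 0 0 40000 rel8_0 h
  have h := PR.allR_chain (PR.fixF [tb4, tb12, tb4, tb12]) 0 40000 40000 rel8_1 h
  have h := PR.allR_chain (PR.fixF [tb4, tb12, tb4, tb12]) 0 80000 40000 rel8_2 h
  have h := PR.allR_chain (PR.fixF [tb4, tb12, tb4, tb12]) 0 120000 2760 rel8_3 h
  exact h

theorem rel9 : ∀ u, 0 ≤ u → u < 122760 → PR.fixF [tb6, tb8, tb6, tb8, tb6, tb8, tb6, tb8, tb6, tb8, tb6, tb8, tb6, tb8, tb6, tb8] u = true := by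
  have h : ∀ u, 0 ≤ u → u < 0 → PR.fixF [tb6, tb8, tb6, tb8, tb6, tb8, tb6, tb8, tb6, tb8, tb6, tb8, tb6, tb8, tb6, tb8] u = true := fun u h1 h2 => absurd h2 (by omega)
  have h := PR.allR_chain (PR.fixF [tb6, tb8, tb6, tb8, tb6, tb8, tb6, tb8, tb6, tb8, tb6, tb8, tb6, tb8, tb6, tb8]) 0 0 25000 rel9_0 h
  have h := PR.allR_chain (PR.fixF [tb6, tb8, tb6, tb8, tb6, tb8, tb6, tb8, tb6, tb8, tb6, tb8, tb6, tb8, tb6, tb8]) 0 25000 25000 rel9_1 h
  have h := PR.allR_chain (PR.fixF [tb6, tb8, tb6, tb8, tb6, tb8, tb6, tb8, tb6, tb8, tb6, tb8, tb6, tb8, tb6, tb8]) 0 50000 25000 rel9_2 h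
  have h := PR.allR_chain (PR.fixF [tb6, tb8, tb6, tb8, tb6, tb8, tb6, tb8, tb6, tb8, tb6, tb8, tb6, tb8, tb6, tb8]) 0 75000 25000 rel9_3 h
  have h := PR.allR_chain (PR.fixF [tb6, tb8, tb6, tb8, tb6, tb8, tb6, tb8, tb6, tb8, tb6, tb8, tb6, tb8, tb6, tb8]) 0 100000 22760 rel9_4 h
  exact h

theorem rel10 : ∀ u, 0 ≤ u → u < 122760 → PR.fixF [tb6, tb10, tb6, tb10] u = true := by
  have h : ∀ u, 0 ≤ u → u < 0 → PR.fixF [tb6, tb10, tb6, tb10] u = true := fun u h1 h2 => absurd h2 (by omega)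
  have h := PR.allR_chain (PR.fixF [tb6, tb10, tb6, tb10]) 0 0 40000 rel10_0 h
  have h := PR.allR_chain (PR.fixF [tb6, tb10, tb6, tb10]) 0 40000 40000 rel10_1 h
  have h := PR.allR_chain (PR.fixF [tb6, tb10, tb6, tb10]) 0 80000 40000 rel10_2 h
  have h := PR.allR_chain (PR.fixF [tb6, tb10, tb6, tb10]) 0 120000 2760 rel10_3 h
  exact h

theorem rel11 : ∀ u, 0 ≤ u → u < 122760 → PR.fixF [tb6, tb12, tb6, tb12] u = true := by
  have h : ∀ u, 0 ≤ u → u < 0 → PR.fixF [tb6, tb12, tb6, tb12] u = true := fun u h1 h2 => absurd h2 (by omega)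
  have h := PR.allR_chain (PR.fixF [tb6, tb12, tb6, tb12]) 0 0 40000 rel11_0 h
  have h := PR.allR_chain (PR.fixF [tb6, tb12, tb6, tb12]) 0 40000 40000 rel11_1 h
  have h := PR.allR_chain (PR.fixF [tb6, tb12, tb6, tb12]) 0 80000 40000 rel11_2 h
  have h := PR.allR_chain (PR.fixF [tb6, tb12, tb6, tb12]) 0 120000 2760 rel11_3 h
  exact h

theorem rel12 : ∀ u, 0 ≤ u → u < 122760 → PR.fixF [tb8, tb10, tb8, tb10, tb8, tb10] u = true := by
  have h : ∀ u, 0 ≤ u → u < 0 → PR.fixF [tb8, tb10, tb8, tb10, tb8, tb10] u = true := fun u h1 h2 => absurd h2 (by omega)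
  have h := PR.allR_chain (PR.fixF [tb8, tb10, tb8, tb10, tb8, tb10]) 0 0 40000 rel12_0 h
  have h := PR.allR_chain (PR.fixF [tb8, tb10, tb8, tb10, tb8, tb10]) 0 40000 40000 rel12_1 h
  have h := PR.allR_chain (PR.fixF [tb8, tb10, tb8, tb10, tb8, tb10]) 0 80000 40000 rel12_2 h
  have h := PR.allR_chain (PR.fixF [tb8, tb10, tb8, tb10, tb8, tb10]) 0 120000 2760 rel12_3 h
  exact h

theorem rel13 : ∀ u, 0 ≤ u → u < 122760 → PR.fixF [tb8, tb12, tb8, tb12] u = true := by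
  have h : ∀ u, 0 ≤ u → u < 0 → PR.fixF [tb8, tb12, tb8, tb12] u = true := fun u h1 h2 => absurd h2 (by omega)
  have h := PR.allR_chain (PR.fixF [tb8, tb12, tb8, tb12]) 0 0 40000 rel13_0 h
  have h := PR.allR_chain (PR.fixF [tb8, tb12, tb8, tb12]) 0 40000 40000 rel13_1 h
  have h := PR.allR_chain (PR.fixF [tb8, tb12, tb8, tb12]) 0 80000 40000 rel13_2 h
  have h := PR.allR_chain (PR.fixF [tb8, tb12, tb8, tb12]) 0 120000 2760 rel13_3 h
  exact h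

theorem rel14 : ∀ u, 0 ≤ u → u < 122760 → PR.fixF [tb10, tb12, tb10, tb12, tb10, tb12] u = true := by
  have h : ∀ u, 0 ≤ u → u < 0 → PR.fixF [tb10, tb12, tb10, tb12, tb10, tb12] u = true := fun u h1 h2 => absurd h2 (by omega)
  have h := PR.allR_chain (PR.fixF [tb10, tb12, tb10, tb12, tb10, tb12]) 0 0 40000 rel14_0 h
  have h := PR.allR_chain (PR.fixF [tb10, tb12, tb10, tb12, tb10, tb12]) 0 40000 40000 rel14_1 h
  have h := PR.allR_chain (PR.fixF [tb10, tb12, tb10, tb12, tb10, tb12]) 0 80000 40000 rel14_2 h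
  have h := PR.allR_chain (PR.fixF [tb10, tb12, tb10, tb12, tb10, tb12]) 0 120000 2760 rel14_3 h
  exact h

theorem rel15 : ∀ u, 0 ≤ u → u < 122760 → PR.fixF [tb2, tb12, tb1, tb1] u = true := by
  have h : ∀ u, 0 ≤ u → u < 0 → PR.fixF [tb2, tb12, tb1, tb1] u = true := fun u h1 h2 => absurd h2 (by omega)
  have h := PR.allR_chain (PR.fixF [tb2, tb12, tb1, tb1]) 0 0 40000 rel15_0 h
  have h := PR.allR_chain (PR.fixF [tb2, tb12, tb1, tb1]) 0 40000 40000 rel15_1 h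
  have h := PR.allR_chain (PR.fixF [tb2, tb12, tb1, tb1]) 0 80000 40000 rel15_2 h
  have h := PR.allR_chain (PR.fixF [tb2, tb12, tb1, tb1]) 0 120000 2760 rel15_3 h
  exact h

theorem rel16 : ∀ u, 0 ≤ u → u < 122760 → PR.fixF [tb2, tb12, tb8, tb6, tb8, tb6, tb8, tb6, tb8, tb6] u = true := by
  have h : ∀ u, 0 ≤ u → u < 0 → PR.fixF [tb2, tb12, tb8, tb6, tb8, tb6, tb8, tb6, tb8, tb6] u = true := fun u h1 h2 => absurd h2 (by omega)
  have h := PR.allR_chain (PR.fixF [tb2, tb12, tb8, tb6, tb8, tb6, tb8, tb6, tb8, tb6]) 0 0 40000 rel16_0 h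
  have h := PR.allR_chain (PR.fixF [tb2, tb12, tb8, tb6, tb8, tb6, tb8, tb6, tb8, tb6]) 0 40000 40000 rel16_1 h
  have h := PR.allR_chain (PR.fixF [tb2, tb12, tb8, tb6, tb8, tb6, tb8, tb6, tb8, tb6]) 0 80000 40000 rel16_2 h
  have h := PR.allR_chain (PR.fixF [tb2, tb12, tb8, tb6, tb8, tb6, tb8, tb6, tb8, tb6]) 0 120000 2760 rel16_3 h
  exact h

theorem rel17 : ∀ u, 0 ≤ u → u < 122760 → PR.fixF [tb6, tb1, tb8, tb1, tb8, tb6, tb8, tb0, tb8, tb0] u = true := by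
  have h : ∀ u, 0 ≤ u → u < 0 → PR.fixF [tb6, tb1, tb8, tb1, tb8, tb6, tb8, tb0, tb8, tb0] u = true := fun u h1 h2 => absurd h2 (by omega)
  have h := PR.allR_chain (PR.fixF [tb6, tb1, tb8, tb1, tb8, tb6, tb8, tb0, tb8, tb0]) 0 0 40000 rel17_0 h
  have h := PR.allR_chain (PR.fixF [tb6, tb1, tb8, tb1, tb8, tb6, tb8, tb0, tb8, tb0]) 0 40000 40000 rel17_1 h
  have h := PR.allR_chain (PR.fixF [tb6, tb1, tb8, tb1, tb8, tb6, tb8, tb0, tb8, tb0]) 0 80000 40000 rel17_2 h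
  have h := PR.allR_chain (PR.fixF [tb6, tb1, tb8, tb1, tb8, tb6, tb8, tb0, tb8, tb0]) 0 120000 2760 rel17_3 h
  exact h

theorem rel18 : ∀ u, 0 ≤ u → u < 122760 → PR.fixF [tb8, tb1, tb6, tb1, tb6, tb8, tb6, tb0, tb6, tb0] u = true := by
  have h : ∀ u, 0 ≤ u → u < 0 → PR.fixF [tb8, tb1, tb6, tb1, tb6, tb8, tb6, tb0, tb6, tb0] u = true := fun u h1 h2 => absurd h2 (by omega)
  have h := PR.allR_chain (PR.fixF [tb8, tb1, tb6, tb1, tb6, tb8, tb6, tb0, tb6, tb0]) 0 0 40000 rel18_0 h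
  have h := PR.allR_chain (PR.fixF [tb8, tb1, tb6, tb1, tb6, tb8, tb6, tb0, tb6, tb0]) 0 40000 40000 rel18_1 h
  have h := PR.allR_chain (PR.fixF [tb8, tb1, tb6, tb1, tb6, tb8, tb6, tb0, tb6, tb0]) 0 80000 40000 rel18_2 h
  have h := PR.allR_chain (PR.fixF [tb8, tb1, tb6, tb1, tb6, tb8, tb6, tb0, tb6, tb0]) 0 120000 2760 rel18_3 h
  exact h

theorem rel19 : ∀ u, 0 ≤ u → u < 122760 → PR.fixF [tb4, tb6, tb8, tb0, tb4, tb6, tb8, tb0, tb4, tb6, tb8, tb0, tb4, tb6, tb8, tb0, tb4, tb6, tb8, tb0] u = true := by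
  have h : ∀ u, 0 ≤ u → u < 0 → PR.fixF [tb4, tb6, tb8, tb0, tb4, tb6, tb8, tb0, tb4, tb6, tb8, tb0, tb4, tb6, tb8, tb0, tb4, tb6, tb8, tb0] u = true := fun u h1 h2 => absurd h2 (by omega)
  have h := PR.allR_chain (PR.fixF [tb4, tb6, tb8, tb0, tb4, tb6, tb8, tb0, tb4, tb6, tb8, tb0, tb4, tb6, tb8, tb0, tb4, tb6, tb8, tb0]) 0 0 20000 rel19_0 h
  have h := PR.allR_chain (PR.fixF [tb4, tb6, tb8, tb0, tb4, tb6, tb8, tb0, tb4, tb6, tb8, tb0, tb4, tb6, tb8, tb0, tb4, tb6, tb8, tb0]) 0 20000 20000 rel19_1 h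
  have h := PR.allR_chain (PR.fixF [tb4, tb6, tb8, tb0, tb4, tb6, tb8, tb0, tb4, tb6, tb8, tb0, tb4, tb6, tb8, tb0, tb4, tb6, tb8, tb0]) 0 40000 20000 rel19_2 h
  have h := PR.allR_chain (PR.fixF [tb4, tb6, tb8, tb0, tb4, tb6, tb8, tb0, tb4, tb6, tb8, tb0, tb4, tb6, tb8, tb0, tb4, tb6, tb8, tb0]) 0 60000 20000 rel19_3 h
  have h := PR.allR_chain (PR.fixF [tb4, tb6, tb8, tb0, tb4, tb6, tb8, tb0, tb4, tb6, tb8, tb0, tb4, tb6, tb8, tb0, tb4, tb6, tb8, tb0]) 0 80000 20000 rel19_4 h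
  have h := PR.allR_chain (PR.fixF [tb4, tb6, tb8, tb0, tb4, tb6, tb8, tb0, tb4, tb6, tb8, tb0, tb4, tb6, tb8, tb0, tb4, tb6, tb8, tb0]) 0 100000 20000 rel19_5 h
  have h := PR.allR_chain (PR.fixF [tb4, tb6, tb8, tb0, tb4, tb6, tb8, tb0, tb4, tb6, tb8, tb0, tb4, tb6, tb8, tb0, tb4, tb6, tb8, tb0]) 0 120000 2760 rel19_6 h
  exact h

theorem rel20 : ∀ u, 0 ≤ u → u < 122760 → PR.fixF [tb0, tb4, tb6, tb0, tb6, tb4, tb0, tb4, tb6, tb0, tb6] u = true := by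
  have h : ∀ u, 0 ≤ u → u < 0 → PR.fixF [tb0, tb4, tb6, tb0, tb6, tb4, tb0, tb4, tb6, tb0, tb6] u = true := fun u h1 h2 => absurd h2 (by omega)
  have h := PR.allR_chain (PR.fixF [tb0, tb4, tb6, tb0, tb6, tb4, tb0, tb4, tb6, tb0, tb6]) 0 0 36363 rel20_0 h
  have h := PR.allR_chain (PR.fixF [tb0, tb4, tb6, tb0, tb6, tb4, tb0, tb4, tb6, tb0, tb6]) 0 36363 36363 rel20_1 h
  have h := PR.allR_chain (PR.fixF [tb0, tb4, tb6, tb0, tb6, tb4, tb0, tb4, tb6, tb0, tb6]) 0 72726 36363 rel20_2 h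
  have h := PR.allR_chain (PR.fixF [tb0, tb4, tb6, tb0, tb6, tb4, tb0, tb4, tb6, tb0, tb6]) 0 109089 13671 rel20_3 h
  exact h

theorem rel21 : ∀ u, 0 ≤ u → u < 122760 → PR.fixF [tb0, tb10, tb8, tb0, tb8, tb10, tb0, tb10, tb8, tb0, tb8] u = true := by
  have h : ∀ u, 0 ≤ u → u < 0 → PR.fixF [tb0, tb10, tb8, tb0, tb8, tb10, tb0, tb10, tb8, tb0, tb8] u = true := fun u h1 h2 => absurd h2 (by omega)
  have h := PR.allR_chain (PR.fixF [tb0, tb10, tb8, tb0, tb8, tb10, tb0, tb10, tb8, tb0, tb8]) 0 0 36363 rel21_0 h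
  have h := PR.allR_chain (PR.fixF [tb0, tb10, tb8, tb0, tb8, tb10, tb0, tb10, tb8, tb0, tb8]) 0 36363 36363 rel21_1 h
  have h := PR.allR_chain (PR.fixF [tb0, tb10, tb8, tb0, tb8, tb10, tb0, tb10, tb8, tb0, tb8]) 0 72726 36363 rel21_2 h
  have h := PR.allR_chain (PR.fixF [tb0, tb10, tb8, tb0, tb8, tb10, tb0, tb10, tb8, tb0, tb8]) 0 109089 13671 rel21_3 h
  exact h

theorem mp0_0 : ∀ u, 0 ≤ u → u < 1 → PR.mapsF [tb2] 0 0 u = true := by
  have h : ∀ u, 0 ≤ u → u < 0 → PR.mapsF [tb2] 0 0 u = true := fun u h1 h2 => absurd h2 (by omega)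
  have h := PR.allR_chain (PR.mapsF [tb2] 0 0) 0 0 1 mp0_0_0 h
  exact h

theorem mp0_1 : ∀ u, 0 ≤ u → u < 1 → PR.mapsF [tb4] 0 0 u = true := by
  have h : ∀ u, 0 ≤ u → u < 0 → PR.mapsF [tb4] 0 0 u = true := fun u h1 h2 => absurd h2 (by omega)
  have h := PR.allR_chain (PR.mapsF [tb4] 0 0) 0 0 1 mp0_1_0 h
  exact h

theorem mp0_2 : ∀ u, 0 ≤ u → u < 1 → PR.mapsF [tb6] 0 0 u = true := by
  have h : ∀ u, 0 ≤ u → u < 0 → PR.mapsF [tb6] 0 0 u = true := fun u h1 h2 => absurd h2 (by omega)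
  have h := PR.allR_chain (PR.mapsF [tb6] 0 0) 0 0 1 mp0_2_0 h
  exact h

theorem mp0_3 : ∀ u, 0 ≤ u → u < 1 → PR.mapsF [tb8] 0 0 u = true := by
  have h : ∀ u, 0 ≤ u → u < 0 → PR.mapsF [tb8] 0 0 u = true := fun u h1 h2 => absurd h2 (by omega)
  have h := PR.allR_chain (PR.mapsF [tb8] 0 0) 0 0 1 mp0_3_0 h
  exact h

theorem mp0_4 : ∀ u, 0 ≤ u → u < 1 → PR.mapsF [tb10] 0 0 u = true := by
  have h : ∀ u, 0 ≤ u → u < 0 → PR.mapsF [tb10] 0 0 u = true := fun u h1 h2 => absurd h2 (by omega)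
  have h := PR.allR_chain (PR.mapsF [tb10] 0 0) 0 0 1 mp0_4_0 h
  exact h

theorem mp0_5 : ∀ u, 0 ≤ u → u < 1 → PR.mapsF [tb12] 0 0 u = true := by
  have h : ∀ u, 0 ≤ u → u < 0 → PR.mapsF [tb12] 0 0 u = true := fun u h1 h2 => absurd h2 (by omega)
  have h := PR.allR_chain (PR.mapsF [tb12] 0 0) 0 0 1 mp0_5_0 h
  exact h

theorem tre0 : ∀ u, 1 ≤ u → u < 1 → PR.treeF tbW [[tb2], [tb4], [tb6], [tb8], [tb10], [tb12]] 0 u = true := by
  have h : ∀ u, 1 ≤ u → u < 1 → PR.treeF tbW [[tb2], [tb4], [tb6], [tb8], [tb10], [tb12]] 0 u = true := fun u h1 h2 => absurd h2 (by omega)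
  exact h

theorem mp1_0 : ∀ u, 1 ≤ u → u < 58654 → PR.mapsF [tb2] 1 58653 u = true := by
  have h : ∀ u, 1 ≤ u → u < 1 → PR.mapsF [tb2] 1 58653 u = true := fun u h1 h2 => absurd h2 (by omega)
  have h := PR.allR_chain (PR.mapsF [tb2] 1 58653) 1 1 40000 mp1_0_0 h
  have h := PR.allR_chain (PR.mapsF [tb2] 1 58653) 1 40001 18653 mp1_0_1 h
  exact h

theorem mp1_1 : ∀ u, 1 ≤ u → u < 58654 → PR.mapsF [tb4] 1 58653 u = true := by
  have h : ∀ u, 1 ≤ u → u < 1 → PR.mapsF [tb4] 1 58653 u = true := fun u h1 h2 => absurd h2 (by omega)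
  have h := PR.allR_chain (PR.mapsF [tb4] 1 58653) 1 1 40000 mp1_1_0 h
  have h := PR.allR_chain (PR.mapsF [tb4] 1 58653) 1 40001 18653 mp1_1_1 h
  exact h

theorem mp1_2 : ∀ u, 1 ≤ u → u < 58654 → PR.mapsF [tb6] 1 58653 u = true := by
  have h : ∀ u, 1 ≤ u → u < 1 → PR.mapsF [tb6] 1 58653 u = true := fun u h1 h2 => absurd h2 (by omega)
  have h := PR.allR_chain (PR.mapsF [tb6] 1 58653) 1 1 40000 mp1_2_0 h
  have h := PR.allR_chain (PR.mapsF [tb6] 1 58653) 1 40001 18653 mp1_2_1 h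
  exact h

theorem mp1_3 : ∀ u, 1 ≤ u → u < 58654 → PR.mapsF [tb8] 1 58653 u = true := by
  have h : ∀ u, 1 ≤ u → u < 1 → PR.mapsF [tb8] 1 58653 u = true := fun u h1 h2 => absurd h2 (by omega)
  have h := PR.allR_chain (PR.mapsF [tb8] 1 58653) 1 1 40000 mp1_3_0 h
  have h := PR.allR_chain (PR.mapsF [tb8] 1 58653) 1 40001 18653 mp1_3_1 h
  exact h

theorem mp1_4 : ∀ u, 1 ≤ u → u < 58654 → PR.mapsF [tb10] 1 58653 u = true := by
  have h : ∀ u, 1 ≤ u → u < 1 → PR.mapsF [tb10] 1 58653 u = true := fun u h1 h2 => absurd h2 (by omega)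
  have h := PR.allR_chain (PR.mapsF [tb10] 1 58653) 1 1 40000 mp1_4_0 h
  have h := PR.allR_chain (PR.mapsF [tb10] 1 58653) 1 40001 18653 mp1_4_1 h
  exact h

theorem mp1_5 : ∀ u, 1 ≤ u → u < 58654 → PR.mapsF [tb12] 1 58653 u = true := by
  have h : ∀ u, 1 ≤ u → u < 1 → PR.mapsF [tb12] 1 58653 u = true := fun u h1 h2 => absurd h2 (by omega)
  have h := PR.allR_chain (PR.mapsF [tb12] 1 58653) 1 1 40000 mp1_5_0 h
  have h := PR.allR_chain (PR.mapsF [tb12] 1 58653) 1 40001 18653 mp1_5_1 h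
  exact h

theorem tre1 : ∀ u, 2 ≤ u → u < 58654 → PR.treeF tbW [[tb2], [tb4], [tb6], [tb8], [tb10], [tb12]] 1 u = true := by
  have h : ∀ u, 2 ≤ u → u < 2 → PR.treeF tbW [[tb2], [tb4], [tb6], [tb8], [tb10], [tb12]] 1 u = true := fun u h1 h2 => absurd h2 (by omega)
  have h := PR.allR_chain (PR.treeF tbW [[tb2], [tb4], [tb6], [tb8], [tb10], [tb12]] 1) 2 2 40000 tre1_0 h
  have h := PR.allR_chain (PR.treeF tbW [[tb2], [tb4], [tb6], [tb8], [tb10], [tb12]] 1) 2 40002 18652 tre1_1 h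
  exact h

theorem mp2_0 : ∀ u, 58654 ≤ u → u < 110790 → PR.mapsF [tb2] 58654 110789 u = true := by
  have h : ∀ u, 58654 ≤ u → u < 58654 → PR.mapsF [tb2] 58654 110789 u = true := fun u h1 h2 => absurd h2 (by omega)
  have h := PR.allR_chain (PR.mapsF [tb2] 58654 110789) 58654 58654 40000 mp2_0_0 h
  have h := PR.allR_chain (PR.mapsF [tb2] 58654 110789) 58654 98654 12136 mp2_0_1 h
  exact h

theorem mp2_1 : ∀ u, 58654 ≤ u → u < 110790 → PR.mapsF [tb4] 58654 110789 u = true := by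
  have h : ∀ u, 58654 ≤ u → u < 58654 → PR.mapsF [tb4] 58654 110789 u = true := fun u h1 h2 => absurd h2 (by omega)
  have h := PR.allR_chain (PR.mapsF [tb4] 58654 110789) 58654 58654 40000 mp2_1_0 h
  have h := PR.allR_chain (PR.mapsF [tb4] 58654 110789) 58654 98654 12136 mp2_1_1 h
  exact h

theorem mp2_2 : ∀ u, 58654 ≤ u → u < 110790 → PR.mapsF [tb6] 58654 110789 u = true := by
  have h : ∀ u, 58654 ≤ u → u < 58654 → PR.mapsF [tb6] 58654 110789 u = true := fun u h1 h2 => absurd h2 (by omega)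
  have h := PR.allR_chain (PR.mapsF [tb6] 58654 110789) 58654 58654 40000 mp2_2_0 h
  have h := PR.allR_chain (PR.mapsF [tb6] 58654 110789) 58654 98654 12136 mp2_2_1 h
  exact h

theorem mp2_3 : ∀ u, 58654 ≤ u → u < 110790 → PR.mapsF [tb8] 58654 110789 u = true := by
  have h : ∀ u, 58654 ≤ u → u < 58654 → PR.mapsF [tb8] 58654 110789 u = true := fun u h1 h2 => absurd h2 (by omega)
  have h := PR.allR_chain (PR.mapsF [tb8] 58654 110789) 58654 58654 40000 mp2_3_0 h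
  have h := PR.allR_chain (PR.mapsF [tb8] 58654 110789) 58654 98654 12136 mp2_3_1 h
  exact h

theorem mp2_4 : ∀ u, 58654 ≤ u → u < 110790 → PR.mapsF [tb10] 58654 110789 u = true := by
  have h : ∀ u, 58654 ≤ u → u < 58654 → PR.mapsF [tb10] 58654 110789 u = true := fun u h1 h2 => absurd h2 (by omega)
  have h := PR.allR_chain (PR.mapsF [tb10] 58654 110789) 58654 58654 40000 mp2_4_0 h
  have h := PR.allR_chain (PR.mapsF [tb10] 58654 110789) 58654 98654 12136 mp2_4_1 h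
  exact h

theorem mp2_5 : ∀ u, 58654 ≤ u → u < 110790 → PR.mapsF [tb12] 58654 110789 u = true := by
  have h : ∀ u, 58654 ≤ u → u < 58654 → PR.mapsF [tb12] 58654 110789 u = true := fun u h1 h2 => absurd h2 (by omega)
  have h := PR.allR_chain (PR.mapsF [tb12] 58654 110789) 58654 58654 40000 mp2_5_0 h
  have h := PR.allR_chain (PR.mapsF [tb12] 58654 110789) 58654 98654 12136 mp2_5_1 h
  exact h

theorem tre2 : ∀ u, 58655 ≤ u → u < 110790 → PR.treeF tbW [[tb2], [tb4], [tb6], [tb8], [tb10], [tb12]] 58654 u = true := by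
  have h : ∀ u, 58655 ≤ u → u < 58655 → PR.treeF tbW [[tb2], [tb4], [tb6], [tb8], [tb10], [tb12]] 58654 u = true := fun u h1 h2 => absurd h2 (by omega)
  have h := PR.allR_chain (PR.treeF tbW [[tb2], [tb4], [tb6], [tb8], [tb10], [tb12]] 58654) 58655 58655 40000 tre2_0 h
  have h := PR.allR_chain (PR.treeF tbW [[tb2], [tb4], [tb6], [tb8], [tb10], [tb12]] 58654) 58655 98655 12135 tre2_1 h
  exact h

theorem mp3_0 : ∀ u, 110790 ≤ u → u < 116376 → PR.mapsF [tb2] 110790 116375 u = true := by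
  have h : ∀ u, 110790 ≤ u → u < 110790 → PR.mapsF [tb2] 110790 116375 u = true := fun u h1 h2 => absurd h2 (by omega)
  have h := PR.allR_chain (PR.mapsF [tb2] 110790 116375) 110790 110790 5586 mp3_0_0 h
  exact h

theorem mp3_1 : ∀ u, 110790 ≤ u → u < 116376 → PR.mapsF [tb4] 110790 116375 u = true := by
  have h : ∀ u, 110790 ≤ u → u < 110790 → PR.mapsF [tb4] 110790 116375 u = true := fun u h1 h2 => absurd h2 (by omega)
  have h := PR.allR_chain (PR.mapsF [tb4] 110790 116375) 110790 110790 5586 mp3_1_0 h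
  exact h

theorem mp3_2 : ∀ u, 110790 ≤ u → u < 116376 → PR.mapsF [tb6] 110790 116375 u = true := by
  have h : ∀ u, 110790 ≤ u → u < 110790 → PR.mapsF [tb6] 110790 116375 u = true := fun u h1 h2 => absurd h2 (by omega)
  have h := PR.allR_chain (PR.mapsF [tb6] 110790 116375) 110790 110790 5586 mp3_2_0 h
  exact h

theorem mp3_3 : ∀ u, 110790 ≤ u → u < 116376 → PR.mapsF [tb8] 110790 116375 u = true := by
  have h : ∀ u, 110790 ≤ u → u < 110790 → PR.mapsF [tb8] 110790 116375 u = true := fun u h1 h2 => absurd h2 (by omega)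
  have h := PR.allR_chain (PR.mapsF [tb8] 110790 116375) 110790 110790 5586 mp3_3_0 h
  exact h

theorem mp3_4 : ∀ u, 110790 ≤ u → u < 116376 → PR.mapsF [tb10] 110790 116375 u = true := by
  have h : ∀ u, 110790 ≤ u → u < 110790 → PR.mapsF [tb10] 110790 116375 u = true := fun u h1 h2 => absurd h2 (by omega)
  have h := PR.allR_chain (PR.mapsF [tb10] 110790 116375) 110790 110790 5586 mp3_4_0 h
  exact h

theorem mp3_5 : ∀ u, 110790 ≤ u → u < 116376 → PR.mapsF [tb12] 110790 116375 u = true := by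
  have h : ∀ u, 110790 ≤ u → u < 110790 → PR.mapsF [tb12] 110790 116375 u = true := fun u h1 h2 => absurd h2 (by omega)
  have h := PR.allR_chain (PR.mapsF [tb12] 110790 116375) 110790 110790 5586 mp3_5_0 h
  exact h

theorem tre3 : ∀ u, 110791 ≤ u → u < 116376 → PR.treeF tbW [[tb2], [tb4], [tb6], [tb8], [tb10], [tb12]] 110790 u = true := by
  have h : ∀ u, 110791 ≤ u → u < 110791 → PR.treeF tbW [[tb2], [tb4], [tb6], [tb8], [tb10], [tb12]] 110790 u = true := fun u h1 h2 => absurd h2 (by omega)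
  have h := PR.allR_chain (PR.treeF tbW [[tb2], [tb4], [tb6], [tb8], [tb10], [tb12]] 110790) 110791 110791 5585 tre3_0 h
  exact h

theorem mp4_0 : ∀ u, 116376 ≤ u → u < 122760 → PR.mapsF [tb2] 116376 122759 u = true := by
  have h : ∀ u, 116376 ≤ u → u < 116376 → PR.mapsF [tb2] 116376 122759 u = true := fun u h1 h2 => absurd h2 (by omega)
  have h := PR.allR_chain (PR.mapsF [tb2] 116376 122759) 116376 116376 6384 mp4_0_0 h
  exact h

theorem mp4_1 : ∀ u, 116376 ≤ u → u < 122760 → PR.mapsF [tb4] 116376 122759 u = true := by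
  have h : ∀ u, 116376 ≤ u → u < 116376 → PR.mapsF [tb4] 116376 122759 u = true := fun u h1 h2 => absurd h2 (by omega)
  have h := PR.allR_chain (PR.mapsF [tb4] 116376 122759) 116376 116376 6384 mp4_1_0 h
  exact h

theorem mp4_2 : ∀ u, 116376 ≤ u → u < 122760 → PR.mapsF [tb6] 116376 122759 u = true := by
  have h : ∀ u, 116376 ≤ u → u < 116376 → PR.mapsF [tb6] 116376 122759 u = true := fun u h1 h2 => absurd h2 (by omega)
  have h := PR.allR_chain (PR.mapsF [tb6] 116376 122759) 116376 116376 6384 mp4_2_0 h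
  exact h

theorem mp4_3 : ∀ u, 116376 ≤ u → u < 122760 → PR.mapsF [tb8] 116376 122759 u = true := by
  have h : ∀ u, 116376 ≤ u → u < 116376 → PR.mapsF [tb8] 116376 122759 u = true := fun u h1 h2 => absurd h2 (by omega)
  have h := PR.allR_chain (PR.mapsF [tb8] 116376 122759) 116376 116376 6384 mp4_3_0 h
  exact h

theorem mp4_4 : ∀ u, 116376 ≤ u → u < 122760 → PR.mapsF [tb10] 116376 122759 u = true := by
  have h : ∀ u, 116376 ≤ u → u < 116376 → PR.mapsF [tb10] 116376 122759 u = true := fun u h1 h2 => absurd h2 (by omega)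
  have h := PR.allR_chain (PR.mapsF [tb10] 116376 122759) 116376 116376 6384 mp4_4_0 h
  exact h

theorem mp4_5 : ∀ u, 116376 ≤ u → u < 122760 → PR.mapsF [tb12] 116376 122759 u = true := by
  have h : ∀ u, 116376 ≤ u → u < 116376 → PR.mapsF [tb12] 116376 122759 u = true := fun u h1 h2 => absurd h2 (by omega)
  have h := PR.allR_chain (PR.mapsF [tb12] 116376 122759) 116376 116376 6384 mp4_5_0 h
  exact h

theorem tre4 : ∀ u, 116377 ≤ u → u < 122760 → PR.treeF tbW [[tb2], [tb4], [tb6], [tb8], [tb10], [tb12]] 116376 u = true := by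
  have h : ∀ u, 116377 ≤ u → u < 116377 → PR.treeF tbW [[tb2], [tb4], [tb6], [tb8], [tb10], [tb12]] 116376 u = true := fun u h1 h2 => absurd h2 (by omega)
  have h := PR.allR_chain (PR.treeF tbW [[tb2], [tb4], [tb6], [tb8], [tb10], [tb12]] 116376) 116377 116377 6383 tre4_0 h
  exact h

theorem tables : PR.Tables 122760 tbl invL Ls := by
  refine ⟨?_, by decide, ?_, ?_⟩
  · intro l hl
    simp only [Ls, List.mem_cons, List.mem_nil_iff, or_false] at hl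
    rcases hl with rfl | rfl | rfl | rfl | rfl | rfl | rfl | rfl
    · exact fun u hu => Nat.lt_of_le_of_lt ((PR.mapsF_iff _ _ _ _).mp (rng0 u (Nat.zero_le _) hu)).2 (by norm_num)
    · exact fun u hu => Nat.lt_of_le_of_lt ((PR.mapsF_iff _ _ _ _).mp (rng1 u (Nat.zero_le _) hu)).2 (by norm_num)
    · exact fun u hu => Nat.lt_of_le_of_lt ((PR.mapsF_iff _ _ _ _).mp (rng2 u (Nat.zero_le _) hu)).2 (by norm_num)
    · exact fun u hu => Nat.lt_of_le_of_lt ((PR.mapsF_iff _ _ _ _).mp (rng4 u (Nat.zero_le _) hu)).2 (by norm_num)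
    · exact fun u hu => Nat.lt_of_le_of_lt ((PR.mapsF_iff _ _ _ _).mp (rng6 u (Nat.zero_le _) hu)).2 (by norm_num)
    · exact fun u hu => Nat.lt_of_le_of_lt ((PR.mapsF_iff _ _ _ _).mp (rng8 u (Nat.zero_le _) hu)).2 (by norm_num)
    · exact fun u hu => Nat.lt_of_le_of_lt ((PR.mapsF_iff _ _ _ _).mp (rng10 u (Nat.zero_le _) hu)).2 (by norm_num)
    · exact fun u hu => Nat.lt_of_le_of_lt ((PR.mapsF_iff _ _ _ _).mp (rng12 u (Nat.zero_le _) hu)).2 (by norm_num)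
  · intro l hl
    simp only [Ls, List.mem_cons, List.mem_nil_iff, or_false] at hl
    rcases hl with rfl | rfl | rfl | rfl | rfl | rfl | rfl | rfl
    · exact fun u hu => (PR.fixF_iff _ _).mp (sq0 u (Nat.zero_le _) hu)
    · exact fun u hu => (PR.fixF_iff _ _).mp (sq1 u (Nat.zero_le _) hu)
    · exact fun u hu => (PR.fixF_iff _ _).mp (sq2 u (Nat.zero_le _) hu)
    · exact fun u hu => (PR.fixF_iff _ _).mp (sq4 u (Nat.zero_le _) hu)
    · exact fun u hu => (PR.fixF_iff _ _).mp (sq6 u (Nat.zero_le _) hu)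
    · exact fun u hu => (PR.fixF_iff _ _).mp (sq8 u (Nat.zero_le _) hu)
    · exact fun u hu => (PR.fixF_iff _ _).mp (sq10 u (Nat.zero_le _) hu)
    · exact fun u hu => (PR.fixF_iff _ _).mp (sq12 u (Nat.zero_le _) hu)
  · intro l hl
    simp only [Ls, List.mem_cons, List.mem_nil_iff, or_false] at hl
    rcases hl with rfl | rfl | rfl | rfl | rfl | rfl | rfl | rfl
    · exact fun u hu => (PR.fixF_iff _ _).mp (sq1 u (Nat.zero_le _) hu)
    · exact fun u hu => (PR.fixF_iff _ _).mp (sq0 u (Nat.zero_le _) hu)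
    · exact fun u hu => (PR.fixF_iff _ _).mp (sq2 u (Nat.zero_le _) hu)
    · exact fun u hu => (PR.fixF_iff _ _).mp (sq4 u (Nat.zero_le _) hu)
    · exact fun u hu => (PR.fixF_iff _ _).mp (sq6 u (Nat.zero_le _) hu)
    · exact fun u hu => (PR.fixF_iff _ _).mp (sq8 u (Nat.zero_le _) hu)
    · exact fun u hu => (PR.fixF_iff _ _).mp (sq10 u (Nat.zero_le _) hu)
    · exact fun u hu => (PR.fixF_iff _ _).mp (sq12 u (Nat.zero_le _) hu)

theorem relsOK : ∀ r ∈ coxW ++ extraW, ∀ u < 122760, PR.trace (r.map tbl) u = u := by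
  intro r hr
  simp only [coxW, extraW, List.mem_append, List.mem_cons, List.mem_nil_iff, or_false, or_assoc] at hr
  rcases hr with rfl | rfl | rfl | rfl | rfl | rfl | rfl | rfl | rfl | rfl | rfl | rfl | rfl | rfl | rfl | rfl | rfl | rfl | rfl | rfl | rfl | rfl
  · exact fun u hu => (PR.fixF_iff _ _).mp (rel0 u (Nat.zero_le _) hu)
  · exact fun u hu => (PR.fixF_iff _ _).mp (rel1 u (Nat.zero_le _) hu)
  · exact fun u hu => (PR.fixF_iff _ _).mp (rel2 u (Nat.zero_le _) hu)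
  · exact fun u hu => (PR.fixF_iff _ _).mp (rel3 u (Nat.zero_le _) hu)
  · exact fun u hu => (PR.fixF_iff _ _).mp (rel4 u (Nat.zero_le _) hu)
  · exact fun u hu => (PR.fixF_iff _ _).mp (rel5 u (Nat.zero_le _) hu)
  · exact fun u hu => (PR.fixF_iff _ _).mp (rel6 u (Nat.zero_le _) hu)
  · exact fun u hu => (PR.fixF_iff _ _).mp (rel7 u (Nat.zero_le _) hu)
  · exact fun u hu => (PR.fixF_iff _ _).mp (rel8 u (Nat.zero_le _) hu)
  · exact fun u hu => (PR.fixF_iff _ _).mp (rel9 u (Nat.zero_le _) hu)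
  · exact fun u hu => (PR.fixF_iff _ _).mp (rel10 u (Nat.zero_le _) hu)
  · exact fun u hu => (PR.fixF_iff _ _).mp (rel11 u (Nat.zero_le _) hu)
  · exact fun u hu => (PR.fixF_iff _ _).mp (rel12 u (Nat.zero_le _) hu)
  · exact fun u hu => (PR.fixF_iff _ _).mp (rel13 u (Nat.zero_le _) hu)
  · exact fun u hu => (PR.fixF_iff _ _).mp (rel14 u (Nat.zero_le _) hu)
  · exact fun u hu => (PR.fixF_iff _ _).mp (rel15 u (Nat.zero_le _) hu)
  · exact fun u hu => (PR.fixF_iff _ _).mp (rel16 u (Nat.zero_le _) hu)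
  · exact fun u hu => (PR.fixF_iff _ _).mp (rel17 u (Nat.zero_le _) hu)
  · exact fun u hu => (PR.fixF_iff _ _).mp (rel18 u (Nat.zero_le _) hu)
  · exact fun u hu => (PR.fixF_iff _ _).mp (rel19 u (Nat.zero_le _) hu)
  · exact fun u hu => (PR.fixF_iff _ _).mp (rel20 u (Nat.zero_le _) hu)
  · exact fun u hu => (PR.fixF_iff _ _).mp (rel21 u (Nat.zero_le _) hu)

theorem orbits : PR.Orbits 122760 tbl Ls subs ivs := by
  refine ⟨by decide, ?_, ?_, ?_, ?_, by decide, by decide⟩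
  · intro iv hiv s hs
    simp only [ivs, List.mem_cons, List.mem_nil_iff, or_false] at hiv
    simp only [subs, List.mem_cons, List.mem_nil_iff, or_false] at hs
    rcases hiv with rfl | rfl | rfl | rfl | rfl <;> rcases hs with rfl | rfl | rfl | rfl | rfl | rfl
    · exact fun u h1 h2 => ⟨((PR.mapsF_iff _ _ _ _).mp (mp0_0 u h1 h2)).1, Nat.lt_of_le_of_lt ((PR.mapsF_iff _ _ _ _).mp (mp0_0 u h1 h2)).2 (by norm_num)⟩
    · exact fun u h1 h2 => ⟨((PR.mapsF_iff _ _ _ _).mp (mp0_1 u h1 h2)).1, Nat.lt_of_le_of_lt ((PR.mapsF_iff _ _ _ _).mp (mp0_1 u h1 h2)).2 (by norm_num)⟩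
    · exact fun u h1 h2 => ⟨((PR.mapsF_iff _ _ _ _).mp (mp0_2 u h1 h2)).1, Nat.lt_of_le_of_lt ((PR.mapsF_iff _ _ _ _).mp (mp0_2 u h1 h2)).2 (by norm_num)⟩
    · exact fun u h1 h2 => ⟨((PR.mapsF_iff _ _ _ _).mp (mp0_3 u h1 h2)).1, Nat.lt_of_le_of_lt ((PR.mapsF_iff _ _ _ _).mp (mp0_3 u h1 h2)).2 (by norm_num)⟩
    · exact fun u h1 h2 => ⟨((PR.mapsF_iff _ _ _ _).mp (mp0_4 u h1 h2)).1, Nat.lt_of_le_of_lt ((PR.mapsF_iff _ _ _ _).mp (mp0_4 u h1 h2)).2 (by norm_num)⟩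
    · exact fun u h1 h2 => ⟨((PR.mapsF_iff _ _ _ _).mp (mp0_5 u h1 h2)).1, Nat.lt_of_le_of_lt ((PR.mapsF_iff _ _ _ _).mp (mp0_5 u h1 h2)).2 (by norm_num)⟩
    · exact fun u h1 h2 => ⟨((PR.mapsF_iff _ _ _ _).mp (mp1_0 u h1 h2)).1, Nat.lt_of_le_of_lt ((PR.mapsF_iff _ _ _ _).mp (mp1_0 u h1 h2)).2 (by norm_num)⟩
    · exact fun u h1 h2 => ⟨((PR.mapsF_iff _ _ _ _).mp (mp1_1 u h1 h2)).1, Nat.lt_of_le_of_lt ((PR.mapsF_iff _ _ _ _).mp (mp1_1 u h1 h2)).2 (by norm_num)⟩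
    · exact fun u h1 h2 => ⟨((PR.mapsF_iff _ _ _ _).mp (mp1_2 u h1 h2)).1, Nat.lt_of_le_of_lt ((PR.mapsF_iff _ _ _ _).mp (mp1_2 u h1 h2)).2 (by norm_num)⟩
    · exact fun u h1 h2 => ⟨((PR.mapsF_iff _ _ _ _).mp (mp1_3 u h1 h2)).1, Nat.lt_of_le_of_lt ((PR.mapsF_iff _ _ _ _).mp (mp1_3 u h1 h2)).2 (by norm_num)⟩
    · exact fun u h1 h2 => ⟨((PR.mapsF_iff _ _ _ _).mp (mp1_4 u h1 h2)).1, Nat.lt_of_le_of_lt ((PR.mapsF_iff _ _ _ _).mp (mp1_4 u h1 h2)).2 (by norm_num)⟩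
    · exact fun u h1 h2 => ⟨((PR.mapsF_iff _ _ _ _).mp (mp1_5 u h1 h2)).1, Nat.lt_of_le_of_lt ((PR.mapsF_iff _ _ _ _).mp (mp1_5 u h1 h2)).2 (by norm_num)⟩
    · exact fun u h1 h2 => ⟨((PR.mapsF_iff _ _ _ _).mp (mp2_0 u h1 h2)).1, Nat.lt_of_le_of_lt ((PR.mapsF_iff _ _ _ _).mp (mp2_0 u h1 h2)).2 (by norm_num)⟩
    · exact fun u h1 h2 => ⟨((PR.mapsF_iff _ _ _ _).mp (mp2_1 u h1 h2)).1, Nat.lt_of_le_of_lt ((PR.mapsF_iff _ _ _ _).mp (mp2_1 u h1 h2)).2 (by norm_num)⟩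
    · exact fun u h1 h2 => ⟨((PR.mapsF_iff _ _ _ _).mp (mp2_2 u h1 h2)).1, Nat.lt_of_le_of_lt ((PR.mapsF_iff _ _ _ _).mp (mp2_2 u h1 h2)).2 (by norm_num)⟩
    · exact fun u h1 h2 => ⟨((PR.mapsF_iff _ _ _ _).mp (mp2_3 u h1 h2)).1, Nat.lt_of_le_of_lt ((PR.mapsF_iff _ _ _ _).mp (mp2_3 u h1 h2)).2 (by norm_num)⟩
    · exact fun u h1 h2 => ⟨((PR.mapsF_iff _ _ _ _).mp (mp2_4 u h1 h2)).1, Nat.lt_of_le_of_lt ((PR.mapsF_iff _ _ _ _).mp (mp2_4 u h1 h2)).2 (by norm_num)⟩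
    · exact fun u h1 h2 => ⟨((PR.mapsF_iff _ _ _ _).mp (mp2_5 u h1 h2)).1, Nat.lt_of_le_of_lt ((PR.mapsF_iff _ _ _ _).mp (mp2_5 u h1 h2)).2 (by norm_num)⟩
    · exact fun u h1 h2 => ⟨((PR.mapsF_iff _ _ _ _).mp (mp3_0 u h1 h2)).1, Nat.lt_of_le_of_lt ((PR.mapsF_iff _ _ _ _).mp (mp3_0 u h1 h2)).2 (by norm_num)⟩
    · exact fun u h1 h2 => ⟨((PR.mapsF_iff _ _ _ _).mp (mp3_1 u h1 h2)).1, Nat.lt_of_le_of_lt ((PR.mapsF_iff _ _ _ _).mp (mp3_1 u h1 h2)).2 (by norm_num)⟩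
    · exact fun u h1 h2 => ⟨((PR.mapsF_iff _ _ _ _).mp (mp3_2 u h1 h2)).1, Nat.lt_of_le_of_lt ((PR.mapsF_iff _ _ _ _).mp (mp3_2 u h1 h2)).2 (by norm_num)⟩
    · exact fun u h1 h2 => ⟨((PR.mapsF_iff _ _ _ _).mp (mp3_3 u h1 h2)).1, Nat.lt_of_le_of_lt ((PR.mapsF_iff _ _ _ _).mp (mp3_3 u h1 h2)).2 (by norm_num)⟩
    · exact fun u h1 h2 => ⟨((PR.mapsF_iff _ _ _ _).mp (mp3_4 u h1 h2)).1, Nat.lt_of_le_of_lt ((PR.mapsF_iff _ _ _ _).mp (mp3_4 u h1 h2)).2 (by norm_num)⟩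
    · exact fun u h1 h2 => ⟨((PR.mapsF_iff _ _ _ _).mp (mp3_5 u h1 h2)).1, Nat.lt_of_le_of_lt ((PR.mapsF_iff _ _ _ _).mp (mp3_5 u h1 h2)).2 (by norm_num)⟩
    · exact fun u h1 h2 => ⟨((PR.mapsF_iff _ _ _ _).mp (mp4_0 u h1 h2)).1, Nat.lt_of_le_of_lt ((PR.mapsF_iff _ _ _ _).mp (mp4_0 u h1 h2)).2 (by norm_num)⟩
    · exact fun u h1 h2 => ⟨((PR.mapsF_iff _ _ _ _).mp (mp4_1 u h1 h2)).1, Nat.lt_of_le_of_lt ((PR.mapsF_iff _ _ _ _).mp (mp4_1 u h1 h2)).2 (by norm_num)⟩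
    · exact fun u h1 h2 => ⟨((PR.mapsF_iff _ _ _ _).mp (mp4_2 u h1 h2)).1, Nat.lt_of_le_of_lt ((PR.mapsF_iff _ _ _ _).mp (mp4_2 u h1 h2)).2 (by norm_num)⟩
    · exact fun u h1 h2 => ⟨((PR.mapsF_iff _ _ _ _).mp (mp4_3 u h1 h2)).1, Nat.lt_of_le_of_lt ((PR.mapsF_iff _ _ _ _).mp (mp4_3 u h1 h2)).2 (by norm_num)⟩
    · exact fun u h1 h2 => ⟨((PR.mapsF_iff _ _ _ _).mp (mp4_4 u h1 h2)).1, Nat.lt_of_le_of_lt ((PR.mapsF_iff _ _ _ _).mp (mp4_4 u h1 h2)).2 (by norm_num)⟩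
    · exact fun u h1 h2 => ⟨((PR.mapsF_iff _ _ _ _).mp (mp4_5 u h1 h2)).1, Nat.lt_of_le_of_lt ((PR.mapsF_iff _ _ _ _).mp (mp4_5 u h1 h2)).2 (by norm_num)⟩
  · intro iv hiv
    simp only [ivs, List.mem_cons, List.mem_nil_iff, or_false] at hiv
    rcases hiv with rfl | rfl | rfl | rfl | rfl
    · intro u h1 h2
      obtain ⟨s, hs, p, hp⟩ := PR.treeF_sound _ _ _ _ (tre0 u h1 h2)
      exact PR.tree_aux tbl subs _ rfl s hs p _ _ hp
    · intro u h1 h2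
      obtain ⟨s, hs, p, hp⟩ := PR.treeF_sound _ _ _ _ (tre1 u h1 h2)
      exact PR.tree_aux tbl subs _ rfl s hs p _ _ hp
    · intro u h1 h2
      obtain ⟨s, hs, p, hp⟩ := PR.treeF_sound _ _ _ _ (tre2 u h1 h2)
      exact PR.tree_aux tbl subs _ rfl s hs p _ _ hp
    · intro u h1 h2
      obtain ⟨s, hs, p, hp⟩ := PR.treeF_sound _ _ _ _ (tre3 u h1 h2)
      exact PR.tree_aux tbl subs _ rfl s hs p _ _ hp
    · intro u h1 h2
      obtain ⟨s, hs, p, hp⟩ := PR.treeF_sound _ _ _ _ (tre4 u h1 h2)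
      exact PR.tree_aux tbl subs _ rfl s hs p _ _ hp
  · intro iv hiv
    simp only [ivs, List.mem_cons, List.mem_nil_iff, or_false] at hiv
    rcases hiv with rfl | rfl | rfl | rfl | rfl
    · exact ⟨[], by decide, root0⟩
    · exact ⟨[0], by decide, root1⟩
    · exact ⟨[0, 4, 0], by decide, root2⟩
    · exact ⟨[0, 6, 0], by decide, root3⟩
    · exact ⟨[0, 4, 8, 0], by decide, root4⟩
  · intro u hu
    simp only [ivs, List.mem_cons, List.mem_nil_iff, or_false, exists_eq_or_imp, exists_eq_left]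
    omega

end Cfsg.Agent.Lib.Helper11.ONa
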