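import Cfsg.Agent.Lib.Helper11.LBCore
import Cfsg.Agent.Lib.Helper11.ONaPerm
import Cfsg.Agent.Lib.Helper11.ONaLC0

set_option autoImplicit false
set_option maxRecDepth 1000000

namespace Cfsg.Agent.Lib.Helper11.ONa

open Cfsg.Agent.Lib.Helper11

theorem lbc0 : ∀ u, 1 ≤ u → u < 122760 → PR.lbF lP0 lM0 lwT0 u = true := by
  have h : ∀ u, 1 ≤ u → u < 1 → PR.lbF lP0 lM0 lwT0 u = true := fun u h1 h2 => absurd h2 (by omega)
  have h := PR.allR_chain (PR.lbF lP0 lM0 lwT0) 1 1 40000 lb0_0 h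
  have h := PR.allR_chain (PR.lbF lP0 lM0 lwT0) 1 40001 40000 lb0_1 h
  have h := PR.allR_chain (PR.lbF lP0 lM0 lwT0) 1 80001 40000 lb0_2 h
  have h := PR.allR_chain (PR.lbF lP0 lM0 lwT0) 1 120001 2759 lb0_3 h
  exact h

theorem lbc1 : ∀ u, 1 ≤ u → u < 58653 → PR.lbF lP1 lM1 lwT1 u = true := by
  have h : ∀ u, 1 ≤ u → u < 1 → PR.lbF lP1 lM1 lwT1 u = true := fun u h1 h2 => absurd h2 (by omega)
  have h := PR.allR_chain (PR.lbF lP1 lM1 lwT1) 1 1 38810 lb1_0 h
  have h := PR.allR_chain (PR.lbF lP1 lM1 lwT1) 1 38811 19842 lb1_1 h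
  exact h

theorem lbc2 : ∀ u, 1 ≤ u → u < 64 → PR.lbF lP2 lM2 lwT2 u = true := by
  have h : ∀ u, 1 ≤ u → u < 1 → PR.lbF lP2 lM2 lwT2 u = true := fun u h1 h2 => absurd h2 (by omega)
  have h := PR.allR_chain (PR.lbF lP2 lM2 lwT2) 1 1 63 lb2_0 h
  exact h

def lbase : List Nat := [0, 1, 117573]

theorem lv0 : 122760 ≤ (MulAction.orbit (PR.stabChain (PR.letterGroup 122760 tbl invL Ls) []) (⟨0, by norm_num⟩ : Fin 122760)).ncard :=
  PR.level_lb tables [] 0 (by norm_num) lws0 (by decide +kernel) lP0 lM0 122760 (by norm_num)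
    (by decide +kernel) (by decide +kernel) (fun idx h1 h2 => lbc0 idx h1 h2)

theorem lv1 : 58653 ≤ (MulAction.orbit (PR.stabChain (PR.letterGroup 122760 tbl invL Ls) [0]) (⟨1, by norm_num⟩ : Fin 122760)).ncard :=
  PR.level_lb tables [0] 1 (by norm_num) lws1 (by decide +kernel) lP1 lM1 58653 (by norm_num)
    (by decide +kernel) (by decide +kernel) (fun idx h1 h2 => lbc1 idx h1 h2)

theorem lv2 : 64 ≤ (MulAction.orbit (PR.stabChain (PR.letterGroup 122760 tbl invL Ls) [0, 1]) (⟨117573, by norm_num⟩ : Fin 122760)).ncard :=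
  PR.level_lb tables [0, 1] 117573 (by norm_num) lws2 (by decide +kernel) lP2 lM2 64 (by norm_num)
    (by decide +kernel) (by decide +kernel) (fun idx h1 h2 => lbc2 idx h1 h2)

theorem lb (c : ℕ) (hc : c ≤ Nat.card (PR.stabChain (PR.letterGroup 122760 tbl invL Ls) lbase)) : 460815505920 * c ≤ Nat.card (PR.letterGroup 122760 tbl invL Ls) := by
  have h2 := PR.chain_step (n := 122760) (tbl := tbl) (inv := invL) (Ls := Ls) [0, 1] 117573 (by norm_num) 64 _ lv2 hc
  have h1 := PR.chain_step (n := 122760) (tbl := tbl) (inv := invL) (Ls := Ls) [0] 1 (by norm_num) 58653 _ lv1 h2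
  have h0 := PR.chain_step (n := 122760) (tbl := tbl) (inv := invL) (Ls := Ls) [] 0 (by norm_num) 122760 _ lv0 h1
  have e : 460815505920 * c = 122760 * (58653 * (64 * (c))) := by omega
  rw [e]; exact h0

end Cfsg.Agent.Lib.Helper11.ONa
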