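import Cfsg.Agent.Lib.Helper11.ONOrderUB
import Cfsg.Agent.Lib.Helper11.ONaLB

/-! # Order, faithful permutation representation and word problem of the presented O'Nan group -/

set_option autoImplicit false
set_option maxRecDepth 100000

namespace Cfsg.Agent.Lib.Helper11.ONFacts

open Cfsg.Agent.Lib.Helper11 Cfsg.Agent.Lib.Helper11.TC

theorem facts : Nat.card Cfsg.Spor.ON = 460815505920 ∧
    ∃ φ : Cfsg.Spor.ON →* Equiv.Perm (Fin 122760),
      (∀ l ∈ ONa.Ls, φ (ONEnc.gen l) = PR.pg 122760 ONa.tbl ONa.invL ONa.Ls l) ∧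
      Function.Injective φ ∧
      ∀ w : List ℕ, (∀ l ∈ w, l ∈ ONa.Ls) →
        (∀ β ∈ ONa.lbase, PR.trace (w.map ONa.tbl) β = β) → ev ONEnc.gen w = 1 := by
  obtain ⟨φ, hφ⟩ := GM.exists_rep ONEnc.pres ONa.tables ONa.relsOK
  obtain ⟨h1, h2, h3⟩ := GM.order_master ONa.tables φ hφ ONOrder.card_le ONa.lbase (by decide)
    ONa.lb (by norm_num)
  exact ⟨h1, φ, hφ, h2, h3⟩

/-- a word moving a point is not trivial -/
theorem ne_one (w : List ℕ) (hw : ∀ l ∈ w, l ∈ ONa.Ls) (u : ℕ) (hu : u < 122760)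
    (h : PR.trace (w.map ONa.tbl) u ≠ u) : ev ONEnc.gen w ≠ 1 := by
  obtain ⟨φ, hφ⟩ := GM.exists_rep ONEnc.pres ONa.tables ONa.relsOK
  intro h1
  have h2 : ev (PR.pg 122760 ONa.tbl ONa.invL ONa.Ls) w = 1 := by
    rw [← PR.map_ev φ ONEnc.gen _ ONa.Ls hφ w hw, h1, map_one]
  have h3 := PR.ev_pg_inv_apply ONa.tables w hw ⟨u, hu⟩
  rw [h2] at h3
  exact h h3.symm

end Cfsg.Agent.Lib.Helper11.ONFacts
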