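import Cfsg.Agent.Lib.Helper11.TCCore
import Cfsg.Agent.Lib.Helper11.ONU1B0
import Cfsg.Agent.Lib.Helper11.ONU1B1
import Cfsg.Agent.Lib.Helper11.ONU1B2
import Cfsg.Agent.Lib.Helper11.ONU1B3
import Cfsg.Agent.Lib.Helper11.ONU1B4
import Cfsg.Agent.Lib.Helper11.ONU1B5
import Cfsg.Agent.Lib.Helper11.ONU1B6

set_option autoImplicit false
set_option maxRecDepth 100000

namespace Cfsg.Agent.Lib.Helper11.ONU1

open Cfsg.Agent.Lib.Helper11

theorem f0 : F 0 = 32505856 := by decide +kernel

theorem valid {Q : Type*} (act : ℕ → Q → Q) (q0 : Q) (h31 : ∀ x, act 31 x = x)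
    (hadm : ∀ a ∈ adm, TC.AdmOK act q0 a) :
    ∀ f < 469735, TC.Valid act q0 F f := by
  have h := TC.valid_zero act q0 F h31 f0
  have h := TC.checkDefs_chain act q0 F 1 10000 dfs0 h
  have h := TC.checkDefs_chain act q0 F 10001 10000 dfs1 h
  have h := TC.checkDefs_chain act q0 F 20001 10000 dfs2 h
  have h := TC.checkDefs_chain act q0 F 30001 10000 dfs3 h
  have h := TC.checkDefs_chain act q0 F 40001 10000 dfs4 h
  have h := TC.checkDefs_chain act q0 F 50001 10000 dfs5 h
  have h := TC.checkDefs_chain act q0 F 60001 10000 dfs6 h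
  have h := TC.checkDefs_chain act q0 F 70001 10000 dfs7 h
  have h := TC.checkDefs_chain act q0 F 80001 10000 dfs8 h
  have h := TC.checkDefs_chain act q0 F 90001 10000 dfs9 h
  have h := TC.checkDefs_chain act q0 F 100001 10000 dfs10 h
  have h := TC.checkDefs_chain act q0 F 110001 10000 dfs11 h
  have h := TC.checkDefs_chain act q0 F 120001 10000 dfs12 h
  have h := TC.checkDefs_chain act q0 F 130001 10000 dfs13 h
  have h := TC.checkDefs_chain act q0 F 140001 10000 dfs14 h
  have h := TC.checkDefs_chain act q0 F 150001 6410 dfs15 h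
  have h := TC.checkBlocks_sound act q0 F h31 adm hadm _ 156411 161511 (by norm_num) blk0 h
  have h := TC.checkBlocks_sound act q0 F h31 adm hadm _ 161511 166639 (by norm_num) blk1 h
  have h := TC.checkBlocks_sound act q0 F h31 adm hadm _ 166639 171739 (by norm_num) blk2 h
  have h := TC.checkBlocks_sound act q0 F h31 adm hadm _ 171739 176785 (by norm_num) blk3 h
  have h := TC.checkBlocks_sound act q0 F h31 adm hadm _ 176785 181891 (by norm_num) blk4 h
  have h := TC.checkBlocks_sound act q0 F h31 adm hadm _ 181891 186991 (by norm_num) blk5 h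
  have h := TC.checkBlocks_sound act q0 F h31 adm hadm _ 186991 192062 (by norm_num) blk6 h
  have h := TC.checkBlocks_sound act q0 F h31 adm hadm _ 192062 197183 (by norm_num) blk7 h
  have h := TC.checkBlocks_sound act q0 F h31 adm hadm _ 197183 201871 (by norm_num) blk8 h
  have h := TC.checkBlocks_sound act q0 F h31 adm hadm _ 201871 205261 (by norm_num) blk9 h
  have h := TC.checkBlocks_sound act q0 F h31 adm hadm _ 205261 209073 (by norm_num) blk10 h
  have h := TC.checkBlocks_sound act q0 F h31 adm hadm _ 209073 214177 (by norm_num) blk11 h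
  have h := TC.checkBlocks_sound act q0 F h31 adm hadm _ 214177 219258 (by norm_num) blk12 h
  have h := TC.checkBlocks_sound act q0 F h31 adm hadm _ 219258 224379 (by norm_num) blk13 h
  have h := TC.checkBlocks_sound act q0 F h31 adm hadm _ 224379 229381 (by norm_num) blk14 h
  have h := TC.checkBlocks_sound act q0 F h31 adm hadm _ 229381 233649 (by norm_num) blk15 h
  have h := TC.checkBlocks_sound act q0 F h31 adm hadm _ 233649 237910 (by norm_num) blk16 h
  have h := TC.checkBlocks_sound act q0 F h31 adm hadm _ 237910 243016 (by norm_num) blk17 h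
  have h := TC.checkBlocks_sound act q0 F h31 adm hadm _ 243016 248134 (by norm_num) blk18 h
  have h := TC.checkBlocks_sound act q0 F h31 adm hadm _ 248134 252402 (by norm_num) blk19 h
  have h := TC.checkBlocks_sound act q0 F h31 adm hadm _ 252402 256707 (by norm_num) blk20 h
  have h := TC.checkBlocks_sound act q0 F h31 adm hadm _ 256707 261449 (by norm_num) blk21 h
  have h := TC.checkBlocks_sound act q0 F h31 adm hadm _ 261449 265776 (by norm_num) blk22 h
  have h := TC.checkBlocks_sound act q0 F h31 adm hadm _ 265776 269701 (by norm_num) blk23 h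
  have h := TC.checkBlocks_sound act q0 F h31 adm hadm _ 269701 273766 (by norm_num) blk24 h
  have h := TC.checkBlocks_sound act q0 F h31 adm hadm _ 273766 278175 (by norm_num) blk25 h
  have h := TC.checkBlocks_sound act q0 F h31 adm hadm _ 278175 281497 (by norm_num) blk26 h
  have h := TC.checkBlocks_sound act q0 F h31 adm hadm _ 281497 285240 (by norm_num) blk27 h
  have h := TC.checkBlocks_sound act q0 F h31 adm hadm _ 285240 288424 (by norm_num) blk28 h
  have h := TC.checkBlocks_sound act q0 F h31 adm hadm _ 288424 292873 (by norm_num) blk29 h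
  have h := TC.checkBlocks_sound act q0 F h31 adm hadm _ 292873 296498 (by norm_num) blk30 h
  have h := TC.checkBlocks_sound act q0 F h31 adm hadm _ 296498 300604 (by norm_num) blk31 h
  have h := TC.checkBlocks_sound act q0 F h31 adm hadm _ 300604 304796 (by norm_num) blk32 h
  have h := TC.checkBlocks_sound act q0 F h31 adm hadm _ 304796 307668 (by norm_num) blk33 h
  have h := TC.checkBlocks_sound act q0 F h31 adm hadm _ 307668 311700 (by norm_num) blk34 h
  have h := TC.checkBlocks_sound act q0 F h31 adm hadm _ 311700 315391 (by norm_num) blk35 h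
  have h := TC.checkBlocks_sound act q0 F h31 adm hadm _ 315391 318633 (by norm_num) blk36 h
  have h := TC.checkBlocks_sound act q0 F h31 adm hadm _ 318633 322685 (by norm_num) blk37 h
  have h := TC.checkBlocks_sound act q0 F h31 adm hadm _ 322685 326187 (by norm_num) blk38 h
  have h := TC.checkBlocks_sound act q0 F h31 adm hadm _ 326187 329712 (by norm_num) blk39 h
  have h := TC.checkBlocks_sound act q0 F h31 adm hadm _ 329712 333151 (by norm_num) blk40 h
  have h := TC.checkBlocks_sound act q0 F h31 adm hadm _ 333151 336653 (by norm_num) blk41 h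
  have h := TC.checkBlocks_sound act q0 F h31 adm hadm _ 336653 340200 (by norm_num) blk42 h
  have h := TC.checkBlocks_sound act q0 F h31 adm hadm _ 340200 343870 (by norm_num) blk43 h
  have h := TC.checkBlocks_sound act q0 F h31 adm hadm _ 343870 347478 (by norm_num) blk44 h
  have h := TC.checkBlocks_sound act q0 F h31 adm hadm _ 347478 350974 (by norm_num) blk45 h
  have h := TC.checkBlocks_sound act q0 F h31 adm hadm _ 350974 354523 (by norm_num) blk46 h
  have h := TC.checkBlocks_sound act q0 F h31 adm hadm _ 354523 358033 (by norm_num) blk47 h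
  have h := TC.checkBlocks_sound act q0 F h31 adm hadm _ 358033 361637 (by norm_num) blk48 h
  have h := TC.checkBlocks_sound act q0 F h31 adm hadm _ 361637 365009 (by norm_num) blk49 h
  have h := TC.checkBlocks_sound act q0 F h31 adm hadm _ 365009 368513 (by norm_num) blk50 h
  have h := TC.checkBlocks_sound act q0 F h31 adm hadm _ 368513 371877 (by norm_num) blk51 h
  have h := TC.checkBlocks_sound act q0 F h31 adm hadm _ 371877 375359 (by norm_num) blk52 h
  have h := TC.checkBlocks_sound act q0 F h31 adm hadm _ 375359 378628 (by norm_num) blk53 h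
  have h := TC.checkBlocks_sound act q0 F h31 adm hadm _ 378628 382186 (by norm_num) blk54 h
  have h := TC.checkBlocks_sound act q0 F h31 adm hadm _ 382186 385672 (by norm_num) blk55 h
  have h := TC.checkBlocks_sound act q0 F h31 adm hadm _ 385672 389040 (by norm_num) blk56 h
  have h := TC.checkBlocks_sound act q0 F h31 adm hadm _ 389040 392467 (by norm_num) blk57 h
  have h := TC.checkBlocks_sound act q0 F h31 adm hadm _ 392467 395743 (by norm_num) blk58 h
  have h := TC.checkBlocks_sound act q0 F h31 adm hadm _ 395743 399176 (by norm_num) blk59 h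
  have h := TC.checkBlocks_sound act q0 F h31 adm hadm _ 399176 402528 (by norm_num) blk60 h
  have h := TC.checkBlocks_sound act q0 F h31 adm hadm _ 402528 406115 (by norm_num) blk61 h
  have h := TC.checkBlocks_sound act q0 F h31 adm hadm _ 406115 409443 (by norm_num) blk62 h
  have h := TC.checkBlocks_sound act q0 F h31 adm hadm _ 409443 412829 (by norm_num) blk63 h
  have h := TC.checkBlocks_sound act q0 F h31 adm hadm _ 412829 415800 (by norm_num) blk64 h
  have h := TC.checkBlocks_sound act q0 F h31 adm hadm _ 415800 419110 (by norm_num) blk65 h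
  have h := TC.checkBlocks_sound act q0 F h31 adm hadm _ 419110 422340 (by norm_num) blk66 h
  have h := TC.checkBlocks_sound act q0 F h31 adm hadm _ 422340 425554 (by norm_num) blk67 h
  have h := TC.checkBlocks_sound act q0 F h31 adm hadm _ 425554 428938 (by norm_num) blk68 h
  have h := TC.checkBlocks_sound act q0 F h31 adm hadm _ 428938 432061 (by norm_num) blk69 h
  have h := TC.checkBlocks_sound act q0 F h31 adm hadm _ 432061 435164 (by norm_num) blk70 h
  have h := TC.checkBlocks_sound act q0 F h31 adm hadm _ 435164 438747 (by norm_num) blk71 h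
  have h := TC.checkBlocks_sound act q0 F h31 adm hadm _ 438747 441453 (by norm_num) blk72 h
  have h := TC.checkBlocks_sound act q0 F h31 adm hadm _ 441453 444767 (by norm_num) blk73 h
  have h := TC.checkBlocks_sound act q0 F h31 adm hadm _ 444767 447755 (by norm_num) blk74 h
  have h := TC.checkBlocks_sound act q0 F h31 adm hadm _ 447755 450948 (by norm_num) blk75 h
  have h := TC.checkBlocks_sound act q0 F h31 adm hadm _ 450948 454080 (by norm_num) blk76 h
  have h := TC.checkBlocks_sound act q0 F h31 adm hadm _ 454080 457104 (by norm_num) blk77 h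
  have h := TC.checkBlocks_sound act q0 F h31 adm hadm _ 457104 460406 (by norm_num) blk78 h
  have h := TC.checkBlocks_sound act q0 F h31 adm hadm _ 460406 463292 (by norm_num) blk79 h
  have h := TC.checkBlocks_sound act q0 F h31 adm hadm _ 463292 466224 (by norm_num) blk80 h
  have h := TC.checkBlocks_sound act q0 F h31 adm hadm _ 466224 469296 (by norm_num) blk81 h
  have h := TC.checkBlocks_sound act q0 F h31 adm hadm _ 469296 469735 (by norm_num) blk82 h
  exact h

theorem closed {Q : Type*} (act : ℕ → Q → Q) (q0 : Q) (h31 : ∀ x, act 31 x = x)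
    (hadm : ∀ a ∈ adm, TC.AdmOK act q0 a) (hl : ∀ e ∈ letters, TC.PairOK act e) :
    ∀ e ∈ letters, ∀ u < 156408, ∃ v ≤ 156407, act e.1 (TC.kap act q0 F u) = TC.kap act q0 F v := by
  have hV : ∀ d, d ≤ 939469 → TC.Valid act q0 F (d / 2) := fun d hd => valid act q0 h31 hadm _ (by omega)
  intro e he
  have hp := hl e he
  simp only [letters, List.mem_cons, List.mem_nil_iff, or_false] at he
  rcases he with rfl | rfl | rfl | rfl | rfl | rfl
  · have h : ∀ u < 0, ∃ v ≤ 156407, act ((2, 2097152) : ℕ × ℕ).1 (TC.kap act q0 F u) = TC.kap act q0 F v := fun u hu => absurd hu (Nat.not_lt_zero u)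
    have h := (TC.checkCL_sound act q0 F _ _ _ hp hV _ 0 10000 (by norm_num) cmp0_0 h).2
    have h := (TC.checkCL_sound act q0 F _ _ _ hp hV _ 10000 20000 (by norm_num) cmp0_1 h).2
    have h := (TC.checkCL_sound act q0 F _ _ _ hp hV _ 20000 30000 (by norm_num) cmp0_2 h).2
    have h := (TC.checkCL_sound act q0 F _ _ _ hp hV _ 30000 40000 (by norm_num) cmp0_3 h).2
    have h := (TC.checkCL_sound act q0 F _ _ _ hp hV _ 40000 50000 (by norm_num) cmp0_4 h).2
    have h := (TC.checkCL_sound act q0 F _ _ _ hp hV _ 50000 60000 (by norm_num) cmp0_5 h).2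
    have h := (TC.checkCL_sound act q0 F _ _ _ hp hV _ 60000 70000 (by norm_num) cmp0_6 h).2
    have h := (TC.checkCL_sound act q0 F _ _ _ hp hV _ 70000 80000 (by norm_num) cmp0_7 h).2
    have h := (TC.checkCL_sound act q0 F _ _ _ hp hV _ 80000 90000 (by norm_num) cmp0_8 h).2
    have h := (TC.checkCL_sound act q0 F _ _ _ hp hV _ 90000 100000 (by norm_num) cmp0_9 h).2
    have h := (TC.checkCL_sound act q0 F _ _ _ hp hV _ 100000 110000 (by norm_num) cmp0_10 h).2
    have h := (TC.checkCL_sound act q0 F _ _ _ hp hV _ 110000 120000 (by norm_num) cmp0_11 h).2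
    have h := (TC.checkCL_sound act q0 F _ _ _ hp hV _ 120000 130000 (by norm_num) cmp0_12 h).2
    have h := (TC.checkCL_sound act q0 F _ _ _ hp hV _ 130000 140000 (by norm_num) cmp0_13 h).2
    have h := (TC.checkCL_sound act q0 F _ _ _ hp hV _ 140000 150000 (by norm_num) cmp0_14 h).2
    have h := (TC.checkCL_sound act q0 F _ _ _ hp hV _ 150000 156408 (by norm_num) cmp0_15 h).2
    exact h
  · have h : ∀ u < 0, ∃ v ≤ 156407, act ((4, 4194304) : ℕ × ℕ).1 (TC.kap act q0 F u) = TC.kap act q0 F v := fun u hu => absurd hu (Nat.not_lt_zero u)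
    have h := (TC.checkCL_sound act q0 F _ _ _ hp hV _ 0 10000 (by norm_num) cmp1_0 h).2
    have h := (TC.checkCL_sound act q0 F _ _ _ hp hV _ 10000 20000 (by norm_num) cmp1_1 h).2
    have h := (TC.checkCL_sound act q0 F _ _ _ hp hV _ 20000 30000 (by norm_num) cmp1_2 h).2
    have h := (TC.checkCL_sound act q0 F _ _ _ hp hV _ 30000 40000 (by norm_num) cmp1_3 h).2
    have h := (TC.checkCL_sound act q0 F _ _ _ hp hV _ 40000 50000 (by norm_num) cmp1_4 h).2
    have h := (TC.checkCL_sound act q0 F _ _ _ hp hV _ 50000 60000 (by norm_num) cmp1_5 h).2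
    have h := (TC.checkCL_sound act q0 F _ _ _ hp hV _ 60000 70000 (by norm_num) cmp1_6 h).2
    have h := (TC.checkCL_sound act q0 F _ _ _ hp hV _ 70000 80000 (by norm_num) cmp1_7 h).2
    have h := (TC.checkCL_sound act q0 F _ _ _ hp hV _ 80000 90000 (by norm_num) cmp1_8 h).2
    have h := (TC.checkCL_sound act q0 F _ _ _ hp hV _ 90000 100000 (by norm_num) cmp1_9 h).2
    have h := (TC.checkCL_sound act q0 F _ _ _ hp hV _ 100000 110000 (by norm_num) cmp1_10 h).2
    have h := (TC.checkCL_sound act q0 F _ _ _ hp hV _ 110000 120000 (by norm_num) cmp1_11 h).2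
    have h := (TC.checkCL_sound act q0 F _ _ _ hp hV _ 120000 130000 (by norm_num) cmp1_12 h).2
    have h := (TC.checkCL_sound act q0 F _ _ _ hp hV _ 130000 140000 (by norm_num) cmp1_13 h).2
    have h := (TC.checkCL_sound act q0 F _ _ _ hp hV _ 140000 150000 (by norm_num) cmp1_14 h).2
    have h := (TC.checkCL_sound act q0 F _ _ _ hp hV _ 150000 156408 (by norm_num) cmp1_15 h).2
    exact h
  · have h : ∀ u < 0, ∃ v ≤ 156407, act ((6, 6291456) : ℕ × ℕ).1 (TC.kap act q0 F u) = TC.kap act q0 F v := fun u hu => absurd hu (Nat.not_lt_zero u)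
    have h := (TC.checkCL_sound act q0 F _ _ _ hp hV _ 0 10000 (by norm_num) cmp2_0 h).2
    have h := (TC.checkCL_sound act q0 F _ _ _ hp hV _ 10000 20000 (by norm_num) cmp2_1 h).2
    have h := (TC.checkCL_sound act q0 F _ _ _ hp hV _ 20000 30000 (by norm_num) cmp2_2 h).2
    have h := (TC.checkCL_sound act q0 F _ _ _ hp hV _ 30000 40000 (by norm_num) cmp2_3 h).2
    have h := (TC.checkCL_sound act q0 F _ _ _ hp hV _ 40000 50000 (by norm_num) cmp2_4 h).2
    have h := (TC.checkCL_sound act q0 F _ _ _ hp hV _ 50000 60000 (by norm_num) cmp2_5 h).2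
    have h := (TC.checkCL_sound act q0 F _ _ _ hp hV _ 60000 70000 (by norm_num) cmp2_6 h).2
    have h := (TC.checkCL_sound act q0 F _ _ _ hp hV _ 70000 80000 (by norm_num) cmp2_7 h).2
    have h := (TC.checkCL_sound act q0 F _ _ _ hp hV _ 80000 90000 (by norm_num) cmp2_8 h).2
    have h := (TC.checkCL_sound act q0 F _ _ _ hp hV _ 90000 100000 (by norm_num) cmp2_9 h).2
    have h := (TC.checkCL_sound act q0 F _ _ _ hp hV _ 100000 110000 (by norm_num) cmp2_10 h).2
    have h := (TC.checkCL_sound act q0 F _ _ _ hp hV _ 110000 120000 (by norm_num) cmp2_11 h).2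
    have h := (TC.checkCL_sound act q0 F _ _ _ hp hV _ 120000 130000 (by norm_num) cmp2_12 h).2
    have h := (TC.checkCL_sound act q0 F _ _ _ hp hV _ 130000 140000 (by norm_num) cmp2_13 h).2
    have h := (TC.checkCL_sound act q0 F _ _ _ hp hV _ 140000 150000 (by norm_num) cmp2_14 h).2
    have h := (TC.checkCL_sound act q0 F _ _ _ hp hV _ 150000 156408 (by norm_num) cmp2_15 h).2
    exact h
  · have h : ∀ u < 0, ∃ v ≤ 156407, act ((8, 8388608) : ℕ × ℕ).1 (TC.kap act q0 F u) = TC.kap act q0 F v := fun u hu => absurd hu (Nat.not_lt_zero u)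
    have h := (TC.checkCL_sound act q0 F _ _ _ hp hV _ 0 10000 (by norm_num) cmp3_0 h).2
    have h := (TC.checkCL_sound act q0 F _ _ _ hp hV _ 10000 20000 (by norm_num) cmp3_1 h).2
    have h := (TC.checkCL_sound act q0 F _ _ _ hp hV _ 20000 30000 (by norm_num) cmp3_2 h).2
    have h := (TC.checkCL_sound act q0 F _ _ _ hp hV _ 30000 40000 (by norm_num) cmp3_3 h).2
    have h := (TC.checkCL_sound act q0 F _ _ _ hp hV _ 40000 50000 (by norm_num) cmp3_4 h).2
    have h := (TC.checkCL_sound act q0 F _ _ _ hp hV _ 50000 60000 (by norm_num) cmp3_5 h).2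
    have h := (TC.checkCL_sound act q0 F _ _ _ hp hV _ 60000 70000 (by norm_num) cmp3_6 h).2
    have h := (TC.checkCL_sound act q0 F _ _ _ hp hV _ 70000 80000 (by norm_num) cmp3_7 h).2
    have h := (TC.checkCL_sound act q0 F _ _ _ hp hV _ 80000 90000 (by norm_num) cmp3_8 h).2
    have h := (TC.checkCL_sound act q0 F _ _ _ hp hV _ 90000 100000 (by norm_num) cmp3_9 h).2
    have h := (TC.checkCL_sound act q0 F _ _ _ hp hV _ 100000 110000 (by norm_num) cmp3_10 h).2
    have h := (TC.checkCL_sound act q0 F _ _ _ hp hV _ 110000 120000 (by norm_num) cmp3_11 h).2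
    have h := (TC.checkCL_sound act q0 F _ _ _ hp hV _ 120000 130000 (by norm_num) cmp3_12 h).2
    have h := (TC.checkCL_sound act q0 F _ _ _ hp hV _ 130000 140000 (by norm_num) cmp3_13 h).2
    have h := (TC.checkCL_sound act q0 F _ _ _ hp hV _ 140000 150000 (by norm_num) cmp3_14 h).2
    have h := (TC.checkCL_sound act q0 F _ _ _ hp hV _ 150000 156408 (by norm_num) cmp3_15 h).2
    exact h
  · have h : ∀ u < 0, ∃ v ≤ 156407, act ((10, 10485760) : ℕ × ℕ).1 (TC.kap act q0 F u) = TC.kap act q0 F v := fun u hu => absurd hu (Nat.not_lt_zero u)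
    have h := (TC.checkCL_sound act q0 F _ _ _ hp hV _ 0 10000 (by norm_num) cmp4_0 h).2
    have h := (TC.checkCL_sound act q0 F _ _ _ hp hV _ 10000 20000 (by norm_num) cmp4_1 h).2
    have h := (TC.checkCL_sound act q0 F _ _ _ hp hV _ 20000 30000 (by norm_num) cmp4_2 h).2
    have h := (TC.checkCL_sound act q0 F _ _ _ hp hV _ 30000 40000 (by norm_num) cmp4_3 h).2
    have h := (TC.checkCL_sound act q0 F _ _ _ hp hV _ 40000 50000 (by norm_num) cmp4_4 h).2
    have h := (TC.checkCL_sound act q0 F _ _ _ hp hV _ 50000 60000 (by norm_num) cmp4_5 h).2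
    have h := (TC.checkCL_sound act q0 F _ _ _ hp hV _ 60000 70000 (by norm_num) cmp4_6 h).2
    have h := (TC.checkCL_sound act q0 F _ _ _ hp hV _ 70000 80000 (by norm_num) cmp4_7 h).2
    have h := (TC.checkCL_sound act q0 F _ _ _ hp hV _ 80000 90000 (by norm_num) cmp4_8 h).2
    have h := (TC.checkCL_sound act q0 F _ _ _ hp hV _ 90000 100000 (by norm_num) cmp4_9 h).2
    have h := (TC.checkCL_sound act q0 F _ _ _ hp hV _ 100000 110000 (by norm_num) cmp4_10 h).2
    have h := (TC.checkCL_sound act q0 F _ _ _ hp hV _ 110000 120000 (by norm_num) cmp4_11 h).2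
    have h := (TC.checkCL_sound act q0 F _ _ _ hp hV _ 120000 130000 (by norm_num) cmp4_12 h).2
    have h := (TC.checkCL_sound act q0 F _ _ _ hp hV _ 130000 140000 (by norm_num) cmp4_13 h).2
    have h := (TC.checkCL_sound act q0 F _ _ _ hp hV _ 140000 150000 (by norm_num) cmp4_14 h).2
    have h := (TC.checkCL_sound act q0 F _ _ _ hp hV _ 150000 156408 (by norm_num) cmp4_15 h).2
    exact h
  · have h : ∀ u < 0, ∃ v ≤ 156407, act ((12, 12582912) : ℕ × ℕ).1 (TC.kap act q0 F u) = TC.kap act q0 F v := fun u hu => absurd hu (Nat.not_lt_zero u)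
    have h := (TC.checkCL_sound act q0 F _ _ _ hp hV _ 0 10000 (by norm_num) cmp5_0 h).2
    have h := (TC.checkCL_sound act q0 F _ _ _ hp hV _ 10000 20000 (by norm_num) cmp5_1 h).2
    have h := (TC.checkCL_sound act q0 F _ _ _ hp hV _ 20000 30000 (by norm_num) cmp5_2 h).2
    have h := (TC.checkCL_sound act q0 F _ _ _ hp hV _ 30000 40000 (by norm_num) cmp5_3 h).2
    have h := (TC.checkCL_sound act q0 F _ _ _ hp hV _ 40000 50000 (by norm_num) cmp5_4 h).2
    have h := (TC.checkCL_sound act q0 F _ _ _ hp hV _ 50000 60000 (by norm_num) cmp5_5 h).2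
    have h := (TC.checkCL_sound act q0 F _ _ _ hp hV _ 60000 70000 (by norm_num) cmp5_6 h).2
    have h := (TC.checkCL_sound act q0 F _ _ _ hp hV _ 70000 80000 (by norm_num) cmp5_7 h).2
    have h := (TC.checkCL_sound act q0 F _ _ _ hp hV _ 80000 90000 (by norm_num) cmp5_8 h).2
    have h := (TC.checkCL_sound act q0 F _ _ _ hp hV _ 90000 100000 (by norm_num) cmp5_9 h).2
    have h := (TC.checkCL_sound act q0 F _ _ _ hp hV _ 100000 110000 (by norm_num) cmp5_10 h).2
    have h := (TC.checkCL_sound act q0 F _ _ _ hp hV _ 110000 120000 (by norm_num) cmp5_11 h).2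
    have h := (TC.checkCL_sound act q0 F _ _ _ hp hV _ 120000 130000 (by norm_num) cmp5_12 h).2
    have h := (TC.checkCL_sound act q0 F _ _ _ hp hV _ 130000 140000 (by norm_num) cmp5_13 h).2
    have h := (TC.checkCL_sound act q0 F _ _ _ hp hV _ 140000 150000 (by norm_num) cmp5_14 h).2
    have h := (TC.checkCL_sound act q0 F _ _ _ hp hV _ 150000 156408 (by norm_num) cmp5_15 h).2
    exact h

end Cfsg.Agent.Lib.Helper11.ONU1
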