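import Cfsg.Agent.Lib.Helper11.ONU2F

set_option autoImplicit false
set_option maxRecDepth 100000
set_option Elab.async false

namespace Cfsg.Agent.Lib.Helper11.ONU2

open Cfsg.Agent.Lib.Helper11

theorem dfs0 : TC.checkDefs F 1 23 = true := by decide +kernel

theorem blk0 : TC.checkBlocks F adm [(1, 3, 2873429550170991443644785640881942805039976353558953991), (0, 4, 28430700270232768801044447412682435040963808138964528312114625746294069815936059777244302670129768106208768107017998285041303565), (2, 3, 18773326541839642939830554160877249305420246475857659391993180405259251637078691434609726455825), (3, 3, 4214364267390976833658505907975023798764174354700828711)] 24 37 = true := by decide +kernel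

theorem cmp0_0 : TC.checkCL F 73 23 (2, 2097152) [(24, 9846361196211063039248016009080903520103403364454868976417992553896266447243994625889120167194796441453641922989665756562861666587938209911647360161677314)] 0 24 = true := by decide +kernel

theorem cmp1_0 : TC.checkCL F 73 23 (4, 4194304) [(24, 12779319880157883870484098357739827983188890680479836792045519086923397342354592195361841648822749634959367463618374924159938221291085044030403100790489092)] 0 24 = true := by decide +kernel

theorem cmp2_0 : TC.checkCL F 73 23 (6, 6291456) [(24, 15293284516345950286236679189114301978006996346699525789882591934739726887029959026202346908128109830680913098540300491054511940682652945065392129347420166)] 0 24 = true := by decide +kernel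

end Cfsg.Agent.Lib.Helper11.ONU2
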