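import Cfsg.Agent.Lib.Helper11.TCCore
import Cfsg.Agent.Lib.Helper11.ONaB0
import Cfsg.Agent.Lib.Helper11.ONaB1
import Cfsg.Agent.Lib.Helper11.ONaB2
import Cfsg.Agent.Lib.Helper11.ONaB3
import Cfsg.Agent.Lib.Helper11.ONaB4
import Cfsg.Agent.Lib.Helper11.ONaB5
import Cfsg.Agent.Lib.Helper11.ONaB6
import Cfsg.Agent.Lib.Helper11.ONaB7
import Cfsg.Agent.Lib.Helper11.ONaB8
import Cfsg.Agent.Lib.Helper11.ONaB9
import Cfsg.Agent.Lib.Helper11.ONaB10
import Cfsg.Agent.Lib.Helper11.ONaB11

set_option autoImplicit false
set_option maxRecDepth 100000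

namespace Cfsg.Agent.Lib.Helper11.ONa

open Cfsg.Agent.Lib.Helper11

theorem f0 : F 0 = 32505856 := by decide +kernel

theorem valid {Q : Type*} (act : ℕ → Q → Q) (q0 : Q) (h31 : ∀ x, act 31 x = x)
    (hadm : ∀ a ∈ adm, TC.AdmOK act q0 a) :
    ∀ f < 724085, TC.Valid act q0 F f := by
  have h := TC.valid_zero act q0 F h31 f0
  have h := TC.checkDefs_chain act q0 F 1 10000 dfs0 h
  have h := TC.checkDefs_chain act q0 F 10001 10000 dfs1 h
  have h := TC.checkDefs_chain act q0 F 20001 10000 dfs2 h
  have h := TC.checkDefs_chain act q0 F 30001 10000 dfs3 h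
  have h := TC.checkDefs_chain act q0 F 40001 10000 dfs4 h
  have h := TC.checkDefs_chain act q0 F 50001 10000 dfs5 h
  have h := TC.checkDefs_chain act q0 F 60001 10000 dfs6 h
  have h := TC.checkDefs_chain act q0 F 70001 10000 dfs7 h
  have h := TC.checkDefs_chain act q0 F 80001 10000 dfs8 h
  have h := TC.checkDefs_chain act q0 F 90001 10000 dfs9 h
  have h := TC.checkDefs_chain act q0 F 100001 10000 dfs10 h
  have h := TC.checkDefs_chain act q0 F 110001 10000 dfs11 h
  have h := TC.checkDefs_chain act q0 F 120001 10000 dfs12 h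
  have h := TC.checkDefs_chain act q0 F 130001 10000 dfs13 h
  have h := TC.checkDefs_chain act q0 F 140001 10000 dfs14 h
  have h := TC.checkDefs_chain act q0 F 150001 10000 dfs15 h
  have h := TC.checkDefs_chain act q0 F 160001 10000 dfs16 h
  have h := TC.checkDefs_chain act q0 F 170001 10000 dfs17 h
  have h := TC.checkDefs_chain act q0 F 180001 10000 dfs18 h
  have h := TC.checkDefs_chain act q0 F 190001 3403 dfs19 h
  have h := TC.checkBlocks_sound act q0 F h31 adm hadm _ 193404 198468 (by norm_num) blk0 h
  have h := TC.checkBlocks_sound act q0 F h31 adm hadm _ 198468 203564 (by norm_num) blk1 h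
  have h := TC.checkBlocks_sound act q0 F h31 adm hadm _ 203564 208150 (by norm_num) blk2 h
  have h := TC.checkBlocks_sound act q0 F h31 adm hadm _ 208150 212987 (by norm_num) blk3 h
  have h := TC.checkBlocks_sound act q0 F h31 adm hadm _ 212987 217527 (by norm_num) blk4 h
  have h := TC.checkBlocks_sound act q0 F h31 adm hadm _ 217527 222030 (by norm_num) blk5 h
  have h := TC.checkBlocks_sound act q0 F h31 adm hadm _ 222030 226351 (by norm_num) blk6 h
  have h := TC.checkBlocks_sound act q0 F h31 adm hadm _ 226351 229965 (by norm_num) blk7 h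
  have h := TC.checkBlocks_sound act q0 F h31 adm hadm _ 229965 233730 (by norm_num) blk8 h
  have h := TC.checkBlocks_sound act q0 F h31 adm hadm _ 233730 237026 (by norm_num) blk9 h
  have h := TC.checkBlocks_sound act q0 F h31 adm hadm _ 237026 240502 (by norm_num) blk10 h
  have h := TC.checkBlocks_sound act q0 F h31 adm hadm _ 240502 243712 (by norm_num) blk11 h
  have h := TC.checkBlocks_sound act q0 F h31 adm hadm _ 243712 246611 (by norm_num) blk12 h
  have h := TC.checkBlocks_sound act q0 F h31 adm hadm _ 246611 249832 (by norm_num) blk13 h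
  have h := TC.checkBlocks_sound act q0 F h31 adm hadm _ 249832 252527 (by norm_num) blk14 h
  have h := TC.checkBlocks_sound act q0 F h31 adm hadm _ 252527 255543 (by norm_num) blk15 h
  have h := TC.checkBlocks_sound act q0 F h31 adm hadm _ 255543 258673 (by norm_num) blk16 h
  have h := TC.checkBlocks_sound act q0 F h31 adm hadm _ 258673 261696 (by norm_num) blk17 h
  have h := TC.checkBlocks_sound act q0 F h31 adm hadm _ 261696 264538 (by norm_num) blk18 h
  have h := TC.checkBlocks_sound act q0 F h31 adm hadm _ 264538 267141 (by norm_num) blk19 h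
  have h := TC.checkBlocks_sound act q0 F h31 adm hadm _ 267141 270047 (by norm_num) blk20 h
  have h := TC.checkBlocks_sound act q0 F h31 adm hadm _ 270047 272763 (by norm_num) blk21 h
  have h := TC.checkBlocks_sound act q0 F h31 adm hadm _ 272763 275716 (by norm_num) blk22 h
  have h := TC.checkBlocks_sound act q0 F h31 adm hadm _ 275716 278792 (by norm_num) blk23 h
  have h := TC.checkBlocks_sound act q0 F h31 adm hadm _ 278792 281941 (by norm_num) blk24 h
  have h := TC.checkBlocks_sound act q0 F h31 adm hadm _ 281941 285252 (by norm_num) blk25 h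
  have h := TC.checkBlocks_sound act q0 F h31 adm hadm _ 285252 288011 (by norm_num) blk26 h
  have h := TC.checkBlocks_sound act q0 F h31 adm hadm _ 288011 290971 (by norm_num) blk27 h
  have h := TC.checkBlocks_sound act q0 F h31 adm hadm _ 290971 293687 (by norm_num) blk28 h
  have h := TC.checkBlocks_sound act q0 F h31 adm hadm _ 293687 296879 (by norm_num) blk29 h
  have h := TC.checkBlocks_sound act q0 F h31 adm hadm _ 296879 299797 (by norm_num) blk30 h
  have h := TC.checkBlocks_sound act q0 F h31 adm hadm _ 299797 302933 (by norm_num) blk31 h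
  have h := TC.checkBlocks_sound act q0 F h31 adm hadm _ 302933 305791 (by norm_num) blk32 h
  have h := TC.checkBlocks_sound act q0 F h31 adm hadm _ 305791 309108 (by norm_num) blk33 h
  have h := TC.checkBlocks_sound act q0 F h31 adm hadm _ 309108 312317 (by norm_num) blk34 h
  have h := TC.checkBlocks_sound act q0 F h31 adm hadm _ 312317 315167 (by norm_num) blk35 h
  have h := TC.checkBlocks_sound act q0 F h31 adm hadm _ 315167 317987 (by norm_num) blk36 h
  have h := TC.checkBlocks_sound act q0 F h31 adm hadm _ 317987 320784 (by norm_num) blk37 h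
  have h := TC.checkBlocks_sound act q0 F h31 adm hadm _ 320784 323853 (by norm_num) blk38 h
  have h := TC.checkBlocks_sound act q0 F h31 adm hadm _ 323853 326471 (by norm_num) blk39 h
  have h := TC.checkBlocks_sound act q0 F h31 adm hadm _ 326471 329091 (by norm_num) blk40 h
  have h := TC.checkBlocks_sound act q0 F h31 adm hadm _ 329091 331864 (by norm_num) blk41 h
  have h := TC.checkBlocks_sound act q0 F h31 adm hadm _ 331864 335716 (by norm_num) blk42 h
  have h := TC.checkBlocks_sound act q0 F h31 adm hadm _ 335716 338842 (by norm_num) blk43 h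
  have h := TC.checkBlocks_sound act q0 F h31 adm hadm _ 338842 341935 (by norm_num) blk44 h
  have h := TC.checkBlocks_sound act q0 F h31 adm hadm _ 341935 344999 (by norm_num) blk45 h
  have h := TC.checkBlocks_sound act q0 F h31 adm hadm _ 344999 348072 (by norm_num) blk46 h
  have h := TC.checkBlocks_sound act q0 F h31 adm hadm _ 348072 351298 (by norm_num) blk47 h
  have h := TC.checkBlocks_sound act q0 F h31 adm hadm _ 351298 354889 (by norm_num) blk48 h
  have h := TC.checkBlocks_sound act q0 F h31 adm hadm _ 354889 358048 (by norm_num) blk49 h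
  have h := TC.checkBlocks_sound act q0 F h31 adm hadm _ 358048 361138 (by norm_num) blk50 h
  have h := TC.checkBlocks_sound act q0 F h31 adm hadm _ 361138 364135 (by norm_num) blk51 h
  have h := TC.checkBlocks_sound act q0 F h31 adm hadm _ 364135 367174 (by norm_num) blk52 h
  have h := TC.checkBlocks_sound act q0 F h31 adm hadm _ 367174 370319 (by norm_num) blk53 h
  have h := TC.checkBlocks_sound act q0 F h31 adm hadm _ 370319 373515 (by norm_num) blk54 h
  have h := TC.checkBlocks_sound act q0 F h31 adm hadm _ 373515 376738 (by norm_num) blk55 h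
  have h := TC.checkBlocks_sound act q0 F h31 adm hadm _ 376738 379669 (by norm_num) blk56 h
  have h := TC.checkBlocks_sound act q0 F h31 adm hadm _ 379669 382685 (by norm_num) blk57 h
  have h := TC.checkBlocks_sound act q0 F h31 adm hadm _ 382685 385678 (by norm_num) blk58 h
  have h := TC.checkBlocks_sound act q0 F h31 adm hadm _ 385678 388814 (by norm_num) blk59 h
  have h := TC.checkBlocks_sound act q0 F h31 adm hadm _ 388814 392041 (by norm_num) blk60 h
  have h := TC.checkBlocks_sound act q0 F h31 adm hadm _ 392041 395109 (by norm_num) blk61 h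
  have h := TC.checkBlocks_sound act q0 F h31 adm hadm _ 395109 398254 (by norm_num) blk62 h
  have h := TC.checkBlocks_sound act q0 F h31 adm hadm _ 398254 401414 (by norm_num) blk63 h
  have h := TC.checkBlocks_sound act q0 F h31 adm hadm _ 401414 404564 (by norm_num) blk64 h
  have h := TC.checkBlocks_sound act q0 F h31 adm hadm _ 404564 407585 (by norm_num) blk65 h
  have h := TC.checkBlocks_sound act q0 F h31 adm hadm _ 407585 410449 (by norm_num) blk66 h
  have h := TC.checkBlocks_sound act q0 F h31 adm hadm _ 410449 413538 (by norm_num) blk67 h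
  have h := TC.checkBlocks_sound act q0 F h31 adm hadm _ 413538 416670 (by norm_num) blk68 h
  have h := TC.checkBlocks_sound act q0 F h31 adm hadm _ 416670 419764 (by norm_num) blk69 h
  have h := TC.checkBlocks_sound act q0 F h31 adm hadm _ 419764 422886 (by norm_num) blk70 h
  have h := TC.checkBlocks_sound act q0 F h31 adm hadm _ 422886 426426 (by norm_num) blk71 h
  have h := TC.checkBlocks_sound act q0 F h31 adm hadm _ 426426 429682 (by norm_num) blk72 h
  have h := TC.checkBlocks_sound act q0 F h31 adm hadm _ 429682 432717 (by norm_num) blk73 h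
  have h := TC.checkBlocks_sound act q0 F h31 adm hadm _ 432717 436027 (by norm_num) blk74 h
  have h := TC.checkBlocks_sound act q0 F h31 adm hadm _ 436027 439373 (by norm_num) blk75 h
  have h := TC.checkBlocks_sound act q0 F h31 adm hadm _ 439373 442634 (by norm_num) blk76 h
  have h := TC.checkBlocks_sound act q0 F h31 adm hadm _ 442634 445921 (by norm_num) blk77 h
  have h := TC.checkBlocks_sound act q0 F h31 adm hadm _ 445921 449550 (by norm_num) blk78 h
  have h := TC.checkBlocks_sound act q0 F h31 adm hadm _ 449550 454307 (by norm_num) blk79 h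
  have h := TC.checkBlocks_sound act q0 F h31 adm hadm _ 454307 459669 (by norm_num) blk80 h
  have h := TC.checkBlocks_sound act q0 F h31 adm hadm _ 459669 463495 (by norm_num) blk81 h
  have h := TC.checkBlocks_sound act q0 F h31 adm hadm _ 463495 467899 (by norm_num) blk82 h
  have h := TC.checkBlocks_sound act q0 F h31 adm hadm _ 467899 471806 (by norm_num) blk83 h
  have h := TC.checkBlocks_sound act q0 F h31 adm hadm _ 471806 476391 (by norm_num) blk84 h
  have h := TC.checkBlocks_sound act q0 F h31 adm hadm _ 476391 481149 (by norm_num) blk85 h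
  have h := TC.checkBlocks_sound act q0 F h31 adm hadm _ 481149 486013 (by norm_num) blk86 h
  have h := TC.checkBlocks_sound act q0 F h31 adm hadm _ 486013 491148 (by norm_num) blk87 h
  have h := TC.checkBlocks_sound act q0 F h31 adm hadm _ 491148 495617 (by norm_num) blk88 h
  have h := TC.checkBlocks_sound act q0 F h31 adm hadm _ 495617 500340 (by norm_num) blk89 h
  have h := TC.checkBlocks_sound act q0 F h31 adm hadm _ 500340 504347 (by norm_num) blk90 h
  have h := TC.checkBlocks_sound act q0 F h31 adm hadm _ 504347 509052 (by norm_num) blk91 h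
  have h := TC.checkBlocks_sound act q0 F h31 adm hadm _ 509052 513941 (by norm_num) blk92 h
  have h := TC.checkBlocks_sound act q0 F h31 adm hadm _ 513941 517925 (by norm_num) blk93 h
  have h := TC.checkBlocks_sound act q0 F h31 adm hadm _ 517925 522092 (by norm_num) blk94 h
  have h := TC.checkBlocks_sound act q0 F h31 adm hadm _ 522092 525925 (by norm_num) blk95 h
  have h := TC.checkBlocks_sound act q0 F h31 adm hadm _ 525925 529850 (by norm_num) blk96 h
  have h := TC.checkBlocks_sound act q0 F h31 adm hadm _ 529850 533903 (by norm_num) blk97 h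
  have h := TC.checkBlocks_sound act q0 F h31 adm hadm _ 533903 537709 (by norm_num) blk98 h
  have h := TC.checkBlocks_sound act q0 F h31 adm hadm _ 537709 541692 (by norm_num) blk99 h
  have h := TC.checkBlocks_sound act q0 F h31 adm hadm _ 541692 545279 (by norm_num) blk100 h
  have h := TC.checkBlocks_sound act q0 F h31 adm hadm _ 545279 549092 (by norm_num) blk101 h
  have h := TC.checkBlocks_sound act q0 F h31 adm hadm _ 549092 552610 (by norm_num) blk102 h
  have h := TC.checkBlocks_sound act q0 F h31 adm hadm _ 552610 556047 (by norm_num) blk103 h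
  have h := TC.checkBlocks_sound act q0 F h31 adm hadm _ 556047 559509 (by norm_num) blk104 h
  have h := TC.checkBlocks_sound act q0 F h31 adm hadm _ 559509 562848 (by norm_num) blk105 h
  have h := TC.checkBlocks_sound act q0 F h31 adm hadm _ 562848 566071 (by norm_num) blk106 h
  have h := TC.checkBlocks_sound act q0 F h31 adm hadm _ 566071 569344 (by norm_num) blk107 h
  have h := TC.checkBlocks_sound act q0 F h31 adm hadm _ 569344 572531 (by norm_num) blk108 h
  have h := TC.checkBlocks_sound act q0 F h31 adm hadm _ 572531 575729 (by norm_num) blk109 h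
  have h := TC.checkBlocks_sound act q0 F h31 adm hadm _ 575729 579188 (by norm_num) blk110 h
  have h := TC.checkBlocks_sound act q0 F h31 adm hadm _ 579188 582578 (by norm_num) blk111 h
  have h := TC.checkBlocks_sound act q0 F h31 adm hadm _ 582578 585662 (by norm_num) blk112 h
  have h := TC.checkBlocks_sound act q0 F h31 adm hadm _ 585662 588761 (by norm_num) blk113 h
  have h := TC.checkBlocks_sound act q0 F h31 adm hadm _ 588761 591941 (by norm_num) blk114 h
  have h := TC.checkBlocks_sound act q0 F h31 adm hadm _ 591941 595000 (by norm_num) blk115 h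
  have h := TC.checkBlocks_sound act q0 F h31 adm hadm _ 595000 598128 (by norm_num) blk116 h
  have h := TC.checkBlocks_sound act q0 F h31 adm hadm _ 598128 601130 (by norm_num) blk117 h
  have h := TC.checkBlocks_sound act q0 F h31 adm hadm _ 601130 604141 (by norm_num) blk118 h
  have h := TC.checkBlocks_sound act q0 F h31 adm hadm _ 604141 607203 (by norm_num) blk119 h
  have h := TC.checkBlocks_sound act q0 F h31 adm hadm _ 607203 610020 (by norm_num) blk120 h
  have h := TC.checkBlocks_sound act q0 F h31 adm hadm _ 610020 613074 (by norm_num) blk121 h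
  have h := TC.checkBlocks_sound act q0 F h31 adm hadm _ 613074 615989 (by norm_num) blk122 h
  have h := TC.checkBlocks_sound act q0 F h31 adm hadm _ 615989 618981 (by norm_num) blk123 h
  have h := TC.checkBlocks_sound act q0 F h31 adm hadm _ 618981 621816 (by norm_num) blk124 h
  have h := TC.checkBlocks_sound act q0 F h31 adm hadm _ 621816 624689 (by norm_num) blk125 h
  have h := TC.checkBlocks_sound act q0 F h31 adm hadm _ 624689 627453 (by norm_num) blk126 h
  have h := TC.checkBlocks_sound act q0 F h31 adm hadm _ 627453 630347 (by norm_num) blk127 h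
  have h := TC.checkBlocks_sound act q0 F h31 adm hadm _ 630347 633078 (by norm_num) blk128 h
  have h := TC.checkBlocks_sound act q0 F h31 adm hadm _ 633078 635761 (by norm_num) blk129 h
  have h := TC.checkBlocks_sound act q0 F h31 adm hadm _ 635761 638530 (by norm_num) blk130 h
  have h := TC.checkBlocks_sound act q0 F h31 adm hadm _ 638530 641170 (by norm_num) blk131 h
  have h := TC.checkBlocks_sound act q0 F h31 adm hadm _ 641170 643890 (by norm_num) blk132 h
  have h := TC.checkBlocks_sound act q0 F h31 adm hadm _ 643890 646442 (by norm_num) blk133 h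
  have h := TC.checkBlocks_sound act q0 F h31 adm hadm _ 646442 649121 (by norm_num) blk134 h
  have h := TC.checkBlocks_sound act q0 F h31 adm hadm _ 649121 651684 (by norm_num) blk135 h
  have h := TC.checkBlocks_sound act q0 F h31 adm hadm _ 651684 654458 (by norm_num) blk136 h
  have h := TC.checkBlocks_sound act q0 F h31 adm hadm _ 654458 657151 (by norm_num) blk137 h
  have h := TC.checkBlocks_sound act q0 F h31 adm hadm _ 657151 659751 (by norm_num) blk138 h
  have h := TC.checkBlocks_sound act q0 F h31 adm hadm _ 659751 662233 (by norm_num) blk139 h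
  have h := TC.checkBlocks_sound act q0 F h31 adm hadm _ 662233 664750 (by norm_num) blk140 h
  have h := TC.checkBlocks_sound act q0 F h31 adm hadm _ 664750 667206 (by norm_num) blk141 h
  have h := TC.checkBlocks_sound act q0 F h31 adm hadm _ 667206 669729 (by norm_num) blk142 h
  have h := TC.checkBlocks_sound act q0 F h31 adm hadm _ 669729 672292 (by norm_num) blk143 h
  have h := TC.checkBlocks_sound act q0 F h31 adm hadm _ 672292 674754 (by norm_num) blk144 h
  have h := TC.checkBlocks_sound act q0 F h31 adm hadm _ 674754 677092 (by norm_num) blk145 h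
  have h := TC.checkBlocks_sound act q0 F h31 adm hadm _ 677092 679371 (by norm_num) blk146 h
  have h := TC.checkBlocks_sound act q0 F h31 adm hadm _ 679371 681749 (by norm_num) blk147 h
  have h := TC.checkBlocks_sound act q0 F h31 adm hadm _ 681749 684014 (by norm_num) blk148 h
  have h := TC.checkBlocks_sound act q0 F h31 adm hadm _ 684014 686274 (by norm_num) blk149 h
  have h := TC.checkBlocks_sound act q0 F h31 adm hadm _ 686274 688605 (by norm_num) blk150 h
  have h := TC.checkBlocks_sound act q0 F h31 adm hadm _ 688605 690860 (by norm_num) blk151 h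
  have h := TC.checkBlocks_sound act q0 F h31 adm hadm _ 690860 693138 (by norm_num) blk152 h
  have h := TC.checkBlocks_sound act q0 F h31 adm hadm _ 693138 695453 (by norm_num) blk153 h
  have h := TC.checkBlocks_sound act q0 F h31 adm hadm _ 695453 697701 (by norm_num) blk154 h
  have h := TC.checkBlocks_sound act q0 F h31 adm hadm _ 697701 699862 (by norm_num) blk155 h
  have h := TC.checkBlocks_sound act q0 F h31 adm hadm _ 699862 702082 (by norm_num) blk156 h
  have h := TC.checkBlocks_sound act q0 F h31 adm hadm _ 702082 704361 (by norm_num) blk157 h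
  have h := TC.checkBlocks_sound act q0 F h31 adm hadm _ 704361 706568 (by norm_num) blk158 h
  have h := TC.checkBlocks_sound act q0 F h31 adm hadm _ 706568 708764 (by norm_num) blk159 h
  have h := TC.checkBlocks_sound act q0 F h31 adm hadm _ 708764 710931 (by norm_num) blk160 h
  have h := TC.checkBlocks_sound act q0 F h31 adm hadm _ 710931 713037 (by norm_num) blk161 h
  have h := TC.checkBlocks_sound act q0 F h31 adm hadm _ 713037 715161 (by norm_num) blk162 h
  have h := TC.checkBlocks_sound act q0 F h31 adm hadm _ 715161 717311 (by norm_num) blk163 h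
  have h := TC.checkBlocks_sound act q0 F h31 adm hadm _ 717311 719425 (by norm_num) blk164 h
  have h := TC.checkBlocks_sound act q0 F h31 adm hadm _ 719425 721577 (by norm_num) blk165 h
  have h := TC.checkBlocks_sound act q0 F h31 adm hadm _ 721577 723632 (by norm_num) blk166 h
  have h := TC.checkBlocks_sound act q0 F h31 adm hadm _ 723632 724085 (by norm_num) blk167 h
  exact h

theorem closed {Q : Type*} (act : ℕ → Q → Q) (q0 : Q) (h31 : ∀ x, act 31 x = x)
    (hadm : ∀ a ∈ adm, TC.AdmOK act q0 a) (hl : ∀ e ∈ letters, TC.PairOK act e) :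
    ∀ e ∈ letters, ∀ u < 122760, ∃ v ≤ 122759, act e.1 (TC.kap act q0 F u) = TC.kap act q0 F v := by
  have hV : ∀ d, d ≤ 1448169 → TC.Valid act q0 F (d / 2) := fun d hd => valid act q0 h31 hadm _ (by omega)
  intro e he
  have hp := hl e he
  simp only [letters, List.mem_cons, List.mem_nil_iff, or_false] at he
  rcases he with rfl | rfl | rfl | rfl | rfl | rfl | rfl | rfl
  · have h : ∀ u < 0, ∃ v ≤ 122759, act ((0, 1048576) : ℕ × ℕ).1 (TC.kap act q0 F u) = TC.kap act q0 F v := fun u hu => absurd hu (Nat.not_lt_zero u)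
    have h := (TC.checkCL_sound act q0 F _ _ _ hp hV _ 0 10000 (by norm_num) cmp0_0 h).2
    have h := (TC.checkCL_sound act q0 F _ _ _ hp hV _ 10000 20000 (by norm_num) cmp0_1 h).2
    have h := (TC.checkCL_sound act q0 F _ _ _ hp hV _ 20000 30000 (by norm_num) cmp0_2 h).2
    have h := (TC.checkCL_sound act q0 F _ _ _ hp hV _ 30000 40000 (by norm_num) cmp0_3 h).2
    have h := (TC.checkCL_sound act q0 F _ _ _ hp hV _ 40000 50000 (by norm_num) cmp0_4 h).2
    have h := (TC.checkCL_sound act q0 F _ _ _ hp hV _ 50000 60000 (by norm_num) cmp0_5 h).2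
    have h := (TC.checkCL_sound act q0 F _ _ _ hp hV _ 60000 70000 (by norm_num) cmp0_6 h).2
    have h := (TC.checkCL_sound act q0 F _ _ _ hp hV _ 70000 80000 (by norm_num) cmp0_7 h).2
    have h := (TC.checkCL_sound act q0 F _ _ _ hp hV _ 80000 90000 (by norm_num) cmp0_8 h).2
    have h := (TC.checkCL_sound act q0 F _ _ _ hp hV _ 90000 100000 (by norm_num) cmp0_9 h).2
    have h := (TC.checkCL_sound act q0 F _ _ _ hp hV _ 100000 110000 (by norm_num) cmp0_10 h).2
    have h := (TC.checkCL_sound act q0 F _ _ _ hp hV _ 110000 120000 (by norm_num) cmp0_11 h).2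
    have h := (TC.checkCL_sound act q0 F _ _ _ hp hV _ 120000 122760 (by norm_num) cmp0_12 h).2
    exact h
  · have h : ∀ u < 0, ∃ v ≤ 122759, act ((1, 0) : ℕ × ℕ).1 (TC.kap act q0 F u) = TC.kap act q0 F v := fun u hu => absurd hu (Nat.not_lt_zero u)
    have h := (TC.checkCL_sound act q0 F _ _ _ hp hV _ 0 10000 (by norm_num) cmp1_0 h).2
    have h := (TC.checkCL_sound act q0 F _ _ _ hp hV _ 10000 20000 (by norm_num) cmp1_1 h).2
    have h := (TC.checkCL_sound act q0 F _ _ _ hp hV _ 20000 30000 (by norm_num) cmp1_2 h).2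
    have h := (TC.checkCL_sound act q0 F _ _ _ hp hV _ 30000 40000 (by norm_num) cmp1_3 h).2
    have h := (TC.checkCL_sound act q0 F _ _ _ hp hV _ 40000 50000 (by norm_num) cmp1_4 h).2
    have h := (TC.checkCL_sound act q0 F _ _ _ hp hV _ 50000 60000 (by norm_num) cmp1_5 h).2
    have h := (TC.checkCL_sound act q0 F _ _ _ hp hV _ 60000 70000 (by norm_num) cmp1_6 h).2
    have h := (TC.checkCL_sound act q0 F _ _ _ hp hV _ 70000 80000 (by norm_num) cmp1_7 h).2
    have h := (TC.checkCL_sound act q0 F _ _ _ hp hV _ 80000 90000 (by norm_num) cmp1_8 h).2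
    have h := (TC.checkCL_sound act q0 F _ _ _ hp hV _ 90000 100000 (by norm_num) cmp1_9 h).2
    have h := (TC.checkCL_sound act q0 F _ _ _ hp hV _ 100000 110000 (by norm_num) cmp1_10 h).2
    have h := (TC.checkCL_sound act q0 F _ _ _ hp hV _ 110000 120000 (by norm_num) cmp1_11 h).2
    have h := (TC.checkCL_sound act q0 F _ _ _ hp hV _ 120000 122760 (by norm_num) cmp1_12 h).2
    exact h
  · have h : ∀ u < 0, ∃ v ≤ 122759, act ((2, 2097152) : ℕ × ℕ).1 (TC.kap act q0 F u) = TC.kap act q0 F v := fun u hu => absurd hu (Nat.not_lt_zero u)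
    have h := (TC.checkCL_sound act q0 F _ _ _ hp hV _ 0 10000 (by norm_num) cmp2_0 h).2
    have h := (TC.checkCL_sound act q0 F _ _ _ hp hV _ 10000 20000 (by norm_num) cmp2_1 h).2
    have h := (TC.checkCL_sound act q0 F _ _ _ hp hV _ 20000 30000 (by norm_num) cmp2_2 h).2
    have h := (TC.checkCL_sound act q0 F _ _ _ hp hV _ 30000 40000 (by norm_num) cmp2_3 h).2
    have h := (TC.checkCL_sound act q0 F _ _ _ hp hV _ 40000 50000 (by norm_num) cmp2_4 h).2
    have h := (TC.checkCL_sound act q0 F _ _ _ hp hV _ 50000 60000 (by norm_num) cmp2_5 h).2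
    have h := (TC.checkCL_sound act q0 F _ _ _ hp hV _ 60000 70000 (by norm_num) cmp2_6 h).2
    have h := (TC.checkCL_sound act q0 F _ _ _ hp hV _ 70000 80000 (by norm_num) cmp2_7 h).2
    have h := (TC.checkCL_sound act q0 F _ _ _ hp hV _ 80000 90000 (by norm_num) cmp2_8 h).2
    have h := (TC.checkCL_sound act q0 F _ _ _ hp hV _ 90000 100000 (by norm_num) cmp2_9 h).2
    have h := (TC.checkCL_sound act q0 F _ _ _ hp hV _ 100000 110000 (by norm_num) cmp2_10 h).2
    have h := (TC.checkCL_sound act q0 F _ _ _ hp hV _ 110000 120000 (by norm_num) cmp2_11 h).2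
    have h := (TC.checkCL_sound act q0 F _ _ _ hp hV _ 120000 122760 (by norm_num) cmp2_12 h).2
    exact h
  · have h : ∀ u < 0, ∃ v ≤ 122759, act ((4, 4194304) : ℕ × ℕ).1 (TC.kap act q0 F u) = TC.kap act q0 F v := fun u hu => absurd hu (Nat.not_lt_zero u)
    have h := (TC.checkCL_sound act q0 F _ _ _ hp hV _ 0 10000 (by norm_num) cmp3_0 h).2
    have h := (TC.checkCL_sound act q0 F _ _ _ hp hV _ 10000 20000 (by norm_num) cmp3_1 h).2
    have h := (TC.checkCL_sound act q0 F _ _ _ hp hV _ 20000 30000 (by norm_num) cmp3_2 h).2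
    have h := (TC.checkCL_sound act q0 F _ _ _ hp hV _ 30000 40000 (by norm_num) cmp3_3 h).2
    have h := (TC.checkCL_sound act q0 F _ _ _ hp hV _ 40000 50000 (by norm_num) cmp3_4 h).2
    have h := (TC.checkCL_sound act q0 F _ _ _ hp hV _ 50000 60000 (by norm_num) cmp3_5 h).2
    have h := (TC.checkCL_sound act q0 F _ _ _ hp hV _ 60000 70000 (by norm_num) cmp3_6 h).2
    have h := (TC.checkCL_sound act q0 F _ _ _ hp hV _ 70000 80000 (by norm_num) cmp3_7 h).2
    have h := (TC.checkCL_sound act q0 F _ _ _ hp hV _ 80000 90000 (by norm_num) cmp3_8 h).2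
    have h := (TC.checkCL_sound act q0 F _ _ _ hp hV _ 90000 100000 (by norm_num) cmp3_9 h).2
    have h := (TC.checkCL_sound act q0 F _ _ _ hp hV _ 100000 110000 (by norm_num) cmp3_10 h).2
    have h := (TC.checkCL_sound act q0 F _ _ _ hp hV _ 110000 120000 (by norm_num) cmp3_11 h).2
    have h := (TC.checkCL_sound act q0 F _ _ _ hp hV _ 120000 122760 (by norm_num) cmp3_12 h).2
    exact h
  · have h : ∀ u < 0, ∃ v ≤ 122759, act ((6, 6291456) : ℕ × ℕ).1 (TC.kap act q0 F u) = TC.kap act q0 F v := fun u hu => absurd hu (Nat.not_lt_zero u)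
    have h := (TC.checkCL_sound act q0 F _ _ _ hp hV _ 0 10000 (by norm_num) cmp4_0 h).2
    have h := (TC.checkCL_sound act q0 F _ _ _ hp hV _ 10000 20000 (by norm_num) cmp4_1 h).2
    have h := (TC.checkCL_sound act q0 F _ _ _ hp hV _ 20000 30000 (by norm_num) cmp4_2 h).2
    have h := (TC.checkCL_sound act q0 F _ _ _ hp hV _ 30000 40000 (by norm_num) cmp4_3 h).2
    have h := (TC.checkCL_sound act q0 F _ _ _ hp hV _ 40000 50000 (by norm_num) cmp4_4 h).2
    have h := (TC.checkCL_sound act q0 F _ _ _ hp hV _ 50000 60000 (by norm_num) cmp4_5 h).2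
    have h := (TC.checkCL_sound act q0 F _ _ _ hp hV _ 60000 70000 (by norm_num) cmp4_6 h).2
    have h := (TC.checkCL_sound act q0 F _ _ _ hp hV _ 70000 80000 (by norm_num) cmp4_7 h).2
    have h := (TC.checkCL_sound act q0 F _ _ _ hp hV _ 80000 90000 (by norm_num) cmp4_8 h).2
    have h := (TC.checkCL_sound act q0 F _ _ _ hp hV _ 90000 100000 (by norm_num) cmp4_9 h).2
    have h := (TC.checkCL_sound act q0 F _ _ _ hp hV _ 100000 110000 (by norm_num) cmp4_10 h).2
    have h := (TC.checkCL_sound act q0 F _ _ _ hp hV _ 110000 120000 (by norm_num) cmp4_11 h).2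
    have h := (TC.checkCL_sound act q0 F _ _ _ hp hV _ 120000 122760 (by norm_num) cmp4_12 h).2
    exact h
  · have h : ∀ u < 0, ∃ v ≤ 122759, act ((8, 8388608) : ℕ × ℕ).1 (TC.kap act q0 F u) = TC.kap act q0 F v := fun u hu => absurd hu (Nat.not_lt_zero u)
    have h := (TC.checkCL_sound act q0 F _ _ _ hp hV _ 0 10000 (by norm_num) cmp5_0 h).2
    have h := (TC.checkCL_sound act q0 F _ _ _ hp hV _ 10000 20000 (by norm_num) cmp5_1 h).2
    have h := (TC.checkCL_sound act q0 F _ _ _ hp hV _ 20000 30000 (by norm_num) cmp5_2 h).2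
    have h := (TC.checkCL_sound act q0 F _ _ _ hp hV _ 30000 40000 (by norm_num) cmp5_3 h).2
    have h := (TC.checkCL_sound act q0 F _ _ _ hp hV _ 40000 50000 (by norm_num) cmp5_4 h).2
    have h := (TC.checkCL_sound act q0 F _ _ _ hp hV _ 50000 60000 (by norm_num) cmp5_5 h).2
    have h := (TC.checkCL_sound act q0 F _ _ _ hp hV _ 60000 70000 (by norm_num) cmp5_6 h).2
    have h := (TC.checkCL_sound act q0 F _ _ _ hp hV _ 70000 80000 (by norm_num) cmp5_7 h).2
    have h := (TC.checkCL_sound act q0 F _ _ _ hp hV _ 80000 90000 (by norm_num) cmp5_8 h).2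
    have h := (TC.checkCL_sound act q0 F _ _ _ hp hV _ 90000 100000 (by norm_num) cmp5_9 h).2
    have h := (TC.checkCL_sound act q0 F _ _ _ hp hV _ 100000 110000 (by norm_num) cmp5_10 h).2
    have h := (TC.checkCL_sound act q0 F _ _ _ hp hV _ 110000 120000 (by norm_num) cmp5_11 h).2
    have h := (TC.checkCL_sound act q0 F _ _ _ hp hV _ 120000 122760 (by norm_num) cmp5_12 h).2
    exact h
  · have h : ∀ u < 0, ∃ v ≤ 122759, act ((10, 10485760) : ℕ × ℕ).1 (TC.kap act q0 F u) = TC.kap act q0 F v := fun u hu => absurd hu (Nat.not_lt_zero u)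
    have h := (TC.checkCL_sound act q0 F _ _ _ hp hV _ 0 10000 (by norm_num) cmp6_0 h).2
    have h := (TC.checkCL_sound act q0 F _ _ _ hp hV _ 10000 20000 (by norm_num) cmp6_1 h).2
    have h := (TC.checkCL_sound act q0 F _ _ _ hp hV _ 20000 30000 (by norm_num) cmp6_2 h).2
    have h := (TC.checkCL_sound act q0 F _ _ _ hp hV _ 30000 40000 (by norm_num) cmp6_3 h).2
    have h := (TC.checkCL_sound act q0 F _ _ _ hp hV _ 40000 50000 (by norm_num) cmp6_4 h).2
    have h := (TC.checkCL_sound act q0 F _ _ _ hp hV _ 50000 60000 (by norm_num) cmp6_5 h).2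
    have h := (TC.checkCL_sound act q0 F _ _ _ hp hV _ 60000 70000 (by norm_num) cmp6_6 h).2
    have h := (TC.checkCL_sound act q0 F _ _ _ hp hV _ 70000 80000 (by norm_num) cmp6_7 h).2
    have h := (TC.checkCL_sound act q0 F _ _ _ hp hV _ 80000 90000 (by norm_num) cmp6_8 h).2
    have h := (TC.checkCL_sound act q0 F _ _ _ hp hV _ 90000 100000 (by norm_num) cmp6_9 h).2
    have h := (TC.checkCL_sound act q0 F _ _ _ hp hV _ 100000 110000 (by norm_num) cmp6_10 h).2
    have h := (TC.checkCL_sound act q0 F _ _ _ hp hV _ 110000 120000 (by norm_num) cmp6_11 h).2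
    have h := (TC.checkCL_sound act q0 F _ _ _ hp hV _ 120000 122760 (by norm_num) cmp6_12 h).2
    exact h
  · have h : ∀ u < 0, ∃ v ≤ 122759, act ((12, 12582912) : ℕ × ℕ).1 (TC.kap act q0 F u) = TC.kap act q0 F v := fun u hu => absurd hu (Nat.not_lt_zero u)
    have h := (TC.checkCL_sound act q0 F _ _ _ hp hV _ 0 10000 (by norm_num) cmp7_0 h).2
    have h := (TC.checkCL_sound act q0 F _ _ _ hp hV _ 10000 20000 (by norm_num) cmp7_1 h).2
    have h := (TC.checkCL_sound act q0 F _ _ _ hp hV _ 20000 30000 (by norm_num) cmp7_2 h).2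
    have h := (TC.checkCL_sound act q0 F _ _ _ hp hV _ 30000 40000 (by norm_num) cmp7_3 h).2
    have h := (TC.checkCL_sound act q0 F _ _ _ hp hV _ 40000 50000 (by norm_num) cmp7_4 h).2
    have h := (TC.checkCL_sound act q0 F _ _ _ hp hV _ 50000 60000 (by norm_num) cmp7_5 h).2
    have h := (TC.checkCL_sound act q0 F _ _ _ hp hV _ 60000 70000 (by norm_num) cmp7_6 h).2
    have h := (TC.checkCL_sound act q0 F _ _ _ hp hV _ 70000 80000 (by norm_num) cmp7_7 h).2
    have h := (TC.checkCL_sound act q0 F _ _ _ hp hV _ 80000 90000 (by norm_num) cmp7_8 h).2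
    have h := (TC.checkCL_sound act q0 F _ _ _ hp hV _ 90000 100000 (by norm_num) cmp7_9 h).2
    have h := (TC.checkCL_sound act q0 F _ _ _ hp hV _ 100000 110000 (by norm_num) cmp7_10 h).2
    have h := (TC.checkCL_sound act q0 F _ _ _ hp hV _ 110000 120000 (by norm_num) cmp7_11 h).2
    have h := (TC.checkCL_sound act q0 F _ _ _ hp hV _ 120000 122760 (by norm_num) cmp7_12 h).2
    exact h

end Cfsg.Agent.Lib.Helper11.ONa
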