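import Cfsg.Agent.Lib.Helper11.ONEnc
import Cfsg.Agent.Lib.Helper11.ONaCert
import Cfsg.Agent.Lib.Helper11.ONU1Cert
import Cfsg.Agent.Lib.Helper11.ONU1Pres
import Cfsg.Agent.Lib.Helper11.ONU2Cert
import Cfsg.Agent.Lib.Helper11.ONU2Pres

set_option autoImplicit false
set_option maxRecDepth 100000

namespace Cfsg.Agent.Lib.Helper11.ONOrder

open Cfsg.Agent.Lib.Helper11 Cfsg.Agent.Lib.Helper11.TC

theorem b2 : UB.Bound ONU2.Ls (ONU2.coxW ++ ONU2.extraW) (24 * 1) :=
  UB.Bound.step (n := 24) (by norm_num)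
    (fun act q0 h31 hadm hl => ONU2.closed act q0 h31 hadm hl) (subs := ONU2.subs)
    (by decide +kernel) (by decide) (by decide) (by decide +kernel)
    (Ls' := []) (by decide) (by decide) (rels' := []) (by decide) (UB.Bound.nil _)

theorem b1 : UB.Bound ONU1.Ls (ONU1.coxW ++ ONU1.extraW) (156408 * (24 * 1)) :=
  UB.Bound.step (n := 156408) (by norm_num)
    (fun act q0 h31 hadm hl => ONU1.closed act q0 h31 hadm hl) (subs := ONU1.subs)
    (by decide +kernel) (by decide) (by decide) (by decide +kernel)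
    (by decide) (by decide) (by decide +kernel) b2

theorem card_le : Finite Cfsg.Spor.ON ∧ Nat.card Cfsg.Spor.ON ≤ 460815505920 :=
  GM.card_bound ONEnc.pres (n := 122760) (by norm_num)
    (fun act q0 h31 hadm hl => ONa.closed act q0 h31 hadm hl) (subs := ONa.subs)
    (by decide +kernel) (by decide) (Ls' := ONU1.Ls) (by decide) (by decide) (by decide +kernel)
    (by decide +kernel) b1

end Cfsg.Agent.Lib.Helper11.ONOrder
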