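import Cfsg.Agent.Lib.Helper11.TCDefs

set_option autoImplicit false
set_option maxRecDepth 100000

namespace Cfsg.Agent.Lib.Helper11.ONU2

open Cfsg.Agent.Lib.Helper11
def t0_1 : Nat := 34709731252376611712231506708724838908424492717462391055666378255826321999606416654534380738453267925433563099660766430522571728787438008991580943135587508673626252749467397010549761304287543105606916184111161546124145061172965793188390186730099043836520092301059579162071705588451287749403450260937472519817181553794032571392674875364173829003233619070978485425058153937393626690826266338410755458308236288873735927193488053569293546116028324650377546618243838165904670885727890038319183136030720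

noncomputable def F (i : Nat) : Nat := Nat.land (Nat.shiftRight t0_1 (Nat.mul (Nat.land i 255) 45)) 35184372088831

def adm : List TC.Adm := [
  (false, 4, 110, [(2, 2097152), (4, 4194304), (2, 2097152), (4, 4194304), (2, 2097152)]),
  (false, 2, 66, [(6, 6291456), (2, 2097152), (6, 6291456)]),
  (false, 6, 110, [(4, 4194304), (6, 6291456), (4, 4194304), (6, 6291456), (4, 4194304)]),
  (false, 6, 66, [(2, 2097152), (6, 6291456), (2, 2097152)])]

def letters : List (Nat × Nat) := [(2, 2097152), (4, 4194304), (6, 6291456)]

end Cfsg.Agent.Lib.Helper11.ONU2
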