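import Cfsg.Agent.Lib.Helper11.ONaPT0
import Cfsg.Agent.Lib.Helper11.ONaPT1
import Cfsg.Agent.Lib.Helper11.ONaPT2
import Cfsg.Agent.Lib.Helper11.ONaPT4
import Cfsg.Agent.Lib.Helper11.ONaPT6
import Cfsg.Agent.Lib.Helper11.ONaPT8
import Cfsg.Agent.Lib.Helper11.ONaPT10
import Cfsg.Agent.Lib.Helper11.ONaPT12
import Cfsg.Agent.Lib.Helper11.ONaPTW

set_option autoImplicit false

namespace Cfsg.Agent.Lib.Helper11.ONa

noncomputable def tbl : Nat → Nat → Nat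
  | 0 => tb0
  | 1 => tb1
  | 2 => tb2
  | 4 => tb4
  | 6 => tb6
  | 8 => tb8
  | 10 => tb10
  | 12 => tb12
  | _ => fun u => u

end Cfsg.Agent.Lib.Helper11.ONa
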