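set_option autoImplicit false

namespace Cfsg.Agent.Lib.Helper11.S44

def coxW : List (List Nat) := [
  [4, 6, 4, 6],
  [16, 18, 16, 18],
  [0, 20, 0, 20, 4, 24],
  [2, 20, 2, 20, 6, 26],
  [4, 16, 4, 16, 0, 24],
  [4, 18, 4, 18, 2, 0, 26],
  [6, 16, 6, 16, 2, 26],
  [6, 18, 6, 18, 0, 26, 24],
  [6, 24, 6, 24],
  [6, 26, 6, 26],
  [4, 28, 4, 28, 8, 20],
  [6, 28, 6, 28, 10, 22],
  [8, 16, 8, 16, 12, 28],
  [10, 16, 10, 16, 14, 30],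
  [12, 20, 12, 20, 8, 28],
  [14, 20, 14, 20, 10, 30],
  [18, 24, 18, 24],
  [18, 26, 18, 26],
  [18, 28, 18, 28],
  [22, 26, 22, 26],
  [20, 28, 20, 28],
  [20, 30, 20, 30],
  [22, 28, 22, 28],
  [22, 30, 22, 30],
  [16, 20, 16, 20, 16, 20],
  [18, 20, 18, 20, 18, 20, 18, 20, 18, 20],
  [16, 18, 22, 16, 18, 22, 16, 18, 22],
  [16, 20, 16, 18, 16, 20, 16, 22],
  [28, 24, 28, 4, 28, 24, 28, 8]]

def extraW : List (List Nat) := [
  ]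

def subs : List (List Nat) := [
  [16],
  [18],
  [4],
  [6],
  [24],
  [26],
  [0],
  [2],
  [20],
  [22],
  [6, 12, 14, 6, 4, 12, 4]]

def Ls : List Nat := [0, 2, 4, 6, 8, 10, 12, 14, 16, 18, 20, 22, 24, 26, 28, 30]

def invL : Nat → Nat

  | l => l

def ivs : List (Nat × Nat) := [(0, 1), (1, 21), (21, 85)]

end Cfsg.Agent.Lib.Helper11.S44
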