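import Cfsg.Agent.Lib.Helper11.PRMain
import Cfsg.Agent.Lib.Helper11.S44Pres
import Cfsg.Agent.Lib.Helper11.S44PC0

set_option autoImplicit false
set_option maxRecDepth 1000000

namespace Cfsg.Agent.Lib.Helper11.S44

open Cfsg.Agent.Lib.Helper11

theorem rng0 : ∀ u, 0 ≤ u → u < 85 → PR.mapsF [tb0] 0 84 u = true := by
  have h : ∀ u, 0 ≤ u → u < 0 → PR.mapsF [tb0] 0 84 u = true := fun u h1 h2 => absurd h2 (by omega)
  have h := PR.allR_chain (PR.mapsF [tb0] 0 84) 0 0 85 rng0_0 h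
  exact h

theorem sq0 : ∀ u, 0 ≤ u → u < 85 → PR.fixF [tb0, tb0] u = true := by
  have h : ∀ u, 0 ≤ u → u < 0 → PR.fixF [tb0, tb0] u = true := fun u h1 h2 => absurd h2 (by omega)
  have h := PR.allR_chain (PR.fixF [tb0, tb0]) 0 0 85 sq0_0 h
  exact h

theorem rng2 : ∀ u, 0 ≤ u → u < 85 → PR.mapsF [tb2] 0 84 u = true := by
  have h : ∀ u, 0 ≤ u → u < 0 → PR.mapsF [tb2] 0 84 u = true := fun u h1 h2 => absurd h2 (by omega)
  have h := PR.allR_chain (PR.mapsF [tb2] 0 84) 0 0 85 rng2_0 h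
  exact h

theorem sq2 : ∀ u, 0 ≤ u → u < 85 → PR.fixF [tb2, tb2] u = true := by
  have h : ∀ u, 0 ≤ u → u < 0 → PR.fixF [tb2, tb2] u = true := fun u h1 h2 => absurd h2 (by omega)
  have h := PR.allR_chain (PR.fixF [tb2, tb2]) 0 0 85 sq2_0 h
  exact h

theorem rng4 : ∀ u, 0 ≤ u → u < 85 → PR.mapsF [tb4] 0 84 u = true := by
  have h : ∀ u, 0 ≤ u → u < 0 → PR.mapsF [tb4] 0 84 u = true := fun u h1 h2 => absurd h2 (by omega)
  have h := PR.allR_chain (PR.mapsF [tb4] 0 84) 0 0 85 rng4_0 h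
  exact h

theorem sq4 : ∀ u, 0 ≤ u → u < 85 → PR.fixF [tb4, tb4] u = true := by
  have h : ∀ u, 0 ≤ u → u < 0 → PR.fixF [tb4, tb4] u = true := fun u h1 h2 => absurd h2 (by omega)
  have h := PR.allR_chain (PR.fixF [tb4, tb4]) 0 0 85 sq4_0 h
  exact h

theorem rng6 : ∀ u, 0 ≤ u → u < 85 → PR.mapsF [tb6] 0 84 u = true := by
  have h : ∀ u, 0 ≤ u → u < 0 → PR.mapsF [tb6] 0 84 u = true := fun u h1 h2 => absurd h2 (by omega)
  have h := PR.allR_chain (PR.mapsF [tb6] 0 84) 0 0 85 rng6_0 h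
  exact h

theorem sq6 : ∀ u, 0 ≤ u → u < 85 → PR.fixF [tb6, tb6] u = true := by
  have h : ∀ u, 0 ≤ u → u < 0 → PR.fixF [tb6, tb6] u = true := fun u h1 h2 => absurd h2 (by omega)
  have h := PR.allR_chain (PR.fixF [tb6, tb6]) 0 0 85 sq6_0 h
  exact h

theorem rng8 : ∀ u, 0 ≤ u → u < 85 → PR.mapsF [tb8] 0 84 u = true := by
  have h : ∀ u, 0 ≤ u → u < 0 → PR.mapsF [tb8] 0 84 u = true := fun u h1 h2 => absurd h2 (by omega)
  have h := PR.allR_chain (PR.mapsF [tb8] 0 84) 0 0 85 rng8_0 h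
  exact h

theorem sq8 : ∀ u, 0 ≤ u → u < 85 → PR.fixF [tb8, tb8] u = true := by
  have h : ∀ u, 0 ≤ u → u < 0 → PR.fixF [tb8, tb8] u = true := fun u h1 h2 => absurd h2 (by omega)
  have h := PR.allR_chain (PR.fixF [tb8, tb8]) 0 0 85 sq8_0 h
  exact h

theorem rng10 : ∀ u, 0 ≤ u → u < 85 → PR.mapsF [tb10] 0 84 u = true := by
  have h : ∀ u, 0 ≤ u → u < 0 → PR.mapsF [tb10] 0 84 u = true := fun u h1 h2 => absurd h2 (by omega)
  have h := PR.allR_chain (PR.mapsF [tb10] 0 84) 0 0 85 rng10_0 h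
  exact h

theorem sq10 : ∀ u, 0 ≤ u → u < 85 → PR.fixF [tb10, tb10] u = true := by
  have h : ∀ u, 0 ≤ u → u < 0 → PR.fixF [tb10, tb10] u = true := fun u h1 h2 => absurd h2 (by omega)
  have h := PR.allR_chain (PR.fixF [tb10, tb10]) 0 0 85 sq10_0 h
  exact h

theorem rng12 : ∀ u, 0 ≤ u → u < 85 → PR.mapsF [tb12] 0 84 u = true := by
  have h : ∀ u, 0 ≤ u → u < 0 → PR.mapsF [tb12] 0 84 u = true := fun u h1 h2 => absurd h2 (by omega)
  have h := PR.allR_chain (PR.mapsF [tb12] 0 84) 0 0 85 rng12_0 h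
  exact h

theorem sq12 : ∀ u, 0 ≤ u → u < 85 → PR.fixF [tb12, tb12] u = true := by
  have h : ∀ u, 0 ≤ u → u < 0 → PR.fixF [tb12, tb12] u = true := fun u h1 h2 => absurd h2 (by omega)
  have h := PR.allR_chain (PR.fixF [tb12, tb12]) 0 0 85 sq12_0 h
  exact h

theorem rng14 : ∀ u, 0 ≤ u → u < 85 → PR.mapsF [tb14] 0 84 u = true := by
  have h : ∀ u, 0 ≤ u → u < 0 → PR.mapsF [tb14] 0 84 u = true := fun u h1 h2 => absurd h2 (by omega)
  have h := PR.allR_chain (PR.mapsF [tb14] 0 84) 0 0 85 rng14_0 h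
  exact h

theorem sq14 : ∀ u, 0 ≤ u → u < 85 → PR.fixF [tb14, tb14] u = true := by
  have h : ∀ u, 0 ≤ u → u < 0 → PR.fixF [tb14, tb14] u = true := fun u h1 h2 => absurd h2 (by omega)
  have h := PR.allR_chain (PR.fixF [tb14, tb14]) 0 0 85 sq14_0 h
  exact h

theorem rng16 : ∀ u, 0 ≤ u → u < 85 → PR.mapsF [tb16] 0 84 u = true := by
  have h : ∀ u, 0 ≤ u → u < 0 → PR.mapsF [tb16] 0 84 u = true := fun u h1 h2 => absurd h2 (by omega)
  have h := PR.allR_chain (PR.mapsF [tb16] 0 84) 0 0 85 rng16_0 h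
  exact h

theorem sq16 : ∀ u, 0 ≤ u → u < 85 → PR.fixF [tb16, tb16] u = true := by
  have h : ∀ u, 0 ≤ u → u < 0 → PR.fixF [tb16, tb16] u = true := fun u h1 h2 => absurd h2 (by omega)
  have h := PR.allR_chain (PR.fixF [tb16, tb16]) 0 0 85 sq16_0 h
  exact h

theorem rng18 : ∀ u, 0 ≤ u → u < 85 → PR.mapsF [tb18] 0 84 u = true := by
  have h : ∀ u, 0 ≤ u → u < 0 → PR.mapsF [tb18] 0 84 u = true := fun u h1 h2 => absurd h2 (by omega)
  have h := PR.allR_chain (PR.mapsF [tb18] 0 84) 0 0 85 rng18_0 h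
  exact h

theorem sq18 : ∀ u, 0 ≤ u → u < 85 → PR.fixF [tb18, tb18] u = true := by
  have h : ∀ u, 0 ≤ u → u < 0 → PR.fixF [tb18, tb18] u = true := fun u h1 h2 => absurd h2 (by omega)
  have h := PR.allR_chain (PR.fixF [tb18, tb18]) 0 0 85 sq18_0 h
  exact h

theorem rng20 : ∀ u, 0 ≤ u → u < 85 → PR.mapsF [tb20] 0 84 u = true := by
  have h : ∀ u, 0 ≤ u → u < 0 → PR.mapsF [tb20] 0 84 u = true := fun u h1 h2 => absurd h2 (by omega)
  have h := PR.allR_chain (PR.mapsF [tb20] 0 84) 0 0 85 rng20_0 h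
  exact h

theorem sq20 : ∀ u, 0 ≤ u → u < 85 → PR.fixF [tb20, tb20] u = true := by
  have h : ∀ u, 0 ≤ u → u < 0 → PR.fixF [tb20, tb20] u = true := fun u h1 h2 => absurd h2 (by omega)
  have h := PR.allR_chain (PR.fixF [tb20, tb20]) 0 0 85 sq20_0 h
  exact h

theorem rng22 : ∀ u, 0 ≤ u → u < 85 → PR.mapsF [tb22] 0 84 u = true := by
  have h : ∀ u, 0 ≤ u → u < 0 → PR.mapsF [tb22] 0 84 u = true := fun u h1 h2 => absurd h2 (by omega)
  have h := PR.allR_chain (PR.mapsF [tb22] 0 84) 0 0 85 rng22_0 h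
  exact h

theorem sq22 : ∀ u, 0 ≤ u → u < 85 → PR.fixF [tb22, tb22] u = true := by
  have h : ∀ u, 0 ≤ u → u < 0 → PR.fixF [tb22, tb22] u = true := fun u h1 h2 => absurd h2 (by omega)
  have h := PR.allR_chain (PR.fixF [tb22, tb22]) 0 0 85 sq22_0 h
  exact h

theorem rng24 : ∀ u, 0 ≤ u → u < 85 → PR.mapsF [tb24] 0 84 u = true := by
  have h : ∀ u, 0 ≤ u → u < 0 → PR.mapsF [tb24] 0 84 u = true := fun u h1 h2 => absurd h2 (by omega)
  have h := PR.allR_chain (PR.mapsF [tb24] 0 84) 0 0 85 rng24_0 h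
  exact h

theorem sq24 : ∀ u, 0 ≤ u → u < 85 → PR.fixF [tb24, tb24] u = true := by
  have h : ∀ u, 0 ≤ u → u < 0 → PR.fixF [tb24, tb24] u = true := fun u h1 h2 => absurd h2 (by omega)
  have h := PR.allR_chain (PR.fixF [tb24, tb24]) 0 0 85 sq24_0 h
  exact h

theorem rng26 : ∀ u, 0 ≤ u → u < 85 → PR.mapsF [tb26] 0 84 u = true := by
  have h : ∀ u, 0 ≤ u → u < 0 → PR.mapsF [tb26] 0 84 u = true := fun u h1 h2 => absurd h2 (by omega)
  have h := PR.allR_chain (PR.mapsF [tb26] 0 84) 0 0 85 rng26_0 h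
  exact h

theorem sq26 : ∀ u, 0 ≤ u → u < 85 → PR.fixF [tb26, tb26] u = true := by
  have h : ∀ u, 0 ≤ u → u < 0 → PR.fixF [tb26, tb26] u = true := fun u h1 h2 => absurd h2 (by omega)
  have h := PR.allR_chain (PR.fixF [tb26, tb26]) 0 0 85 sq26_0 h
  exact h

theorem rng28 : ∀ u, 0 ≤ u → u < 85 → PR.mapsF [tb28] 0 84 u = true := by
  have h : ∀ u, 0 ≤ u → u < 0 → PR.mapsF [tb28] 0 84 u = true := fun u h1 h2 => absurd h2 (by omega)
  have h := PR.allR_chain (PR.mapsF [tb28] 0 84) 0 0 85 rng28_0 h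
  exact h

theorem sq28 : ∀ u, 0 ≤ u → u < 85 → PR.fixF [tb28, tb28] u = true := by
  have h : ∀ u, 0 ≤ u → u < 0 → PR.fixF [tb28, tb28] u = true := fun u h1 h2 => absurd h2 (by omega)
  have h := PR.allR_chain (PR.fixF [tb28, tb28]) 0 0 85 sq28_0 h
  exact h

theorem rng30 : ∀ u, 0 ≤ u → u < 85 → PR.mapsF [tb30] 0 84 u = true := by
  have h : ∀ u, 0 ≤ u → u < 0 → PR.mapsF [tb30] 0 84 u = true := fun u h1 h2 => absurd h2 (by omega)
  have h := PR.allR_chain (PR.mapsF [tb30] 0 84) 0 0 85 rng30_0 h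
  exact h

theorem sq30 : ∀ u, 0 ≤ u → u < 85 → PR.fixF [tb30, tb30] u = true := by
  have h : ∀ u, 0 ≤ u → u < 0 → PR.fixF [tb30, tb30] u = true := fun u h1 h2 => absurd h2 (by omega)
  have h := PR.allR_chain (PR.fixF [tb30, tb30]) 0 0 85 sq30_0 h
  exact h

theorem rel0 : ∀ u, 0 ≤ u → u < 85 → PR.fixF [tb4, tb6, tb4, tb6] u = true := by
  have h : ∀ u, 0 ≤ u → u < 0 → PR.fixF [tb4, tb6, tb4, tb6] u = true := fun u h1 h2 => absurd h2 (by omega)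
  have h := PR.allR_chain (PR.fixF [tb4, tb6, tb4, tb6]) 0 0 85 rel0_0 h
  exact h

theorem rel1 : ∀ u, 0 ≤ u → u < 85 → PR.fixF [tb16, tb18, tb16, tb18] u = true := by
  have h : ∀ u, 0 ≤ u → u < 0 → PR.fixF [tb16, tb18, tb16, tb18] u = true := fun u h1 h2 => absurd h2 (by omega)
  have h := PR.allR_chain (PR.fixF [tb16, tb18, tb16, tb18]) 0 0 85 rel1_0 h
  exact h

theorem rel2 : ∀ u, 0 ≤ u → u < 85 → PR.fixF [tb0, tb20, tb0, tb20, tb4, tb24] u = true := by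
  have h : ∀ u, 0 ≤ u → u < 0 → PR.fixF [tb0, tb20, tb0, tb20, tb4, tb24] u = true := fun u h1 h2 => absurd h2 (by omega)
  have h := PR.allR_chain (PR.fixF [tb0, tb20, tb0, tb20, tb4, tb24]) 0 0 85 rel2_0 h
  exact h

theorem rel3 : ∀ u, 0 ≤ u → u < 85 → PR.fixF [tb2, tb20, tb2, tb20, tb6, tb26] u = true := by
  have h : ∀ u, 0 ≤ u → u < 0 → PR.fixF [tb2, tb20, tb2, tb20, tb6, tb26] u = true := fun u h1 h2 => absurd h2 (by omega)
  have h := PR.allR_chain (PR.fixF [tb2, tb20, tb2, tb20, tb6, tb26]) 0 0 85 rel3_0 h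
  exact h

theorem rel4 : ∀ u, 0 ≤ u → u < 85 → PR.fixF [tb4, tb16, tb4, tb16, tb0, tb24] u = true := by
  have h : ∀ u, 0 ≤ u → u < 0 → PR.fixF [tb4, tb16, tb4, tb16, tb0, tb24] u = true := fun u h1 h2 => absurd h2 (by omega)
  have h := PR.allR_chain (PR.fixF [tb4, tb16, tb4, tb16, tb0, tb24]) 0 0 85 rel4_0 h
  exact h

theorem rel5 : ∀ u, 0 ≤ u → u < 85 → PR.fixF [tb4, tb18, tb4, tb18, tb2, tb0, tb26] u = true := by
  have h : ∀ u, 0 ≤ u → u < 0 → PR.fixF [tb4, tb18, tb4, tb18, tb2, tb0, tb26] u = true := fun u h1 h2 => absurd h2 (by omega)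
  have h := PR.allR_chain (PR.fixF [tb4, tb18, tb4, tb18, tb2, tb0, tb26]) 0 0 85 rel5_0 h
  exact h

theorem rel6 : ∀ u, 0 ≤ u → u < 85 → PR.fixF [tb6, tb16, tb6, tb16, tb2, tb26] u = true := by
  have h : ∀ u, 0 ≤ u → u < 0 → PR.fixF [tb6, tb16, tb6, tb16, tb2, tb26] u = true := fun u h1 h2 => absurd h2 (by omega)
  have h := PR.allR_chain (PR.fixF [tb6, tb16, tb6, tb16, tb2, tb26]) 0 0 85 rel6_0 h
  exact h

theorem rel7 : ∀ u, 0 ≤ u → u < 85 → PR.fixF [tb6, tb18, tb6, tb18, tb0, tb26, tb24] u = true := by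
  have h : ∀ u, 0 ≤ u → u < 0 → PR.fixF [tb6, tb18, tb6, tb18, tb0, tb26, tb24] u = true := fun u h1 h2 => absurd h2 (by omega)
  have h := PR.allR_chain (PR.fixF [tb6, tb18, tb6, tb18, tb0, tb26, tb24]) 0 0 85 rel7_0 h
  exact h

theorem rel8 : ∀ u, 0 ≤ u → u < 85 → PR.fixF [tb6, tb24, tb6, tb24] u = true := by
  have h : ∀ u, 0 ≤ u → u < 0 → PR.fixF [tb6, tb24, tb6, tb24] u = true := fun u h1 h2 => absurd h2 (by omega)
  have h := PR.allR_chain (PR.fixF [tb6, tb24, tb6, tb24]) 0 0 85 rel8_0 h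
  exact h

theorem rel9 : ∀ u, 0 ≤ u → u < 85 → PR.fixF [tb6, tb26, tb6, tb26] u = true := by
  have h : ∀ u, 0 ≤ u → u < 0 → PR.fixF [tb6, tb26, tb6, tb26] u = true := fun u h1 h2 => absurd h2 (by omega)
  have h := PR.allR_chain (PR.fixF [tb6, tb26, tb6, tb26]) 0 0 85 rel9_0 h
  exact h

theorem rel10 : ∀ u, 0 ≤ u → u < 85 → PR.fixF [tb4, tb28, tb4, tb28, tb8, tb20] u = true := by
  have h : ∀ u, 0 ≤ u → u < 0 → PR.fixF [tb4, tb28, tb4, tb28, tb8, tb20] u = true := fun u h1 h2 => absurd h2 (by omega)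
  have h := PR.allR_chain (PR.fixF [tb4, tb28, tb4, tb28, tb8, tb20]) 0 0 85 rel10_0 h
  exact h

theorem rel11 : ∀ u, 0 ≤ u → u < 85 → PR.fixF [tb6, tb28, tb6, tb28, tb10, tb22] u = true := by
  have h : ∀ u, 0 ≤ u → u < 0 → PR.fixF [tb6, tb28, tb6, tb28, tb10, tb22] u = true := fun u h1 h2 => absurd h2 (by omega)
  have h := PR.allR_chain (PR.fixF [tb6, tb28, tb6, tb28, tb10, tb22]) 0 0 85 rel11_0 h
  exact h

theorem rel12 : ∀ u, 0 ≤ u → u < 85 → PR.fixF [tb8, tb16, tb8, tb16, tb12, tb28] u = true := by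
  have h : ∀ u, 0 ≤ u → u < 0 → PR.fixF [tb8, tb16, tb8, tb16, tb12, tb28] u = true := fun u h1 h2 => absurd h2 (by omega)
  have h := PR.allR_chain (PR.fixF [tb8, tb16, tb8, tb16, tb12, tb28]) 0 0 85 rel12_0 h
  exact h

theorem rel13 : ∀ u, 0 ≤ u → u < 85 → PR.fixF [tb10, tb16, tb10, tb16, tb14, tb30] u = true := by
  have h : ∀ u, 0 ≤ u → u < 0 → PR.fixF [tb10, tb16, tb10, tb16, tb14, tb30] u = true := fun u h1 h2 => absurd h2 (by omega)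
  have h := PR.allR_chain (PR.fixF [tb10, tb16, tb10, tb16, tb14, tb30]) 0 0 85 rel13_0 h
  exact h

theorem rel14 : ∀ u, 0 ≤ u → u < 85 → PR.fixF [tb12, tb20, tb12, tb20, tb8, tb28] u = true := by
  have h : ∀ u, 0 ≤ u → u < 0 → PR.fixF [tb12, tb20, tb12, tb20, tb8, tb28] u = true := fun u h1 h2 => absurd h2 (by omega)
  have h := PR.allR_chain (PR.fixF [tb12, tb20, tb12, tb20, tb8, tb28]) 0 0 85 rel14_0 h
  exact h

theorem rel15 : ∀ u, 0 ≤ u → u < 85 → PR.fixF [tb14, tb20, tb14, tb20, tb10, tb30] u = true := by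
  have h : ∀ u, 0 ≤ u → u < 0 → PR.fixF [tb14, tb20, tb14, tb20, tb10, tb30] u = true := fun u h1 h2 => absurd h2 (by omega)
  have h := PR.allR_chain (PR.fixF [tb14, tb20, tb14, tb20, tb10, tb30]) 0 0 85 rel15_0 h
  exact h

theorem rel16 : ∀ u, 0 ≤ u → u < 85 → PR.fixF [tb18, tb24, tb18, tb24] u = true := by
  have h : ∀ u, 0 ≤ u → u < 0 → PR.fixF [tb18, tb24, tb18, tb24] u = true := fun u h1 h2 => absurd h2 (by omega)
  have h := PR.allR_chain (PR.fixF [tb18, tb24, tb18, tb24]) 0 0 85 rel16_0 h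
  exact h

theorem rel17 : ∀ u, 0 ≤ u → u < 85 → PR.fixF [tb18, tb26, tb18, tb26] u = true := by
  have h : ∀ u, 0 ≤ u → u < 0 → PR.fixF [tb18, tb26, tb18, tb26] u = true := fun u h1 h2 => absurd h2 (by omega)
  have h := PR.allR_chain (PR.fixF [tb18, tb26, tb18, tb26]) 0 0 85 rel17_0 h
  exact h

theorem rel18 : ∀ u, 0 ≤ u → u < 85 → PR.fixF [tb18, tb28, tb18, tb28] u = true := by
  have h : ∀ u, 0 ≤ u → u < 0 → PR.fixF [tb18, tb28, tb18, tb28] u = true := fun u h1 h2 => absurd h2 (by omega)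
  have h := PR.allR_chain (PR.fixF [tb18, tb28, tb18, tb28]) 0 0 85 rel18_0 h
  exact h

theorem rel19 : ∀ u, 0 ≤ u → u < 85 → PR.fixF [tb22, tb26, tb22, tb26] u = true := by
  have h : ∀ u, 0 ≤ u → u < 0 → PR.fixF [tb22, tb26, tb22, tb26] u = true := fun u h1 h2 => absurd h2 (by omega)
  have h := PR.allR_chain (PR.fixF [tb22, tb26, tb22, tb26]) 0 0 85 rel19_0 h
  exact h

theorem rel20 : ∀ u, 0 ≤ u → u < 85 → PR.fixF [tb20, tb28, tb20, tb28] u = true := by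
  have h : ∀ u, 0 ≤ u → u < 0 → PR.fixF [tb20, tb28, tb20, tb28] u = true := fun u h1 h2 => absurd h2 (by omega)
  have h := PR.allR_chain (PR.fixF [tb20, tb28, tb20, tb28]) 0 0 85 rel20_0 h
  exact h

theorem rel21 : ∀ u, 0 ≤ u → u < 85 → PR.fixF [tb20, tb30, tb20, tb30] u = true := by
  have h : ∀ u, 0 ≤ u → u < 0 → PR.fixF [tb20, tb30, tb20, tb30] u = true := fun u h1 h2 => absurd h2 (by omega)
  have h := PR.allR_chain (PR.fixF [tb20, tb30, tb20, tb30]) 0 0 85 rel21_0 h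
  exact h

theorem rel22 : ∀ u, 0 ≤ u → u < 85 → PR.fixF [tb22, tb28, tb22, tb28] u = true := by
  have h : ∀ u, 0 ≤ u → u < 0 → PR.fixF [tb22, tb28, tb22, tb28] u = true := fun u h1 h2 => absurd h2 (by omega)
  have h := PR.allR_chain (PR.fixF [tb22, tb28, tb22, tb28]) 0 0 85 rel22_0 h
  exact h

theorem rel23 : ∀ u, 0 ≤ u → u < 85 → PR.fixF [tb22, tb30, tb22, tb30] u = true := by
  have h : ∀ u, 0 ≤ u → u < 0 → PR.fixF [tb22, tb30, tb22, tb30] u = true := fun u h1 h2 => absurd h2 (by omega)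
  have h := PR.allR_chain (PR.fixF [tb22, tb30, tb22, tb30]) 0 0 85 rel23_0 h
  exact h

theorem rel24 : ∀ u, 0 ≤ u → u < 85 → PR.fixF [tb16, tb20, tb16, tb20, tb16, tb20] u = true := by
  have h : ∀ u, 0 ≤ u → u < 0 → PR.fixF [tb16, tb20, tb16, tb20, tb16, tb20] u = true := fun u h1 h2 => absurd h2 (by omega)
  have h := PR.allR_chain (PR.fixF [tb16, tb20, tb16, tb20, tb16, tb20]) 0 0 85 rel24_0 h
  exact h

theorem rel25 : ∀ u, 0 ≤ u → u < 85 → PR.fixF [tb18, tb20, tb18, tb20, tb18, tb20, tb18, tb20, tb18, tb20] u = true := by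
  have h : ∀ u, 0 ≤ u → u < 0 → PR.fixF [tb18, tb20, tb18, tb20, tb18, tb20, tb18, tb20, tb18, tb20] u = true := fun u h1 h2 => absurd h2 (by omega)
  have h := PR.allR_chain (PR.fixF [tb18, tb20, tb18, tb20, tb18, tb20, tb18, tb20, tb18, tb20]) 0 0 85 rel25_0 h
  exact h

theorem rel26 : ∀ u, 0 ≤ u → u < 85 → PR.fixF [tb16, tb18, tb22, tb16, tb18, tb22, tb16, tb18, tb22] u = true := by
  have h : ∀ u, 0 ≤ u → u < 0 → PR.fixF [tb16, tb18, tb22, tb16, tb18, tb22, tb16, tb18, tb22] u = true := fun u h1 h2 => absurd h2 (by omega)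
  have h := PR.allR_chain (PR.fixF [tb16, tb18, tb22, tb16, tb18, tb22, tb16, tb18, tb22]) 0 0 85 rel26_0 h
  exact h

theorem rel27 : ∀ u, 0 ≤ u → u < 85 → PR.fixF [tb16, tb20, tb16, tb18, tb16, tb20, tb16, tb22] u = true := by
  have h : ∀ u, 0 ≤ u → u < 0 → PR.fixF [tb16, tb20, tb16, tb18, tb16, tb20, tb16, tb22] u = true := fun u h1 h2 => absurd h2 (by omega)
  have h := PR.allR_chain (PR.fixF [tb16, tb20, tb16, tb18, tb16, tb20, tb16, tb22]) 0 0 85 rel27_0 h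
  exact h

theorem rel28 : ∀ u, 0 ≤ u → u < 85 → PR.fixF [tb28, tb24, tb28, tb4, tb28, tb24, tb28, tb8] u = true := by
  have h : ∀ u, 0 ≤ u → u < 0 → PR.fixF [tb28, tb24, tb28, tb4, tb28, tb24, tb28, tb8] u = true := fun u h1 h2 => absurd h2 (by omega)
  have h := PR.allR_chain (PR.fixF [tb28, tb24, tb28, tb4, tb28, tb24, tb28, tb8]) 0 0 85 rel28_0 h
  exact h

theorem mp0_0 : ∀ u, 0 ≤ u → u < 1 → PR.mapsF [tb16] 0 0 u = true := by
  have h : ∀ u, 0 ≤ u → u < 0 → PR.mapsF [tb16] 0 0 u = true := fun u h1 h2 => absurd h2 (by omega)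
  have h := PR.allR_chain (PR.mapsF [tb16] 0 0) 0 0 1 mp0_0_0 h
  exact h

theorem mp0_1 : ∀ u, 0 ≤ u → u < 1 → PR.mapsF [tb18] 0 0 u = true := by
  have h : ∀ u, 0 ≤ u → u < 0 → PR.mapsF [tb18] 0 0 u = true := fun u h1 h2 => absurd h2 (by omega)
  have h := PR.allR_chain (PR.mapsF [tb18] 0 0) 0 0 1 mp0_1_0 h
  exact h

theorem mp0_2 : ∀ u, 0 ≤ u → u < 1 → PR.mapsF [tb4] 0 0 u = true := by
  have h : ∀ u, 0 ≤ u → u < 0 → PR.mapsF [tb4] 0 0 u = true := fun u h1 h2 => absurd h2 (by omega)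
  have h := PR.allR_chain (PR.mapsF [tb4] 0 0) 0 0 1 mp0_2_0 h
  exact h

theorem mp0_3 : ∀ u, 0 ≤ u → u < 1 → PR.mapsF [tb6] 0 0 u = true := by
  have h : ∀ u, 0 ≤ u → u < 0 → PR.mapsF [tb6] 0 0 u = true := fun u h1 h2 => absurd h2 (by omega)
  have h := PR.allR_chain (PR.mapsF [tb6] 0 0) 0 0 1 mp0_3_0 h
  exact h

theorem mp0_4 : ∀ u, 0 ≤ u → u < 1 → PR.mapsF [tb24] 0 0 u = true := by
  have h : ∀ u, 0 ≤ u → u < 0 → PR.mapsF [tb24] 0 0 u = true := fun u h1 h2 => absurd h2 (by omega)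
  have h := PR.allR_chain (PR.mapsF [tb24] 0 0) 0 0 1 mp0_4_0 h
  exact h

theorem mp0_5 : ∀ u, 0 ≤ u → u < 1 → PR.mapsF [tb26] 0 0 u = true := by
  have h : ∀ u, 0 ≤ u → u < 0 → PR.mapsF [tb26] 0 0 u = true := fun u h1 h2 => absurd h2 (by omega)
  have h := PR.allR_chain (PR.mapsF [tb26] 0 0) 0 0 1 mp0_5_0 h
  exact h

theorem mp0_6 : ∀ u, 0 ≤ u → u < 1 → PR.mapsF [tb0] 0 0 u = true := by
  have h : ∀ u, 0 ≤ u → u < 0 → PR.mapsF [tb0] 0 0 u = true := fun u h1 h2 => absurd h2 (by omega)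
  have h := PR.allR_chain (PR.mapsF [tb0] 0 0) 0 0 1 mp0_6_0 h
  exact h

theorem mp0_7 : ∀ u, 0 ≤ u → u < 1 → PR.mapsF [tb2] 0 0 u = true := by
  have h : ∀ u, 0 ≤ u → u < 0 → PR.mapsF [tb2] 0 0 u = true := fun u h1 h2 => absurd h2 (by omega)
  have h := PR.allR_chain (PR.mapsF [tb2] 0 0) 0 0 1 mp0_7_0 h
  exact h

theorem mp0_8 : ∀ u, 0 ≤ u → u < 1 → PR.mapsF [tb20] 0 0 u = true := by
  have h : ∀ u, 0 ≤ u → u < 0 → PR.mapsF [tb20] 0 0 u = true := fun u h1 h2 => absurd h2 (by omega)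
  have h := PR.allR_chain (PR.mapsF [tb20] 0 0) 0 0 1 mp0_8_0 h
  exact h

theorem mp0_9 : ∀ u, 0 ≤ u → u < 1 → PR.mapsF [tb22] 0 0 u = true := by
  have h : ∀ u, 0 ≤ u → u < 0 → PR.mapsF [tb22] 0 0 u = true := fun u h1 h2 => absurd h2 (by omega)
  have h := PR.allR_chain (PR.mapsF [tb22] 0 0) 0 0 1 mp0_9_0 h
  exact h

theorem mp0_10 : ∀ u, 0 ≤ u → u < 1 → PR.mapsF [tb6, tb12, tb14, tb6, tb4, tb12, tb4] 0 0 u = true := by
  have h : ∀ u, 0 ≤ u → u < 0 → PR.mapsF [tb6, tb12, tb14, tb6, tb4, tb12, tb4] 0 0 u = true := fun u h1 h2 => absurd h2 (by omega)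
  have h := PR.allR_chain (PR.mapsF [tb6, tb12, tb14, tb6, tb4, tb12, tb4] 0 0) 0 0 1 mp0_10_0 h
  exact h

theorem tre0 : ∀ u, 1 ≤ u → u < 1 → PR.treeF tbW [[tb16], [tb18], [tb4], [tb6], [tb24], [tb26], [tb0], [tb2], [tb20], [tb22], [tb6, tb12, tb14, tb6, tb4, tb12, tb4]] 0 u = true := by
  have h : ∀ u, 1 ≤ u → u < 1 → PR.treeF tbW [[tb16], [tb18], [tb4], [tb6], [tb24], [tb26], [tb0], [tb2], [tb20], [tb22], [tb6, tb12, tb14, tb6, tb4, tb12, tb4]] 0 u = true := fun u h1 h2 => absurd h2 (by omega)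
  exact h

theorem mp1_0 : ∀ u, 1 ≤ u → u < 21 → PR.mapsF [tb16] 1 20 u = true := by
  have h : ∀ u, 1 ≤ u → u < 1 → PR.mapsF [tb16] 1 20 u = true := fun u h1 h2 => absurd h2 (by omega)
  have h := PR.allR_chain (PR.mapsF [tb16] 1 20) 1 1 20 mp1_0_0 h
  exact h

theorem mp1_1 : ∀ u, 1 ≤ u → u < 21 → PR.mapsF [tb18] 1 20 u = true := by
  have h : ∀ u, 1 ≤ u → u < 1 → PR.mapsF [tb18] 1 20 u = true := fun u h1 h2 => absurd h2 (by omega)
  have h := PR.allR_chain (PR.mapsF [tb18] 1 20) 1 1 20 mp1_1_0 h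
  exact h

theorem mp1_2 : ∀ u, 1 ≤ u → u < 21 → PR.mapsF [tb4] 1 20 u = true := by
  have h : ∀ u, 1 ≤ u → u < 1 → PR.mapsF [tb4] 1 20 u = true := fun u h1 h2 => absurd h2 (by omega)
  have h := PR.allR_chain (PR.mapsF [tb4] 1 20) 1 1 20 mp1_2_0 h
  exact h

theorem mp1_3 : ∀ u, 1 ≤ u → u < 21 → PR.mapsF [tb6] 1 20 u = true := by
  have h : ∀ u, 1 ≤ u → u < 1 → PR.mapsF [tb6] 1 20 u = true := fun u h1 h2 => absurd h2 (by omega)
  have h := PR.allR_chain (PR.mapsF [tb6] 1 20) 1 1 20 mp1_3_0 h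
  exact h

theorem mp1_4 : ∀ u, 1 ≤ u → u < 21 → PR.mapsF [tb24] 1 20 u = true := by
  have h : ∀ u, 1 ≤ u → u < 1 → PR.mapsF [tb24] 1 20 u = true := fun u h1 h2 => absurd h2 (by omega)
  have h := PR.allR_chain (PR.mapsF [tb24] 1 20) 1 1 20 mp1_4_0 h
  exact h

theorem mp1_5 : ∀ u, 1 ≤ u → u < 21 → PR.mapsF [tb26] 1 20 u = true := by
  have h : ∀ u, 1 ≤ u → u < 1 → PR.mapsF [tb26] 1 20 u = true := fun u h1 h2 => absurd h2 (by omega)
  have h := PR.allR_chain (PR.mapsF [tb26] 1 20) 1 1 20 mp1_5_0 h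
  exact h

theorem mp1_6 : ∀ u, 1 ≤ u → u < 21 → PR.mapsF [tb0] 1 20 u = true := by
  have h : ∀ u, 1 ≤ u → u < 1 → PR.mapsF [tb0] 1 20 u = true := fun u h1 h2 => absurd h2 (by omega)
  have h := PR.allR_chain (PR.mapsF [tb0] 1 20) 1 1 20 mp1_6_0 h
  exact h

theorem mp1_7 : ∀ u, 1 ≤ u → u < 21 → PR.mapsF [tb2] 1 20 u = true := by
  have h : ∀ u, 1 ≤ u → u < 1 → PR.mapsF [tb2] 1 20 u = true := fun u h1 h2 => absurd h2 (by omega)
  have h := PR.allR_chain (PR.mapsF [tb2] 1 20) 1 1 20 mp1_7_0 h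
  exact h

theorem mp1_8 : ∀ u, 1 ≤ u → u < 21 → PR.mapsF [tb20] 1 20 u = true := by
  have h : ∀ u, 1 ≤ u → u < 1 → PR.mapsF [tb20] 1 20 u = true := fun u h1 h2 => absurd h2 (by omega)
  have h := PR.allR_chain (PR.mapsF [tb20] 1 20) 1 1 20 mp1_8_0 h
  exact h

theorem mp1_9 : ∀ u, 1 ≤ u → u < 21 → PR.mapsF [tb22] 1 20 u = true := by
  have h : ∀ u, 1 ≤ u → u < 1 → PR.mapsF [tb22] 1 20 u = true := fun u h1 h2 => absurd h2 (by omega)
  have h := PR.allR_chain (PR.mapsF [tb22] 1 20) 1 1 20 mp1_9_0 h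
  exact h

theorem mp1_10 : ∀ u, 1 ≤ u → u < 21 → PR.mapsF [tb6, tb12, tb14, tb6, tb4, tb12, tb4] 1 20 u = true := by
  have h : ∀ u, 1 ≤ u → u < 1 → PR.mapsF [tb6, tb12, tb14, tb6, tb4, tb12, tb4] 1 20 u = true := fun u h1 h2 => absurd h2 (by omega)
  have h := PR.allR_chain (PR.mapsF [tb6, tb12, tb14, tb6, tb4, tb12, tb4] 1 20) 1 1 20 mp1_10_0 h
  exact h

theorem tre1 : ∀ u, 2 ≤ u → u < 21 → PR.treeF tbW [[tb16], [tb18], [tb4], [tb6], [tb24], [tb26], [tb0], [tb2], [tb20], [tb22], [tb6, tb12, tb14, tb6, tb4, tb12, tb4]] 1 u = true := by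
  have h : ∀ u, 2 ≤ u → u < 2 → PR.treeF tbW [[tb16], [tb18], [tb4], [tb6], [tb24], [tb26], [tb0], [tb2], [tb20], [tb22], [tb6, tb12, tb14, tb6, tb4, tb12, tb4]] 1 u = true := fun u h1 h2 => absurd h2 (by omega)
  have h := PR.allR_chain (PR.treeF tbW [[tb16], [tb18], [tb4], [tb6], [tb24], [tb26], [tb0], [tb2], [tb20], [tb22], [tb6, tb12, tb14, tb6, tb4, tb12, tb4]] 1) 2 2 19 tre1_0 h
  exact h

theorem mp2_0 : ∀ u, 21 ≤ u → u < 85 → PR.mapsF [tb16] 21 84 u = true := by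
  have h : ∀ u, 21 ≤ u → u < 21 → PR.mapsF [tb16] 21 84 u = true := fun u h1 h2 => absurd h2 (by omega)
  have h := PR.allR_chain (PR.mapsF [tb16] 21 84) 21 21 64 mp2_0_0 h
  exact h

theorem mp2_1 : ∀ u, 21 ≤ u → u < 85 → PR.mapsF [tb18] 21 84 u = true := by
  have h : ∀ u, 21 ≤ u → u < 21 → PR.mapsF [tb18] 21 84 u = true := fun u h1 h2 => absurd h2 (by omega)
  have h := PR.allR_chain (PR.mapsF [tb18] 21 84) 21 21 64 mp2_1_0 h
  exact h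

theorem mp2_2 : ∀ u, 21 ≤ u → u < 85 → PR.mapsF [tb4] 21 84 u = true := by
  have h : ∀ u, 21 ≤ u → u < 21 → PR.mapsF [tb4] 21 84 u = true := fun u h1 h2 => absurd h2 (by omega)
  have h := PR.allR_chain (PR.mapsF [tb4] 21 84) 21 21 64 mp2_2_0 h
  exact h

theorem mp2_3 : ∀ u, 21 ≤ u → u < 85 → PR.mapsF [tb6] 21 84 u = true := by
  have h : ∀ u, 21 ≤ u → u < 21 → PR.mapsF [tb6] 21 84 u = true := fun u h1 h2 => absurd h2 (by omega)
  have h := PR.allR_chain (PR.mapsF [tb6] 21 84) 21 21 64 mp2_3_0 h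
  exact h

theorem mp2_4 : ∀ u, 21 ≤ u → u < 85 → PR.mapsF [tb24] 21 84 u = true := by
  have h : ∀ u, 21 ≤ u → u < 21 → PR.mapsF [tb24] 21 84 u = true := fun u h1 h2 => absurd h2 (by omega)
  have h := PR.allR_chain (PR.mapsF [tb24] 21 84) 21 21 64 mp2_4_0 h
  exact h

theorem mp2_5 : ∀ u, 21 ≤ u → u < 85 → PR.mapsF [tb26] 21 84 u = true := by
  have h : ∀ u, 21 ≤ u → u < 21 → PR.mapsF [tb26] 21 84 u = true := fun u h1 h2 => absurd h2 (by omega)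
  have h := PR.allR_chain (PR.mapsF [tb26] 21 84) 21 21 64 mp2_5_0 h
  exact h

theorem mp2_6 : ∀ u, 21 ≤ u → u < 85 → PR.mapsF [tb0] 21 84 u = true := by
  have h : ∀ u, 21 ≤ u → u < 21 → PR.mapsF [tb0] 21 84 u = true := fun u h1 h2 => absurd h2 (by omega)
  have h := PR.allR_chain (PR.mapsF [tb0] 21 84) 21 21 64 mp2_6_0 h
  exact h

theorem mp2_7 : ∀ u, 21 ≤ u → u < 85 → PR.mapsF [tb2] 21 84 u = true := by
  have h : ∀ u, 21 ≤ u → u < 21 → PR.mapsF [tb2] 21 84 u = true := fun u h1 h2 => absurd h2 (by omega)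
  have h := PR.allR_chain (PR.mapsF [tb2] 21 84) 21 21 64 mp2_7_0 h
  exact h

theorem mp2_8 : ∀ u, 21 ≤ u → u < 85 → PR.mapsF [tb20] 21 84 u = true := by
  have h : ∀ u, 21 ≤ u → u < 21 → PR.mapsF [tb20] 21 84 u = true := fun u h1 h2 => absurd h2 (by omega)
  have h := PR.allR_chain (PR.mapsF [tb20] 21 84) 21 21 64 mp2_8_0 h
  exact h

theorem mp2_9 : ∀ u, 21 ≤ u → u < 85 → PR.mapsF [tb22] 21 84 u = true := by
  have h : ∀ u, 21 ≤ u → u < 21 → PR.mapsF [tb22] 21 84 u = true := fun u h1 h2 => absurd h2 (by omega)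
  have h := PR.allR_chain (PR.mapsF [tb22] 21 84) 21 21 64 mp2_9_0 h
  exact h

theorem mp2_10 : ∀ u, 21 ≤ u → u < 85 → PR.mapsF [tb6, tb12, tb14, tb6, tb4, tb12, tb4] 21 84 u = true := by
  have h : ∀ u, 21 ≤ u → u < 21 → PR.mapsF [tb6, tb12, tb14, tb6, tb4, tb12, tb4] 21 84 u = true := fun u h1 h2 => absurd h2 (by omega)
  have h := PR.allR_chain (PR.mapsF [tb6, tb12, tb14, tb6, tb4, tb12, tb4] 21 84) 21 21 64 mp2_10_0 h
  exact h

theorem tre2 : ∀ u, 22 ≤ u → u < 85 → PR.treeF tbW [[tb16], [tb18], [tb4], [tb6], [tb24], [tb26], [tb0], [tb2], [tb20], [tb22], [tb6, tb12, tb14, tb6, tb4, tb12, tb4]] 21 u = true := by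
  have h : ∀ u, 22 ≤ u → u < 22 → PR.treeF tbW [[tb16], [tb18], [tb4], [tb6], [tb24], [tb26], [tb0], [tb2], [tb20], [tb22], [tb6, tb12, tb14, tb6, tb4, tb12, tb4]] 21 u = true := fun u h1 h2 => absurd h2 (by omega)
  have h := PR.allR_chain (PR.treeF tbW [[tb16], [tb18], [tb4], [tb6], [tb24], [tb26], [tb0], [tb2], [tb20], [tb22], [tb6, tb12, tb14, tb6, tb4, tb12, tb4]] 21) 22 22 63 tre2_0 h
  exact h

theorem tables : PR.Tables 85 tbl invL Ls := by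
  refine ⟨?_, by decide, ?_, ?_⟩
  · intro l hl
    simp only [Ls, List.mem_cons, List.mem_nil_iff, or_false] at hl
    rcases hl with rfl | rfl | rfl | rfl | rfl | rfl | rfl | rfl | rfl | rfl | rfl | rfl | rfl | rfl | rfl | rfl
    · exact fun u hu => Nat.lt_of_le_of_lt ((PR.mapsF_iff _ _ _ _).mp (rng0 u (Nat.zero_le _) hu)).2 (by norm_num)
    · exact fun u hu => Nat.lt_of_le_of_lt ((PR.mapsF_iff _ _ _ _).mp (rng2 u (Nat.zero_le _) hu)).2 (by norm_num)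
    · exact fun u hu => Nat.lt_of_le_of_lt ((PR.mapsF_iff _ _ _ _).mp (rng4 u (Nat.zero_le _) hu)).2 (by norm_num)
    · exact fun u hu => Nat.lt_of_le_of_lt ((PR.mapsF_iff _ _ _ _).mp (rng6 u (Nat.zero_le _) hu)).2 (by norm_num)
    · exact fun u hu => Nat.lt_of_le_of_lt ((PR.mapsF_iff _ _ _ _).mp (rng8 u (Nat.zero_le _) hu)).2 (by norm_num)
    · exact fun u hu => Nat.lt_of_le_of_lt ((PR.mapsF_iff _ _ _ _).mp (rng10 u (Nat.zero_le _) hu)).2 (by norm_num)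
    · exact fun u hu => Nat.lt_of_le_of_lt ((PR.mapsF_iff _ _ _ _).mp (rng12 u (Nat.zero_le _) hu)).2 (by norm_num)
    · exact fun u hu => Nat.lt_of_le_of_lt ((PR.mapsF_iff _ _ _ _).mp (rng14 u (Nat.zero_le _) hu)).2 (by norm_num)
    · exact fun u hu => Nat.lt_of_le_of_lt ((PR.mapsF_iff _ _ _ _).mp (rng16 u (Nat.zero_le _) hu)).2 (by norm_num)
    · exact fun u hu => Nat.lt_of_le_of_lt ((PR.mapsF_iff _ _ _ _).mp (rng18 u (Nat.zero_le _) hu)).2 (by norm_num)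
    · exact fun u hu => Nat.lt_of_le_of_lt ((PR.mapsF_iff _ _ _ _).mp (rng20 u (Nat.zero_le _) hu)).2 (by norm_num)
    · exact fun u hu => Nat.lt_of_le_of_lt ((PR.mapsF_iff _ _ _ _).mp (rng22 u (Nat.zero_le _) hu)).2 (by norm_num)
    · exact fun u hu => Nat.lt_of_le_of_lt ((PR.mapsF_iff _ _ _ _).mp (rng24 u (Nat.zero_le _) hu)).2 (by norm_num)
    · exact fun u hu => Nat.lt_of_le_of_lt ((PR.mapsF_iff _ _ _ _).mp (rng26 u (Nat.zero_le _) hu)).2 (by norm_num)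
    · exact fun u hu => Nat.lt_of_le_of_lt ((PR.mapsF_iff _ _ _ _).mp (rng28 u (Nat.zero_le _) hu)).2 (by norm_num)
    · exact fun u hu => Nat.lt_of_le_of_lt ((PR.mapsF_iff _ _ _ _).mp (rng30 u (Nat.zero_le _) hu)).2 (by norm_num)
  · intro l hl
    simp only [Ls, List.mem_cons, List.mem_nil_iff, or_false] at hl
    rcases hl with rfl | rfl | rfl | rfl | rfl | rfl | rfl | rfl | rfl | rfl | rfl | rfl | rfl | rfl | rfl | rfl
    · exact fun u hu => (PR.fixF_iff _ _).mp (sq0 u (Nat.zero_le _) hu)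
    · exact fun u hu => (PR.fixF_iff _ _).mp (sq2 u (Nat.zero_le _) hu)
    · exact fun u hu => (PR.fixF_iff _ _).mp (sq4 u (Nat.zero_le _) hu)
    · exact fun u hu => (PR.fixF_iff _ _).mp (sq6 u (Nat.zero_le _) hu)
    · exact fun u hu => (PR.fixF_iff _ _).mp (sq8 u (Nat.zero_le _) hu)
    · exact fun u hu => (PR.fixF_iff _ _).mp (sq10 u (Nat.zero_le _) hu)
    · exact fun u hu => (PR.fixF_iff _ _).mp (sq12 u (Nat.zero_le _) hu)
    · exact fun u hu => (PR.fixF_iff _ _).mp (sq14 u (Nat.zero_le _) hu)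
    · exact fun u hu => (PR.fixF_iff _ _).mp (sq16 u (Nat.zero_le _) hu)
    · exact fun u hu => (PR.fixF_iff _ _).mp (sq18 u (Nat.zero_le _) hu)
    · exact fun u hu => (PR.fixF_iff _ _).mp (sq20 u (Nat.zero_le _) hu)
    · exact fun u hu => (PR.fixF_iff _ _).mp (sq22 u (Nat.zero_le _) hu)
    · exact fun u hu => (PR.fixF_iff _ _).mp (sq24 u (Nat.zero_le _) hu)
    · exact fun u hu => (PR.fixF_iff _ _).mp (sq26 u (Nat.zero_le _) hu)
    · exact fun u hu => (PR.fixF_iff _ _).mp (sq28 u (Nat.zero_le _) hu)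
    · exact fun u hu => (PR.fixF_iff _ _).mp (sq30 u (Nat.zero_le _) hu)
  · intro l hl
    simp only [Ls, List.mem_cons, List.mem_nil_iff, or_false] at hl
    rcases hl with rfl | rfl | rfl | rfl | rfl | rfl | rfl | rfl | rfl | rfl | rfl | rfl | rfl | rfl | rfl | rfl
    · exact fun u hu => (PR.fixF_iff _ _).mp (sq0 u (Nat.zero_le _) hu)
    · exact fun u hu => (PR.fixF_iff _ _).mp (sq2 u (Nat.zero_le _) hu)
    · exact fun u hu => (PR.fixF_iff _ _).mp (sq4 u (Nat.zero_le _) hu)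
    · exact fun u hu => (PR.fixF_iff _ _).mp (sq6 u (Nat.zero_le _) hu)
    · exact fun u hu => (PR.fixF_iff _ _).mp (sq8 u (Nat.zero_le _) hu)
    · exact fun u hu => (PR.fixF_iff _ _).mp (sq10 u (Nat.zero_le _) hu)
    · exact fun u hu => (PR.fixF_iff _ _).mp (sq12 u (Nat.zero_le _) hu)
    · exact fun u hu => (PR.fixF_iff _ _).mp (sq14 u (Nat.zero_le _) hu)
    · exact fun u hu => (PR.fixF_iff _ _).mp (sq16 u (Nat.zero_le _) hu)
    · exact fun u hu => (PR.fixF_iff _ _).mp (sq18 u (Nat.zero_le _) hu)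
    · exact fun u hu => (PR.fixF_iff _ _).mp (sq20 u (Nat.zero_le _) hu)
    · exact fun u hu => (PR.fixF_iff _ _).mp (sq22 u (Nat.zero_le _) hu)
    · exact fun u hu => (PR.fixF_iff _ _).mp (sq24 u (Nat.zero_le _) hu)
    · exact fun u hu => (PR.fixF_iff _ _).mp (sq26 u (Nat.zero_le _) hu)
    · exact fun u hu => (PR.fixF_iff _ _).mp (sq28 u (Nat.zero_le _) hu)
    · exact fun u hu => (PR.fixF_iff _ _).mp (sq30 u (Nat.zero_le _) hu)

theorem relsOK : ∀ r ∈ coxW ++ extraW, ∀ u < 85, PR.trace (r.map tbl) u = u := by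
  intro r hr
  simp only [coxW, extraW, List.mem_append, List.mem_cons, List.mem_nil_iff, or_false, or_assoc] at hr
  rcases hr with rfl | rfl | rfl | rfl | rfl | rfl | rfl | rfl | rfl | rfl | rfl | rfl | rfl | rfl | rfl | rfl | rfl | rfl | rfl | rfl | rfl | rfl | rfl | rfl | rfl | rfl | rfl | rfl | rfl
  · exact fun u hu => (PR.fixF_iff _ _).mp (rel0 u (Nat.zero_le _) hu)
  · exact fun u hu => (PR.fixF_iff _ _).mp (rel1 u (Nat.zero_le _) hu)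
  · exact fun u hu => (PR.fixF_iff _ _).mp (rel2 u (Nat.zero_le _) hu)
  · exact fun u hu => (PR.fixF_iff _ _).mp (rel3 u (Nat.zero_le _) hu)
  · exact fun u hu => (PR.fixF_iff _ _).mp (rel4 u (Nat.zero_le _) hu)
  · exact fun u hu => (PR.fixF_iff _ _).mp (rel5 u (Nat.zero_le _) hu)
  · exact fun u hu => (PR.fixF_iff _ _).mp (rel6 u (Nat.zero_le _) hu)
  · exact fun u hu => (PR.fixF_iff _ _).mp (rel7 u (Nat.zero_le _) hu)
  · exact fun u hu => (PR.fixF_iff _ _).mp (rel8 u (Nat.zero_le _) hu)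
  · exact fun u hu => (PR.fixF_iff _ _).mp (rel9 u (Nat.zero_le _) hu)
  · exact fun u hu => (PR.fixF_iff _ _).mp (rel10 u (Nat.zero_le _) hu)
  · exact fun u hu => (PR.fixF_iff _ _).mp (rel11 u (Nat.zero_le _) hu)
  · exact fun u hu => (PR.fixF_iff _ _).mp (rel12 u (Nat.zero_le _) hu)
  · exact fun u hu => (PR.fixF_iff _ _).mp (rel13 u (Nat.zero_le _) hu)
  · exact fun u hu => (PR.fixF_iff _ _).mp (rel14 u (Nat.zero_le _) hu)
  · exact fun u hu => (PR.fixF_iff _ _).mp (rel15 u (Nat.zero_le _) hu)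
  · exact fun u hu => (PR.fixF_iff _ _).mp (rel16 u (Nat.zero_le _) hu)
  · exact fun u hu => (PR.fixF_iff _ _).mp (rel17 u (Nat.zero_le _) hu)
  · exact fun u hu => (PR.fixF_iff _ _).mp (rel18 u (Nat.zero_le _) hu)
  · exact fun u hu => (PR.fixF_iff _ _).mp (rel19 u (Nat.zero_le _) hu)
  · exact fun u hu => (PR.fixF_iff _ _).mp (rel20 u (Nat.zero_le _) hu)
  · exact fun u hu => (PR.fixF_iff _ _).mp (rel21 u (Nat.zero_le _) hu)
  · exact fun u hu => (PR.fixF_iff _ _).mp (rel22 u (Nat.zero_le _) hu)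
  · exact fun u hu => (PR.fixF_iff _ _).mp (rel23 u (Nat.zero_le _) hu)
  · exact fun u hu => (PR.fixF_iff _ _).mp (rel24 u (Nat.zero_le _) hu)
  · exact fun u hu => (PR.fixF_iff _ _).mp (rel25 u (Nat.zero_le _) hu)
  · exact fun u hu => (PR.fixF_iff _ _).mp (rel26 u (Nat.zero_le _) hu)
  · exact fun u hu => (PR.fixF_iff _ _).mp (rel27 u (Nat.zero_le _) hu)
  · exact fun u hu => (PR.fixF_iff _ _).mp (rel28 u (Nat.zero_le _) hu)

theorem orbits : PR.Orbits 85 tbl Ls subs ivs := by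
  refine ⟨by decide, ?_, ?_, ?_, ?_, by decide, by decide⟩
  · intro iv hiv s hs
    simp only [ivs, List.mem_cons, List.mem_nil_iff, or_false] at hiv
    simp only [subs, List.mem_cons, List.mem_nil_iff, or_false] at hs
    rcases hiv with rfl | rfl | rfl <;> rcases hs with rfl | rfl | rfl | rfl | rfl | rfl | rfl | rfl | rfl | rfl | rfl
    · exact fun u h1 h2 => ⟨((PR.mapsF_iff _ _ _ _).mp (mp0_0 u h1 h2)).1, Nat.lt_of_le_of_lt ((PR.mapsF_iff _ _ _ _).mp (mp0_0 u h1 h2)).2 (by norm_num)⟩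
    · exact fun u h1 h2 => ⟨((PR.mapsF_iff _ _ _ _).mp (mp0_1 u h1 h2)).1, Nat.lt_of_le_of_lt ((PR.mapsF_iff _ _ _ _).mp (mp0_1 u h1 h2)).2 (by norm_num)⟩
    · exact fun u h1 h2 => ⟨((PR.mapsF_iff _ _ _ _).mp (mp0_2 u h1 h2)).1, Nat.lt_of_le_of_lt ((PR.mapsF_iff _ _ _ _).mp (mp0_2 u h1 h2)).2 (by norm_num)⟩
    · exact fun u h1 h2 => ⟨((PR.mapsF_iff _ _ _ _).mp (mp0_3 u h1 h2)).1, Nat.lt_of_le_of_lt ((PR.mapsF_iff _ _ _ _).mp (mp0_3 u h1 h2)).2 (by norm_num)⟩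
    · exact fun u h1 h2 => ⟨((PR.mapsF_iff _ _ _ _).mp (mp0_4 u h1 h2)).1, Nat.lt_of_le_of_lt ((PR.mapsF_iff _ _ _ _).mp (mp0_4 u h1 h2)).2 (by norm_num)⟩
    · exact fun u h1 h2 => ⟨((PR.mapsF_iff _ _ _ _).mp (mp0_5 u h1 h2)).1, Nat.lt_of_le_of_lt ((PR.mapsF_iff _ _ _ _).mp (mp0_5 u h1 h2)).2 (by norm_num)⟩
    · exact fun u h1 h2 => ⟨((PR.mapsF_iff _ _ _ _).mp (mp0_6 u h1 h2)).1, Nat.lt_of_le_of_lt ((PR.mapsF_iff _ _ _ _).mp (mp0_6 u h1 h2)).2 (by norm_num)⟩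
    · exact fun u h1 h2 => ⟨((PR.mapsF_iff _ _ _ _).mp (mp0_7 u h1 h2)).1, Nat.lt_of_le_of_lt ((PR.mapsF_iff _ _ _ _).mp (mp0_7 u h1 h2)).2 (by norm_num)⟩
    · exact fun u h1 h2 => ⟨((PR.mapsF_iff _ _ _ _).mp (mp0_8 u h1 h2)).1, Nat.lt_of_le_of_lt ((PR.mapsF_iff _ _ _ _).mp (mp0_8 u h1 h2)).2 (by norm_num)⟩
    · exact fun u h1 h2 => ⟨((PR.mapsF_iff _ _ _ _).mp (mp0_9 u h1 h2)).1, Nat.lt_of_le_of_lt ((PR.mapsF_iff _ _ _ _).mp (mp0_9 u h1 h2)).2 (by norm_num)⟩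
    · exact fun u h1 h2 => ⟨((PR.mapsF_iff _ _ _ _).mp (mp0_10 u h1 h2)).1, Nat.lt_of_le_of_lt ((PR.mapsF_iff _ _ _ _).mp (mp0_10 u h1 h2)).2 (by norm_num)⟩
    · exact fun u h1 h2 => ⟨((PR.mapsF_iff _ _ _ _).mp (mp1_0 u h1 h2)).1, Nat.lt_of_le_of_lt ((PR.mapsF_iff _ _ _ _).mp (mp1_0 u h1 h2)).2 (by norm_num)⟩
    · exact fun u h1 h2 => ⟨((PR.mapsF_iff _ _ _ _).mp (mp1_1 u h1 h2)).1, Nat.lt_of_le_of_lt ((PR.mapsF_iff _ _ _ _).mp (mp1_1 u h1 h2)).2 (by norm_num)⟩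
    · exact fun u h1 h2 => ⟨((PR.mapsF_iff _ _ _ _).mp (mp1_2 u h1 h2)).1, Nat.lt_of_le_of_lt ((PR.mapsF_iff _ _ _ _).mp (mp1_2 u h1 h2)).2 (by norm_num)⟩
    · exact fun u h1 h2 => ⟨((PR.mapsF_iff _ _ _ _).mp (mp1_3 u h1 h2)).1, Nat.lt_of_le_of_lt ((PR.mapsF_iff _ _ _ _).mp (mp1_3 u h1 h2)).2 (by norm_num)⟩
    · exact fun u h1 h2 => ⟨((PR.mapsF_iff _ _ _ _).mp (mp1_4 u h1 h2)).1, Nat.lt_of_le_of_lt ((PR.mapsF_iff _ _ _ _).mp (mp1_4 u h1 h2)).2 (by norm_num)⟩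
    · exact fun u h1 h2 => ⟨((PR.mapsF_iff _ _ _ _).mp (mp1_5 u h1 h2)).1, Nat.lt_of_le_of_lt ((PR.mapsF_iff _ _ _ _).mp (mp1_5 u h1 h2)).2 (by norm_num)⟩
    · exact fun u h1 h2 => ⟨((PR.mapsF_iff _ _ _ _).mp (mp1_6 u h1 h2)).1, Nat.lt_of_le_of_lt ((PR.mapsF_iff _ _ _ _).mp (mp1_6 u h1 h2)).2 (by norm_num)⟩
    · exact fun u h1 h2 => ⟨((PR.mapsF_iff _ _ _ _).mp (mp1_7 u h1 h2)).1, Nat.lt_of_le_of_lt ((PR.mapsF_iff _ _ _ _).mp (mp1_7 u h1 h2)).2 (by norm_num)⟩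
    · exact fun u h1 h2 => ⟨((PR.mapsF_iff _ _ _ _).mp (mp1_8 u h1 h2)).1, Nat.lt_of_le_of_lt ((PR.mapsF_iff _ _ _ _).mp (mp1_8 u h1 h2)).2 (by norm_num)⟩
    · exact fun u h1 h2 => ⟨((PR.mapsF_iff _ _ _ _).mp (mp1_9 u h1 h2)).1, Nat.lt_of_le_of_lt ((PR.mapsF_iff _ _ _ _).mp (mp1_9 u h1 h2)).2 (by norm_num)⟩
    · exact fun u h1 h2 => ⟨((PR.mapsF_iff _ _ _ _).mp (mp1_10 u h1 h2)).1, Nat.lt_of_le_of_lt ((PR.mapsF_iff _ _ _ _).mp (mp1_10 u h1 h2)).2 (by norm_num)⟩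
    · exact fun u h1 h2 => ⟨((PR.mapsF_iff _ _ _ _).mp (mp2_0 u h1 h2)).1, Nat.lt_of_le_of_lt ((PR.mapsF_iff _ _ _ _).mp (mp2_0 u h1 h2)).2 (by norm_num)⟩
    · exact fun u h1 h2 => ⟨((PR.mapsF_iff _ _ _ _).mp (mp2_1 u h1 h2)).1, Nat.lt_of_le_of_lt ((PR.mapsF_iff _ _ _ _).mp (mp2_1 u h1 h2)).2 (by norm_num)⟩
    · exact fun u h1 h2 => ⟨((PR.mapsF_iff _ _ _ _).mp (mp2_2 u h1 h2)).1, Nat.lt_of_le_of_lt ((PR.mapsF_iff _ _ _ _).mp (mp2_2 u h1 h2)).2 (by norm_num)⟩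
    · exact fun u h1 h2 => ⟨((PR.mapsF_iff _ _ _ _).mp (mp2_3 u h1 h2)).1, Nat.lt_of_le_of_lt ((PR.mapsF_iff _ _ _ _).mp (mp2_3 u h1 h2)).2 (by norm_num)⟩
    · exact fun u h1 h2 => ⟨((PR.mapsF_iff _ _ _ _).mp (mp2_4 u h1 h2)).1, Nat.lt_of_le_of_lt ((PR.mapsF_iff _ _ _ _).mp (mp2_4 u h1 h2)).2 (by norm_num)⟩
    · exact fun u h1 h2 => ⟨((PR.mapsF_iff _ _ _ _).mp (mp2_5 u h1 h2)).1, Nat.lt_of_le_of_lt ((PR.mapsF_iff _ _ _ _).mp (mp2_5 u h1 h2)).2 (by norm_num)⟩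
    · exact fun u h1 h2 => ⟨((PR.mapsF_iff _ _ _ _).mp (mp2_6 u h1 h2)).1, Nat.lt_of_le_of_lt ((PR.mapsF_iff _ _ _ _).mp (mp2_6 u h1 h2)).2 (by norm_num)⟩
    · exact fun u h1 h2 => ⟨((PR.mapsF_iff _ _ _ _).mp (mp2_7 u h1 h2)).1, Nat.lt_of_le_of_lt ((PR.mapsF_iff _ _ _ _).mp (mp2_7 u h1 h2)).2 (by norm_num)⟩
    · exact fun u h1 h2 => ⟨((PR.mapsF_iff _ _ _ _).mp (mp2_8 u h1 h2)).1, Nat.lt_of_le_of_lt ((PR.mapsF_iff _ _ _ _).mp (mp2_8 u h1 h2)).2 (by norm_num)⟩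
    · exact fun u h1 h2 => ⟨((PR.mapsF_iff _ _ _ _).mp (mp2_9 u h1 h2)).1, Nat.lt_of_le_of_lt ((PR.mapsF_iff _ _ _ _).mp (mp2_9 u h1 h2)).2 (by norm_num)⟩
    · exact fun u h1 h2 => ⟨((PR.mapsF_iff _ _ _ _).mp (mp2_10 u h1 h2)).1, Nat.lt_of_le_of_lt ((PR.mapsF_iff _ _ _ _).mp (mp2_10 u h1 h2)).2 (by norm_num)⟩
  · intro iv hiv
    simp only [ivs, List.mem_cons, List.mem_nil_iff, or_false] at hiv
    rcases hiv with rfl | rfl | rfl
    · intro u h1 h2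
      obtain ⟨s, hs, p, hp⟩ := PR.treeF_sound _ _ _ _ (tre0 u h1 h2)
      exact PR.tree_aux tbl subs _ rfl s hs p _ _ hp
    · intro u h1 h2
      obtain ⟨s, hs, p, hp⟩ := PR.treeF_sound _ _ _ _ (tre1 u h1 h2)
      exact PR.tree_aux tbl subs _ rfl s hs p _ _ hp
    · intro u h1 h2
      obtain ⟨s, hs, p, hp⟩ := PR.treeF_sound _ _ _ _ (tre2 u h1 h2)
      exact PR.tree_aux tbl subs _ rfl s hs p _ _ hp
  · intro iv hiv
    simp only [ivs, List.mem_cons, List.mem_nil_iff, or_false] at hiv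
    rcases hiv with rfl | rfl | rfl
    · exact ⟨[], by decide, root0⟩
    · exact ⟨[8], by decide, root1⟩
    · exact ⟨[28], by decide, root2⟩
  · intro u hu
    simp only [ivs, List.mem_cons, List.mem_nil_iff, or_false, exists_eq_or_imp, exists_eq_left]
    omega

end Cfsg.Agent.Lib.Helper11.S44
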