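import Cfsg.Agent.Lib.Helper11.PRDefs

set_option autoImplicit false
set_option maxRecDepth 1000000

namespace Cfsg.Agent.Lib.Helper11.S44

open Cfsg.Agent.Lib.Helper11

def T10_0_1 : Nat := 10258469990237429948910433996128643965156769358295651311877467610100268513482259984664391788271450741186830224481709513420758158157572840012427889046884267339696471080129824737157
noncomputable def tb10 (i : Nat) : Nat := Nat.land (Nat.shiftRight T10_0_1 (Nat.mul (Nat.land i 255) 7)) 127

end Cfsg.Agent.Lib.Helper11.S44
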