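import Cfsg.Agent.Lib.Helper11.PRDefs

set_option autoImplicit false
set_option maxRecDepth 1000000

namespace Cfsg.Agent.Lib.Helper11.S44

open Cfsg.Agent.Lib.Helper11

def T12_0_1 : Nat := 42830853225601950484011123575249337879276156750682887146991297821070891014684151408978639267661916938869718524470859714000971791117417521403890537132940195474615391075550395469321
noncomputable def tb12 (i : Nat) : Nat := Nat.land (Nat.shiftRight T12_0_1 (Nat.mul (Nat.land i 255) 7)) 127

end Cfsg.Agent.Lib.Helper11.S44
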