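import Cfsg.Agent.Lib.Helper11.PRDefs

set_option autoImplicit false
set_option maxRecDepth 1000000

namespace Cfsg.Agent.Lib.Helper11.S44

open Cfsg.Agent.Lib.Helper11

def T14_0_1 : Nat := 72969519987248216335927274022056939671127952318773527800813294989773168637492121469242351848978774006013213929360381363901363330274781929144270370239772677666685483831243408791826
noncomputable def tb14 (i : Nat) : Nat := Nat.land (Nat.shiftRight T14_0_1 (Nat.mul (Nat.land i 255) 7)) 127

end Cfsg.Agent.Lib.Helper11.S44
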