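import Cfsg.Agent.Lib.Helper11.PRDefs

set_option autoImplicit false
set_option maxRecDepth 1000000

namespace Cfsg.Agent.Lib.Helper11.S44

open Cfsg.Agent.Lib.Helper11

def T16_0_1 : Nat := 85680341415498272613706316849210930600877675010548229336033146370175592665253178389960535959115370703640808656015680364282970444478601634086478709328105441724622014289376029196544
noncomputable def tb16 (i : Nat) : Nat := Nat.land (Nat.shiftRight T16_0_1 (Nat.mul (Nat.land i 255) 7)) 127

end Cfsg.Agent.Lib.Helper11.S44
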