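import Cfsg.Agent.Lib.Helper11.PRDefs

set_option autoImplicit false
set_option maxRecDepth 1000000

namespace Cfsg.Agent.Lib.Helper11.S44

open Cfsg.Agent.Lib.Helper11

def T18_0_1 : Nat := 85498317848899370788152695911472305140793637495723441828919362109696715909397442616373316782452412291778199319298341821733276717857856586890192854865163221931196093198325057159552
noncomputable def tb18 (i : Nat) : Nat := Nat.land (Nat.shiftRight T18_0_1 (Nat.mul (Nat.land i 255) 7)) 127

end Cfsg.Agent.Lib.Helper11.S44
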