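import Cfsg.Agent.Lib.Helper11.PRDefs

set_option autoImplicit false
set_option maxRecDepth 1000000

namespace Cfsg.Agent.Lib.Helper11.S44

open Cfsg.Agent.Lib.Helper11

def T2_0_1 : Nat := 79536225644403022939289648839427601349197280381093882596251840918869643674705520572310676482233724196242008896794999733295808179323842023373383701748425448412111393392569517998720
noncomputable def tb2 (i : Nat) : Nat := Nat.land (Nat.shiftRight T2_0_1 (Nat.mul (Nat.land i 255) 7)) 127

end Cfsg.Agent.Lib.Helper11.S44
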