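import Cfsg.Agent.Lib.Helper11.PRDefs

set_option autoImplicit false
set_option maxRecDepth 1000000

namespace Cfsg.Agent.Lib.Helper11.S44

open Cfsg.Agent.Lib.Helper11

def T20_0_1 : Nat := 84752673139295109680986889396595935364043444689153520854804632992819636445772098821908349117713802211271194497645132813031566088983335086211648922614488981917321498626939244658816
noncomputable def tb20 (i : Nat) : Nat := Nat.land (Nat.shiftRight T20_0_1 (Nat.mul (Nat.land i 255) 7)) 127

end Cfsg.Agent.Lib.Helper11.S44
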