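import Cfsg.Agent.Lib.Helper11.PRDefs

set_option autoImplicit false
set_option maxRecDepth 1000000

namespace Cfsg.Agent.Lib.Helper11.S44

open Cfsg.Agent.Lib.Helper11

def T24_0_1 : Nat := 55349554374467112124867791156581994588867549508420613879264462314468015352107947362087687452435626932852282014180644123015727943389488910958928265929587084606538430125823886393472
noncomputable def tb24 (i : Nat) : Nat := Nat.land (Nat.shiftRight T24_0_1 (Nat.mul (Nat.land i 255) 7)) 127

end Cfsg.Agent.Lib.Helper11.S44
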