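import Cfsg.Agent.Lib.Helper11.PRDefs

set_option autoImplicit false
set_option maxRecDepth 1000000

namespace Cfsg.Agent.Lib.Helper11.S44

open Cfsg.Agent.Lib.Helper11

def T26_0_1 : Nat := 83511881800935777815656063773375000701132377122456416690590966352063261315206862238778645083285714821267482829664531361866755666333117060360076053802492740808657738109780295188608
noncomputable def tb26 (i : Nat) : Nat := Nat.land (Nat.shiftRight T26_0_1 (Nat.mul (Nat.land i 255) 7)) 127

end Cfsg.Agent.Lib.Helper11.S44
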