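import Cfsg.Agent.Lib.Helper11.PRDefs

set_option autoImplicit false
set_option maxRecDepth 1000000

namespace Cfsg.Agent.Lib.Helper11.S44

open Cfsg.Agent.Lib.Helper11

def T28_0_1 : Nat := 46922686915469728629742912540148516750239475340388100890349406434045593312050015984268512015465507429144125539966444421562887394888703688149539325526872200908975305929621072448277
noncomputable def tb28 (i : Nat) : Nat := Nat.land (Nat.shiftRight T28_0_1 (Nat.mul (Nat.land i 255) 7)) 127

end Cfsg.Agent.Lib.Helper11.S44
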