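import Cfsg.Agent.Lib.Helper11.PRDefs

set_option autoImplicit false
set_option maxRecDepth 1000000

namespace Cfsg.Agent.Lib.Helper11.S44

open Cfsg.Agent.Lib.Helper11

def T30_0_1 : Nat := 26566380916489244746735714179883845055941186844277248742471091387570275666707488659750303627605761685597262632051714914518986727892012203242347347319061809834257930201908759892377
noncomputable def tb30 (i : Nat) : Nat := Nat.land (Nat.shiftRight T30_0_1 (Nat.mul (Nat.land i 255) 7)) 127

end Cfsg.Agent.Lib.Helper11.S44
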