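import Cfsg.Agent.Lib.Helper11.PRDefs

set_option autoImplicit false
set_option maxRecDepth 1000000

namespace Cfsg.Agent.Lib.Helper11.S44

open Cfsg.Agent.Lib.Helper11

def T4_0_1 : Nat := 57368068590424739785496857174579699060169919913361702248661646028399408073233668308751259306842929503246175546067293756703929105856902665324441039379039295960532419565729832091776
noncomputable def tb4 (i : Nat) : Nat := Nat.land (Nat.shiftRight T4_0_1 (Nat.mul (Nat.land i 255) 7)) 127

end Cfsg.Agent.Lib.Helper11.S44
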