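import Cfsg.Agent.Lib.Helper11.PRDefs

set_option autoImplicit false
set_option maxRecDepth 1000000

namespace Cfsg.Agent.Lib.Helper11.S44

open Cfsg.Agent.Lib.Helper11

def T6_0_1 : Nat := 63264916021382930249217476789401865373594270735514833464089019443088472850399074118804579600052198086995343325017382932277909124564213265835285757987378351538206039651673400541312
noncomputable def tb6 (i : Nat) : Nat := Nat.land (Nat.shiftRight T6_0_1 (Nat.mul (Nat.land i 255) 7)) 127

end Cfsg.Agent.Lib.Helper11.S44
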