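import Cfsg.Agent.Lib.Helper11.PRDefs

set_option autoImplicit false
set_option maxRecDepth 1000000

namespace Cfsg.Agent.Lib.Helper11.S44

open Cfsg.Agent.Lib.Helper11

def T8_0_1 : Nat := 40889434616631333893437898397749726214931189742291397570948810844995896734024023282595227694919993466047906340208123421564039746949708070605457147532843659977465061205543882227713
noncomputable def tb8 (i : Nat) : Nat := Nat.land (Nat.shiftRight T8_0_1 (Nat.mul (Nat.land i 255) 7)) 127

end Cfsg.Agent.Lib.Helper11.S44
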