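import Cfsg.Agent.Lib.Helper11.PRDefs

set_option autoImplicit false
set_option maxRecDepth 1000000

namespace Cfsg.Agent.Lib.Helper11.S44

open Cfsg.Agent.Lib.Helper11

def TW_0_1 : Nat := 123149158013795644443210122894009501638554694523750507528237295545097991298547985588464993157883782928409704379940703349160791487981677840078072767639734618323773618416511189446055402886170201631473067477770009535033865877195923670391945156428409401455460826237178280927748155244544
noncomputable def tbW (i : Nat) : Nat := Nat.land (Nat.shiftRight TW_0_1 (Nat.mul (Nat.land i 255) 11)) 2047

end Cfsg.Agent.Lib.Helper11.S44
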