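import Cfsg.Agent.Lib.Helper11.S44PT0
import Cfsg.Agent.Lib.Helper11.S44PT2
import Cfsg.Agent.Lib.Helper11.S44PT4
import Cfsg.Agent.Lib.Helper11.S44PT6
import Cfsg.Agent.Lib.Helper11.S44PT8
import Cfsg.Agent.Lib.Helper11.S44PT10
import Cfsg.Agent.Lib.Helper11.S44PT12
import Cfsg.Agent.Lib.Helper11.S44PT14
import Cfsg.Agent.Lib.Helper11.S44PT16
import Cfsg.Agent.Lib.Helper11.S44PT18
import Cfsg.Agent.Lib.Helper11.S44PT20
import Cfsg.Agent.Lib.Helper11.S44PT22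
import Cfsg.Agent.Lib.Helper11.S44PT24
import Cfsg.Agent.Lib.Helper11.S44PT26
import Cfsg.Agent.Lib.Helper11.S44PT28
import Cfsg.Agent.Lib.Helper11.S44PT30
import Cfsg.Agent.Lib.Helper11.S44PTW

set_option autoImplicit false

namespace Cfsg.Agent.Lib.Helper11.S44

noncomputable def tbl : Nat → Nat → Nat
  | 0 => tb0
  | 2 => tb2
  | 4 => tb4
  | 6 => tb6
  | 8 => tb8
  | 10 => tb10
  | 12 => tb12
  | 14 => tb14
  | 16 => tb16
  | 18 => tb18
  | 20 => tb20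
  | 22 => tb22
  | 24 => tb24
  | 26 => tb26
  | 28 => tb28
  | 30 => tb30
  | _ => fun u => u

end Cfsg.Agent.Lib.Helper11.S44
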