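import Cfsg.Agent.Lib.Helper11.PRDefs

set_option autoImplicit false
set_option maxRecDepth 1000000

namespace Cfsg.Agent.Lib.Helper11.S44

open Cfsg.Agent.Lib.Helper11

def T0_0_1 : Nat := 73465816387533947609187457097886141836681603771684864689582267664972466947957904014872105797074015066787079082114265935683757068483608018592731702673574392160495817317636146053632
noncomputable def tb0 (i : Nat) : Nat := Nat.land (Nat.shiftRight T0_0_1 (Nat.mul (Nat.land i 255) 7)) 127

end Cfsg.Agent.Lib.Helper11.S44
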