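import Cfsg.Agent.Lib.Helper11.PRDefs

set_option autoImplicit false
set_option maxRecDepth 1000000

namespace Cfsg.Agent.Lib.Helper11.S44

open Cfsg.Agent.Lib.Helper11

def T22_0_1 : Nat := 76396431575018156186873491137318720906666743915838035852550771840063152475848884034490988222696733843303343341194642037780998559957732410984705446006335867022376509411244384616576
noncomputable def tb22 (i : Nat) : Nat := Nat.land (Nat.shiftRight T22_0_1 (Nat.mul (Nat.land i 255) 7)) 127

end Cfsg.Agent.Lib.Helper11.S44
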