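set_option autoImplicit false

namespace Cfsg.Agent.Lib.Helper11.S44U1

def coxW : List (List Nat) := [
  [4, 6, 4, 6],
  [16, 18, 16, 18],
  [0, 20, 0, 20, 4, 24],
  [2, 20, 2, 20, 6, 26],
  [4, 16, 4, 16, 0, 24],
  [4, 18, 4, 18, 2, 0, 26],
  [6, 16, 6, 16, 2, 26],
  [6, 18, 6, 18, 0, 26, 24],
  [6, 24, 6, 24],
  [6, 26, 6, 26],
  [18, 24, 18, 24],
  [18, 26, 18, 26],
  [22, 26, 22, 26],
  [16, 20, 16, 20, 16, 20],
  [18, 20, 18, 20, 18, 20, 18, 20, 18, 20],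
  [16, 18, 22, 16, 18, 22, 16, 18, 22],
  [16, 20, 16, 18, 16, 20, 16, 22]]

def extraW : List (List Nat) := [
  ]

def subs : List (List Nat) := [
  [16],
  [18],
  [4],
  [6],
  [24],
  [26],
  [0],
  [2]]

def Ls : List Nat := [16, 18, 4, 6, 24, 26, 0, 2, 20, 22]

end Cfsg.Agent.Lib.Helper11.S44U1
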