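set_option autoImplicit false

namespace Cfsg.Agent.Lib.Helper11.S44U2

def coxW : List (List Nat) := [
  [4, 6, 4, 6],
  [16, 18, 16, 18],
  [4, 16, 4, 16, 0, 24],
  [4, 18, 4, 18, 2, 0, 26],
  [6, 16, 6, 16, 2, 26],
  [6, 18, 6, 18, 0, 26, 24],
  [6, 24, 6, 24],
  [6, 26, 6, 26],
  [18, 24, 18, 24],
  [18, 26, 18, 26]]

def extraW : List (List Nat) := [
  ]

def subs : List (List Nat) := [
  ]

def Ls : List Nat := [16, 18, 4, 6, 24, 26, 0, 2]

end Cfsg.Agent.Lib.Helper11.S44U2
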