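import Cfsg.Agent.Lib.Helper11.GenMaster2
import Cfsg.Agent.Lib.Helper11.S44LB
import Cfsg.Agent.Lib.Helper11.S44U0Cert
import Cfsg.Agent.Lib.Helper11.S44U0Pres
import Cfsg.Agent.Lib.Helper11.S44U1Cert
import Cfsg.Agent.Lib.Helper11.S44U1Pres
import Cfsg.Agent.Lib.Helper11.S44U2Cert
import Cfsg.Agent.Lib.Helper11.S44U2Pres

/-! # A Steinberg type presentation on the 16 root involutions `x_r(1), x_r(ω)` of type `C₂`
defines a simple group of order `|Sp(4, 4)|` -/

set_option autoImplicit false
set_option maxRecDepth 100000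

namespace Cfsg.Agent.Lib.Helper11.S44S

open Cfsg.Agent.Lib.Helper11 Cfsg.Agent.Lib.Helper11.TC

abbrev P : Type := GM.WG S44.invL S44.Ls (S44.coxW ++ S44.extraW)

def gen : ℕ → P := GM.wgen S44.invL S44.Ls (S44.coxW ++ S44.extraW)

theorem pres : GM.Pres P gen S44.invL S44.Ls (S44.coxW ++ S44.extraW) :=
  GM.wg_pres (fun _ hl => hl) (by decide) (by decide) (by decide +kernel)

theorem b2 : UB.Bound S44U2.Ls (S44U2.coxW ++ S44U2.extraW) (256 * 1) :=
  UB.Bound.step (n := 256) (by norm_num)
    (fun act q0 h31 hadm hl => S44U2.closed act q0 h31 hadm hl) (subs := S44U2.subs)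
    (by decide +kernel) (by decide) (by decide) (by decide +kernel)
    (Ls' := []) (by decide) (by decide) (rels' := []) (by decide) (UB.Bound.nil _)

theorem b1 : UB.Bound S44U1.Ls (S44U1.coxW ++ S44U1.extraW) (15 * (256 * 1)) :=
  UB.Bound.step (n := 15) (by norm_num)
    (fun act q0 h31 hadm hl => S44U1.closed act q0 h31 hadm hl) (subs := S44U1.subs)
    (by decide +kernel) (by decide) (by decide) (by decide +kernel)
    (by decide) (by decide) (by decide +kernel) b2

theorem b0 : UB.Bound S44U0.Ls (S44U0.coxW ++ S44U0.extraW) (255 * (15 * (256 * 1))) :=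
  UB.Bound.step (n := 255) (by norm_num)
    (fun act q0 h31 hadm hl => S44U0.closed act q0 h31 hadm hl) (subs := S44U0.subs)
    (by decide +kernel) (by decide) (by decide) (by decide +kernel)
    (by decide) (by decide) (by decide +kernel) b1

theorem card_le : Finite P ∧ Nat.card P ≤ 979200 :=
  GM.card_le_of_bound pres (fun _ => rfl) b0

def xw : List ℕ := [18, 22, 14, 6]

def cs : List (List ℕ) := [[], [0, 20], [], [0, 20], [], [0, 20]]

theorem simple : IsSimpleGroup P ∧ Nat.card P = 979200 :=
  GM.simple_master pres (n := 85) (N := 979200) S44.tables S44.relsOK S44.orbits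
    card_le S44.lbase (by decide) S44.lb (by norm_num) (by decide +kernel) (by decide +kernel)
    17 (by norm_num) xw (by decide) (by decide +kernel) 4 (by decide) cs (by decide +kernel)
    (by decide +kernel) (GM.collapses_of_kill (fun _ => rfl) 12 (by decide +kernel))

end Cfsg.Agent.Lib.Helper11.S44S
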