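import Cfsg.Agent.Lib.Helper11.GenMaster2

/-! # Embedding a simple presented group; evaluation of long words -/

set_option autoImplicit false

namespace Cfsg.Agent.Lib.Helper11.SS

open Cfsg.Agent.Lib.Helper11.TC Cfsg.Agent.Lib.Helper11

/-- application which first evaluates the argument -/
noncomputable def strict (f : Nat → Nat) (x : Nat) : Nat :=
  Nat.rec (f 0) (fun k _ => f (Nat.succ k)) x

theorem strict_eq (f : Nat → Nat) (x : Nat) : strict f x = f x := by
  cases x <;> rfl

/-- `PR.trace`, evaluating after every letter -/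
noncomputable def traceS (Ts : List (Nat → Nat)) : Nat → Nat :=
  List.rec (motive := fun _ => Nat → Nat) (fun u => u) (fun T _ ih u => strict ih (T u)) Ts

theorem traceS_eq (Ts : List (Nat → Nat)) (u : Nat) : traceS Ts u = PR.trace Ts u := by
  induction Ts generalizing u with
  | nil => rfl
  | cons T Ts ih =>
    show strict (traceS Ts) (T u) = PR.trace Ts (T u)
    rw [strict_eq, ih]

/-- all letters satisfy `f` -/
noncomputable def allL (f : Nat → Bool) (w : List Nat) : Bool :=
  List.rec true (fun a _ ih => Bool.rec false ih (f a)) w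

theorem allL_spec (f : Nat → Bool) (w : List Nat) (h : allL f w = true) : ∀ x ∈ w, f x = true := by
  induction w with
  | nil => intro x hx; cases hx
  | cons a w ih =>
    have h1 : Bool.rec false (allL f w) (f a) = true := h
    intro x hx
    cases hfa : f a with
    | false => rw [hfa] at h1; cases h1
    | true =>
      rw [hfa] at h1
      rcases List.mem_cons.mp hx with rfl | hx
      · exact hfa
      · exact ih h1 x hx

/-- the check done for a long word -/
noncomputable def chk (Ls : List Nat) (tbl : Nat → Nat → Nat) (base : List Nat) (w : List Nat) : Bool :=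
  Bool.rec false (allL (fun β => Nat.beq (traceS (w.map tbl) β) β) base)
    (allL (fun x => decide (x ∈ Ls)) w)

theorem chk_spec {Ls : List Nat} {tbl : Nat → Nat → Nat} {base : List Nat} {w : List Nat}
    (h : chk Ls tbl base w = true) :
    (∀ l ∈ w, l ∈ Ls) ∧ ∀ β ∈ base, PR.trace (w.map tbl) β = β := by
  unfold chk at h
  cases h1 : allL (fun x => decide (x ∈ Ls)) w with
  | false => rw [h1] at h; cases h
  | true =>
    rw [h1] at h
    refine ⟨fun l hl => of_decide_eq_true (allL_spec _ _ h1 l hl), fun β hβ => ?_⟩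
    have := allL_spec _ _ h β hβ
    rw [← traceS_eq]
    exact Nat.eq_of_beq_eq_true this

theorem ev_flatMap {Γ : Type*} [Group Γ] (g : ℕ → Γ) (f : ℕ → List ℕ) (w : List ℕ) :
    ev (fun l => ev g (f l)) w = ev g (w.flatMap f) := by
  induction w with
  | nil => rfl
  | cons l w ih => rw [ev_cons, ih, List.flatMap_cons, Simp.ev_append]

/-- a simple presented group whose relators hold for given elements of `G` embeds in `G` -/
theorem exists_sub {P : Type} [Group P] {pgen : ℕ → P} {inv : ℕ → ℕ} {Ls : List ℕ}
    {rels : List (List ℕ)} (Pr : GM.Pres P pgen inv Ls rels) (hs : IsSimpleGroup P)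
    {G : Type} [Group G] (p : ℕ → G) (hinv : ∀ l ∈ Ls, p (inv l) = (p l)⁻¹)
    (hrel : ∀ r ∈ rels, ev p r = 1) (s : ℕ) (hsL : s ∈ Ls) (hne : p s ≠ 1) :
    ∃ K : Subgroup G, Nonempty (P ≃* K) := by
  obtain ⟨ψ, hψ⟩ := Pr.lift G p hinv hrel
  have hker : ψ.ker = ⊥ := by
    rcases hs.eq_bot_or_eq_top_of_normal ψ.ker inferInstance with h | h
    · exact h
    · exfalso
      have h3 : pgen s ∈ ψ.ker := by rw [h]; exact Subgroup.mem_top _
      rw [MonoidHom.mem_ker, hψ s hsL] at h3
      exact hne h3
  have hinj : Function.Injective ψ := (MonoidHom.ker_eq_bot_iff ψ).mp hker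
  exact ⟨ψ.range, ⟨MonoidHom.ofInjective hinj⟩⟩

/-- transport of a subgroup along an isomorphism -/
theorem transport {P G H : Type*} [Group P] [Group G] [Group H] (e : G ≃* H)
    (h : ∃ K : Subgroup G, Nonempty (P ≃* K)) : ∃ K : Subgroup H, Nonempty (P ≃* K) := by
  obtain ⟨K, ⟨f⟩⟩ := h
  exact ⟨K.map e.toMonoidHom, ⟨f.trans (Subgroup.equivMapOfInjective K e.toMonoidHom e.injective)⟩⟩

end Cfsg.Agent.Lib.Helper11.SS
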