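import Cfsg.Agent.Lib.Helper11.TCCore
import Cfsg.Agent.Lib.Helper11.Suz22880B0
import Cfsg.Agent.Lib.Helper11.Suz22880B1
import Cfsg.Agent.Lib.Helper11.Suz22880B2

set_option autoImplicit false
set_option maxRecDepth 100000

namespace Cfsg.Agent.Lib.Helper11.Suz22880

open Cfsg.Agent.Lib.Helper11

theorem f0 : F 0 = 32505856 := by decide +kernel

theorem valid {Q : Type*} (act : ℕ → Q → Q) (q0 : Q) (h31 : ∀ x, act 31 x = x)
    (hadm : ∀ a ∈ adm, TC.AdmOK act q0 a) :
    ∀ f < 199256, TC.Valid act q0 F f := by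
  have h := TC.valid_zero act q0 F h31 f0
  have h := TC.checkDefs_chain act q0 F 1 10000 dfs0 h
  have h := TC.checkDefs_chain act q0 F 10001 10000 dfs1 h
  have h := TC.checkDefs_chain act q0 F 20001 10000 dfs2 h
  have h := TC.checkDefs_chain act q0 F 30001 10000 dfs3 h
  have h := TC.checkDefs_chain act q0 F 40001 10000 dfs4 h
  have h := TC.checkDefs_chain act q0 F 50001 10000 dfs5 h
  have h := TC.checkDefs_chain act q0 F 60001 10000 dfs6 h
  have h := TC.checkDefs_chain act q0 F 70001 4770 dfs7 h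
  have h := TC.checkBlocks_sound act q0 F h31 adm hadm _ 74771 79779 (by norm_num) blk0 h
  have h := TC.checkBlocks_sound act q0 F h31 adm hadm _ 79779 84312 (by norm_num) blk1 h
  have h := TC.checkBlocks_sound act q0 F h31 adm hadm _ 84312 88888 (by norm_num) blk2 h
  have h := TC.checkBlocks_sound act q0 F h31 adm hadm _ 88888 93082 (by norm_num) blk3 h
  have h := TC.checkBlocks_sound act q0 F h31 adm hadm _ 93082 97487 (by norm_num) blk4 h
  have h := TC.checkBlocks_sound act q0 F h31 adm hadm _ 97487 101981 (by norm_num) blk5 h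
  have h := TC.checkBlocks_sound act q0 F h31 adm hadm _ 101981 105337 (by norm_num) blk6 h
  have h := TC.checkBlocks_sound act q0 F h31 adm hadm _ 105337 108172 (by norm_num) blk7 h
  have h := TC.checkBlocks_sound act q0 F h31 adm hadm _ 108172 110714 (by norm_num) blk8 h
  have h := TC.checkBlocks_sound act q0 F h31 adm hadm _ 110714 113703 (by norm_num) blk9 h
  have h := TC.checkBlocks_sound act q0 F h31 adm hadm _ 113703 115898 (by norm_num) blk10 h
  have h := TC.checkBlocks_sound act q0 F h31 adm hadm _ 115898 118146 (by norm_num) blk11 h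
  have h := TC.checkBlocks_sound act q0 F h31 adm hadm _ 118146 121348 (by norm_num) blk12 h
  have h := TC.checkBlocks_sound act q0 F h31 adm hadm _ 121348 124394 (by norm_num) blk13 h
  have h := TC.checkBlocks_sound act q0 F h31 adm hadm _ 124394 127193 (by norm_num) blk14 h
  have h := TC.checkBlocks_sound act q0 F h31 adm hadm _ 127193 130691 (by norm_num) blk15 h
  have h := TC.checkBlocks_sound act q0 F h31 adm hadm _ 130691 133729 (by norm_num) blk16 h
  have h := TC.checkBlocks_sound act q0 F h31 adm hadm _ 133729 136716 (by norm_num) blk17 h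
  have h := TC.checkBlocks_sound act q0 F h31 adm hadm _ 136716 139249 (by norm_num) blk18 h
  have h := TC.checkBlocks_sound act q0 F h31 adm hadm _ 139249 143922 (by norm_num) blk19 h
  have h := TC.checkBlocks_sound act q0 F h31 adm hadm _ 143922 148127 (by norm_num) blk20 h
  have h := TC.checkBlocks_sound act q0 F h31 adm hadm _ 148127 153009 (by norm_num) blk21 h
  have h := TC.checkBlocks_sound act q0 F h31 adm hadm _ 153009 157956 (by norm_num) blk22 h
  have h := TC.checkBlocks_sound act q0 F h31 adm hadm _ 157956 162630 (by norm_num) blk23 h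
  have h := TC.checkBlocks_sound act q0 F h31 adm hadm _ 162630 167371 (by norm_num) blk24 h
  have h := TC.checkBlocks_sound act q0 F h31 adm hadm _ 167371 171655 (by norm_num) blk25 h
  have h := TC.checkBlocks_sound act q0 F h31 adm hadm _ 171655 175738 (by norm_num) blk26 h
  have h := TC.checkBlocks_sound act q0 F h31 adm hadm _ 175738 179304 (by norm_num) blk27 h
  have h := TC.checkBlocks_sound act q0 F h31 adm hadm _ 179304 182707 (by norm_num) blk28 h
  have h := TC.checkBlocks_sound act q0 F h31 adm hadm _ 182707 185636 (by norm_num) blk29 h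
  have h := TC.checkBlocks_sound act q0 F h31 adm hadm _ 185636 187925 (by norm_num) blk30 h
  have h := TC.checkBlocks_sound act q0 F h31 adm hadm _ 187925 189938 (by norm_num) blk31 h
  have h := TC.checkBlocks_sound act q0 F h31 adm hadm _ 189938 191403 (by norm_num) blk32 h
  have h := TC.checkBlocks_sound act q0 F h31 adm hadm _ 191403 192531 (by norm_num) blk33 h
  have h := TC.checkBlocks_sound act q0 F h31 adm hadm _ 192531 193729 (by norm_num) blk34 h
  have h := TC.checkBlocks_sound act q0 F h31 adm hadm _ 193729 194624 (by norm_num) blk35 h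
  have h := TC.checkBlocks_sound act q0 F h31 adm hadm _ 194624 195312 (by norm_num) blk36 h
  have h := TC.checkBlocks_sound act q0 F h31 adm hadm _ 195312 196100 (by norm_num) blk37 h
  have h := TC.checkBlocks_sound act q0 F h31 adm hadm _ 196100 196928 (by norm_num) blk38 h
  have h := TC.checkBlocks_sound act q0 F h31 adm hadm _ 196928 197656 (by norm_num) blk39 h
  have h := TC.checkBlocks_sound act q0 F h31 adm hadm _ 197656 198336 (by norm_num) blk40 h
  have h := TC.checkBlocks_sound act q0 F h31 adm hadm _ 198336 198878 (by norm_num) blk41 h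
  have h := TC.checkBlocks_sound act q0 F h31 adm hadm _ 198878 199256 (by norm_num) blk42 h
  exact h

theorem closed {Q : Type*} (act : ℕ → Q → Q) (q0 : Q) (h31 : ∀ x, act 31 x = x)
    (hadm : ∀ a ∈ adm, TC.AdmOK act q0 a) (hl : ∀ e ∈ letters, TC.PairOK act e) :
    ∀ e ∈ letters, ∀ u < 22880, ∃ v ≤ 22879, act e.1 (TC.kap act q0 F u) = TC.kap act q0 F v := by
  have hV : ∀ d, d ≤ 398511 → TC.Valid act q0 F (d / 2) := fun d hd => valid act q0 h31 hadm _ (by omega)
  intro e he
  have hp := hl e he
  simp only [letters, List.mem_cons, List.mem_nil_iff, or_false] at he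
  rcases he with rfl | rfl | rfl | rfl | rfl | rfl | rfl
  · have h : ∀ u < 0, ∃ v ≤ 22879, act ((0, 0) : ℕ × ℕ).1 (TC.kap act q0 F u) = TC.kap act q0 F v := fun u hu => absurd hu (Nat.not_lt_zero u)
    have h := (TC.checkCL_sound act q0 F _ _ _ hp hV _ 0 10000 (by norm_num) cmp0_0 h).2
    have h := (TC.checkCL_sound act q0 F _ _ _ hp hV _ 10000 20000 (by norm_num) cmp0_1 h).2
    have h := (TC.checkCL_sound act q0 F _ _ _ hp hV _ 20000 22880 (by norm_num) cmp0_2 h).2
    exact h
  · have h : ∀ u < 0, ∃ v ≤ 22879, act ((2, 2097152) : ℕ × ℕ).1 (TC.kap act q0 F u) = TC.kap act q0 F v := fun u hu => absurd hu (Nat.not_lt_zero u)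
    have h := (TC.checkCL_sound act q0 F _ _ _ hp hV _ 0 10000 (by norm_num) cmp1_0 h).2
    have h := (TC.checkCL_sound act q0 F _ _ _ hp hV _ 10000 20000 (by norm_num) cmp1_1 h).2
    have h := (TC.checkCL_sound act q0 F _ _ _ hp hV _ 20000 22880 (by norm_num) cmp1_2 h).2
    exact h
  · have h : ∀ u < 0, ∃ v ≤ 22879, act ((4, 4194304) : ℕ × ℕ).1 (TC.kap act q0 F u) = TC.kap act q0 F v := fun u hu => absurd hu (Nat.not_lt_zero u)
    have h := (TC.checkCL_sound act q0 F _ _ _ hp hV _ 0 10000 (by norm_num) cmp2_0 h).2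
    have h := (TC.checkCL_sound act q0 F _ _ _ hp hV _ 10000 20000 (by norm_num) cmp2_1 h).2
    have h := (TC.checkCL_sound act q0 F _ _ _ hp hV _ 20000 22880 (by norm_num) cmp2_2 h).2
    exact h
  · have h : ∀ u < 0, ∃ v ≤ 22879, act ((6, 6291456) : ℕ × ℕ).1 (TC.kap act q0 F u) = TC.kap act q0 F v := fun u hu => absurd hu (Nat.not_lt_zero u)
    have h := (TC.checkCL_sound act q0 F _ _ _ hp hV _ 0 10000 (by norm_num) cmp3_0 h).2
    have h := (TC.checkCL_sound act q0 F _ _ _ hp hV _ 10000 20000 (by norm_num) cmp3_1 h).2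
    have h := (TC.checkCL_sound act q0 F _ _ _ hp hV _ 20000 22880 (by norm_num) cmp3_2 h).2
    exact h
  · have h : ∀ u < 0, ∃ v ≤ 22879, act ((8, 8388608) : ℕ × ℕ).1 (TC.kap act q0 F u) = TC.kap act q0 F v := fun u hu => absurd hu (Nat.not_lt_zero u)
    have h := (TC.checkCL_sound act q0 F _ _ _ hp hV _ 0 10000 (by norm_num) cmp4_0 h).2
    have h := (TC.checkCL_sound act q0 F _ _ _ hp hV _ 10000 20000 (by norm_num) cmp4_1 h).2
    have h := (TC.checkCL_sound act q0 F _ _ _ hp hV _ 20000 22880 (by norm_num) cmp4_2 h).2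
    exact h
  · have h : ∀ u < 0, ∃ v ≤ 22879, act ((10, 10485760) : ℕ × ℕ).1 (TC.kap act q0 F u) = TC.kap act q0 F v := fun u hu => absurd hu (Nat.not_lt_zero u)
    have h := (TC.checkCL_sound act q0 F _ _ _ hp hV _ 0 10000 (by norm_num) cmp5_0 h).2
    have h := (TC.checkCL_sound act q0 F _ _ _ hp hV _ 10000 20000 (by norm_num) cmp5_1 h).2
    have h := (TC.checkCL_sound act q0 F _ _ _ hp hV _ 20000 22880 (by norm_num) cmp5_2 h).2
    exact h
  · have h : ∀ u < 0, ∃ v ≤ 22879, act ((12, 12582912) : ℕ × ℕ).1 (TC.kap act q0 F u) = TC.kap act q0 F v := fun u hu => absurd hu (Nat.not_lt_zero u)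
    have h := (TC.checkCL_sound act q0 F _ _ _ hp hV _ 0 10000 (by norm_num) cmp6_0 h).2
    have h := (TC.checkCL_sound act q0 F _ _ _ hp hV _ 10000 20000 (by norm_num) cmp6_1 h).2
    have h := (TC.checkCL_sound act q0 F _ _ _ hp hV _ 20000 22880 (by norm_num) cmp6_2 h).2
    exact h

end Cfsg.Agent.Lib.Helper11.Suz22880
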