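import Cfsg.Agent.Lib.Helper11.Suz22880PT

set_option autoImplicit false
set_option maxRecDepth 1000000
set_option Elab.async false

namespace Cfsg.Agent.Lib.Helper11.Suz22880

open Cfsg.Agent.Lib.Helper11

theorem mp2_3_0 : PR.allR (PR.mapsF [tb6] 487 8991) 487 8505 = true := by decide +kernel

theorem mp2_4_0 : PR.allR (PR.mapsF [tb10] 487 8991) 487 8505 = true := by decide +kernel

theorem mp2_5_0 : PR.allR (PR.mapsF [tb12] 487 8991) 487 8505 = true := by decide +kernel

theorem tre2_0 : PR.allR (PR.treeF tbW [[tb0], [tb2], [tb4], [tb6], [tb10], [tb12]] 487) 488 8495 = true := by decide +kernel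

theorem tre2_1 : PR.allR (PR.treeF tbW [[tb0], [tb2], [tb4], [tb6], [tb10], [tb12]] 487) 8983 9 = true := by decide +kernel

theorem mp3_0_0 : PR.allR (PR.mapsF [tb0] 8992 22599) 8992 13608 = true := by decide +kernel

theorem mp3_1_0 : PR.allR (PR.mapsF [tb2] 8992 22599) 8992 13608 = true := by decide +kernel

theorem mp3_2_0 : PR.allR (PR.mapsF [tb4] 8992 22599) 8992 13608 = true := by decide +kernel

theorem mp3_3_0 : PR.allR (PR.mapsF [tb6] 8992 22599) 8992 13608 = true := by decide +kernel

theorem mp3_4_0 : PR.allR (PR.mapsF [tb10] 8992 22599) 8992 13608 = true := by decide +kernel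

theorem mp3_5_0 : PR.allR (PR.mapsF [tb12] 8992 22599) 8992 13608 = true := by decide +kernel

theorem tre3_0 : PR.allR (PR.treeF tbW [[tb0], [tb2], [tb4], [tb6], [tb10], [tb12]] 8992) 8993 8495 = true := by decide +kernel

theorem tre3_1 : PR.allR (PR.treeF tbW [[tb0], [tb2], [tb4], [tb6], [tb10], [tb12]] 8992) 17488 5112 = true := by decide +kernel

theorem mp4_0_0 : PR.allR (PR.mapsF [tb0] 22600 22879) 22600 280 = true := by decide +kernel

theorem mp4_1_0 : PR.allR (PR.mapsF [tb2] 22600 22879) 22600 280 = true := by decide +kernel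

theorem mp4_2_0 : PR.allR (PR.mapsF [tb4] 22600 22879) 22600 280 = true := by decide +kernel

theorem mp4_3_0 : PR.allR (PR.mapsF [tb6] 22600 22879) 22600 280 = true := by decide +kernel

theorem mp4_4_0 : PR.allR (PR.mapsF [tb10] 22600 22879) 22600 280 = true := by decide +kernel

theorem mp4_5_0 : PR.allR (PR.mapsF [tb12] 22600 22879) 22600 280 = true := by decide +kernel

theorem tre4_0 : PR.allR (PR.treeF tbW [[tb0], [tb2], [tb4], [tb6], [tb10], [tb12]] 22600) 22601 279 = true := by decide +kernel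

theorem root0 : PR.trace [] 0 = 0 := by decide +kernel

theorem root1 : PR.trace [tb8] 0 = 1 := by decide +kernel

theorem root2 : PR.trace [tb8, tb6, tb4, tb6, tb8] 0 = 487 := by decide +kernel

theorem root3 : PR.trace [tb8, tb6, tb4, tb2, tb6, tb4, tb6, tb8] 0 = 8992 := by decide +kernel

theorem root4 : PR.trace [tb8, tb6, tb4, tb2, tb6, tb4, tb6, tb8, tb6, tb4, tb6, tb10, tb12, tb2, tb4, tb6, tb8] 0 = 22600 := by decide +kernel

end Cfsg.Agent.Lib.Helper11.Suz22880
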