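import Cfsg.Agent.Lib.Helper11.PRMain
import Cfsg.Agent.Lib.Helper11.Suz22880Pres
import Cfsg.Agent.Lib.Helper11.Suz22880PC0
import Cfsg.Agent.Lib.Helper11.Suz22880PC1
import Cfsg.Agent.Lib.Helper11.Suz22880PC2
import Cfsg.Agent.Lib.Helper11.Suz22880PC3

set_option autoImplicit false
set_option maxRecDepth 1000000

namespace Cfsg.Agent.Lib.Helper11.Suz22880

open Cfsg.Agent.Lib.Helper11

theorem rng0 : ∀ u, 0 ≤ u → u < 22880 → PR.mapsF [tb0] 0 22879 u = true := by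
  have h : ∀ u, 0 ≤ u → u < 0 → PR.mapsF [tb0] 0 22879 u = true := fun u h1 h2 => absurd h2 (by omega)
  have h := PR.allR_chain (PR.mapsF [tb0] 0 22879) 0 0 22880 rng0_0 h
  exact h

theorem sq0 : ∀ u, 0 ≤ u → u < 22880 → PR.fixF [tb0, tb0] u = true := by
  have h : ∀ u, 0 ≤ u → u < 0 → PR.fixF [tb0, tb0] u = true := fun u h1 h2 => absurd h2 (by omega)
  have h := PR.allR_chain (PR.fixF [tb0, tb0]) 0 0 12743 sq0_0 h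
  have h := PR.allR_chain (PR.fixF [tb0, tb0]) 0 12743 10137 sq0_1 h
  exact h

theorem rng2 : ∀ u, 0 ≤ u → u < 22880 → PR.mapsF [tb2] 0 22879 u = true := by
  have h : ∀ u, 0 ≤ u → u < 0 → PR.mapsF [tb2] 0 22879 u = true := fun u h1 h2 => absurd h2 (by omega)
  have h := PR.allR_chain (PR.mapsF [tb2] 0 22879) 0 0 22880 rng2_0 h
  exact h

theorem sq2 : ∀ u, 0 ≤ u → u < 22880 → PR.fixF [tb2, tb2] u = true := by
  have h : ∀ u, 0 ≤ u → u < 0 → PR.fixF [tb2, tb2] u = true := fun u h1 h2 => absurd h2 (by omega)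
  have h := PR.allR_chain (PR.fixF [tb2, tb2]) 0 0 12743 sq2_0 h
  have h := PR.allR_chain (PR.fixF [tb2, tb2]) 0 12743 10137 sq2_1 h
  exact h

theorem rng4 : ∀ u, 0 ≤ u → u < 22880 → PR.mapsF [tb4] 0 22879 u = true := by
  have h : ∀ u, 0 ≤ u → u < 0 → PR.mapsF [tb4] 0 22879 u = true := fun u h1 h2 => absurd h2 (by omega)
  have h := PR.allR_chain (PR.mapsF [tb4] 0 22879) 0 0 22880 rng4_0 h
  exact h

theorem sq4 : ∀ u, 0 ≤ u → u < 22880 → PR.fixF [tb4, tb4] u = true := by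
  have h : ∀ u, 0 ≤ u → u < 0 → PR.fixF [tb4, tb4] u = true := fun u h1 h2 => absurd h2 (by omega)
  have h := PR.allR_chain (PR.fixF [tb4, tb4]) 0 0 12743 sq4_0 h
  have h := PR.allR_chain (PR.fixF [tb4, tb4]) 0 12743 10137 sq4_1 h
  exact h

theorem rng6 : ∀ u, 0 ≤ u → u < 22880 → PR.mapsF [tb6] 0 22879 u = true := by
  have h : ∀ u, 0 ≤ u → u < 0 → PR.mapsF [tb6] 0 22879 u = true := fun u h1 h2 => absurd h2 (by omega)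
  have h := PR.allR_chain (PR.mapsF [tb6] 0 22879) 0 0 22880 rng6_0 h
  exact h

theorem sq6 : ∀ u, 0 ≤ u → u < 22880 → PR.fixF [tb6, tb6] u = true := by
  have h : ∀ u, 0 ≤ u → u < 0 → PR.fixF [tb6, tb6] u = true := fun u h1 h2 => absurd h2 (by omega)
  have h := PR.allR_chain (PR.fixF [tb6, tb6]) 0 0 12743 sq6_0 h
  have h := PR.allR_chain (PR.fixF [tb6, tb6]) 0 12743 10137 sq6_1 h
  exact h

theorem rng8 : ∀ u, 0 ≤ u → u < 22880 → PR.mapsF [tb8] 0 22879 u = true := by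
  have h : ∀ u, 0 ≤ u → u < 0 → PR.mapsF [tb8] 0 22879 u = true := fun u h1 h2 => absurd h2 (by omega)
  have h := PR.allR_chain (PR.mapsF [tb8] 0 22879) 0 0 22880 rng8_0 h
  exact h

theorem sq8 : ∀ u, 0 ≤ u → u < 22880 → PR.fixF [tb8, tb8] u = true := by
  have h : ∀ u, 0 ≤ u → u < 0 → PR.fixF [tb8, tb8] u = true := fun u h1 h2 => absurd h2 (by omega)
  have h := PR.allR_chain (PR.fixF [tb8, tb8]) 0 0 12743 sq8_0 h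
  have h := PR.allR_chain (PR.fixF [tb8, tb8]) 0 12743 10137 sq8_1 h
  exact h

theorem rng10 : ∀ u, 0 ≤ u → u < 22880 → PR.mapsF [tb10] 0 22879 u = true := by
  have h : ∀ u, 0 ≤ u → u < 0 → PR.mapsF [tb10] 0 22879 u = true := fun u h1 h2 => absurd h2 (by omega)
  have h := PR.allR_chain (PR.mapsF [tb10] 0 22879) 0 0 22880 rng10_0 h
  exact h

theorem sq10 : ∀ u, 0 ≤ u → u < 22880 → PR.fixF [tb10, tb10] u = true := by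
  have h : ∀ u, 0 ≤ u → u < 0 → PR.fixF [tb10, tb10] u = true := fun u h1 h2 => absurd h2 (by omega)
  have h := PR.allR_chain (PR.fixF [tb10, tb10]) 0 0 12743 sq10_0 h
  have h := PR.allR_chain (PR.fixF [tb10, tb10]) 0 12743 10137 sq10_1 h
  exact h

theorem rng12 : ∀ u, 0 ≤ u → u < 22880 → PR.mapsF [tb12] 0 22879 u = true := by
  have h : ∀ u, 0 ≤ u → u < 0 → PR.mapsF [tb12] 0 22879 u = true := fun u h1 h2 => absurd h2 (by omega)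
  have h := PR.allR_chain (PR.mapsF [tb12] 0 22879) 0 0 22880 rng12_0 h
  exact h

theorem sq12 : ∀ u, 0 ≤ u → u < 22880 → PR.fixF [tb12, tb12] u = true := by
  have h : ∀ u, 0 ≤ u → u < 0 → PR.fixF [tb12, tb12] u = true := fun u h1 h2 => absurd h2 (by omega)
  have h := PR.allR_chain (PR.fixF [tb12, tb12]) 0 0 12743 sq12_0 h
  have h := PR.allR_chain (PR.fixF [tb12, tb12]) 0 12743 10137 sq12_1 h
  exact h

theorem rel0 : ∀ u, 0 ≤ u → u < 22880 → PR.fixF [tb0, tb2, tb0, tb2, tb0, tb2, tb0, tb2, tb0, tb2] u = true := by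
  have h : ∀ u, 0 ≤ u → u < 0 → PR.fixF [tb0, tb2, tb0, tb2, tb0, tb2, tb0, tb2, tb0, tb2] u = true := fun u h1 h2 => absurd h2 (by omega)
  have h := PR.allR_chain (PR.fixF [tb0, tb2, tb0, tb2, tb0, tb2, tb0, tb2, tb0, tb2]) 0 0 2548 rel0_0 h
  have h := PR.allR_chain (PR.fixF [tb0, tb2, tb0, tb2, tb0, tb2, tb0, tb2, tb0, tb2]) 0 2548 2548 rel0_1 h
  have h := PR.allR_chain (PR.fixF [tb0, tb2, tb0, tb2, tb0, tb2, tb0, tb2, tb0, tb2]) 0 5096 2548 rel0_2 h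
  have h := PR.allR_chain (PR.fixF [tb0, tb2, tb0, tb2, tb0, tb2, tb0, tb2, tb0, tb2]) 0 7644 2548 rel0_3 h
  have h := PR.allR_chain (PR.fixF [tb0, tb2, tb0, tb2, tb0, tb2, tb0, tb2, tb0, tb2]) 0 10192 2548 rel0_4 h
  have h := PR.allR_chain (PR.fixF [tb0, tb2, tb0, tb2, tb0, tb2, tb0, tb2, tb0, tb2]) 0 12740 2548 rel0_5 h
  have h := PR.allR_chain (PR.fixF [tb0, tb2, tb0, tb2, tb0, tb2, tb0, tb2, tb0, tb2]) 0 15288 2548 rel0_6 h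
  have h := PR.allR_chain (PR.fixF [tb0, tb2, tb0, tb2, tb0, tb2, tb0, tb2, tb0, tb2]) 0 17836 2548 rel0_7 h
  have h := PR.allR_chain (PR.fixF [tb0, tb2, tb0, tb2, tb0, tb2, tb0, tb2, tb0, tb2]) 0 20384 2496 rel0_8 h
  exact h

theorem rel1 : ∀ u, 0 ≤ u → u < 22880 → PR.fixF [tb0, tb4, tb0, tb4] u = true := by
  have h : ∀ u, 0 ≤ u → u < 0 → PR.fixF [tb0, tb4, tb0, tb4] u = true := fun u h1 h2 => absurd h2 (by omega)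
  have h := PR.allR_chain (PR.fixF [tb0, tb4, tb0, tb4]) 0 0 6371 rel1_0 h
  have h := PR.allR_chain (PR.fixF [tb0, tb4, tb0, tb4]) 0 6371 6371 rel1_1 h
  have h := PR.allR_chain (PR.fixF [tb0, tb4, tb0, tb4]) 0 12742 6371 rel1_2 h
  have h := PR.allR_chain (PR.fixF [tb0, tb4, tb0, tb4]) 0 19113 3767 rel1_3 h
  exact h

theorem rel2 : ∀ u, 0 ≤ u → u < 22880 → PR.fixF [tb0, tb6, tb0, tb6] u = true := by
  have h : ∀ u, 0 ≤ u → u < 0 → PR.fixF [tb0, tb6, tb0, tb6] u = true := fun u h1 h2 => absurd h2 (by omega)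
  have h := PR.allR_chain (PR.fixF [tb0, tb6, tb0, tb6]) 0 0 6371 rel2_0 h
  have h := PR.allR_chain (PR.fixF [tb0, tb6, tb0, tb6]) 0 6371 6371 rel2_1 h
  have h := PR.allR_chain (PR.fixF [tb0, tb6, tb0, tb6]) 0 12742 6371 rel2_2 h
  have h := PR.allR_chain (PR.fixF [tb0, tb6, tb0, tb6]) 0 19113 3767 rel2_3 h
  exact h

theorem rel3 : ∀ u, 0 ≤ u → u < 22880 → PR.fixF [tb0, tb8, tb0, tb8] u = true := by
  have h : ∀ u, 0 ≤ u → u < 0 → PR.fixF [tb0, tb8, tb0, tb8] u = true := fun u h1 h2 => absurd h2 (by omega)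
  have h := PR.allR_chain (PR.fixF [tb0, tb8, tb0, tb8]) 0 0 6371 rel3_0 h
  have h := PR.allR_chain (PR.fixF [tb0, tb8, tb0, tb8]) 0 6371 6371 rel3_1 h
  have h := PR.allR_chain (PR.fixF [tb0, tb8, tb0, tb8]) 0 12742 6371 rel3_2 h
  have h := PR.allR_chain (PR.fixF [tb0, tb8, tb0, tb8]) 0 19113 3767 rel3_3 h
  exact h

theorem rel4 : ∀ u, 0 ≤ u → u < 22880 → PR.fixF [tb0, tb10, tb0, tb10] u = true := by
  have h : ∀ u, 0 ≤ u → u < 0 → PR.fixF [tb0, tb10, tb0, tb10] u = true := fun u h1 h2 => absurd h2 (by omega)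
  have h := PR.allR_chain (PR.fixF [tb0, tb10, tb0, tb10]) 0 0 6371 rel4_0 h
  have h := PR.allR_chain (PR.fixF [tb0, tb10, tb0, tb10]) 0 6371 6371 rel4_1 h
  have h := PR.allR_chain (PR.fixF [tb0, tb10, tb0, tb10]) 0 12742 6371 rel4_2 h
  have h := PR.allR_chain (PR.fixF [tb0, tb10, tb0, tb10]) 0 19113 3767 rel4_3 h
  exact h

theorem rel5 : ∀ u, 0 ≤ u → u < 22880 → PR.fixF [tb0, tb12, tb0, tb12] u = true := by
  have h : ∀ u, 0 ≤ u → u < 0 → PR.fixF [tb0, tb12, tb0, tb12] u = true := fun u h1 h2 => absurd h2 (by omega)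
  have h := PR.allR_chain (PR.fixF [tb0, tb12, tb0, tb12]) 0 0 6371 rel5_0 h
  have h := PR.allR_chain (PR.fixF [tb0, tb12, tb0, tb12]) 0 6371 6371 rel5_1 h
  have h := PR.allR_chain (PR.fixF [tb0, tb12, tb0, tb12]) 0 12742 6371 rel5_2 h
  have h := PR.allR_chain (PR.fixF [tb0, tb12, tb0, tb12]) 0 19113 3767 rel5_3 h
  exact h

theorem rel6 : ∀ u, 0 ≤ u → u < 22880 → PR.fixF [tb2, tb4, tb2, tb4, tb2, tb4] u = true := by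
  have h : ∀ u, 0 ≤ u → u < 0 → PR.fixF [tb2, tb4, tb2, tb4, tb2, tb4] u = true := fun u h1 h2 => absurd h2 (by omega)
  have h := PR.allR_chain (PR.fixF [tb2, tb4, tb2, tb4, tb2, tb4]) 0 0 4247 rel6_0 h
  have h := PR.allR_chain (PR.fixF [tb2, tb4, tb2, tb4, tb2, tb4]) 0 4247 4247 rel6_1 h
  have h := PR.allR_chain (PR.fixF [tb2, tb4, tb2, tb4, tb2, tb4]) 0 8494 4247 rel6_2 h
  have h := PR.allR_chain (PR.fixF [tb2, tb4, tb2, tb4, tb2, tb4]) 0 12741 4247 rel6_3 h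
  have h := PR.allR_chain (PR.fixF [tb2, tb4, tb2, tb4, tb2, tb4]) 0 16988 4247 rel6_4 h
  have h := PR.allR_chain (PR.fixF [tb2, tb4, tb2, tb4, tb2, tb4]) 0 21235 1645 rel6_5 h
  exact h

theorem rel7 : ∀ u, 0 ≤ u → u < 22880 → PR.fixF [tb2, tb6, tb2, tb6] u = true := by
  have h : ∀ u, 0 ≤ u → u < 0 → PR.fixF [tb2, tb6, tb2, tb6] u = true := fun u h1 h2 => absurd h2 (by omega)
  have h := PR.allR_chain (PR.fixF [tb2, tb6, tb2, tb6]) 0 0 6371 rel7_0 h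
  have h := PR.allR_chain (PR.fixF [tb2, tb6, tb2, tb6]) 0 6371 6371 rel7_1 h
  have h := PR.allR_chain (PR.fixF [tb2, tb6, tb2, tb6]) 0 12742 6371 rel7_2 h
  have h := PR.allR_chain (PR.fixF [tb2, tb6, tb2, tb6]) 0 19113 3767 rel7_3 h
  exact h

theorem rel8 : ∀ u, 0 ≤ u → u < 22880 → PR.fixF [tb2, tb8, tb2, tb8] u = true := by
  have h : ∀ u, 0 ≤ u → u < 0 → PR.fixF [tb2, tb8, tb2, tb8] u = true := fun u h1 h2 => absurd h2 (by omega)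
  have h := PR.allR_chain (PR.fixF [tb2, tb8, tb2, tb8]) 0 0 6371 rel8_0 h
  have h := PR.allR_chain (PR.fixF [tb2, tb8, tb2, tb8]) 0 6371 6371 rel8_1 h
  have h := PR.allR_chain (PR.fixF [tb2, tb8, tb2, tb8]) 0 12742 6371 rel8_2 h
  have h := PR.allR_chain (PR.fixF [tb2, tb8, tb2, tb8]) 0 19113 3767 rel8_3 h
  exact h

theorem rel9 : ∀ u, 0 ≤ u → u < 22880 → PR.fixF [tb2, tb10, tb2, tb10, tb2, tb10] u = true := by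
  have h : ∀ u, 0 ≤ u → u < 0 → PR.fixF [tb2, tb10, tb2, tb10, tb2, tb10] u = true := fun u h1 h2 => absurd h2 (by omega)
  have h := PR.allR_chain (PR.fixF [tb2, tb10, tb2, tb10, tb2, tb10]) 0 0 4247 rel9_0 h
  have h := PR.allR_chain (PR.fixF [tb2, tb10, tb2, tb10, tb2, tb10]) 0 4247 4247 rel9_1 h
  have h := PR.allR_chain (PR.fixF [tb2, tb10, tb2, tb10, tb2, tb10]) 0 8494 4247 rel9_2 h
  have h := PR.allR_chain (PR.fixF [tb2, tb10, tb2, tb10, tb2, tb10]) 0 12741 4247 rel9_3 h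
  have h := PR.allR_chain (PR.fixF [tb2, tb10, tb2, tb10, tb2, tb10]) 0 16988 4247 rel9_4 h
  have h := PR.allR_chain (PR.fixF [tb2, tb10, tb2, tb10, tb2, tb10]) 0 21235 1645 rel9_5 h
  exact h

theorem rel10 : ∀ u, 0 ≤ u → u < 22880 → PR.fixF [tb2, tb12, tb2, tb12, tb2, tb12] u = true := by
  have h : ∀ u, 0 ≤ u → u < 0 → PR.fixF [tb2, tb12, tb2, tb12, tb2, tb12] u = true := fun u h1 h2 => absurd h2 (by omega)
  have h := PR.allR_chain (PR.fixF [tb2, tb12, tb2, tb12, tb2, tb12]) 0 0 4247 rel10_0 h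
  have h := PR.allR_chain (PR.fixF [tb2, tb12, tb2, tb12, tb2, tb12]) 0 4247 4247 rel10_1 h
  have h := PR.allR_chain (PR.fixF [tb2, tb12, tb2, tb12, tb2, tb12]) 0 8494 4247 rel10_2 h
  have h := PR.allR_chain (PR.fixF [tb2, tb12, tb2, tb12, tb2, tb12]) 0 12741 4247 rel10_3 h
  have h := PR.allR_chain (PR.fixF [tb2, tb12, tb2, tb12, tb2, tb12]) 0 16988 4247 rel10_4 h
  have h := PR.allR_chain (PR.fixF [tb2, tb12, tb2, tb12, tb2, tb12]) 0 21235 1645 rel10_5 h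
  exact h

theorem rel11 : ∀ u, 0 ≤ u → u < 22880 → PR.fixF [tb4, tb6, tb4, tb6, tb4, tb6, tb4, tb6, tb4, tb6, tb4, tb6, tb4, tb6, tb4, tb6] u = true := by
  have h : ∀ u, 0 ≤ u → u < 0 → PR.fixF [tb4, tb6, tb4, tb6, tb4, tb6, tb4, tb6, tb4, tb6, tb4, tb6, tb4, tb6, tb4, tb6] u = true := fun u h1 h2 => absurd h2 (by omega)
  have h := PR.allR_chain (PR.fixF [tb4, tb6, tb4, tb6, tb4, tb6, tb4, tb6, tb4, tb6, tb4, tb6, tb4, tb6, tb4, tb6]) 0 0 1592 rel11_0 h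
  have h := PR.allR_chain (PR.fixF [tb4, tb6, tb4, tb6, tb4, tb6, tb4, tb6, tb4, tb6, tb4, tb6, tb4, tb6, tb4, tb6]) 0 1592 1592 rel11_1 h
  have h := PR.allR_chain (PR.fixF [tb4, tb6, tb4, tb6, tb4, tb6, tb4, tb6, tb4, tb6, tb4, tb6, tb4, tb6, tb4, tb6]) 0 3184 1592 rel11_2 h
  have h := PR.allR_chain (PR.fixF [tb4, tb6, tb4, tb6, tb4, tb6, tb4, tb6, tb4, tb6, tb4, tb6, tb4, tb6, tb4, tb6]) 0 4776 1592 rel11_3 h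
  have h := PR.allR_chain (PR.fixF [tb4, tb6, tb4, tb6, tb4, tb6, tb4, tb6, tb4, tb6, tb4, tb6, tb4, tb6, tb4, tb6]) 0 6368 1592 rel11_4 h
  have h := PR.allR_chain (PR.fixF [tb4, tb6, tb4, tb6, tb4, tb6, tb4, tb6, tb4, tb6, tb4, tb6, tb4, tb6, tb4, tb6]) 0 7960 1592 rel11_5 h
  have h := PR.allR_chain (PR.fixF [tb4, tb6, tb4, tb6, tb4, tb6, tb4, tb6, tb4, tb6, tb4, tb6, tb4, tb6, tb4, tb6]) 0 9552 1592 rel11_6 h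
  have h := PR.allR_chain (PR.fixF [tb4, tb6, tb4, tb6, tb4, tb6, tb4, tb6, tb4, tb6, tb4, tb6, tb4, tb6, tb4, tb6]) 0 11144 1592 rel11_7 h
  have h := PR.allR_chain (PR.fixF [tb4, tb6, tb4, tb6, tb4, tb6, tb4, tb6, tb4, tb6, tb4, tb6, tb4, tb6, tb4, tb6]) 0 12736 1592 rel11_8 h
  have h := PR.allR_chain (PR.fixF [tb4, tb6, tb4, tb6, tb4, tb6, tb4, tb6, tb4, tb6, tb4, tb6, tb4, tb6, tb4, tb6]) 0 14328 1592 rel11_9 h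
  have h := PR.allR_chain (PR.fixF [tb4, tb6, tb4, tb6, tb4, tb6, tb4, tb6, tb4, tb6, tb4, tb6, tb4, tb6, tb4, tb6]) 0 15920 1592 rel11_10 h
  have h := PR.allR_chain (PR.fixF [tb4, tb6, tb4, tb6, tb4, tb6, tb4, tb6, tb4, tb6, tb4, tb6, tb4, tb6, tb4, tb6]) 0 17512 1592 rel11_11 h
  have h := PR.allR_chain (PR.fixF [tb4, tb6, tb4, tb6, tb4, tb6, tb4, tb6, tb4, tb6, tb4, tb6, tb4, tb6, tb4, tb6]) 0 19104 1592 rel11_12 h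
  have h := PR.allR_chain (PR.fixF [tb4, tb6, tb4, tb6, tb4, tb6, tb4, tb6, tb4, tb6, tb4, tb6, tb4, tb6, tb4, tb6]) 0 20696 1592 rel11_13 h
  have h := PR.allR_chain (PR.fixF [tb4, tb6, tb4, tb6, tb4, tb6, tb4, tb6, tb4, tb6, tb4, tb6, tb4, tb6, tb4, tb6]) 0 22288 592 rel11_14 h
  exact h

theorem rel12 : ∀ u, 0 ≤ u → u < 22880 → PR.fixF [tb4, tb8, tb4, tb8] u = true := by
  have h : ∀ u, 0 ≤ u → u < 0 → PR.fixF [tb4, tb8, tb4, tb8] u = true := fun u h1 h2 => absurd h2 (by omega)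
  have h := PR.allR_chain (PR.fixF [tb4, tb8, tb4, tb8]) 0 0 6371 rel12_0 h
  have h := PR.allR_chain (PR.fixF [tb4, tb8, tb4, tb8]) 0 6371 6371 rel12_1 h
  have h := PR.allR_chain (PR.fixF [tb4, tb8, tb4, tb8]) 0 12742 6371 rel12_2 h
  have h := PR.allR_chain (PR.fixF [tb4, tb8, tb4, tb8]) 0 19113 3767 rel12_3 h
  exact h

theorem rel13 : ∀ u, 0 ≤ u → u < 22880 → PR.fixF [tb4, tb10, tb4, tb10] u = true := by
  have h : ∀ u, 0 ≤ u → u < 0 → PR.fixF [tb4, tb10, tb4, tb10] u = true := fun u h1 h2 => absurd h2 (by omega)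
  have h := PR.allR_chain (PR.fixF [tb4, tb10, tb4, tb10]) 0 0 6371 rel13_0 h
  have h := PR.allR_chain (PR.fixF [tb4, tb10, tb4, tb10]) 0 6371 6371 rel13_1 h
  have h := PR.allR_chain (PR.fixF [tb4, tb10, tb4, tb10]) 0 12742 6371 rel13_2 h
  have h := PR.allR_chain (PR.fixF [tb4, tb10, tb4, tb10]) 0 19113 3767 rel13_3 h
  exact h

theorem rel14 : ∀ u, 0 ≤ u → u < 22880 → PR.fixF [tb4, tb12, tb4, tb12] u = true := by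
  have h : ∀ u, 0 ≤ u → u < 0 → PR.fixF [tb4, tb12, tb4, tb12] u = true := fun u h1 h2 => absurd h2 (by omega)
  have h := PR.allR_chain (PR.fixF [tb4, tb12, tb4, tb12]) 0 0 6371 rel14_0 h
  have h := PR.allR_chain (PR.fixF [tb4, tb12, tb4, tb12]) 0 6371 6371 rel14_1 h
  have h := PR.allR_chain (PR.fixF [tb4, tb12, tb4, tb12]) 0 12742 6371 rel14_2 h
  have h := PR.allR_chain (PR.fixF [tb4, tb12, tb4, tb12]) 0 19113 3767 rel14_3 h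
  exact h

theorem rel15 : ∀ u, 0 ≤ u → u < 22880 → PR.fixF [tb6, tb8, tb6, tb8, tb6, tb8] u = true := by
  have h : ∀ u, 0 ≤ u → u < 0 → PR.fixF [tb6, tb8, tb6, tb8, tb6, tb8] u = true := fun u h1 h2 => absurd h2 (by omega)
  have h := PR.allR_chain (PR.fixF [tb6, tb8, tb6, tb8, tb6, tb8]) 0 0 4247 rel15_0 h
  have h := PR.allR_chain (PR.fixF [tb6, tb8, tb6, tb8, tb6, tb8]) 0 4247 4247 rel15_1 h
  have h := PR.allR_chain (PR.fixF [tb6, tb8, tb6, tb8, tb6, tb8]) 0 8494 4247 rel15_2 h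
  have h := PR.allR_chain (PR.fixF [tb6, tb8, tb6, tb8, tb6, tb8]) 0 12741 4247 rel15_3 h
  have h := PR.allR_chain (PR.fixF [tb6, tb8, tb6, tb8, tb6, tb8]) 0 16988 4247 rel15_4 h
  have h := PR.allR_chain (PR.fixF [tb6, tb8, tb6, tb8, tb6, tb8]) 0 21235 1645 rel15_5 h
  exact h

theorem rel16 : ∀ u, 0 ≤ u → u < 22880 → PR.fixF [tb6, tb10, tb6, tb10] u = true := by
  have h : ∀ u, 0 ≤ u → u < 0 → PR.fixF [tb6, tb10, tb6, tb10] u = true := fun u h1 h2 => absurd h2 (by omega)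
  have h := PR.allR_chain (PR.fixF [tb6, tb10, tb6, tb10]) 0 0 6371 rel16_0 h
  have h := PR.allR_chain (PR.fixF [tb6, tb10, tb6, tb10]) 0 6371 6371 rel16_1 h
  have h := PR.allR_chain (PR.fixF [tb6, tb10, tb6, tb10]) 0 12742 6371 rel16_2 h
  have h := PR.allR_chain (PR.fixF [tb6, tb10, tb6, tb10]) 0 19113 3767 rel16_3 h
  exact h

theorem rel17 : ∀ u, 0 ≤ u → u < 22880 → PR.fixF [tb6, tb12, tb6, tb12] u = true := by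
  have h : ∀ u, 0 ≤ u → u < 0 → PR.fixF [tb6, tb12, tb6, tb12] u = true := fun u h1 h2 => absurd h2 (by omega)
  have h := PR.allR_chain (PR.fixF [tb6, tb12, tb6, tb12]) 0 0 6371 rel17_0 h
  have h := PR.allR_chain (PR.fixF [tb6, tb12, tb6, tb12]) 0 6371 6371 rel17_1 h
  have h := PR.allR_chain (PR.fixF [tb6, tb12, tb6, tb12]) 0 12742 6371 rel17_2 h
  have h := PR.allR_chain (PR.fixF [tb6, tb12, tb6, tb12]) 0 19113 3767 rel17_3 h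
  exact h

theorem rel18 : ∀ u, 0 ≤ u → u < 22880 → PR.fixF [tb8, tb10, tb8, tb10] u = true := by
  have h : ∀ u, 0 ≤ u → u < 0 → PR.fixF [tb8, tb10, tb8, tb10] u = true := fun u h1 h2 => absurd h2 (by omega)
  have h := PR.allR_chain (PR.fixF [tb8, tb10, tb8, tb10]) 0 0 6371 rel18_0 h
  have h := PR.allR_chain (PR.fixF [tb8, tb10, tb8, tb10]) 0 6371 6371 rel18_1 h
  have h := PR.allR_chain (PR.fixF [tb8, tb10, tb8, tb10]) 0 12742 6371 rel18_2 h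
  have h := PR.allR_chain (PR.fixF [tb8, tb10, tb8, tb10]) 0 19113 3767 rel18_3 h
  exact h

theorem rel19 : ∀ u, 0 ≤ u → u < 22880 → PR.fixF [tb8, tb12, tb8, tb12] u = true := by
  have h : ∀ u, 0 ≤ u → u < 0 → PR.fixF [tb8, tb12, tb8, tb12] u = true := fun u h1 h2 => absurd h2 (by omega)
  have h := PR.allR_chain (PR.fixF [tb8, tb12, tb8, tb12]) 0 0 6371 rel19_0 h
  have h := PR.allR_chain (PR.fixF [tb8, tb12, tb8, tb12]) 0 6371 6371 rel19_1 h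
  have h := PR.allR_chain (PR.fixF [tb8, tb12, tb8, tb12]) 0 12742 6371 rel19_2 h
  have h := PR.allR_chain (PR.fixF [tb8, tb12, tb8, tb12]) 0 19113 3767 rel19_3 h
  exact h

theorem rel20 : ∀ u, 0 ≤ u → u < 22880 → PR.fixF [tb10, tb12, tb10, tb12, tb10, tb12, tb10, tb12] u = true := by
  have h : ∀ u, 0 ≤ u → u < 0 → PR.fixF [tb10, tb12, tb10, tb12, tb10, tb12, tb10, tb12] u = true := fun u h1 h2 => absurd h2 (by omega)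
  have h := PR.allR_chain (PR.fixF [tb10, tb12, tb10, tb12, tb10, tb12, tb10, tb12]) 0 0 3185 rel20_0 h
  have h := PR.allR_chain (PR.fixF [tb10, tb12, tb10, tb12, tb10, tb12, tb10, tb12]) 0 3185 3185 rel20_1 h
  have h := PR.allR_chain (PR.fixF [tb10, tb12, tb10, tb12, tb10, tb12, tb10, tb12]) 0 6370 3185 rel20_2 h
  have h := PR.allR_chain (PR.fixF [tb10, tb12, tb10, tb12, tb10, tb12, tb10, tb12]) 0 9555 3185 rel20_3 h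
  have h := PR.allR_chain (PR.fixF [tb10, tb12, tb10, tb12, tb10, tb12, tb10, tb12]) 0 12740 3185 rel20_4 h
  have h := PR.allR_chain (PR.fixF [tb10, tb12, tb10, tb12, tb10, tb12, tb10, tb12]) 0 15925 3185 rel20_5 h
  have h := PR.allR_chain (PR.fixF [tb10, tb12, tb10, tb12, tb10, tb12, tb10, tb12]) 0 19110 3185 rel20_6 h
  have h := PR.allR_chain (PR.fixF [tb10, tb12, tb10, tb12, tb10, tb12, tb10, tb12]) 0 22295 585 rel20_7 h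
  exact h

theorem rel21 : ∀ u, 0 ≤ u → u < 22880 → PR.fixF [tb0, tb6, tb4, tb6, tb4, tb6, tb4, tb6, tb4] u = true := by
  have h : ∀ u, 0 ≤ u → u < 0 → PR.fixF [tb0, tb6, tb4, tb6, tb4, tb6, tb4, tb6, tb4] u = true := fun u h1 h2 => absurd h2 (by omega)
  have h := PR.allR_chain (PR.fixF [tb0, tb6, tb4, tb6, tb4, tb6, tb4, tb6, tb4]) 0 0 2831 rel21_0 h
  have h := PR.allR_chain (PR.fixF [tb0, tb6, tb4, tb6, tb4, tb6, tb4, tb6, tb4]) 0 2831 2831 rel21_1 h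
  have h := PR.allR_chain (PR.fixF [tb0, tb6, tb4, tb6, tb4, tb6, tb4, tb6, tb4]) 0 5662 2831 rel21_2 h
  have h := PR.allR_chain (PR.fixF [tb0, tb6, tb4, tb6, tb4, tb6, tb4, tb6, tb4]) 0 8493 2831 rel21_3 h
  have h := PR.allR_chain (PR.fixF [tb0, tb6, tb4, tb6, tb4, tb6, tb4, tb6, tb4]) 0 11324 2831 rel21_4 h
  have h := PR.allR_chain (PR.fixF [tb0, tb6, tb4, tb6, tb4, tb6, tb4, tb6, tb4]) 0 14155 2831 rel21_5 h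
  have h := PR.allR_chain (PR.fixF [tb0, tb6, tb4, tb6, tb4, tb6, tb4, tb6, tb4]) 0 16986 2831 rel21_6 h
  have h := PR.allR_chain (PR.fixF [tb0, tb6, tb4, tb6, tb4, tb6, tb4, tb6, tb4]) 0 19817 2831 rel21_7 h
  have h := PR.allR_chain (PR.fixF [tb0, tb6, tb4, tb6, tb4, tb6, tb4, tb6, tb4]) 0 22648 232 rel21_8 h
  exact h

theorem rel22 : ∀ u, 0 ≤ u → u < 22880 → PR.fixF [tb0, tb12, tb10, tb12, tb10] u = true := by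
  have h : ∀ u, 0 ≤ u → u < 0 → PR.fixF [tb0, tb12, tb10, tb12, tb10] u = true := fun u h1 h2 => absurd h2 (by omega)
  have h := PR.allR_chain (PR.fixF [tb0, tb12, tb10, tb12, tb10]) 0 0 5097 rel22_0 h
  have h := PR.allR_chain (PR.fixF [tb0, tb12, tb10, tb12, tb10]) 0 5097 5097 rel22_1 h
  have h := PR.allR_chain (PR.fixF [tb0, tb12, tb10, tb12, tb10]) 0 10194 5097 rel22_2 h
  have h := PR.allR_chain (PR.fixF [tb0, tb12, tb10, tb12, tb10]) 0 15291 5097 rel22_3 h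
  have h := PR.allR_chain (PR.fixF [tb0, tb12, tb10, tb12, tb10]) 0 20388 2492 rel22_4 h
  exact h

theorem rel23 : ∀ u, 0 ≤ u → u < 22880 → PR.fixF [tb0, tb2, tb4, tb10, tb0, tb2, tb4, tb10, tb0, tb2, tb4, tb10, tb0, tb2, tb4, tb10, tb0, tb2, tb4, tb10] u = true := by
  have h : ∀ u, 0 ≤ u → u < 0 → PR.fixF [tb0, tb2, tb4, tb10, tb0, tb2, tb4, tb10, tb0, tb2, tb4, tb10, tb0, tb2, tb4, tb10, tb0, tb2, tb4, tb10] u = true := fun u h1 h2 => absurd h2 (by omega)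
  have h := PR.allR_chain (PR.fixF [tb0, tb2, tb4, tb10, tb0, tb2, tb4, tb10, tb0, tb2, tb4, tb10, tb0, tb2, tb4, tb10, tb0, tb2, tb4, tb10]) 0 0 1274 rel23_0 h
  have h := PR.allR_chain (PR.fixF [tb0, tb2, tb4, tb10, tb0, tb2, tb4, tb10, tb0, tb2, tb4, tb10, tb0, tb2, tb4, tb10, tb0, tb2, tb4, tb10]) 0 1274 1274 rel23_1 h
  have h := PR.allR_chain (PR.fixF [tb0, tb2, tb4, tb10, tb0, tb2, tb4, tb10, tb0, tb2, tb4, tb10, tb0, tb2, tb4, tb10, tb0, tb2, tb4, tb10]) 0 2548 1274 rel23_2 h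
  have h := PR.allR_chain (PR.fixF [tb0, tb2, tb4, tb10, tb0, tb2, tb4, tb10, tb0, tb2, tb4, tb10, tb0, tb2, tb4, tb10, tb0, tb2, tb4, tb10]) 0 3822 1274 rel23_3 h
  have h := PR.allR_chain (PR.fixF [tb0, tb2, tb4, tb10, tb0, tb2, tb4, tb10, tb0, tb2, tb4, tb10, tb0, tb2, tb4, tb10, tb0, tb2, tb4, tb10]) 0 5096 1274 rel23_4 h
  have h := PR.allR_chain (PR.fixF [tb0, tb2, tb4, tb10, tb0, tb2, tb4, tb10, tb0, tb2, tb4, tb10, tb0, tb2, tb4, tb10, tb0, tb2, tb4, tb10]) 0 6370 1274 rel23_5 h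
  have h := PR.allR_chain (PR.fixF [tb0, tb2, tb4, tb10, tb0, tb2, tb4, tb10, tb0, tb2, tb4, tb10, tb0, tb2, tb4, tb10, tb0, tb2, tb4, tb10]) 0 7644 1274 rel23_6 h
  have h := PR.allR_chain (PR.fixF [tb0, tb2, tb4, tb10, tb0, tb2, tb4, tb10, tb0, tb2, tb4, tb10, tb0, tb2, tb4, tb10, tb0, tb2, tb4, tb10]) 0 8918 1274 rel23_7 h
  have h := PR.allR_chain (PR.fixF [tb0, tb2, tb4, tb10, tb0, tb2, tb4, tb10, tb0, tb2, tb4, tb10, tb0, tb2, tb4, tb10, tb0, tb2, tb4, tb10]) 0 10192 1274 rel23_8 h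
  have h := PR.allR_chain (PR.fixF [tb0, tb2, tb4, tb10, tb0, tb2, tb4, tb10, tb0, tb2, tb4, tb10, tb0, tb2, tb4, tb10, tb0, tb2, tb4, tb10]) 0 11466 1274 rel23_9 h
  have h := PR.allR_chain (PR.fixF [tb0, tb2, tb4, tb10, tb0, tb2, tb4, tb10, tb0, tb2, tb4, tb10, tb0, tb2, tb4, tb10, tb0, tb2, tb4, tb10]) 0 12740 1274 rel23_10 h
  have h := PR.allR_chain (PR.fixF [tb0, tb2, tb4, tb10, tb0, tb2, tb4, tb10, tb0, tb2, tb4, tb10, tb0, tb2, tb4, tb10, tb0, tb2, tb4, tb10]) 0 14014 1274 rel23_11 h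
  have h := PR.allR_chain (PR.fixF [tb0, tb2, tb4, tb10, tb0, tb2, tb4, tb10, tb0, tb2, tb4, tb10, tb0, tb2, tb4, tb10, tb0, tb2, tb4, tb10]) 0 15288 1274 rel23_12 h
  have h := PR.allR_chain (PR.fixF [tb0, tb2, tb4, tb10, tb0, tb2, tb4, tb10, tb0, tb2, tb4, tb10, tb0, tb2, tb4, tb10, tb0, tb2, tb4, tb10]) 0 16562 1274 rel23_13 h
  have h := PR.allR_chain (PR.fixF [tb0, tb2, tb4, tb10, tb0, tb2, tb4, tb10, tb0, tb2, tb4, tb10, tb0, tb2, tb4, tb10, tb0, tb2, tb4, tb10]) 0 17836 1274 rel23_14 h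
  have h := PR.allR_chain (PR.fixF [tb0, tb2, tb4, tb10, tb0, tb2, tb4, tb10, tb0, tb2, tb4, tb10, tb0, tb2, tb4, tb10, tb0, tb2, tb4, tb10]) 0 19110 1274 rel23_15 h
  have h := PR.allR_chain (PR.fixF [tb0, tb2, tb4, tb10, tb0, tb2, tb4, tb10, tb0, tb2, tb4, tb10, tb0, tb2, tb4, tb10, tb0, tb2, tb4, tb10]) 0 20384 1274 rel23_16 h
  have h := PR.allR_chain (PR.fixF [tb0, tb2, tb4, tb10, tb0, tb2, tb4, tb10, tb0, tb2, tb4, tb10, tb0, tb2, tb4, tb10, tb0, tb2, tb4, tb10]) 0 21658 1222 rel23_17 h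
  exact h

theorem rel24 : ∀ u, 0 ≤ u → u < 22880 → PR.fixF [tb2, tb10, tb12, tb2, tb10, tb12, tb2, tb10, tb12, tb2, tb10, tb12, tb2, tb10, tb12] u = true := by
  have h : ∀ u, 0 ≤ u → u < 0 → PR.fixF [tb2, tb10, tb12, tb2, tb10, tb12, tb2, tb10, tb12, tb2, tb10, tb12, tb2, tb10, tb12] u = true := fun u h1 h2 => absurd h2 (by omega)
  have h := PR.allR_chain (PR.fixF [tb2, tb10, tb12, tb2, tb10, tb12, tb2, tb10, tb12, tb2, tb10, tb12, tb2, tb10, tb12]) 0 0 1699 rel24_0 h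
  have h := PR.allR_chain (PR.fixF [tb2, tb10, tb12, tb2, tb10, tb12, tb2, tb10, tb12, tb2, tb10, tb12, tb2, tb10, tb12]) 0 1699 1699 rel24_1 h
  have h := PR.allR_chain (PR.fixF [tb2, tb10, tb12, tb2, tb10, tb12, tb2, tb10, tb12, tb2, tb10, tb12, tb2, tb10, tb12]) 0 3398 1699 rel24_2 h
  have h := PR.allR_chain (PR.fixF [tb2, tb10, tb12, tb2, tb10, tb12, tb2, tb10, tb12, tb2, tb10, tb12, tb2, tb10, tb12]) 0 5097 1699 rel24_3 h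
  have h := PR.allR_chain (PR.fixF [tb2, tb10, tb12, tb2, tb10, tb12, tb2, tb10, tb12, tb2, tb10, tb12, tb2, tb10, tb12]) 0 6796 1699 rel24_4 h
  have h := PR.allR_chain (PR.fixF [tb2, tb10, tb12, tb2, tb10, tb12, tb2, tb10, tb12, tb2, tb10, tb12, tb2, tb10, tb12]) 0 8495 1699 rel24_5 h
  have h := PR.allR_chain (PR.fixF [tb2, tb10, tb12, tb2, tb10, tb12, tb2, tb10, tb12, tb2, tb10, tb12, tb2, tb10, tb12]) 0 10194 1699 rel24_6 h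
  have h := PR.allR_chain (PR.fixF [tb2, tb10, tb12, tb2, tb10, tb12, tb2, tb10, tb12, tb2, tb10, tb12, tb2, tb10, tb12]) 0 11893 1699 rel24_7 h
  have h := PR.allR_chain (PR.fixF [tb2, tb10, tb12, tb2, tb10, tb12, tb2, tb10, tb12, tb2, tb10, tb12, tb2, tb10, tb12]) 0 13592 1699 rel24_8 h
  have h := PR.allR_chain (PR.fixF [tb2, tb10, tb12, tb2, tb10, tb12, tb2, tb10, tb12, tb2, tb10, tb12, tb2, tb10, tb12]) 0 15291 1699 rel24_9 h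
  have h := PR.allR_chain (PR.fixF [tb2, tb10, tb12, tb2, tb10, tb12, tb2, tb10, tb12, tb2, tb10, tb12, tb2, tb10, tb12]) 0 16990 1699 rel24_10 h
  have h := PR.allR_chain (PR.fixF [tb2, tb10, tb12, tb2, tb10, tb12, tb2, tb10, tb12, tb2, tb10, tb12, tb2, tb10, tb12]) 0 18689 1699 rel24_11 h
  have h := PR.allR_chain (PR.fixF [tb2, tb10, tb12, tb2, tb10, tb12, tb2, tb10, tb12, tb2, tb10, tb12, tb2, tb10, tb12]) 0 20388 1699 rel24_12 h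
  have h := PR.allR_chain (PR.fixF [tb2, tb10, tb12, tb2, tb10, tb12, tb2, tb10, tb12, tb2, tb10, tb12, tb2, tb10, tb12]) 0 22087 793 rel24_13 h
  exact h

theorem rel25 : ∀ u, 0 ≤ u → u < 22880 → PR.fixF [tb2, tb4, tb6, tb4, tb6, tb2, tb4, tb6, tb4, tb6, tb2, tb4, tb6, tb4, tb6, tb2, tb4, tb6, tb4, tb6, tb2, tb4, tb6, tb4, tb6, tb8, tb2, tb4, tb6, tb4, tb6, tb2, tb4, tb6, tb4, tb6, tb2, tb4, tb6, tb4, tb6, tb2, tb4, tb6, tb4, tb6, tb2, tb4, tb6, tb4, tb6, tb8, tb2, tb4, tb6, tb4, tb6, tb2, tb4, tb6, tb4, tb6, tb2, tb4, tb6, tb4, tb6, tb2, tb4, tb6, tb4, tb6, tb2, tb4, tb6, tb4, tb6, tb8] u = true := by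
  have h : ∀ u, 0 ≤ u → u < 0 → PR.fixF [tb2, tb4, tb6, tb4, tb6, tb2, tb4, tb6, tb4, tb6, tb2, tb4, tb6, tb4, tb6, tb2, tb4, tb6, tb4, tb6, tb2, tb4, tb6, tb4, tb6, tb8, tb2, tb4, tb6, tb4, tb6, tb2, tb4, tb6, tb4, tb6, tb2, tb4, tb6, tb4, tb6, tb2, tb4, tb6, tb4, tb6, tb2, tb4, tb6, tb4, tb6, tb8, tb2, tb4, tb6, tb4, tb6, tb2, tb4, tb6, tb4, tb6, tb2, tb4, tb6, tb4, tb6, tb2, tb4, tb6, tb4, tb6, tb2, tb4, tb6, tb4, tb6, tb8] u = true := fun u h1 h2 => absurd h2 (by omega)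
  have h := PR.allR_chain (PR.fixF [tb2, tb4, tb6, tb4, tb6, tb2, tb4, tb6, tb4, tb6, tb2, tb4, tb6, tb4, tb6, tb2, tb4, tb6, tb4, tb6, tb2, tb4, tb6, tb4, tb6, tb8, tb2, tb4, tb6, tb4, tb6, tb2, tb4, tb6, tb4, tb6, tb2, tb4, tb6, tb4, tb6, tb2, tb4, tb6, tb4, tb6, tb2, tb4, tb6, tb4, tb6, tb8, tb2, tb4, tb6, tb4, tb6, tb2, tb4, tb6, tb4, tb6, tb2, tb4, tb6, tb4, tb6, tb2, tb4, tb6, tb4, tb6, tb2, tb4, tb6, tb4, tb6, tb8]) 0 0 326 rel25_0 h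
  have h := PR.allR_chain (PR.fixF [tb2, tb4, tb6, tb4, tb6, tb2, tb4, tb6, tb4, tb6, tb2, tb4, tb6, tb4, tb6, tb2, tb4, tb6, tb4, tb6, tb2, tb4, tb6, tb4, tb6, tb8, tb2, tb4, tb6, tb4, tb6, tb2, tb4, tb6, tb4, tb6, tb2, tb4, tb6, tb4, tb6, tb2, tb4, tb6, tb4, tb6, tb2, tb4, tb6, tb4, tb6, tb8, tb2, tb4, tb6, tb4, tb6, tb2, tb4, tb6, tb4, tb6, tb2, tb4, tb6, tb4, tb6, tb2, tb4, tb6, tb4, tb6, tb2, tb4, tb6, tb4, tb6, tb8]) 0 326 326 rel25_1 h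
  have h := PR.allR_chain (PR.fixF [tb2, tb4, tb6, tb4, tb6, tb2, tb4, tb6, tb4, tb6, tb2, tb4, tb6, tb4, tb6, tb2, tb4, tb6, tb4, tb6, tb2, tb4, tb6, tb4, tb6, tb8, tb2, tb4, tb6, tb4, tb6, tb2, tb4, tb6, tb4, tb6, tb2, tb4, tb6, tb4, tb6, tb2, tb4, tb6, tb4, tb6, tb2, tb4, tb6, tb4, tb6, tb8, tb2, tb4, tb6, tb4, tb6, tb2, tb4, tb6, tb4, tb6, tb2, tb4, tb6, tb4, tb6, tb2, tb4, tb6, tb4, tb6, tb2, tb4, tb6, tb4, tb6, tb8]) 0 652 326 rel25_2 h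
  have h := PR.allR_chain (PR.fixF [tb2, tb4, tb6, tb4, tb6, tb2, tb4, tb6, tb4, tb6, tb2, tb4, tb6, tb4, tb6, tb2, tb4, tb6, tb4, tb6, tb2, tb4, tb6, tb4, tb6, tb8, tb2, tb4, tb6, tb4, tb6, tb2, tb4, tb6, tb4, tb6, tb2, tb4, tb6, tb4, tb6, tb2, tb4, tb6, tb4, tb6, tb2, tb4, tb6, tb4, tb6, tb8, tb2, tb4, tb6, tb4, tb6, tb2, tb4, tb6, tb4, tb6, tb2, tb4, tb6, tb4, tb6, tb2, tb4, tb6, tb4, tb6, tb2, tb4, tb6, tb4, tb6, tb8]) 0 978 326 rel25_3 h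
  have h := PR.allR_chain (PR.fixF [tb2, tb4, tb6, tb4, tb6, tb2, tb4, tb6, tb4, tb6, tb2, tb4, tb6, tb4, tb6, tb2, tb4, tb6, tb4, tb6, tb2, tb4, tb6, tb4, tb6, tb8, tb2, tb4, tb6, tb4, tb6, tb2, tb4, tb6, tb4, tb6, tb2, tb4, tb6, tb4, tb6, tb2, tb4, tb6, tb4, tb6, tb2, tb4, tb6, tb4, tb6, tb8, tb2, tb4, tb6, tb4, tb6, tb2, tb4, tb6, tb4, tb6, tb2, tb4, tb6, tb4, tb6, tb2, tb4, tb6, tb4, tb6, tb2, tb4, tb6, tb4, tb6, tb8]) 0 1304 326 rel25_4 h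
  have h := PR.allR_chain (PR.fixF [tb2, tb4, tb6, tb4, tb6, tb2, tb4, tb6, tb4, tb6, tb2, tb4, tb6, tb4, tb6, tb2, tb4, tb6, tb4, tb6, tb2, tb4, tb6, tb4, tb6, tb8, tb2, tb4, tb6, tb4, tb6, tb2, tb4, tb6, tb4, tb6, tb2, tb4, tb6, tb4, tb6, tb2, tb4, tb6, tb4, tb6, tb2, tb4, tb6, tb4, tb6, tb8, tb2, tb4, tb6, tb4, tb6, tb2, tb4, tb6, tb4, tb6, tb2, tb4, tb6, tb4, tb6, tb2, tb4, tb6, tb4, tb6, tb2, tb4, tb6, tb4, tb6, tb8]) 0 1630 326 rel25_5 h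
  have h := PR.allR_chain (PR.fixF [tb2, tb4, tb6, tb4, tb6, tb2, tb4, tb6, tb4, tb6, tb2, tb4, tb6, tb4, tb6, tb2, tb4, tb6, tb4, tb6, tb2, tb4, tb6, tb4, tb6, tb8, tb2, tb4, tb6, tb4, tb6, tb2, tb4, tb6, tb4, tb6, tb2, tb4, tb6, tb4, tb6, tb2, tb4, tb6, tb4, tb6, tb2, tb4, tb6, tb4, tb6, tb8, tb2, tb4, tb6, tb4, tb6, tb2, tb4, tb6, tb4, tb6, tb2, tb4, tb6, tb4, tb6, tb2, tb4, tb6, tb4, tb6, tb2, tb4, tb6, tb4, tb6, tb8]) 0 1956 326 rel25_6 h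
  have h := PR.allR_chain (PR.fixF [tb2, tb4, tb6, tb4, tb6, tb2, tb4, tb6, tb4, tb6, tb2, tb4, tb6, tb4, tb6, tb2, tb4, tb6, tb4, tb6, tb2, tb4, tb6, tb4, tb6, tb8, tb2, tb4, tb6, tb4, tb6, tb2, tb4, tb6, tb4, tb6, tb2, tb4, tb6, tb4, tb6, tb2, tb4, tb6, tb4, tb6, tb2, tb4, tb6, tb4, tb6, tb8, tb2, tb4, tb6, tb4, tb6, tb2, tb4, tb6, tb4, tb6, tb2, tb4, tb6, tb4, tb6, tb2, tb4, tb6, tb4, tb6, tb2, tb4, tb6, tb4, tb6, tb8]) 0 2282 326 rel25_7 h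
  have h := PR.allR_chain (PR.fixF [tb2, tb4, tb6, tb4, tb6, tb2, tb4, tb6, tb4, tb6, tb2, tb4, tb6, tb4, tb6, tb2, tb4, tb6, tb4, tb6, tb2, tb4, tb6, tb4, tb6, tb8, tb2, tb4, tb6, tb4, tb6, tb2, tb4, tb6, tb4, tb6, tb2, tb4, tb6, tb4, tb6, tb2, tb4, tb6, tb4, tb6, tb2, tb4, tb6, tb4, tb6, tb8, tb2, tb4, tb6, tb4, tb6, tb2, tb4, tb6, tb4, tb6, tb2, tb4, tb6, tb4, tb6, tb2, tb4, tb6, tb4, tb6, tb2, tb4, tb6, tb4, tb6, tb8]) 0 2608 326 rel25_8 h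
  have h := PR.allR_chain (PR.fixF [tb2, tb4, tb6, tb4, tb6, tb2, tb4, tb6, tb4, tb6, tb2, tb4, tb6, tb4, tb6, tb2, tb4, tb6, tb4, tb6, tb2, tb4, tb6, tb4, tb6, tb8, tb2, tb4, tb6, tb4, tb6, tb2, tb4, tb6, tb4, tb6, tb2, tb4, tb6, tb4, tb6, tb2, tb4, tb6, tb4, tb6, tb2, tb4, tb6, tb4, tb6, tb8, tb2, tb4, tb6, tb4, tb6, tb2, tb4, tb6, tb4, tb6, tb2, tb4, tb6, tb4, tb6, tb2, tb4, tb6, tb4, tb6, tb2, tb4, tb6, tb4, tb6, tb8]) 0 2934 326 rel25_9 h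
  have h := PR.allR_chain (PR.fixF [tb2, tb4, tb6, tb4, tb6, tb2, tb4, tb6, tb4, tb6, tb2, tb4, tb6, tb4, tb6, tb2, tb4, tb6, tb4, tb6, tb2, tb4, tb6, tb4, tb6, tb8, tb2, tb4, tb6, tb4, tb6, tb2, tb4, tb6, tb4, tb6, tb2, tb4, tb6, tb4, tb6, tb2, tb4, tb6, tb4, tb6, tb2, tb4, tb6, tb4, tb6, tb8, tb2, tb4, tb6, tb4, tb6, tb2, tb4, tb6, tb4, tb6, tb2, tb4, tb6, tb4, tb6, tb2, tb4, tb6, tb4, tb6, tb2, tb4, tb6, tb4, tb6, tb8]) 0 3260 326 rel25_10 h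
  have h := PR.allR_chain (PR.fixF [tb2, tb4, tb6, tb4, tb6, tb2, tb4, tb6, tb4, tb6, tb2, tb4, tb6, tb4, tb6, tb2, tb4, tb6, tb4, tb6, tb2, tb4, tb6, tb4, tb6, tb8, tb2, tb4, tb6, tb4, tb6, tb2, tb4, tb6, tb4, tb6, tb2, tb4, tb6, tb4, tb6, tb2, tb4, tb6, tb4, tb6, tb2, tb4, tb6, tb4, tb6, tb8, tb2, tb4, tb6, tb4, tb6, tb2, tb4, tb6, tb4, tb6, tb2, tb4, tb6, tb4, tb6, tb2, tb4, tb6, tb4, tb6, tb2, tb4, tb6, tb4, tb6, tb8]) 0 3586 326 rel25_11 h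
  have h := PR.allR_chain (PR.fixF [tb2, tb4, tb6, tb4, tb6, tb2, tb4, tb6, tb4, tb6, tb2, tb4, tb6, tb4, tb6, tb2, tb4, tb6, tb4, tb6, tb2, tb4, tb6, tb4, tb6, tb8, tb2, tb4, tb6, tb4, tb6, tb2, tb4, tb6, tb4, tb6, tb2, tb4, tb6, tb4, tb6, tb2, tb4, tb6, tb4, tb6, tb2, tb4, tb6, tb4, tb6, tb8, tb2, tb4, tb6, tb4, tb6, tb2, tb4, tb6, tb4, tb6, tb2, tb4, tb6, tb4, tb6, tb2, tb4, tb6, tb4, tb6, tb2, tb4, tb6, tb4, tb6, tb8]) 0 3912 326 rel25_12 h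
  have h := PR.allR_chain (PR.fixF [tb2, tb4, tb6, tb4, tb6, tb2, tb4, tb6, tb4, tb6, tb2, tb4, tb6, tb4, tb6, tb2, tb4, tb6, tb4, tb6, tb2, tb4, tb6, tb4, tb6, tb8, tb2, tb4, tb6, tb4, tb6, tb2, tb4, tb6, tb4, tb6, tb2, tb4, tb6, tb4, tb6, tb2, tb4, tb6, tb4, tb6, tb2, tb4, tb6, tb4, tb6, tb8, tb2, tb4, tb6, tb4, tb6, tb2, tb4, tb6, tb4, tb6, tb2, tb4, tb6, tb4, tb6, tb2, tb4, tb6, tb4, tb6, tb2, tb4, tb6, tb4, tb6, tb8]) 0 4238 326 rel25_13 h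
  have h := PR.allR_chain (PR.fixF [tb2, tb4, tb6, tb4, tb6, tb2, tb4, tb6, tb4, tb6, tb2, tb4, tb6, tb4, tb6, tb2, tb4, tb6, tb4, tb6, tb2, tb4, tb6, tb4, tb6, tb8, tb2, tb4, tb6, tb4, tb6, tb2, tb4, tb6, tb4, tb6, tb2, tb4, tb6, tb4, tb6, tb2, tb4, tb6, tb4, tb6, tb2, tb4, tb6, tb4, tb6, tb8, tb2, tb4, tb6, tb4, tb6, tb2, tb4, tb6, tb4, tb6, tb2, tb4, tb6, tb4, tb6, tb2, tb4, tb6, tb4, tb6, tb2, tb4, tb6, tb4, tb6, tb8]) 0 4564 326 rel25_14 h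
  have h := PR.allR_chain (PR.fixF [tb2, tb4, tb6, tb4, tb6, tb2, tb4, tb6, tb4, tb6, tb2, tb4, tb6, tb4, tb6, tb2, tb4, tb6, tb4, tb6, tb2, tb4, tb6, tb4, tb6, tb8, tb2, tb4, tb6, tb4, tb6, tb2, tb4, tb6, tb4, tb6, tb2, tb4, tb6, tb4, tb6, tb2, tb4, tb6, tb4, tb6, tb2, tb4, tb6, tb4, tb6, tb8, tb2, tb4, tb6, tb4, tb6, tb2, tb4, tb6, tb4, tb6, tb2, tb4, tb6, tb4, tb6, tb2, tb4, tb6, tb4, tb6, tb2, tb4, tb6, tb4, tb6, tb8]) 0 4890 326 rel25_15 h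
  have h := PR.allR_chain (PR.fixF [tb2, tb4, tb6, tb4, tb6, tb2, tb4, tb6, tb4, tb6, tb2, tb4, tb6, tb4, tb6, tb2, tb4, tb6, tb4, tb6, tb2, tb4, tb6, tb4, tb6, tb8, tb2, tb4, tb6, tb4, tb6, tb2, tb4, tb6, tb4, tb6, tb2, tb4, tb6, tb4, tb6, tb2, tb4, tb6, tb4, tb6, tb2, tb4, tb6, tb4, tb6, tb8, tb2, tb4, tb6, tb4, tb6, tb2, tb4, tb6, tb4, tb6, tb2, tb4, tb6, tb4, tb6, tb2, tb4, tb6, tb4, tb6, tb2, tb4, tb6, tb4, tb6, tb8]) 0 5216 326 rel25_16 h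
  have h := PR.allR_chain (PR.fixF [tb2, tb4, tb6, tb4, tb6, tb2, tb4, tb6, tb4, tb6, tb2, tb4, tb6, tb4, tb6, tb2, tb4, tb6, tb4, tb6, tb2, tb4, tb6, tb4, tb6, tb8, tb2, tb4, tb6, tb4, tb6, tb2, tb4, tb6, tb4, tb6, tb2, tb4, tb6, tb4, tb6, tb2, tb4, tb6, tb4, tb6, tb2, tb4, tb6, tb4, tb6, tb8, tb2, tb4, tb6, tb4, tb6, tb2, tb4, tb6, tb4, tb6, tb2, tb4, tb6, tb4, tb6, tb2, tb4, tb6, tb4, tb6, tb2, tb4, tb6, tb4, tb6, tb8]) 0 5542 326 rel25_17 h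
  have h := PR.allR_chain (PR.fixF [tb2, tb4, tb6, tb4, tb6, tb2, tb4, tb6, tb4, tb6, tb2, tb4, tb6, tb4, tb6, tb2, tb4, tb6, tb4, tb6, tb2, tb4, tb6, tb4, tb6, tb8, tb2, tb4, tb6, tb4, tb6, tb2, tb4, tb6, tb4, tb6, tb2, tb4, tb6, tb4, tb6, tb2, tb4, tb6, tb4, tb6, tb2, tb4, tb6, tb4, tb6, tb8, tb2, tb4, tb6, tb4, tb6, tb2, tb4, tb6, tb4, tb6, tb2, tb4, tb6, tb4, tb6, tb2, tb4, tb6, tb4, tb6, tb2, tb4, tb6, tb4, tb6, tb8]) 0 5868 326 rel25_18 h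
  have h := PR.allR_chain (PR.fixF [tb2, tb4, tb6, tb4, tb6, tb2, tb4, tb6, tb4, tb6, tb2, tb4, tb6, tb4, tb6, tb2, tb4, tb6, tb4, tb6, tb2, tb4, tb6, tb4, tb6, tb8, tb2, tb4, tb6, tb4, tb6, tb2, tb4, tb6, tb4, tb6, tb2, tb4, tb6, tb4, tb6, tb2, tb4, tb6, tb4, tb6, tb2, tb4, tb6, tb4, tb6, tb8, tb2, tb4, tb6, tb4, tb6, tb2, tb4, tb6, tb4, tb6, tb2, tb4, tb6, tb4, tb6, tb2, tb4, tb6, tb4, tb6, tb2, tb4, tb6, tb4, tb6, tb8]) 0 6194 326 rel25_19 h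
  have h := PR.allR_chain (PR.fixF [tb2, tb4, tb6, tb4, tb6, tb2, tb4, tb6, tb4, tb6, tb2, tb4, tb6, tb4, tb6, tb2, tb4, tb6, tb4, tb6, tb2, tb4, tb6, tb4, tb6, tb8, tb2, tb4, tb6, tb4, tb6, tb2, tb4, tb6, tb4, tb6, tb2, tb4, tb6, tb4, tb6, tb2, tb4, tb6, tb4, tb6, tb2, tb4, tb6, tb4, tb6, tb8, tb2, tb4, tb6, tb4, tb6, tb2, tb4, tb6, tb4, tb6, tb2, tb4, tb6, tb4, tb6, tb2, tb4, tb6, tb4, tb6, tb2, tb4, tb6, tb4, tb6, tb8]) 0 6520 326 rel25_20 h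
  have h := PR.allR_chain (PR.fixF [tb2, tb4, tb6, tb4, tb6, tb2, tb4, tb6, tb4, tb6, tb2, tb4, tb6, tb4, tb6, tb2, tb4, tb6, tb4, tb6, tb2, tb4, tb6, tb4, tb6, tb8, tb2, tb4, tb6, tb4, tb6, tb2, tb4, tb6, tb4, tb6, tb2, tb4, tb6, tb4, tb6, tb2, tb4, tb6, tb4, tb6, tb2, tb4, tb6, tb4, tb6, tb8, tb2, tb4, tb6, tb4, tb6, tb2, tb4, tb6, tb4, tb6, tb2, tb4, tb6, tb4, tb6, tb2, tb4, tb6, tb4, tb6, tb2, tb4, tb6, tb4, tb6, tb8]) 0 6846 326 rel25_21 h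
  have h := PR.allR_chain (PR.fixF [tb2, tb4, tb6, tb4, tb6, tb2, tb4, tb6, tb4, tb6, tb2, tb4, tb6, tb4, tb6, tb2, tb4, tb6, tb4, tb6, tb2, tb4, tb6, tb4, tb6, tb8, tb2, tb4, tb6, tb4, tb6, tb2, tb4, tb6, tb4, tb6, tb2, tb4, tb6, tb4, tb6, tb2, tb4, tb6, tb4, tb6, tb2, tb4, tb6, tb4, tb6, tb8, tb2, tb4, tb6, tb4, tb6, tb2, tb4, tb6, tb4, tb6, tb2, tb4, tb6, tb4, tb6, tb2, tb4, tb6, tb4, tb6, tb2, tb4, tb6, tb4, tb6, tb8]) 0 7172 326 rel25_22 h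
  have h := PR.allR_chain (PR.fixF [tb2, tb4, tb6, tb4, tb6, tb2, tb4, tb6, tb4, tb6, tb2, tb4, tb6, tb4, tb6, tb2, tb4, tb6, tb4, tb6, tb2, tb4, tb6, tb4, tb6, tb8, tb2, tb4, tb6, tb4, tb6, tb2, tb4, tb6, tb4, tb6, tb2, tb4, tb6, tb4, tb6, tb2, tb4, tb6, tb4, tb6, tb2, tb4, tb6, tb4, tb6, tb8, tb2, tb4, tb6, tb4, tb6, tb2, tb4, tb6, tb4, tb6, tb2, tb4, tb6, tb4, tb6, tb2, tb4, tb6, tb4, tb6, tb2, tb4, tb6, tb4, tb6, tb8]) 0 7498 326 rel25_23 h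
  have h := PR.allR_chain (PR.fixF [tb2, tb4, tb6, tb4, tb6, tb2, tb4, tb6, tb4, tb6, tb2, tb4, tb6, tb4, tb6, tb2, tb4, tb6, tb4, tb6, tb2, tb4, tb6, tb4, tb6, tb8, tb2, tb4, tb6, tb4, tb6, tb2, tb4, tb6, tb4, tb6, tb2, tb4, tb6, tb4, tb6, tb2, tb4, tb6, tb4, tb6, tb2, tb4, tb6, tb4, tb6, tb8, tb2, tb4, tb6, tb4, tb6, tb2, tb4, tb6, tb4, tb6, tb2, tb4, tb6, tb4, tb6, tb2, tb4, tb6, tb4, tb6, tb2, tb4, tb6, tb4, tb6, tb8]) 0 7824 326 rel25_24 h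
  have h := PR.allR_chain (PR.fixF [tb2, tb4, tb6, tb4, tb6, tb2, tb4, tb6, tb4, tb6, tb2, tb4, tb6, tb4, tb6, tb2, tb4, tb6, tb4, tb6, tb2, tb4, tb6, tb4, tb6, tb8, tb2, tb4, tb6, tb4, tb6, tb2, tb4, tb6, tb4, tb6, tb2, tb4, tb6, tb4, tb6, tb2, tb4, tb6, tb4, tb6, tb2, tb4, tb6, tb4, tb6, tb8, tb2, tb4, tb6, tb4, tb6, tb2, tb4, tb6, tb4, tb6, tb2, tb4, tb6, tb4, tb6, tb2, tb4, tb6, tb4, tb6, tb2, tb4, tb6, tb4, tb6, tb8]) 0 8150 326 rel25_25 h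
  have h := PR.allR_chain (PR.fixF [tb2, tb4, tb6, tb4, tb6, tb2, tb4, tb6, tb4, tb6, tb2, tb4, tb6, tb4, tb6, tb2, tb4, tb6, tb4, tb6, tb2, tb4, tb6, tb4, tb6, tb8, tb2, tb4, tb6, tb4, tb6, tb2, tb4, tb6, tb4, tb6, tb2, tb4, tb6, tb4, tb6, tb2, tb4, tb6, tb4, tb6, tb2, tb4, tb6, tb4, tb6, tb8, tb2, tb4, tb6, tb4, tb6, tb2, tb4, tb6, tb4, tb6, tb2, tb4, tb6, tb4, tb6, tb2, tb4, tb6, tb4, tb6, tb2, tb4, tb6, tb4, tb6, tb8]) 0 8476 326 rel25_26 h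
  have h := PR.allR_chain (PR.fixF [tb2, tb4, tb6, tb4, tb6, tb2, tb4, tb6, tb4, tb6, tb2, tb4, tb6, tb4, tb6, tb2, tb4, tb6, tb4, tb6, tb2, tb4, tb6, tb4, tb6, tb8, tb2, tb4, tb6, tb4, tb6, tb2, tb4, tb6, tb4, tb6, tb2, tb4, tb6, tb4, tb6, tb2, tb4, tb6, tb4, tb6, tb2, tb4, tb6, tb4, tb6, tb8, tb2, tb4, tb6, tb4, tb6, tb2, tb4, tb6, tb4, tb6, tb2, tb4, tb6, tb4, tb6, tb2, tb4, tb6, tb4, tb6, tb2, tb4, tb6, tb4, tb6, tb8]) 0 8802 326 rel25_27 h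
  have h := PR.allR_chain (PR.fixF [tb2, tb4, tb6, tb4, tb6, tb2, tb4, tb6, tb4, tb6, tb2, tb4, tb6, tb4, tb6, tb2, tb4, tb6, tb4, tb6, tb2, tb4, tb6, tb4, tb6, tb8, tb2, tb4, tb6, tb4, tb6, tb2, tb4, tb6, tb4, tb6, tb2, tb4, tb6, tb4, tb6, tb2, tb4, tb6, tb4, tb6, tb2, tb4, tb6, tb4, tb6, tb8, tb2, tb4, tb6, tb4, tb6, tb2, tb4, tb6, tb4, tb6, tb2, tb4, tb6, tb4, tb6, tb2, tb4, tb6, tb4, tb6, tb2, tb4, tb6, tb4, tb6, tb8]) 0 9128 326 rel25_28 h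
  have h := PR.allR_chain (PR.fixF [tb2, tb4, tb6, tb4, tb6, tb2, tb4, tb6, tb4, tb6, tb2, tb4, tb6, tb4, tb6, tb2, tb4, tb6, tb4, tb6, tb2, tb4, tb6, tb4, tb6, tb8, tb2, tb4, tb6, tb4, tb6, tb2, tb4, tb6, tb4, tb6, tb2, tb4, tb6, tb4, tb6, tb2, tb4, tb6, tb4, tb6, tb2, tb4, tb6, tb4, tb6, tb8, tb2, tb4, tb6, tb4, tb6, tb2, tb4, tb6, tb4, tb6, tb2, tb4, tb6, tb4, tb6, tb2, tb4, tb6, tb4, tb6, tb2, tb4, tb6, tb4, tb6, tb8]) 0 9454 326 rel25_29 h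
  have h := PR.allR_chain (PR.fixF [tb2, tb4, tb6, tb4, tb6, tb2, tb4, tb6, tb4, tb6, tb2, tb4, tb6, tb4, tb6, tb2, tb4, tb6, tb4, tb6, tb2, tb4, tb6, tb4, tb6, tb8, tb2, tb4, tb6, tb4, tb6, tb2, tb4, tb6, tb4, tb6, tb2, tb4, tb6, tb4, tb6, tb2, tb4, tb6, tb4, tb6, tb2, tb4, tb6, tb4, tb6, tb8, tb2, tb4, tb6, tb4, tb6, tb2, tb4, tb6, tb4, tb6, tb2, tb4, tb6, tb4, tb6, tb2, tb4, tb6, tb4, tb6, tb2, tb4, tb6, tb4, tb6, tb8]) 0 9780 326 rel25_30 h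
  have h := PR.allR_chain (PR.fixF [tb2, tb4, tb6, tb4, tb6, tb2, tb4, tb6, tb4, tb6, tb2, tb4, tb6, tb4, tb6, tb2, tb4, tb6, tb4, tb6, tb2, tb4, tb6, tb4, tb6, tb8, tb2, tb4, tb6, tb4, tb6, tb2, tb4, tb6, tb4, tb6, tb2, tb4, tb6, tb4, tb6, tb2, tb4, tb6, tb4, tb6, tb2, tb4, tb6, tb4, tb6, tb8, tb2, tb4, tb6, tb4, tb6, tb2, tb4, tb6, tb4, tb6, tb2, tb4, tb6, tb4, tb6, tb2, tb4, tb6, tb4, tb6, tb2, tb4, tb6, tb4, tb6, tb8]) 0 10106 326 rel25_31 h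
  have h := PR.allR_chain (PR.fixF [tb2, tb4, tb6, tb4, tb6, tb2, tb4, tb6, tb4, tb6, tb2, tb4, tb6, tb4, tb6, tb2, tb4, tb6, tb4, tb6, tb2, tb4, tb6, tb4, tb6, tb8, tb2, tb4, tb6, tb4, tb6, tb2, tb4, tb6, tb4, tb6, tb2, tb4, tb6, tb4, tb6, tb2, tb4, tb6, tb4, tb6, tb2, tb4, tb6, tb4, tb6, tb8, tb2, tb4, tb6, tb4, tb6, tb2, tb4, tb6, tb4, tb6, tb2, tb4, tb6, tb4, tb6, tb2, tb4, tb6, tb4, tb6, tb2, tb4, tb6, tb4, tb6, tb8]) 0 10432 326 rel25_32 h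
  have h := PR.allR_chain (PR.fixF [tb2, tb4, tb6, tb4, tb6, tb2, tb4, tb6, tb4, tb6, tb2, tb4, tb6, tb4, tb6, tb2, tb4, tb6, tb4, tb6, tb2, tb4, tb6, tb4, tb6, tb8, tb2, tb4, tb6, tb4, tb6, tb2, tb4, tb6, tb4, tb6, tb2, tb4, tb6, tb4, tb6, tb2, tb4, tb6, tb4, tb6, tb2, tb4, tb6, tb4, tb6, tb8, tb2, tb4, tb6, tb4, tb6, tb2, tb4, tb6, tb4, tb6, tb2, tb4, tb6, tb4, tb6, tb2, tb4, tb6, tb4, tb6, tb2, tb4, tb6, tb4, tb6, tb8]) 0 10758 326 rel25_33 h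
  have h := PR.allR_chain (PR.fixF [tb2, tb4, tb6, tb4, tb6, tb2, tb4, tb6, tb4, tb6, tb2, tb4, tb6, tb4, tb6, tb2, tb4, tb6, tb4, tb6, tb2, tb4, tb6, tb4, tb6, tb8, tb2, tb4, tb6, tb4, tb6, tb2, tb4, tb6, tb4, tb6, tb2, tb4, tb6, tb4, tb6, tb2, tb4, tb6, tb4, tb6, tb2, tb4, tb6, tb4, tb6, tb8, tb2, tb4, tb6, tb4, tb6, tb2, tb4, tb6, tb4, tb6, tb2, tb4, tb6, tb4, tb6, tb2, tb4, tb6, tb4, tb6, tb2, tb4, tb6, tb4, tb6, tb8]) 0 11084 326 rel25_34 h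
  have h := PR.allR_chain (PR.fixF [tb2, tb4, tb6, tb4, tb6, tb2, tb4, tb6, tb4, tb6, tb2, tb4, tb6, tb4, tb6, tb2, tb4, tb6, tb4, tb6, tb2, tb4, tb6, tb4, tb6, tb8, tb2, tb4, tb6, tb4, tb6, tb2, tb4, tb6, tb4, tb6, tb2, tb4, tb6, tb4, tb6, tb2, tb4, tb6, tb4, tb6, tb2, tb4, tb6, tb4, tb6, tb8, tb2, tb4, tb6, tb4, tb6, tb2, tb4, tb6, tb4, tb6, tb2, tb4, tb6, tb4, tb6, tb2, tb4, tb6, tb4, tb6, tb2, tb4, tb6, tb4, tb6, tb8]) 0 11410 326 rel25_35 h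
  have h := PR.allR_chain (PR.fixF [tb2, tb4, tb6, tb4, tb6, tb2, tb4, tb6, tb4, tb6, tb2, tb4, tb6, tb4, tb6, tb2, tb4, tb6, tb4, tb6, tb2, tb4, tb6, tb4, tb6, tb8, tb2, tb4, tb6, tb4, tb6, tb2, tb4, tb6, tb4, tb6, tb2, tb4, tb6, tb4, tb6, tb2, tb4, tb6, tb4, tb6, tb2, tb4, tb6, tb4, tb6, tb8, tb2, tb4, tb6, tb4, tb6, tb2, tb4, tb6, tb4, tb6, tb2, tb4, tb6, tb4, tb6, tb2, tb4, tb6, tb4, tb6, tb2, tb4, tb6, tb4, tb6, tb8]) 0 11736 326 rel25_36 h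
  have h := PR.allR_chain (PR.fixF [tb2, tb4, tb6, tb4, tb6, tb2, tb4, tb6, tb4, tb6, tb2, tb4, tb6, tb4, tb6, tb2, tb4, tb6, tb4, tb6, tb2, tb4, tb6, tb4, tb6, tb8, tb2, tb4, tb6, tb4, tb6, tb2, tb4, tb6, tb4, tb6, tb2, tb4, tb6, tb4, tb6, tb2, tb4, tb6, tb4, tb6, tb2, tb4, tb6, tb4, tb6, tb8, tb2, tb4, tb6, tb4, tb6, tb2, tb4, tb6, tb4, tb6, tb2, tb4, tb6, tb4, tb6, tb2, tb4, tb6, tb4, tb6, tb2, tb4, tb6, tb4, tb6, tb8]) 0 12062 326 rel25_37 h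
  have h := PR.allR_chain (PR.fixF [tb2, tb4, tb6, tb4, tb6, tb2, tb4, tb6, tb4, tb6, tb2, tb4, tb6, tb4, tb6, tb2, tb4, tb6, tb4, tb6, tb2, tb4, tb6, tb4, tb6, tb8, tb2, tb4, tb6, tb4, tb6, tb2, tb4, tb6, tb4, tb6, tb2, tb4, tb6, tb4, tb6, tb2, tb4, tb6, tb4, tb6, tb2, tb4, tb6, tb4, tb6, tb8, tb2, tb4, tb6, tb4, tb6, tb2, tb4, tb6, tb4, tb6, tb2, tb4, tb6, tb4, tb6, tb2, tb4, tb6, tb4, tb6, tb2, tb4, tb6, tb4, tb6, tb8]) 0 12388 326 rel25_38 h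
  have h := PR.allR_chain (PR.fixF [tb2, tb4, tb6, tb4, tb6, tb2, tb4, tb6, tb4, tb6, tb2, tb4, tb6, tb4, tb6, tb2, tb4, tb6, tb4, tb6, tb2, tb4, tb6, tb4, tb6, tb8, tb2, tb4, tb6, tb4, tb6, tb2, tb4, tb6, tb4, tb6, tb2, tb4, tb6, tb4, tb6, tb2, tb4, tb6, tb4, tb6, tb2, tb4, tb6, tb4, tb6, tb8, tb2, tb4, tb6, tb4, tb6, tb2, tb4, tb6, tb4, tb6, tb2, tb4, tb6, tb4, tb6, tb2, tb4, tb6, tb4, tb6, tb2, tb4, tb6, tb4, tb6, tb8]) 0 12714 326 rel25_39 h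
  have h := PR.allR_chain (PR.fixF [tb2, tb4, tb6, tb4, tb6, tb2, tb4, tb6, tb4, tb6, tb2, tb4, tb6, tb4, tb6, tb2, tb4, tb6, tb4, tb6, tb2, tb4, tb6, tb4, tb6, tb8, tb2, tb4, tb6, tb4, tb6, tb2, tb4, tb6, tb4, tb6, tb2, tb4, tb6, tb4, tb6, tb2, tb4, tb6, tb4, tb6, tb2, tb4, tb6, tb4, tb6, tb8, tb2, tb4, tb6, tb4, tb6, tb2, tb4, tb6, tb4, tb6, tb2, tb4, tb6, tb4, tb6, tb2, tb4, tb6, tb4, tb6, tb2, tb4, tb6, tb4, tb6, tb8]) 0 13040 326 rel25_40 h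
  have h := PR.allR_chain (PR.fixF [tb2, tb4, tb6, tb4, tb6, tb2, tb4, tb6, tb4, tb6, tb2, tb4, tb6, tb4, tb6, tb2, tb4, tb6, tb4, tb6, tb2, tb4, tb6, tb4, tb6, tb8, tb2, tb4, tb6, tb4, tb6, tb2, tb4, tb6, tb4, tb6, tb2, tb4, tb6, tb4, tb6, tb2, tb4, tb6, tb4, tb6, tb2, tb4, tb6, tb4, tb6, tb8, tb2, tb4, tb6, tb4, tb6, tb2, tb4, tb6, tb4, tb6, tb2, tb4, tb6, tb4, tb6, tb2, tb4, tb6, tb4, tb6, tb2, tb4, tb6, tb4, tb6, tb8]) 0 13366 326 rel25_41 h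
  have h := PR.allR_chain (PR.fixF [tb2, tb4, tb6, tb4, tb6, tb2, tb4, tb6, tb4, tb6, tb2, tb4, tb6, tb4, tb6, tb2, tb4, tb6, tb4, tb6, tb2, tb4, tb6, tb4, tb6, tb8, tb2, tb4, tb6, tb4, tb6, tb2, tb4, tb6, tb4, tb6, tb2, tb4, tb6, tb4, tb6, tb2, tb4, tb6, tb4, tb6, tb2, tb4, tb6, tb4, tb6, tb8, tb2, tb4, tb6, tb4, tb6, tb2, tb4, tb6, tb4, tb6, tb2, tb4, tb6, tb4, tb6, tb2, tb4, tb6, tb4, tb6, tb2, tb4, tb6, tb4, tb6, tb8]) 0 13692 326 rel25_42 h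
  have h := PR.allR_chain (PR.fixF [tb2, tb4, tb6, tb4, tb6, tb2, tb4, tb6, tb4, tb6, tb2, tb4, tb6, tb4, tb6, tb2, tb4, tb6, tb4, tb6, tb2, tb4, tb6, tb4, tb6, tb8, tb2, tb4, tb6, tb4, tb6, tb2, tb4, tb6, tb4, tb6, tb2, tb4, tb6, tb4, tb6, tb2, tb4, tb6, tb4, tb6, tb2, tb4, tb6, tb4, tb6, tb8, tb2, tb4, tb6, tb4, tb6, tb2, tb4, tb6, tb4, tb6, tb2, tb4, tb6, tb4, tb6, tb2, tb4, tb6, tb4, tb6, tb2, tb4, tb6, tb4, tb6, tb8]) 0 14018 326 rel25_43 h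
  have h := PR.allR_chain (PR.fixF [tb2, tb4, tb6, tb4, tb6, tb2, tb4, tb6, tb4, tb6, tb2, tb4, tb6, tb4, tb6, tb2, tb4, tb6, tb4, tb6, tb2, tb4, tb6, tb4, tb6, tb8, tb2, tb4, tb6, tb4, tb6, tb2, tb4, tb6, tb4, tb6, tb2, tb4, tb6, tb4, tb6, tb2, tb4, tb6, tb4, tb6, tb2, tb4, tb6, tb4, tb6, tb8, tb2, tb4, tb6, tb4, tb6, tb2, tb4, tb6, tb4, tb6, tb2, tb4, tb6, tb4, tb6, tb2, tb4, tb6, tb4, tb6, tb2, tb4, tb6, tb4, tb6, tb8]) 0 14344 326 rel25_44 h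
  have h := PR.allR_chain (PR.fixF [tb2, tb4, tb6, tb4, tb6, tb2, tb4, tb6, tb4, tb6, tb2, tb4, tb6, tb4, tb6, tb2, tb4, tb6, tb4, tb6, tb2, tb4, tb6, tb4, tb6, tb8, tb2, tb4, tb6, tb4, tb6, tb2, tb4, tb6, tb4, tb6, tb2, tb4, tb6, tb4, tb6, tb2, tb4, tb6, tb4, tb6, tb2, tb4, tb6, tb4, tb6, tb8, tb2, tb4, tb6, tb4, tb6, tb2, tb4, tb6, tb4, tb6, tb2, tb4, tb6, tb4, tb6, tb2, tb4, tb6, tb4, tb6, tb2, tb4, tb6, tb4, tb6, tb8]) 0 14670 326 rel25_45 h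
  have h := PR.allR_chain (PR.fixF [tb2, tb4, tb6, tb4, tb6, tb2, tb4, tb6, tb4, tb6, tb2, tb4, tb6, tb4, tb6, tb2, tb4, tb6, tb4, tb6, tb2, tb4, tb6, tb4, tb6, tb8, tb2, tb4, tb6, tb4, tb6, tb2, tb4, tb6, tb4, tb6, tb2, tb4, tb6, tb4, tb6, tb2, tb4, tb6, tb4, tb6, tb2, tb4, tb6, tb4, tb6, tb8, tb2, tb4, tb6, tb4, tb6, tb2, tb4, tb6, tb4, tb6, tb2, tb4, tb6, tb4, tb6, tb2, tb4, tb6, tb4, tb6, tb2, tb4, tb6, tb4, tb6, tb8]) 0 14996 326 rel25_46 h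
  have h := PR.allR_chain (PR.fixF [tb2, tb4, tb6, tb4, tb6, tb2, tb4, tb6, tb4, tb6, tb2, tb4, tb6, tb4, tb6, tb2, tb4, tb6, tb4, tb6, tb2, tb4, tb6, tb4, tb6, tb8, tb2, tb4, tb6, tb4, tb6, tb2, tb4, tb6, tb4, tb6, tb2, tb4, tb6, tb4, tb6, tb2, tb4, tb6, tb4, tb6, tb2, tb4, tb6, tb4, tb6, tb8, tb2, tb4, tb6, tb4, tb6, tb2, tb4, tb6, tb4, tb6, tb2, tb4, tb6, tb4, tb6, tb2, tb4, tb6, tb4, tb6, tb2, tb4, tb6, tb4, tb6, tb8]) 0 15322 326 rel25_47 h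
  have h := PR.allR_chain (PR.fixF [tb2, tb4, tb6, tb4, tb6, tb2, tb4, tb6, tb4, tb6, tb2, tb4, tb6, tb4, tb6, tb2, tb4, tb6, tb4, tb6, tb2, tb4, tb6, tb4, tb6, tb8, tb2, tb4, tb6, tb4, tb6, tb2, tb4, tb6, tb4, tb6, tb2, tb4, tb6, tb4, tb6, tb2, tb4, tb6, tb4, tb6, tb2, tb4, tb6, tb4, tb6, tb8, tb2, tb4, tb6, tb4, tb6, tb2, tb4, tb6, tb4, tb6, tb2, tb4, tb6, tb4, tb6, tb2, tb4, tb6, tb4, tb6, tb2, tb4, tb6, tb4, tb6, tb8]) 0 15648 326 rel25_48 h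
  have h := PR.allR_chain (PR.fixF [tb2, tb4, tb6, tb4, tb6, tb2, tb4, tb6, tb4, tb6, tb2, tb4, tb6, tb4, tb6, tb2, tb4, tb6, tb4, tb6, tb2, tb4, tb6, tb4, tb6, tb8, tb2, tb4, tb6, tb4, tb6, tb2, tb4, tb6, tb4, tb6, tb2, tb4, tb6, tb4, tb6, tb2, tb4, tb6, tb4, tb6, tb2, tb4, tb6, tb4, tb6, tb8, tb2, tb4, tb6, tb4, tb6, tb2, tb4, tb6, tb4, tb6, tb2, tb4, tb6, tb4, tb6, tb2, tb4, tb6, tb4, tb6, tb2, tb4, tb6, tb4, tb6, tb8]) 0 15974 326 rel25_49 h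
  have h := PR.allR_chain (PR.fixF [tb2, tb4, tb6, tb4, tb6, tb2, tb4, tb6, tb4, tb6, tb2, tb4, tb6, tb4, tb6, tb2, tb4, tb6, tb4, tb6, tb2, tb4, tb6, tb4, tb6, tb8, tb2, tb4, tb6, tb4, tb6, tb2, tb4, tb6, tb4, tb6, tb2, tb4, tb6, tb4, tb6, tb2, tb4, tb6, tb4, tb6, tb2, tb4, tb6, tb4, tb6, tb8, tb2, tb4, tb6, tb4, tb6, tb2, tb4, tb6, tb4, tb6, tb2, tb4, tb6, tb4, tb6, tb2, tb4, tb6, tb4, tb6, tb2, tb4, tb6, tb4, tb6, tb8]) 0 16300 326 rel25_50 h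
  have h := PR.allR_chain (PR.fixF [tb2, tb4, tb6, tb4, tb6, tb2, tb4, tb6, tb4, tb6, tb2, tb4, tb6, tb4, tb6, tb2, tb4, tb6, tb4, tb6, tb2, tb4, tb6, tb4, tb6, tb8, tb2, tb4, tb6, tb4, tb6, tb2, tb4, tb6, tb4, tb6, tb2, tb4, tb6, tb4, tb6, tb2, tb4, tb6, tb4, tb6, tb2, tb4, tb6, tb4, tb6, tb8, tb2, tb4, tb6, tb4, tb6, tb2, tb4, tb6, tb4, tb6, tb2, tb4, tb6, tb4, tb6, tb2, tb4, tb6, tb4, tb6, tb2, tb4, tb6, tb4, tb6, tb8]) 0 16626 326 rel25_51 h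
  have h := PR.allR_chain (PR.fixF [tb2, tb4, tb6, tb4, tb6, tb2, tb4, tb6, tb4, tb6, tb2, tb4, tb6, tb4, tb6, tb2, tb4, tb6, tb4, tb6, tb2, tb4, tb6, tb4, tb6, tb8, tb2, tb4, tb6, tb4, tb6, tb2, tb4, tb6, tb4, tb6, tb2, tb4, tb6, tb4, tb6, tb2, tb4, tb6, tb4, tb6, tb2, tb4, tb6, tb4, tb6, tb8, tb2, tb4, tb6, tb4, tb6, tb2, tb4, tb6, tb4, tb6, tb2, tb4, tb6, tb4, tb6, tb2, tb4, tb6, tb4, tb6, tb2, tb4, tb6, tb4, tb6, tb8]) 0 16952 326 rel25_52 h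
  have h := PR.allR_chain (PR.fixF [tb2, tb4, tb6, tb4, tb6, tb2, tb4, tb6, tb4, tb6, tb2, tb4, tb6, tb4, tb6, tb2, tb4, tb6, tb4, tb6, tb2, tb4, tb6, tb4, tb6, tb8, tb2, tb4, tb6, tb4, tb6, tb2, tb4, tb6, tb4, tb6, tb2, tb4, tb6, tb4, tb6, tb2, tb4, tb6, tb4, tb6, tb2, tb4, tb6, tb4, tb6, tb8, tb2, tb4, tb6, tb4, tb6, tb2, tb4, tb6, tb4, tb6, tb2, tb4, tb6, tb4, tb6, tb2, tb4, tb6, tb4, tb6, tb2, tb4, tb6, tb4, tb6, tb8]) 0 17278 326 rel25_53 h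
  have h := PR.allR_chain (PR.fixF [tb2, tb4, tb6, tb4, tb6, tb2, tb4, tb6, tb4, tb6, tb2, tb4, tb6, tb4, tb6, tb2, tb4, tb6, tb4, tb6, tb2, tb4, tb6, tb4, tb6, tb8, tb2, tb4, tb6, tb4, tb6, tb2, tb4, tb6, tb4, tb6, tb2, tb4, tb6, tb4, tb6, tb2, tb4, tb6, tb4, tb6, tb2, tb4, tb6, tb4, tb6, tb8, tb2, tb4, tb6, tb4, tb6, tb2, tb4, tb6, tb4, tb6, tb2, tb4, tb6, tb4, tb6, tb2, tb4, tb6, tb4, tb6, tb2, tb4, tb6, tb4, tb6, tb8]) 0 17604 326 rel25_54 h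
  have h := PR.allR_chain (PR.fixF [tb2, tb4, tb6, tb4, tb6, tb2, tb4, tb6, tb4, tb6, tb2, tb4, tb6, tb4, tb6, tb2, tb4, tb6, tb4, tb6, tb2, tb4, tb6, tb4, tb6, tb8, tb2, tb4, tb6, tb4, tb6, tb2, tb4, tb6, tb4, tb6, tb2, tb4, tb6, tb4, tb6, tb2, tb4, tb6, tb4, tb6, tb2, tb4, tb6, tb4, tb6, tb8, tb2, tb4, tb6, tb4, tb6, tb2, tb4, tb6, tb4, tb6, tb2, tb4, tb6, tb4, tb6, tb2, tb4, tb6, tb4, tb6, tb2, tb4, tb6, tb4, tb6, tb8]) 0 17930 326 rel25_55 h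
  have h := PR.allR_chain (PR.fixF [tb2, tb4, tb6, tb4, tb6, tb2, tb4, tb6, tb4, tb6, tb2, tb4, tb6, tb4, tb6, tb2, tb4, tb6, tb4, tb6, tb2, tb4, tb6, tb4, tb6, tb8, tb2, tb4, tb6, tb4, tb6, tb2, tb4, tb6, tb4, tb6, tb2, tb4, tb6, tb4, tb6, tb2, tb4, tb6, tb4, tb6, tb2, tb4, tb6, tb4, tb6, tb8, tb2, tb4, tb6, tb4, tb6, tb2, tb4, tb6, tb4, tb6, tb2, tb4, tb6, tb4, tb6, tb2, tb4, tb6, tb4, tb6, tb2, tb4, tb6, tb4, tb6, tb8]) 0 18256 326 rel25_56 h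
  have h := PR.allR_chain (PR.fixF [tb2, tb4, tb6, tb4, tb6, tb2, tb4, tb6, tb4, tb6, tb2, tb4, tb6, tb4, tb6, tb2, tb4, tb6, tb4, tb6, tb2, tb4, tb6, tb4, tb6, tb8, tb2, tb4, tb6, tb4, tb6, tb2, tb4, tb6, tb4, tb6, tb2, tb4, tb6, tb4, tb6, tb2, tb4, tb6, tb4, tb6, tb2, tb4, tb6, tb4, tb6, tb8, tb2, tb4, tb6, tb4, tb6, tb2, tb4, tb6, tb4, tb6, tb2, tb4, tb6, tb4, tb6, tb2, tb4, tb6, tb4, tb6, tb2, tb4, tb6, tb4, tb6, tb8]) 0 18582 326 rel25_57 h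
  have h := PR.allR_chain (PR.fixF [tb2, tb4, tb6, tb4, tb6, tb2, tb4, tb6, tb4, tb6, tb2, tb4, tb6, tb4, tb6, tb2, tb4, tb6, tb4, tb6, tb2, tb4, tb6, tb4, tb6, tb8, tb2, tb4, tb6, tb4, tb6, tb2, tb4, tb6, tb4, tb6, tb2, tb4, tb6, tb4, tb6, tb2, tb4, tb6, tb4, tb6, tb2, tb4, tb6, tb4, tb6, tb8, tb2, tb4, tb6, tb4, tb6, tb2, tb4, tb6, tb4, tb6, tb2, tb4, tb6, tb4, tb6, tb2, tb4, tb6, tb4, tb6, tb2, tb4, tb6, tb4, tb6, tb8]) 0 18908 326 rel25_58 h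
  have h := PR.allR_chain (PR.fixF [tb2, tb4, tb6, tb4, tb6, tb2, tb4, tb6, tb4, tb6, tb2, tb4, tb6, tb4, tb6, tb2, tb4, tb6, tb4, tb6, tb2, tb4, tb6, tb4, tb6, tb8, tb2, tb4, tb6, tb4, tb6, tb2, tb4, tb6, tb4, tb6, tb2, tb4, tb6, tb4, tb6, tb2, tb4, tb6, tb4, tb6, tb2, tb4, tb6, tb4, tb6, tb8, tb2, tb4, tb6, tb4, tb6, tb2, tb4, tb6, tb4, tb6, tb2, tb4, tb6, tb4, tb6, tb2, tb4, tb6, tb4, tb6, tb2, tb4, tb6, tb4, tb6, tb8]) 0 19234 326 rel25_59 h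
  have h := PR.allR_chain (PR.fixF [tb2, tb4, tb6, tb4, tb6, tb2, tb4, tb6, tb4, tb6, tb2, tb4, tb6, tb4, tb6, tb2, tb4, tb6, tb4, tb6, tb2, tb4, tb6, tb4, tb6, tb8, tb2, tb4, tb6, tb4, tb6, tb2, tb4, tb6, tb4, tb6, tb2, tb4, tb6, tb4, tb6, tb2, tb4, tb6, tb4, tb6, tb2, tb4, tb6, tb4, tb6, tb8, tb2, tb4, tb6, tb4, tb6, tb2, tb4, tb6, tb4, tb6, tb2, tb4, tb6, tb4, tb6, tb2, tb4, tb6, tb4, tb6, tb2, tb4, tb6, tb4, tb6, tb8]) 0 19560 326 rel25_60 h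
  have h := PR.allR_chain (PR.fixF [tb2, tb4, tb6, tb4, tb6, tb2, tb4, tb6, tb4, tb6, tb2, tb4, tb6, tb4, tb6, tb2, tb4, tb6, tb4, tb6, tb2, tb4, tb6, tb4, tb6, tb8, tb2, tb4, tb6, tb4, tb6, tb2, tb4, tb6, tb4, tb6, tb2, tb4, tb6, tb4, tb6, tb2, tb4, tb6, tb4, tb6, tb2, tb4, tb6, tb4, tb6, tb8, tb2, tb4, tb6, tb4, tb6, tb2, tb4, tb6, tb4, tb6, tb2, tb4, tb6, tb4, tb6, tb2, tb4, tb6, tb4, tb6, tb2, tb4, tb6, tb4, tb6, tb8]) 0 19886 326 rel25_61 h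
  have h := PR.allR_chain (PR.fixF [tb2, tb4, tb6, tb4, tb6, tb2, tb4, tb6, tb4, tb6, tb2, tb4, tb6, tb4, tb6, tb2, tb4, tb6, tb4, tb6, tb2, tb4, tb6, tb4, tb6, tb8, tb2, tb4, tb6, tb4, tb6, tb2, tb4, tb6, tb4, tb6, tb2, tb4, tb6, tb4, tb6, tb2, tb4, tb6, tb4, tb6, tb2, tb4, tb6, tb4, tb6, tb8, tb2, tb4, tb6, tb4, tb6, tb2, tb4, tb6, tb4, tb6, tb2, tb4, tb6, tb4, tb6, tb2, tb4, tb6, tb4, tb6, tb2, tb4, tb6, tb4, tb6, tb8]) 0 20212 326 rel25_62 h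
  have h := PR.allR_chain (PR.fixF [tb2, tb4, tb6, tb4, tb6, tb2, tb4, tb6, tb4, tb6, tb2, tb4, tb6, tb4, tb6, tb2, tb4, tb6, tb4, tb6, tb2, tb4, tb6, tb4, tb6, tb8, tb2, tb4, tb6, tb4, tb6, tb2, tb4, tb6, tb4, tb6, tb2, tb4, tb6, tb4, tb6, tb2, tb4, tb6, tb4, tb6, tb2, tb4, tb6, tb4, tb6, tb8, tb2, tb4, tb6, tb4, tb6, tb2, tb4, tb6, tb4, tb6, tb2, tb4, tb6, tb4, tb6, tb2, tb4, tb6, tb4, tb6, tb2, tb4, tb6, tb4, tb6, tb8]) 0 20538 326 rel25_63 h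
  have h := PR.allR_chain (PR.fixF [tb2, tb4, tb6, tb4, tb6, tb2, tb4, tb6, tb4, tb6, tb2, tb4, tb6, tb4, tb6, tb2, tb4, tb6, tb4, tb6, tb2, tb4, tb6, tb4, tb6, tb8, tb2, tb4, tb6, tb4, tb6, tb2, tb4, tb6, tb4, tb6, tb2, tb4, tb6, tb4, tb6, tb2, tb4, tb6, tb4, tb6, tb2, tb4, tb6, tb4, tb6, tb8, tb2, tb4, tb6, tb4, tb6, tb2, tb4, tb6, tb4, tb6, tb2, tb4, tb6, tb4, tb6, tb2, tb4, tb6, tb4, tb6, tb2, tb4, tb6, tb4, tb6, tb8]) 0 20864 326 rel25_64 h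
  have h := PR.allR_chain (PR.fixF [tb2, tb4, tb6, tb4, tb6, tb2, tb4, tb6, tb4, tb6, tb2, tb4, tb6, tb4, tb6, tb2, tb4, tb6, tb4, tb6, tb2, tb4, tb6, tb4, tb6, tb8, tb2, tb4, tb6, tb4, tb6, tb2, tb4, tb6, tb4, tb6, tb2, tb4, tb6, tb4, tb6, tb2, tb4, tb6, tb4, tb6, tb2, tb4, tb6, tb4, tb6, tb8, tb2, tb4, tb6, tb4, tb6, tb2, tb4, tb6, tb4, tb6, tb2, tb4, tb6, tb4, tb6, tb2, tb4, tb6, tb4, tb6, tb2, tb4, tb6, tb4, tb6, tb8]) 0 21190 326 rel25_65 h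
  have h := PR.allR_chain (PR.fixF [tb2, tb4, tb6, tb4, tb6, tb2, tb4, tb6, tb4, tb6, tb2, tb4, tb6, tb4, tb6, tb2, tb4, tb6, tb4, tb6, tb2, tb4, tb6, tb4, tb6, tb8, tb2, tb4, tb6, tb4, tb6, tb2, tb4, tb6, tb4, tb6, tb2, tb4, tb6, tb4, tb6, tb2, tb4, tb6, tb4, tb6, tb2, tb4, tb6, tb4, tb6, tb8, tb2, tb4, tb6, tb4, tb6, tb2, tb4, tb6, tb4, tb6, tb2, tb4, tb6, tb4, tb6, tb2, tb4, tb6, tb4, tb6, tb2, tb4, tb6, tb4, tb6, tb8]) 0 21516 326 rel25_66 h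
  have h := PR.allR_chain (PR.fixF [tb2, tb4, tb6, tb4, tb6, tb2, tb4, tb6, tb4, tb6, tb2, tb4, tb6, tb4, tb6, tb2, tb4, tb6, tb4, tb6, tb2, tb4, tb6, tb4, tb6, tb8, tb2, tb4, tb6, tb4, tb6, tb2, tb4, tb6, tb4, tb6, tb2, tb4, tb6, tb4, tb6, tb2, tb4, tb6, tb4, tb6, tb2, tb4, tb6, tb4, tb6, tb8, tb2, tb4, tb6, tb4, tb6, tb2, tb4, tb6, tb4, tb6, tb2, tb4, tb6, tb4, tb6, tb2, tb4, tb6, tb4, tb6, tb2, tb4, tb6, tb4, tb6, tb8]) 0 21842 326 rel25_67 h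
  have h := PR.allR_chain (PR.fixF [tb2, tb4, tb6, tb4, tb6, tb2, tb4, tb6, tb4, tb6, tb2, tb4, tb6, tb4, tb6, tb2, tb4, tb6, tb4, tb6, tb2, tb4, tb6, tb4, tb6, tb8, tb2, tb4, tb6, tb4, tb6, tb2, tb4, tb6, tb4, tb6, tb2, tb4, tb6, tb4, tb6, tb2, tb4, tb6, tb4, tb6, tb2, tb4, tb6, tb4, tb6, tb8, tb2, tb4, tb6, tb4, tb6, tb2, tb4, tb6, tb4, tb6, tb2, tb4, tb6, tb4, tb6, tb2, tb4, tb6, tb4, tb6, tb2, tb4, tb6, tb4, tb6, tb8]) 0 22168 326 rel25_68 h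
  have h := PR.allR_chain (PR.fixF [tb2, tb4, tb6, tb4, tb6, tb2, tb4, tb6, tb4, tb6, tb2, tb4, tb6, tb4, tb6, tb2, tb4, tb6, tb4, tb6, tb2, tb4, tb6, tb4, tb6, tb8, tb2, tb4, tb6, tb4, tb6, tb2, tb4, tb6, tb4, tb6, tb2, tb4, tb6, tb4, tb6, tb2, tb4, tb6, tb4, tb6, tb2, tb4, tb6, tb4, tb6, tb8, tb2, tb4, tb6, tb4, tb6, tb2, tb4, tb6, tb4, tb6, tb2, tb4, tb6, tb4, tb6, tb2, tb4, tb6, tb4, tb6, tb2, tb4, tb6, tb4, tb6, tb8]) 0 22494 326 rel25_69 h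
  have h := PR.allR_chain (PR.fixF [tb2, tb4, tb6, tb4, tb6, tb2, tb4, tb6, tb4, tb6, tb2, tb4, tb6, tb4, tb6, tb2, tb4, tb6, tb4, tb6, tb2, tb4, tb6, tb4, tb6, tb8, tb2, tb4, tb6, tb4, tb6, tb2, tb4, tb6, tb4, tb6, tb2, tb4, tb6, tb4, tb6, tb2, tb4, tb6, tb4, tb6, tb2, tb4, tb6, tb4, tb6, tb8, tb2, tb4, tb6, tb4, tb6, tb2, tb4, tb6, tb4, tb6, tb2, tb4, tb6, tb4, tb6, tb2, tb4, tb6, tb4, tb6, tb2, tb4, tb6, tb4, tb6, tb8]) 0 22820 60 rel25_70 h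
  exact h

theorem mp0_0 : ∀ u, 0 ≤ u → u < 1 → PR.mapsF [tb0] 0 0 u = true := by
  have h : ∀ u, 0 ≤ u → u < 0 → PR.mapsF [tb0] 0 0 u = true := fun u h1 h2 => absurd h2 (by omega)
  have h := PR.allR_chain (PR.mapsF [tb0] 0 0) 0 0 1 mp0_0_0 h
  exact h

theorem mp0_1 : ∀ u, 0 ≤ u → u < 1 → PR.mapsF [tb2] 0 0 u = true := by
  have h : ∀ u, 0 ≤ u → u < 0 → PR.mapsF [tb2] 0 0 u = true := fun u h1 h2 => absurd h2 (by omega)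
  have h := PR.allR_chain (PR.mapsF [tb2] 0 0) 0 0 1 mp0_1_0 h
  exact h

theorem mp0_2 : ∀ u, 0 ≤ u → u < 1 → PR.mapsF [tb4] 0 0 u = true := by
  have h : ∀ u, 0 ≤ u → u < 0 → PR.mapsF [tb4] 0 0 u = true := fun u h1 h2 => absurd h2 (by omega)
  have h := PR.allR_chain (PR.mapsF [tb4] 0 0) 0 0 1 mp0_2_0 h
  exact h

theorem mp0_3 : ∀ u, 0 ≤ u → u < 1 → PR.mapsF [tb6] 0 0 u = true := by
  have h : ∀ u, 0 ≤ u → u < 0 → PR.mapsF [tb6] 0 0 u = true := fun u h1 h2 => absurd h2 (by omega)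
  have h := PR.allR_chain (PR.mapsF [tb6] 0 0) 0 0 1 mp0_3_0 h
  exact h

theorem mp0_4 : ∀ u, 0 ≤ u → u < 1 → PR.mapsF [tb10] 0 0 u = true := by
  have h : ∀ u, 0 ≤ u → u < 0 → PR.mapsF [tb10] 0 0 u = true := fun u h1 h2 => absurd h2 (by omega)
  have h := PR.allR_chain (PR.mapsF [tb10] 0 0) 0 0 1 mp0_4_0 h
  exact h

theorem mp0_5 : ∀ u, 0 ≤ u → u < 1 → PR.mapsF [tb12] 0 0 u = true := by
  have h : ∀ u, 0 ≤ u → u < 0 → PR.mapsF [tb12] 0 0 u = true := fun u h1 h2 => absurd h2 (by omega)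
  have h := PR.allR_chain (PR.mapsF [tb12] 0 0) 0 0 1 mp0_5_0 h
  exact h

theorem tre0 : ∀ u, 1 ≤ u → u < 1 → PR.treeF tbW [[tb0], [tb2], [tb4], [tb6], [tb10], [tb12]] 0 u = true := by
  have h : ∀ u, 1 ≤ u → u < 1 → PR.treeF tbW [[tb0], [tb2], [tb4], [tb6], [tb10], [tb12]] 0 u = true := fun u h1 h2 => absurd h2 (by omega)
  exact h

theorem mp1_0 : ∀ u, 1 ≤ u → u < 487 → PR.mapsF [tb0] 1 486 u = true := by
  have h : ∀ u, 1 ≤ u → u < 1 → PR.mapsF [tb0] 1 486 u = true := fun u h1 h2 => absurd h2 (by omega)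
  have h := PR.allR_chain (PR.mapsF [tb0] 1 486) 1 1 486 mp1_0_0 h
  exact h

theorem mp1_1 : ∀ u, 1 ≤ u → u < 487 → PR.mapsF [tb2] 1 486 u = true := by
  have h : ∀ u, 1 ≤ u → u < 1 → PR.mapsF [tb2] 1 486 u = true := fun u h1 h2 => absurd h2 (by omega)
  have h := PR.allR_chain (PR.mapsF [tb2] 1 486) 1 1 486 mp1_1_0 h
  exact h

theorem mp1_2 : ∀ u, 1 ≤ u → u < 487 → PR.mapsF [tb4] 1 486 u = true := by
  have h : ∀ u, 1 ≤ u → u < 1 → PR.mapsF [tb4] 1 486 u = true := fun u h1 h2 => absurd h2 (by omega)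
  have h := PR.allR_chain (PR.mapsF [tb4] 1 486) 1 1 486 mp1_2_0 h
  exact h

theorem mp1_3 : ∀ u, 1 ≤ u → u < 487 → PR.mapsF [tb6] 1 486 u = true := by
  have h : ∀ u, 1 ≤ u → u < 1 → PR.mapsF [tb6] 1 486 u = true := fun u h1 h2 => absurd h2 (by omega)
  have h := PR.allR_chain (PR.mapsF [tb6] 1 486) 1 1 486 mp1_3_0 h
  exact h

theorem mp1_4 : ∀ u, 1 ≤ u → u < 487 → PR.mapsF [tb10] 1 486 u = true := by
  have h : ∀ u, 1 ≤ u → u < 1 → PR.mapsF [tb10] 1 486 u = true := fun u h1 h2 => absurd h2 (by omega)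
  have h := PR.allR_chain (PR.mapsF [tb10] 1 486) 1 1 486 mp1_4_0 h
  exact h

theorem mp1_5 : ∀ u, 1 ≤ u → u < 487 → PR.mapsF [tb12] 1 486 u = true := by
  have h : ∀ u, 1 ≤ u → u < 1 → PR.mapsF [tb12] 1 486 u = true := fun u h1 h2 => absurd h2 (by omega)
  have h := PR.allR_chain (PR.mapsF [tb12] 1 486) 1 1 486 mp1_5_0 h
  exact h

theorem tre1 : ∀ u, 2 ≤ u → u < 487 → PR.treeF tbW [[tb0], [tb2], [tb4], [tb6], [tb10], [tb12]] 1 u = true := by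
  have h : ∀ u, 2 ≤ u → u < 2 → PR.treeF tbW [[tb0], [tb2], [tb4], [tb6], [tb10], [tb12]] 1 u = true := fun u h1 h2 => absurd h2 (by omega)
  have h := PR.allR_chain (PR.treeF tbW [[tb0], [tb2], [tb4], [tb6], [tb10], [tb12]] 1) 2 2 485 tre1_0 h
  exact h

theorem mp2_0 : ∀ u, 487 ≤ u → u < 8992 → PR.mapsF [tb0] 487 8991 u = true := by
  have h : ∀ u, 487 ≤ u → u < 487 → PR.mapsF [tb0] 487 8991 u = true := fun u h1 h2 => absurd h2 (by omega)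
  have h := PR.allR_chain (PR.mapsF [tb0] 487 8991) 487 487 8505 mp2_0_0 h
  exact h

theorem mp2_1 : ∀ u, 487 ≤ u → u < 8992 → PR.mapsF [tb2] 487 8991 u = true := by
  have h : ∀ u, 487 ≤ u → u < 487 → PR.mapsF [tb2] 487 8991 u = true := fun u h1 h2 => absurd h2 (by omega)
  have h := PR.allR_chain (PR.mapsF [tb2] 487 8991) 487 487 8505 mp2_1_0 h
  exact h

theorem mp2_2 : ∀ u, 487 ≤ u → u < 8992 → PR.mapsF [tb4] 487 8991 u = true := by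
  have h : ∀ u, 487 ≤ u → u < 487 → PR.mapsF [tb4] 487 8991 u = true := fun u h1 h2 => absurd h2 (by omega)
  have h := PR.allR_chain (PR.mapsF [tb4] 487 8991) 487 487 8505 mp2_2_0 h
  exact h

theorem mp2_3 : ∀ u, 487 ≤ u → u < 8992 → PR.mapsF [tb6] 487 8991 u = true := by
  have h : ∀ u, 487 ≤ u → u < 487 → PR.mapsF [tb6] 487 8991 u = true := fun u h1 h2 => absurd h2 (by omega)
  have h := PR.allR_chain (PR.mapsF [tb6] 487 8991) 487 487 8505 mp2_3_0 h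
  exact h

theorem mp2_4 : ∀ u, 487 ≤ u → u < 8992 → PR.mapsF [tb10] 487 8991 u = true := by
  have h : ∀ u, 487 ≤ u → u < 487 → PR.mapsF [tb10] 487 8991 u = true := fun u h1 h2 => absurd h2 (by omega)
  have h := PR.allR_chain (PR.mapsF [tb10] 487 8991) 487 487 8505 mp2_4_0 h
  exact h

theorem mp2_5 : ∀ u, 487 ≤ u → u < 8992 → PR.mapsF [tb12] 487 8991 u = true := by
  have h : ∀ u, 487 ≤ u → u < 487 → PR.mapsF [tb12] 487 8991 u = true := fun u h1 h2 => absurd h2 (by omega)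
  have h := PR.allR_chain (PR.mapsF [tb12] 487 8991) 487 487 8505 mp2_5_0 h
  exact h

theorem tre2 : ∀ u, 488 ≤ u → u < 8992 → PR.treeF tbW [[tb0], [tb2], [tb4], [tb6], [tb10], [tb12]] 487 u = true := by
  have h : ∀ u, 488 ≤ u → u < 488 → PR.treeF tbW [[tb0], [tb2], [tb4], [tb6], [tb10], [tb12]] 487 u = true := fun u h1 h2 => absurd h2 (by omega)
  have h := PR.allR_chain (PR.treeF tbW [[tb0], [tb2], [tb4], [tb6], [tb10], [tb12]] 487) 488 488 8495 tre2_0 h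
  have h := PR.allR_chain (PR.treeF tbW [[tb0], [tb2], [tb4], [tb6], [tb10], [tb12]] 487) 488 8983 9 tre2_1 h
  exact h

theorem mp3_0 : ∀ u, 8992 ≤ u → u < 22600 → PR.mapsF [tb0] 8992 22599 u = true := by
  have h : ∀ u, 8992 ≤ u → u < 8992 → PR.mapsF [tb0] 8992 22599 u = true := fun u h1 h2 => absurd h2 (by omega)
  have h := PR.allR_chain (PR.mapsF [tb0] 8992 22599) 8992 8992 13608 mp3_0_0 h
  exact h

theorem mp3_1 : ∀ u, 8992 ≤ u → u < 22600 → PR.mapsF [tb2] 8992 22599 u = true := by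
  have h : ∀ u, 8992 ≤ u → u < 8992 → PR.mapsF [tb2] 8992 22599 u = true := fun u h1 h2 => absurd h2 (by omega)
  have h := PR.allR_chain (PR.mapsF [tb2] 8992 22599) 8992 8992 13608 mp3_1_0 h
  exact h

theorem mp3_2 : ∀ u, 8992 ≤ u → u < 22600 → PR.mapsF [tb4] 8992 22599 u = true := by
  have h : ∀ u, 8992 ≤ u → u < 8992 → PR.mapsF [tb4] 8992 22599 u = true := fun u h1 h2 => absurd h2 (by omega)
  have h := PR.allR_chain (PR.mapsF [tb4] 8992 22599) 8992 8992 13608 mp3_2_0 h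
  exact h

theorem mp3_3 : ∀ u, 8992 ≤ u → u < 22600 → PR.mapsF [tb6] 8992 22599 u = true := by
  have h : ∀ u, 8992 ≤ u → u < 8992 → PR.mapsF [tb6] 8992 22599 u = true := fun u h1 h2 => absurd h2 (by omega)
  have h := PR.allR_chain (PR.mapsF [tb6] 8992 22599) 8992 8992 13608 mp3_3_0 h
  exact h

theorem mp3_4 : ∀ u, 8992 ≤ u → u < 22600 → PR.mapsF [tb10] 8992 22599 u = true := by
  have h : ∀ u, 8992 ≤ u → u < 8992 → PR.mapsF [tb10] 8992 22599 u = true := fun u h1 h2 => absurd h2 (by omega)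
  have h := PR.allR_chain (PR.mapsF [tb10] 8992 22599) 8992 8992 13608 mp3_4_0 h
  exact h

theorem mp3_5 : ∀ u, 8992 ≤ u → u < 22600 → PR.mapsF [tb12] 8992 22599 u = true := by
  have h : ∀ u, 8992 ≤ u → u < 8992 → PR.mapsF [tb12] 8992 22599 u = true := fun u h1 h2 => absurd h2 (by omega)
  have h := PR.allR_chain (PR.mapsF [tb12] 8992 22599) 8992 8992 13608 mp3_5_0 h
  exact h

theorem tre3 : ∀ u, 8993 ≤ u → u < 22600 → PR.treeF tbW [[tb0], [tb2], [tb4], [tb6], [tb10], [tb12]] 8992 u = true := by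
  have h : ∀ u, 8993 ≤ u → u < 8993 → PR.treeF tbW [[tb0], [tb2], [tb4], [tb6], [tb10], [tb12]] 8992 u = true := fun u h1 h2 => absurd h2 (by omega)
  have h := PR.allR_chain (PR.treeF tbW [[tb0], [tb2], [tb4], [tb6], [tb10], [tb12]] 8992) 8993 8993 8495 tre3_0 h
  have h := PR.allR_chain (PR.treeF tbW [[tb0], [tb2], [tb4], [tb6], [tb10], [tb12]] 8992) 8993 17488 5112 tre3_1 h
  exact h

theorem mp4_0 : ∀ u, 22600 ≤ u → u < 22880 → PR.mapsF [tb0] 22600 22879 u = true := by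
  have h : ∀ u, 22600 ≤ u → u < 22600 → PR.mapsF [tb0] 22600 22879 u = true := fun u h1 h2 => absurd h2 (by omega)
  have h := PR.allR_chain (PR.mapsF [tb0] 22600 22879) 22600 22600 280 mp4_0_0 h
  exact h

theorem mp4_1 : ∀ u, 22600 ≤ u → u < 22880 → PR.mapsF [tb2] 22600 22879 u = true := by
  have h : ∀ u, 22600 ≤ u → u < 22600 → PR.mapsF [tb2] 22600 22879 u = true := fun u h1 h2 => absurd h2 (by omega)
  have h := PR.allR_chain (PR.mapsF [tb2] 22600 22879) 22600 22600 280 mp4_1_0 h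
  exact h

theorem mp4_2 : ∀ u, 22600 ≤ u → u < 22880 → PR.mapsF [tb4] 22600 22879 u = true := by
  have h : ∀ u, 22600 ≤ u → u < 22600 → PR.mapsF [tb4] 22600 22879 u = true := fun u h1 h2 => absurd h2 (by omega)
  have h := PR.allR_chain (PR.mapsF [tb4] 22600 22879) 22600 22600 280 mp4_2_0 h
  exact h

theorem mp4_3 : ∀ u, 22600 ≤ u → u < 22880 → PR.mapsF [tb6] 22600 22879 u = true := by
  have h : ∀ u, 22600 ≤ u → u < 22600 → PR.mapsF [tb6] 22600 22879 u = true := fun u h1 h2 => absurd h2 (by omega)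
  have h := PR.allR_chain (PR.mapsF [tb6] 22600 22879) 22600 22600 280 mp4_3_0 h
  exact h

theorem mp4_4 : ∀ u, 22600 ≤ u → u < 22880 → PR.mapsF [tb10] 22600 22879 u = true := by
  have h : ∀ u, 22600 ≤ u → u < 22600 → PR.mapsF [tb10] 22600 22879 u = true := fun u h1 h2 => absurd h2 (by omega)
  have h := PR.allR_chain (PR.mapsF [tb10] 22600 22879) 22600 22600 280 mp4_4_0 h
  exact h

theorem mp4_5 : ∀ u, 22600 ≤ u → u < 22880 → PR.mapsF [tb12] 22600 22879 u = true := by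
  have h : ∀ u, 22600 ≤ u → u < 22600 → PR.mapsF [tb12] 22600 22879 u = true := fun u h1 h2 => absurd h2 (by omega)
  have h := PR.allR_chain (PR.mapsF [tb12] 22600 22879) 22600 22600 280 mp4_5_0 h
  exact h

theorem tre4 : ∀ u, 22601 ≤ u → u < 22880 → PR.treeF tbW [[tb0], [tb2], [tb4], [tb6], [tb10], [tb12]] 22600 u = true := by
  have h : ∀ u, 22601 ≤ u → u < 22601 → PR.treeF tbW [[tb0], [tb2], [tb4], [tb6], [tb10], [tb12]] 22600 u = true := fun u h1 h2 => absurd h2 (by omega)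
  have h := PR.allR_chain (PR.treeF tbW [[tb0], [tb2], [tb4], [tb6], [tb10], [tb12]] 22600) 22601 22601 279 tre4_0 h
  exact h

theorem tables : PR.Tables 22880 tbl (fun l => l) Ls := by
  refine ⟨?_, fun l hl => hl, ?_, ?_⟩
  · intro l hl
    simp only [Ls, List.mem_cons, List.mem_nil_iff, or_false] at hl
    rcases hl with rfl | rfl | rfl | rfl | rfl | rfl | rfl
    · exact fun u hu => Nat.lt_of_le_of_lt ((PR.mapsF_iff _ _ _ _).mp (rng0 u (Nat.zero_le _) hu)).2 (by norm_num)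
    · exact fun u hu => Nat.lt_of_le_of_lt ((PR.mapsF_iff _ _ _ _).mp (rng2 u (Nat.zero_le _) hu)).2 (by norm_num)
    · exact fun u hu => Nat.lt_of_le_of_lt ((PR.mapsF_iff _ _ _ _).mp (rng4 u (Nat.zero_le _) hu)).2 (by norm_num)
    · exact fun u hu => Nat.lt_of_le_of_lt ((PR.mapsF_iff _ _ _ _).mp (rng6 u (Nat.zero_le _) hu)).2 (by norm_num)
    · exact fun u hu => Nat.lt_of_le_of_lt ((PR.mapsF_iff _ _ _ _).mp (rng8 u (Nat.zero_le _) hu)).2 (by norm_num)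
    · exact fun u hu => Nat.lt_of_le_of_lt ((PR.mapsF_iff _ _ _ _).mp (rng10 u (Nat.zero_le _) hu)).2 (by norm_num)
    · exact fun u hu => Nat.lt_of_le_of_lt ((PR.mapsF_iff _ _ _ _).mp (rng12 u (Nat.zero_le _) hu)).2 (by norm_num)
  · intro l hl
    simp only [Ls, List.mem_cons, List.mem_nil_iff, or_false] at hl
    rcases hl with rfl | rfl | rfl | rfl | rfl | rfl | rfl
    · exact fun u hu => (PR.fixF_iff _ _).mp (sq0 u (Nat.zero_le _) hu)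
    · exact fun u hu => (PR.fixF_iff _ _).mp (sq2 u (Nat.zero_le _) hu)
    · exact fun u hu => (PR.fixF_iff _ _).mp (sq4 u (Nat.zero_le _) hu)
    · exact fun u hu => (PR.fixF_iff _ _).mp (sq6 u (Nat.zero_le _) hu)
    · exact fun u hu => (PR.fixF_iff _ _).mp (sq8 u (Nat.zero_le _) hu)
    · exact fun u hu => (PR.fixF_iff _ _).mp (sq10 u (Nat.zero_le _) hu)
    · exact fun u hu => (PR.fixF_iff _ _).mp (sq12 u (Nat.zero_le _) hu)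
  · intro l hl
    simp only [Ls, List.mem_cons, List.mem_nil_iff, or_false] at hl
    rcases hl with rfl | rfl | rfl | rfl | rfl | rfl | rfl
    · exact fun u hu => (PR.fixF_iff _ _).mp (sq0 u (Nat.zero_le _) hu)
    · exact fun u hu => (PR.fixF_iff _ _).mp (sq2 u (Nat.zero_le _) hu)
    · exact fun u hu => (PR.fixF_iff _ _).mp (sq4 u (Nat.zero_le _) hu)
    · exact fun u hu => (PR.fixF_iff _ _).mp (sq6 u (Nat.zero_le _) hu)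
    · exact fun u hu => (PR.fixF_iff _ _).mp (sq8 u (Nat.zero_le _) hu)
    · exact fun u hu => (PR.fixF_iff _ _).mp (sq10 u (Nat.zero_le _) hu)
    · exact fun u hu => (PR.fixF_iff _ _).mp (sq12 u (Nat.zero_le _) hu)

theorem relsOK : ∀ r ∈ coxW ++ extraW, ∀ u < 22880, PR.trace (r.map tbl) u = u := by
  intro r hr
  simp only [coxW, extraW, List.mem_append, List.mem_cons, List.mem_nil_iff, or_false, or_assoc] at hr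
  rcases hr with rfl | rfl | rfl | rfl | rfl | rfl | rfl | rfl | rfl | rfl | rfl | rfl | rfl | rfl | rfl | rfl | rfl | rfl | rfl | rfl | rfl | rfl | rfl | rfl | rfl | rfl
  · exact fun u hu => (PR.fixF_iff _ _).mp (rel0 u (Nat.zero_le _) hu)
  · exact fun u hu => (PR.fixF_iff _ _).mp (rel1 u (Nat.zero_le _) hu)
  · exact fun u hu => (PR.fixF_iff _ _).mp (rel2 u (Nat.zero_le _) hu)
  · exact fun u hu => (PR.fixF_iff _ _).mp (rel3 u (Nat.zero_le _) hu)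
  · exact fun u hu => (PR.fixF_iff _ _).mp (rel4 u (Nat.zero_le _) hu)
  · exact fun u hu => (PR.fixF_iff _ _).mp (rel5 u (Nat.zero_le _) hu)
  · exact fun u hu => (PR.fixF_iff _ _).mp (rel6 u (Nat.zero_le _) hu)
  · exact fun u hu => (PR.fixF_iff _ _).mp (rel7 u (Nat.zero_le _) hu)
  · exact fun u hu => (PR.fixF_iff _ _).mp (rel8 u (Nat.zero_le _) hu)
  · exact fun u hu => (PR.fixF_iff _ _).mp (rel9 u (Nat.zero_le _) hu)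
  · exact fun u hu => (PR.fixF_iff _ _).mp (rel10 u (Nat.zero_le _) hu)
  · exact fun u hu => (PR.fixF_iff _ _).mp (rel11 u (Nat.zero_le _) hu)
  · exact fun u hu => (PR.fixF_iff _ _).mp (rel12 u (Nat.zero_le _) hu)
  · exact fun u hu => (PR.fixF_iff _ _).mp (rel13 u (Nat.zero_le _) hu)
  · exact fun u hu => (PR.fixF_iff _ _).mp (rel14 u (Nat.zero_le _) hu)
  · exact fun u hu => (PR.fixF_iff _ _).mp (rel15 u (Nat.zero_le _) hu)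
  · exact fun u hu => (PR.fixF_iff _ _).mp (rel16 u (Nat.zero_le _) hu)
  · exact fun u hu => (PR.fixF_iff _ _).mp (rel17 u (Nat.zero_le _) hu)
  · exact fun u hu => (PR.fixF_iff _ _).mp (rel18 u (Nat.zero_le _) hu)
  · exact fun u hu => (PR.fixF_iff _ _).mp (rel19 u (Nat.zero_le _) hu)
  · exact fun u hu => (PR.fixF_iff _ _).mp (rel20 u (Nat.zero_le _) hu)
  · exact fun u hu => (PR.fixF_iff _ _).mp (rel21 u (Nat.zero_le _) hu)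
  · exact fun u hu => (PR.fixF_iff _ _).mp (rel22 u (Nat.zero_le _) hu)
  · exact fun u hu => (PR.fixF_iff _ _).mp (rel23 u (Nat.zero_le _) hu)
  · exact fun u hu => (PR.fixF_iff _ _).mp (rel24 u (Nat.zero_le _) hu)
  · exact fun u hu => (PR.fixF_iff _ _).mp (rel25 u (Nat.zero_le _) hu)

theorem orbits : PR.Orbits 22880 tbl Ls subs ivs := by
  refine ⟨by decide, ?_, ?_, ?_, ?_, by decide, by decide⟩
  · intro iv hiv s hs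
    simp only [ivs, List.mem_cons, List.mem_nil_iff, or_false] at hiv
    simp only [subs, List.mem_cons, List.mem_nil_iff, or_false] at hs
    rcases hiv with rfl | rfl | rfl | rfl | rfl <;> rcases hs with rfl | rfl | rfl | rfl | rfl | rfl
    · exact fun u h1 h2 => ⟨((PR.mapsF_iff _ _ _ _).mp (mp0_0 u h1 h2)).1, Nat.lt_of_le_of_lt ((PR.mapsF_iff _ _ _ _).mp (mp0_0 u h1 h2)).2 (by norm_num)⟩
    · exact fun u h1 h2 => ⟨((PR.mapsF_iff _ _ _ _).mp (mp0_1 u h1 h2)).1, Nat.lt_of_le_of_lt ((PR.mapsF_iff _ _ _ _).mp (mp0_1 u h1 h2)).2 (by norm_num)⟩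
    · exact fun u h1 h2 => ⟨((PR.mapsF_iff _ _ _ _).mp (mp0_2 u h1 h2)).1, Nat.lt_of_le_of_lt ((PR.mapsF_iff _ _ _ _).mp (mp0_2 u h1 h2)).2 (by norm_num)⟩
    · exact fun u h1 h2 => ⟨((PR.mapsF_iff _ _ _ _).mp (mp0_3 u h1 h2)).1, Nat.lt_of_le_of_lt ((PR.mapsF_iff _ _ _ _).mp (mp0_3 u h1 h2)).2 (by norm_num)⟩
    · exact fun u h1 h2 => ⟨((PR.mapsF_iff _ _ _ _).mp (mp0_4 u h1 h2)).1, Nat.lt_of_le_of_lt ((PR.mapsF_iff _ _ _ _).mp (mp0_4 u h1 h2)).2 (by norm_num)⟩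
    · exact fun u h1 h2 => ⟨((PR.mapsF_iff _ _ _ _).mp (mp0_5 u h1 h2)).1, Nat.lt_of_le_of_lt ((PR.mapsF_iff _ _ _ _).mp (mp0_5 u h1 h2)).2 (by norm_num)⟩
    · exact fun u h1 h2 => ⟨((PR.mapsF_iff _ _ _ _).mp (mp1_0 u h1 h2)).1, Nat.lt_of_le_of_lt ((PR.mapsF_iff _ _ _ _).mp (mp1_0 u h1 h2)).2 (by norm_num)⟩
    · exact fun u h1 h2 => ⟨((PR.mapsF_iff _ _ _ _).mp (mp1_1 u h1 h2)).1, Nat.lt_of_le_of_lt ((PR.mapsF_iff _ _ _ _).mp (mp1_1 u h1 h2)).2 (by norm_num)⟩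
    · exact fun u h1 h2 => ⟨((PR.mapsF_iff _ _ _ _).mp (mp1_2 u h1 h2)).1, Nat.lt_of_le_of_lt ((PR.mapsF_iff _ _ _ _).mp (mp1_2 u h1 h2)).2 (by norm_num)⟩
    · exact fun u h1 h2 => ⟨((PR.mapsF_iff _ _ _ _).mp (mp1_3 u h1 h2)).1, Nat.lt_of_le_of_lt ((PR.mapsF_iff _ _ _ _).mp (mp1_3 u h1 h2)).2 (by norm_num)⟩
    · exact fun u h1 h2 => ⟨((PR.mapsF_iff _ _ _ _).mp (mp1_4 u h1 h2)).1, Nat.lt_of_le_of_lt ((PR.mapsF_iff _ _ _ _).mp (mp1_4 u h1 h2)).2 (by norm_num)⟩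
    · exact fun u h1 h2 => ⟨((PR.mapsF_iff _ _ _ _).mp (mp1_5 u h1 h2)).1, Nat.lt_of_le_of_lt ((PR.mapsF_iff _ _ _ _).mp (mp1_5 u h1 h2)).2 (by norm_num)⟩
    · exact fun u h1 h2 => ⟨((PR.mapsF_iff _ _ _ _).mp (mp2_0 u h1 h2)).1, Nat.lt_of_le_of_lt ((PR.mapsF_iff _ _ _ _).mp (mp2_0 u h1 h2)).2 (by norm_num)⟩
    · exact fun u h1 h2 => ⟨((PR.mapsF_iff _ _ _ _).mp (mp2_1 u h1 h2)).1, Nat.lt_of_le_of_lt ((PR.mapsF_iff _ _ _ _).mp (mp2_1 u h1 h2)).2 (by norm_num)⟩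
    · exact fun u h1 h2 => ⟨((PR.mapsF_iff _ _ _ _).mp (mp2_2 u h1 h2)).1, Nat.lt_of_le_of_lt ((PR.mapsF_iff _ _ _ _).mp (mp2_2 u h1 h2)).2 (by norm_num)⟩
    · exact fun u h1 h2 => ⟨((PR.mapsF_iff _ _ _ _).mp (mp2_3 u h1 h2)).1, Nat.lt_of_le_of_lt ((PR.mapsF_iff _ _ _ _).mp (mp2_3 u h1 h2)).2 (by norm_num)⟩
    · exact fun u h1 h2 => ⟨((PR.mapsF_iff _ _ _ _).mp (mp2_4 u h1 h2)).1, Nat.lt_of_le_of_lt ((PR.mapsF_iff _ _ _ _).mp (mp2_4 u h1 h2)).2 (by norm_num)⟩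
    · exact fun u h1 h2 => ⟨((PR.mapsF_iff _ _ _ _).mp (mp2_5 u h1 h2)).1, Nat.lt_of_le_of_lt ((PR.mapsF_iff _ _ _ _).mp (mp2_5 u h1 h2)).2 (by norm_num)⟩
    · exact fun u h1 h2 => ⟨((PR.mapsF_iff _ _ _ _).mp (mp3_0 u h1 h2)).1, Nat.lt_of_le_of_lt ((PR.mapsF_iff _ _ _ _).mp (mp3_0 u h1 h2)).2 (by norm_num)⟩
    · exact fun u h1 h2 => ⟨((PR.mapsF_iff _ _ _ _).mp (mp3_1 u h1 h2)).1, Nat.lt_of_le_of_lt ((PR.mapsF_iff _ _ _ _).mp (mp3_1 u h1 h2)).2 (by norm_num)⟩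
    · exact fun u h1 h2 => ⟨((PR.mapsF_iff _ _ _ _).mp (mp3_2 u h1 h2)).1, Nat.lt_of_le_of_lt ((PR.mapsF_iff _ _ _ _).mp (mp3_2 u h1 h2)).2 (by norm_num)⟩
    · exact fun u h1 h2 => ⟨((PR.mapsF_iff _ _ _ _).mp (mp3_3 u h1 h2)).1, Nat.lt_of_le_of_lt ((PR.mapsF_iff _ _ _ _).mp (mp3_3 u h1 h2)).2 (by norm_num)⟩
    · exact fun u h1 h2 => ⟨((PR.mapsF_iff _ _ _ _).mp (mp3_4 u h1 h2)).1, Nat.lt_of_le_of_lt ((PR.mapsF_iff _ _ _ _).mp (mp3_4 u h1 h2)).2 (by norm_num)⟩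
    · exact fun u h1 h2 => ⟨((PR.mapsF_iff _ _ _ _).mp (mp3_5 u h1 h2)).1, Nat.lt_of_le_of_lt ((PR.mapsF_iff _ _ _ _).mp (mp3_5 u h1 h2)).2 (by norm_num)⟩
    · exact fun u h1 h2 => ⟨((PR.mapsF_iff _ _ _ _).mp (mp4_0 u h1 h2)).1, Nat.lt_of_le_of_lt ((PR.mapsF_iff _ _ _ _).mp (mp4_0 u h1 h2)).2 (by norm_num)⟩
    · exact fun u h1 h2 => ⟨((PR.mapsF_iff _ _ _ _).mp (mp4_1 u h1 h2)).1, Nat.lt_of_le_of_lt ((PR.mapsF_iff _ _ _ _).mp (mp4_1 u h1 h2)).2 (by norm_num)⟩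
    · exact fun u h1 h2 => ⟨((PR.mapsF_iff _ _ _ _).mp (mp4_2 u h1 h2)).1, Nat.lt_of_le_of_lt ((PR.mapsF_iff _ _ _ _).mp (mp4_2 u h1 h2)).2 (by norm_num)⟩
    · exact fun u h1 h2 => ⟨((PR.mapsF_iff _ _ _ _).mp (mp4_3 u h1 h2)).1, Nat.lt_of_le_of_lt ((PR.mapsF_iff _ _ _ _).mp (mp4_3 u h1 h2)).2 (by norm_num)⟩
    · exact fun u h1 h2 => ⟨((PR.mapsF_iff _ _ _ _).mp (mp4_4 u h1 h2)).1, Nat.lt_of_le_of_lt ((PR.mapsF_iff _ _ _ _).mp (mp4_4 u h1 h2)).2 (by norm_num)⟩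
    · exact fun u h1 h2 => ⟨((PR.mapsF_iff _ _ _ _).mp (mp4_5 u h1 h2)).1, Nat.lt_of_le_of_lt ((PR.mapsF_iff _ _ _ _).mp (mp4_5 u h1 h2)).2 (by norm_num)⟩
  · intro iv hiv
    simp only [ivs, List.mem_cons, List.mem_nil_iff, or_false] at hiv
    rcases hiv with rfl | rfl | rfl | rfl | rfl
    · intro u h1 h2
      obtain ⟨s, hs, p, hp⟩ := PR.treeF_sound _ _ _ _ (tre0 u h1 h2)
      exact PR.tree_aux tbl subs _ rfl s hs p _ _ hp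
    · intro u h1 h2
      obtain ⟨s, hs, p, hp⟩ := PR.treeF_sound _ _ _ _ (tre1 u h1 h2)
      exact PR.tree_aux tbl subs _ rfl s hs p _ _ hp
    · intro u h1 h2
      obtain ⟨s, hs, p, hp⟩ := PR.treeF_sound _ _ _ _ (tre2 u h1 h2)
      exact PR.tree_aux tbl subs _ rfl s hs p _ _ hp
    · intro u h1 h2
      obtain ⟨s, hs, p, hp⟩ := PR.treeF_sound _ _ _ _ (tre3 u h1 h2)
      exact PR.tree_aux tbl subs _ rfl s hs p _ _ hp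
    · intro u h1 h2
      obtain ⟨s, hs, p, hp⟩ := PR.treeF_sound _ _ _ _ (tre4 u h1 h2)
      exact PR.tree_aux tbl subs _ rfl s hs p _ _ hp
  · intro iv hiv
    simp only [ivs, List.mem_cons, List.mem_nil_iff, or_false] at hiv
    rcases hiv with rfl | rfl | rfl | rfl | rfl
    · exact ⟨[], by decide, root0⟩
    · exact ⟨[8], by decide, root1⟩
    · exact ⟨[8, 6, 4, 6, 8], by decide, root2⟩
    · exact ⟨[8, 6, 4, 2, 6, 4, 6, 8], by decide, root3⟩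
    · exact ⟨[8, 6, 4, 2, 6, 4, 6, 8, 6, 4, 6, 10, 12, 2, 4, 6, 8], by decide, root4⟩
  · intro u hu
    simp only [ivs, List.mem_cons, List.mem_nil_iff, or_false, exists_eq_or_imp, exists_eq_left]
    omega

end Cfsg.Agent.Lib.Helper11.Suz22880
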