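import Mathlib

set_option autoImplicit false

namespace Cfsg.Agent.Lib.Helper11

/-- membership in a conjugate subgroup -/
theorem mem_map_conj {G : Type*} [Group G] (H : Subgroup G) (g x : G) :
    x ∈ H.map (MulAut.conj g).toMonoidHom ↔ g⁻¹ * x * g ∈ H := by
  constructor
  · rintro ⟨h, hh, rfl⟩
    simpa [MulAut.conj_apply, mul_assoc] using hh
  · intro h
    exact ⟨g⁻¹ * x * g, h, by simp [MulAut.conj_apply, mul_assoc]⟩

theorem conj_mem_map_conj {G : Type*} [Group G] (H : Subgroup G) (g x : G) (hx : x ∈ H) :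
    g * x * g⁻¹ ∈ H.map (MulAut.conj g).toMonoidHom :=
  ⟨x, hx, by simp [MulAut.conj_apply]⟩

/-- If `B` is a TI-subgroup normalizing `A`, with `A ∩ B = 1` and `|A| ≤ |B|`, then `[A,B] = 1`. -/
theorem commutator_eq_bot_of_TI {G : Type*} [Group G] [Finite G] (A B : Subgroup G)
    (hBti : ∀ g : G, B.map (MulAut.conj g).toMonoidHom = B ∨ B.map (MulAut.conj g).toMonoidHom ⊓ B = ⊥)
    (hle : Nat.card ↥A ≤ Nat.card ↥B) (hAB : A ⊓ B = ⊥) (hN : B ≤ Subgroup.normalizer (A : Set G)) :
    ⁅A, B⁆ = ⊥ := by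
  rw [Subgroup.commutator_eq_bot_iff_le_centralizer]
  intro a ha
  rw [Subgroup.mem_centralizer_iff]
  intro b' hb'
  by_cases ha1 : a = 1
  · simp [ha1]
  have hnorm : ∀ b ∈ B, ∀ x ∈ A, b * x * b⁻¹ ∈ A := fun b hb x hx =>
    (Subgroup.mem_normalizer_iff.mp (hN hb) x).mp hx
  -- some nontrivial element of B commutes with a
  have hex : ∃ b ∈ B, b ≠ 1 ∧ b * a = a * b := by
    by_contra hcon
    push Not at hcon
    let f : B → A := fun b => ⟨b * a * b⁻¹, hnorm b b.2 a ha⟩
    have hinj : Function.Injective f := by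
      intro b c hbc
      have h1 : (b : G) * a * (b : G)⁻¹ = c * a * (c : G)⁻¹ := congrArg Subtype.val hbc
      have h2 : ((c : G)⁻¹ * b) * a = a * ((c : G)⁻¹ * b) := by
        have : (c : G)⁻¹ * ((b : G) * a * (b : G)⁻¹) * b = (c : G)⁻¹ * (c * a * (c : G)⁻¹) * b := by rw [h1]
        simpa [mul_assoc] using this
      have h3 : (c : G)⁻¹ * b = 1 := by
        by_contra h4
        exact hcon _ (B.mul_mem (B.inv_mem c.2) b.2) h4 h2
      apply Subtype.ext
      have := inv_mul_eq_one.mp h3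
      exact this.symm
    have hns : ¬ Function.Surjective f := by
      intro hs
      obtain ⟨b, hb⟩ := hs 1
      have h1 : (b : G) * a * (b : G)⁻¹ = 1 := congrArg Subtype.val hb
      apply ha1
      have : a = (b : G)⁻¹ * ((b : G) * a * (b : G)⁻¹) * b := by simp [mul_assoc]
      rw [this, h1]; simp
    have := Fintype.ofFinite B
    have := Fintype.ofFinite A
    have hlt := Fintype.card_lt_of_injective_not_surjective f hinj hns
    rw [Nat.card_eq_fintype_card, Nat.card_eq_fintype_card] at hle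
    omega
  obtain ⟨b, hb, hb1, hba⟩ := hex
  have hmem : b ∈ B.map (MulAut.conj a).toMonoidHom ⊓ B := by
    rw [Subgroup.mem_inf]
    refine ⟨?_, hb⟩
    rw [mem_map_conj]
    have : a⁻¹ * b * a = b := by rw [mul_assoc, hba, ← mul_assoc]; simp
    rw [this]; exact hb
  have hBa : B.map (MulAut.conj a).toMonoidHom = B := by
    rcases hBti a with h | h
    · exact h
    · rw [h] at hmem
      exact absurd (Subgroup.mem_bot.mp hmem) hb1
  have h1 : a * b' * a⁻¹ ∈ B := by
    rw [← hBa]; exact conj_mem_map_conj B a b' hb'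
  have h2 : a * b' * a⁻¹ * b'⁻¹ ∈ A ⊓ B := by
    rw [Subgroup.mem_inf]
    refine ⟨?_, B.mul_mem h1 (B.inv_mem hb')⟩
    have : a * b' * a⁻¹ * b'⁻¹ = a * (b' * a⁻¹ * b'⁻¹) := by simp [mul_assoc]
    rw [this]
    exact A.mul_mem ha (hnorm b' hb' _ (A.inv_mem ha))
  rw [hAB] at h2
  have h3 := Subgroup.mem_bot.mp h2
  have : a * b' = b' * a := by
    have h4 : a * b' * a⁻¹ = b' := by
      rw [mul_inv_eq_one] at h3; exact h3
    rw [mul_inv_eq_iff_eq_mul] at h4; exact h4
  exact this.symm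

end Cfsg.Agent.Lib.Helper11
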