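import Cfsg.Agent.Lib.Helper11.PRDefs

set_option autoImplicit false
set_option maxRecDepth 1000000

namespace Cfsg.Agent.Lib.Helper11.U62

open Cfsg.Agent.Lib.Helper11

def T10_0_1 : Nat := 107972665839832485303961712842806920182859254052685027988499055615247178457757541595838408688257247208916570118842562202548855792510843739891548371974738447153204885691624084752045940971215753676297386209716504802052849649784392750482186410243642289607843289537449769555672817924684825276980148158069395055089588884241317283803662494117191796983545872953062829946468371720153594653060214127612801409891490835161172180306204982135738268671006033908054500738452591295487479438154523939042461529552032106816073153233724486384331009952852552916733409360223917370781836500250066095961643619635863314833095750091826037556033320660346203766781208507340196995661557884676379634745927200444679704775932537324187442598429604770368144309442511495327731830896829215117143172739761152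
def T10_1_2 : Nat := 216424680555619682222112969094980194104061221486237460114879302849657012535701464755766331875069881702100147695341398519771775489496675351544603708446495993574548274372944654986662673186600960048536783800687497910766944268096582177700040691841143690845199342268810343942255467571459576836841917445119524707861416176736298847050314614517800422249829020801640109681422928337339974140641930942094065630958078878665555588113022155235169698125797617289215702183295242932713391296572149077208010997687085068779231100686493842963290066767650846344199990727069590130428653696606763325632949694769452069561866134685188874234016042096876369408471944895490855761387425401712497686246207581657910539237827738176997899998263419306749413374266576554604910756830207391037246774768305327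
def T10_2_3 : Nat := 49347481848757492537042479570303881876474797871556740190400317828686250636330728406940153574266968345512507697762264169417052812160965600940853471393792526689684419153559163464496406273599222902101400345892187481321080277038616820180044507644519068696608764880481826061498862443907699910048458113130934820443165769935320508741517248420381102064499507758381872673115201384967329471291289818099813181237270913213723473146558969376100799881207823032006482947588584490493397735358971728731671403928830354559790915723958543915572675557473427920521703
noncomputable def T10_0_3 (i : Nat) : Nat := (Bool.rec T10_0_1 (Bool.rec T10_1_2 T10_2_3 (Nat.ble 512 i)) (Nat.ble 256 i))
noncomputable def tb10 (i : Nat) : Nat := Nat.land (Nat.shiftRight (T10_0_3 i) (Nat.mul (Nat.land i 255) 10)) 1023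

end Cfsg.Agent.Lib.Helper11.U62
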