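import Cfsg.Agent.Lib.Helper11.PRDefs

set_option autoImplicit false
set_option maxRecDepth 1000000

namespace Cfsg.Agent.Lib.Helper11.U62

open Cfsg.Agent.Lib.Helper11

def T12_0_1 : Nat := 151209468845639264858885732491793125698714324692246578943177214658534893241027484542047780840841296105350762929054291827143089626079682935410513733729505455232168960928001833909143473265517013192202314913088437050148590756999812860270316955105146717342013890736497367199732850879829457178234068157269418897784903478450499190332768540821376903860709958568146860297766315495434088795034616270668878966261405102546791032291801840103541448967592875125339124154968485654745335649877639100966037425098569201083269451282176886371567392915908964491942414519721406373932478068048539837594486713544490705931646959017358019612050152792908433995498677469965676072304659666725730525709422845390101391648433030383939402241825699412570816013800779140914630996954659620907543070140007424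
def T12_1_2 : Nat := 200773694847552621144674866727692837356335018658712899514998393679393647647203673545965800720340158284849778660607910983910747367779604178477496416488493608167247965973321416750653218236376901501081980307603116313632144707318622484496142107979924499887343257990423097431670240902539711005928086288056027968091950773412260470239408159555819151830381636155512233507238194870538062580530722536986334598666904116233953984941394897050631721626736394503292591380536205415925063765983545617841201197788608192924619008124856920270455457757832336236314756918102246571905192281424081469332255349594589309359160748371243005274663138553551388829931120132320634487785349547682572698122218582038605970847329132477569337261981632636114109592075349045094174941741440817299721184884239532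
def T12_2_3 : Nat := 49490517684436476733670157772545699829873565575466864864753677920583693823645174244843194553992013271662777333616046474184914574221823097870028176745451906471157299829890693196272647036071964070319362733976863192353395901323102559804002130542271719088454470549826405452139703404337906841952780342799205831993926879635903069746102430754734682983144410370623532721453518336643156919810737117756531008425981100579409354763192993123866658499066217953268612619367494315893250257295573096539619562814396052405612380387671083244607839938431477764064732
noncomputable def T12_0_3 (i : Nat) : Nat := (Bool.rec T12_0_1 (Bool.rec T12_1_2 T12_2_3 (Nat.ble 512 i)) (Nat.ble 256 i))
noncomputable def tb12 (i : Nat) : Nat := Nat.land (Nat.shiftRight (T12_0_3 i) (Nat.mul (Nat.land i 255) 10)) 1023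

end Cfsg.Agent.Lib.Helper11.U62
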