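import Cfsg.Agent.Lib.Helper11.PRDefs

set_option autoImplicit false
set_option maxRecDepth 1000000

namespace Cfsg.Agent.Lib.Helper11.U62

open Cfsg.Agent.Lib.Helper11

def T14_0_1 : Nat := 149864409572033141745949082708095481283843679974512153632066666094268900042375336350738071824767293870761034034947268727437462850408136950210819329934703378620430095909810384605420525003652031369755263677493481365408104121686045093530475932091778494001615987501216150616636603249716495207259510578916407915671175953054156671018269658580743643292063385639828849683821795194862168867283706864451155232904837516996294932306614840281257121880790230360497879943794470370744189985700248194833964538685948380438608581201355626932862050621873313877606884421393336287420426310893935635699334357293243381892251929708065245172921881184083704963962641703560643171421571365910894500288909431034995386467837997595457858817334945661494212288351776342222145556910138526730131253171851264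
def T14_1_2 : Nat := 201188159382090057904796187705558237118583890247595586890396677951467258580149550407479693737568571674177354691057728539437871423933728262509546550115460252742333634177739357879936238168812484129447418842234001312895813235891398085663561757419098482202206365645673397653656077154804513642491905317053031098709019639605941458680713552522746568242888114511318160830504417749124576300335055921735973311561390692463587971895631831167937446989500808597170684175772503726887000446309693563669294520298588226455330789324599048921054646640891521750696173977880340653276790508295945315652838701707301508932593762908605180664533636000597171551879740855181064200941128108112901858863084638800718220481810591825641697171319313680587513826674619756506158238191922859451428361674789219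
def T14_2_3 : Nat := 49490517957056773985517186447445802597087735277450359352914769141731866690407281114962948553872654548794788514241106711850401228603107246236290923785555874146440468392168311674137800889487467962806951391589391641946611601369336884749896579251564288216240301775547428959616942331050628482683528109803831604411162600297171273374525050571745829470741125211953414974648082646106286804693505141983723614338321624539987236279517991136547346204570995807366840436034981478104512426640285169695215398312448566141322668065340314923521186596216124981380582
noncomputable def T14_0_3 (i : Nat) : Nat := (Bool.rec T14_0_1 (Bool.rec T14_1_2 T14_2_3 (Nat.ble 512 i)) (Nat.ble 256 i))
noncomputable def tb14 (i : Nat) : Nat := Nat.land (Nat.shiftRight (T14_0_3 i) (Nat.mul (Nat.land i 255) 10)) 1023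

end Cfsg.Agent.Lib.Helper11.U62
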