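import Cfsg.Agent.Lib.Helper11.PRDefs

set_option autoImplicit false
set_option maxRecDepth 1000000

namespace Cfsg.Agent.Lib.Helper11.U62

open Cfsg.Agent.Lib.Helper11

def T16_0_1 : Nat := 107978043825885713230919848123932464655868834864800788127835765431566809716771957103447315952842165939564488970617366106991193468227791115616838639013497230590339219009956012981532712024645780338491024251234516817045141283885852905401752274381128071597806140585111295422308340606937952825785642062483201662504256330739361107761792517002882447922853821546230098343582753637674140481768847520905556182837315784697885795493062314133904898315510938533299686127606754344892600698461366383500816448506263819300124853044629041663651231679058805003296837183363621505556068052816424468760869356554472049210404707019377048161405214503802306748529300575684322218460469738069041979163353297488341698682339117905021432697930505797331622574436787191536636295050118952270040905589720064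
def T16_1_2 : Nat := 216428396775966215208534224361057094317995998827579646923635224524204108146511014957585017080087480029267066443619858851877320309581384662637772760153814363007577147468471553349010840032591446351978682046332599132683787005886809742149213346295971445842317096093984196958068473869539486478825305258887329517483769758653396098596802768154923199005017096394374118781753398965063988668996334149700313026862725858115893791355871105668491938357751452015254269604807385783901404077104845715295384997798245411435525630015456389038566284242921351518910510744879188072851980701084987848397325379226901319336271820040513594547556837191979687385344071204635230513806205193600692255432347168542874853577601888213946963856072988996944930616136801169412148736983157277636901309886340352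
def T16_2_3 : Nat := 49490517957056773224009701706347990455846515806835868753636557210901511111422134386425596493738309558914885758818136631471026517694841738444798374310583835481047353941796782502032946474108878756975202327132700768820493817344590988869272620560042440775534710775749736646685888343244181569633603472343454067430295257861569458377179087842851420517109076838637349217289712317410857594768409137698677667722654402076193003844875310136119378386483478107048852974969137122682649792920380461773059258762329896292776797463981339642762526846343870222435806
noncomputable def T16_0_3 (i : Nat) : Nat := (Bool.rec T16_0_1 (Bool.rec T16_1_2 T16_2_3 (Nat.ble 512 i)) (Nat.ble 256 i))
noncomputable def tb16 (i : Nat) : Nat := Nat.land (Nat.shiftRight (T16_0_3 i) (Nat.mul (Nat.land i 255) 10)) 1023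

end Cfsg.Agent.Lib.Helper11.U62
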