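import Cfsg.Agent.Lib.Helper11.PRDefs

set_option autoImplicit false
set_option maxRecDepth 1000000

namespace Cfsg.Agent.Lib.Helper11.U62

open Cfsg.Agent.Lib.Helper11

def T18_0_1 : Nat := 151632993311607921874132820237120528985991964026437649456187452549437003735305031142668633684066969233448815772643514294041064667028493602373036972738564734163018654205263059300414413451645318644601947729039255511419909650286960153122974965156933904512065862368188984424795817960698567038451488837171670590510163837413141572498421808026132579717865292412319708122365156713243776336907139574082752727923375344844600853062950954624040861828988448034237336656957192278183302461755927300549822786878485585150159593618079328063404719765399063176179561852005961809311501346136284151411599097407043153301025614100066093546247541681382316811074880987811943391342819327112881153435211069293666774794086907478719763305512281895474487425718189908843707440512685712089694675373392896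
def T18_1_2 : Nat := 205842331806615906022406043335407541452557867608290330749337662173665342105978198266559215174446007882915388476487821392506540089492087020505360266498391256360748023063836516859145546275249565107679002295933413824862032776563339380294881720986324187150281901521322386945273375633603058542776817638872443970009734940516239012283939260987209149662268255244729442275570898012814353483474860339025307434886546320336078118042206294139176081910812497251454907552595551049033094991652086559439572806102179216435550975697624378017264835820717866105153094094010366823509130066436690002176082406370742904951993184152495704472419486814145431611143998776654012255222837269516830747923793196626733869886271867481874477245050588707219190398093391548048593324129489718349424026812854475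
def T18_2_3 : Nat := 49490517548092051521782643477032465643100797735387336869657728834280168064785754512128396386442516834019556329498047558370624268644001577812396343428945825640864462370138000799784475328647494495948199688856247093186418430343293673621754251021160642859017483078509262823028652133254099537067803967234652851271847720547227699595401123648374051790213730671148124119477375144589168749138354139688388699987950557932304500182862941086662264541570577803450358903982742922082530828959347543946318320845168029998635387136488562542762363247827107416901083
noncomputable def T18_0_3 (i : Nat) : Nat := (Bool.rec T18_0_1 (Bool.rec T18_1_2 T18_2_3 (Nat.ble 512 i)) (Nat.ble 256 i))
noncomputable def tb18 (i : Nat) : Nat := Nat.land (Nat.shiftRight (T18_0_3 i) (Nat.mul (Nat.land i 255) 10)) 1023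

end Cfsg.Agent.Lib.Helper11.U62
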