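import Cfsg.Agent.Lib.Helper11.PRDefs

set_option autoImplicit false
set_option maxRecDepth 1000000

namespace Cfsg.Agent.Lib.Helper11.U62

open Cfsg.Agent.Lib.Helper11

def T6_0_1 : Nat := 108006969743523348111400658604306050325594020244477846636001380471871815550002255480106594851181970818517085081301522631766740787399157269404998896792274911711471933444943262600129785524866623495105457600825894116890398933659606511819093904581133369059467873687577094189023970408495418116086609844671198074192969574994436161883140360561537675458897271967770530330722300641260215046639691331437857922771865361886412075397229793304639158619982953815771186530985741298794864301275549284388779316205031396841299911398789236544950657102919730247704191142144975825068736062929313922624053884854128086924420001038830847382512293306582211431914560293215136229740486876930950862846456754554248153834730958446491992061556778663472831720286554655614394915921482406644595822189084673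
def T6_1_2 : Nat := 271438037319210974415484323522094397904770366567251798823449101830737333751402819181989491382725268252662616012690770611073107176624537085648650837182435942261600958436841767323457939698736886880195459099701748553377117189347288378058648597202415524276684219182430913036792279541561571663104848052483524366058615231089156066852137967523505331623420816249058421413580441328441800521980364886540475860098640708683004957532225756803195353868779017881772948273902751334108329175801539839883750911810510039066867556463112563721340235405583402618232292102796329187804025803956232883182761558520982764342971736129365215667086075138428968128517751209596407352254966606979990508226942297166727983549662099315559677789021334359229732218278387816229743335110124478898500197924689090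
def T6_2_3 : Nat := 27105470338305557212029919254124931443555435942256355381299688832106400171261947163261007227297737628438791390746867826401281118953140055697387136186034401319627168970318082826517123984949833615995424445103118151110898920883472179725070396946228105130147145773666149932566205516107135396652019154642719130651459151441671291509934725742699083553356670471755871652136597087846948751587715415494596171332063045833738020136463201491612964554447734170839552796921189991523096274445924116212988031576830590868956884325934274806388850837371738433526242
noncomputable def T6_0_3 (i : Nat) : Nat := (Bool.rec T6_0_1 (Bool.rec T6_1_2 T6_2_3 (Nat.ble 512 i)) (Nat.ble 256 i))
noncomputable def tb6 (i : Nat) : Nat := Nat.land (Nat.shiftRight (T6_0_3 i) (Nat.mul (Nat.land i 255) 10)) 1023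

end Cfsg.Agent.Lib.Helper11.U62
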