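import Cfsg.Agent.Lib.Helper11.PRDefs

set_option autoImplicit false
set_option maxRecDepth 1000000

namespace Cfsg.Agent.Lib.Helper11.U62

open Cfsg.Agent.Lib.Helper11

def T8_0_1 : Nat := 72927253092098252563689822372942169056980616456383295822625983204511413402318562615417105288294271781785688730578748672017545291598443389295102206531280335046877594377618444675021928236345400413995520482057557670781945910779099757531238429718590967749374451771768421750529010669079663215543790552778166913747356710493130520990786370877123697284756236025564290119887647500568048659217854052470322057043816249235929109731120095481498290830872702317566383250875194520708749583027256194781804054676678151606348866325385607963681655839516193436171391787253581122558030486454843817633126126791355039228790937698323736150064388937596220612654141821107054596632865309235697666660078538000026417746879004711259745134549756186296611509114047883974241790655111941013657726750821376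
def T8_1_2 : Nat := 216427564681261525701270672060422578130482820115597647538033168935726301117619031138396674310295766285289924753455231891147740578318003668013543938075043765684499276664252445710404842828224084313821227218706992167108818674471278609008886794901364873143074317925126615044672422695600280537928477520000106039327017831489055811813890879187248964748415208499761895702752875990657144317038521546130625698541469457974084767628893482344496903452745818204821536119489468064200609817901289263556083230553586317444711493334330540363393131910644855995890271115911377671413232877478351515024398668344255040517564312322092362124943026242461557840859444360488387935364674749194474917964238539906014911771716801864726128172291384193746085048366436790757513961481873820962549281561352549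
def T8_2_3 : Nat := 49490517820580368897060834840870290588085873962233984520364399569494101883834538812882908859315929572430767513070971026559200590536828926007220043668426175577546239793181416395522886954410095782845500718396710418340934678328816143340800980939096489850155208593745655667459836902226281934721535818853460138981735378504541271243353663026519286471563594985649275784792360835970688507290983407024306943743473529583148930024336502254573112481451890116376163191985182046364178450757133815539160169583445741631065487516745449650668339797102289432872448
noncomputable def T8_0_3 (i : Nat) : Nat := (Bool.rec T8_0_1 (Bool.rec T8_1_2 T8_2_3 (Nat.ble 512 i)) (Nat.ble 256 i))
noncomputable def tb8 (i : Nat) : Nat := Nat.land (Nat.shiftRight (T8_0_3 i) (Nat.mul (Nat.land i 255) 10)) 1023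

end Cfsg.Agent.Lib.Helper11.U62
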