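import Cfsg.Agent.Lib.Helper11.PRDefs

set_option autoImplicit false
set_option maxRecDepth 1000000

namespace Cfsg.Agent.Lib.Helper11.U62

open Cfsg.Agent.Lib.Helper11

def TW_0_1 : Nat := 13089320307416799819022518531703477360719990789287880638629349244519060643285924920409800461815277615677813154517211732510092069003840591077913444827756866562024203803258394262855653015390289279475254445079485105350473380743975127380067695862930336019761838766035952944577495711268789785648019747908270965662386508508152442240508891054533934432572740056040185932056474700659839440224834286729935896353515511623766613724762407609045683633524938478897994035675666556463973160725177265645425888263038355809251476963794919328665217519676948271150325152812125447519926173609559480395825680323722066332652129511576901244580829258982685158734381195298545491991799116325739833304254466207610785829517956635233841148856757133606841511318954889641163139321030988070564070514449679195325872449899217368000934447884375527801742093960964976725881243199832760185704975503851938943067586063454153088375483426741626514814988393100543355861327267849103785986053179202017370749904003277751796619045644017704450814773392166630880895604985583708582822205531013544471899089444293816987575910936870912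
def TW_1_2 : Nat := 36072882193055455067524927779491363296072651857740587885908637514368143237756198353450972902600434854340232436518058705731996997081077539473414752743241589060076019892713296500095399673140961116264282377139508475748159914662436633889915240285025195335879911421233220558676288907905274493161727789045292225470418770130227272406789963912202100625258735406167128287298083367128904219012448836984941224804949504299294770887957776838196477027187611268512548115783634528455676033962954850571331577011718023567593841408514634418476225033620624867782721620865937223809217953840281183465066174742389574910137630075276212962010904550810479198747825163815876493122391332650983062426099995983860259236788271170885971531405897443518221290835495336353481887840502925520854717363335837998555186252862423079920672431819861957444505005626519567459322119394338849131695598132649018909130206605022236907485467636002840488880963031677044928216760444509581943915654943022488980227664707886148774897136232740887731665866421670007746406499651773642772778931981392235163826113951641789418779806371252931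
def TW_2_3 : Nat := 4351743463438258806492718627939491392281599681166420873158310190303488049142223086345646594739598389692660807019635915967981934657526693221353423625270163056678960902656854612979080855521801406238044693102309531590482010429335974764470062816728335439382655284291381322719259495619425870415537349663350835543467233911015860624210867228728644671504043849385926101355387414812512220648198342915879858977044498479014531947134190771162377313040583921256533626188843772910822829026363946006122212673556249120918396661283611061733601810210918327139516056771539982380824991804690413507711084814157602419869515916394346510576439031124901289546114981247419074598820995481832139927626332020873214912021135591611243388155971220171127047276034826689704786795842123949137730998
noncomputable def TW_0_3 (i : Nat) : Nat := (Bool.rec TW_0_1 (Bool.rec TW_1_2 TW_2_3 (Nat.ble 512 i)) (Nat.ble 256 i))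
noncomputable def tbW (i : Nat) : Nat := Nat.land (Nat.shiftRight (TW_0_3 i) (Nat.mul (Nat.land i 255) 14)) 16383

end Cfsg.Agent.Lib.Helper11.U62
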