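import Cfsg.Agent.Lib.Helper11.U62PT4
import Cfsg.Agent.Lib.Helper11.U62PT6
import Cfsg.Agent.Lib.Helper11.U62PT8
import Cfsg.Agent.Lib.Helper11.U62PT10
import Cfsg.Agent.Lib.Helper11.U62PT12
import Cfsg.Agent.Lib.Helper11.U62PT14
import Cfsg.Agent.Lib.Helper11.U62PT16
import Cfsg.Agent.Lib.Helper11.U62PT18
import Cfsg.Agent.Lib.Helper11.U62PTW

set_option autoImplicit false

namespace Cfsg.Agent.Lib.Helper11.U62

noncomputable def tbl : Nat → Nat → Nat
  | 4 => tb4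
  | 6 => tb6
  | 8 => tb8
  | 10 => tb10
  | 12 => tb12
  | 14 => tb14
  | 16 => tb16
  | 18 => tb18
  | _ => fun u => u

end Cfsg.Agent.Lib.Helper11.U62
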