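import Cfsg.Agent.Lib.Helper11.PRDefs

set_option autoImplicit false
set_option maxRecDepth 1000000

namespace Cfsg.Agent.Lib.Helper11.U62

open Cfsg.Agent.Lib.Helper11

def T4_0_1 : Nat := 88099726470006798550307579480428023887102709007264111221806643018065874025153527058846400949017984390927483748915579578949897945489367504558099736014648310818850319234638192956930570428279775689244419990886714645377978616431050923251699115569133008419526622466456853003818341294327604293754701224989052171905351243147433024933651358528195064500939774320858793914842938044983431071624906119056510335380410282495729362073321162575657767402673626410868894239280904869379650853756610829247462448266245808030419129948089486872215308980551817476423328441802996956932682716507421987115461600597775809172472146860876298308728487870211757490875368439250318742168604558724852106687372190109667706244448519951831894367201743638476245015728328822062147250745669757345670349179586560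
def T4_1_2 : Nat := 209237419665147618570007889134980644903366285427709204940013932962267465738749716174014059337225429320763252717500453397902677788342228462161097160859472087123083354670468229256463171699001478476843668644352981181358787425128932845769302078550077120737506296592317125372566940342956563259944475796497771148321327952447453233185038154507609863268504893194862291545466542240489815277363327239329550377526957893553158644630481500651934601437025987142028717120408260578778180569219908072631697387715937502320571663963511971630173676188918188694933914145533840178426081964019784778070283015076929013428273682193734241156307271302196273265959760495028963555720846652885250072811406408908213450111170888082102234192179689335136784283256472293657246892526562123144958462875879633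
def T4_2_3 : Nat := 49490517957056773985517186447445803477756835261396940255476004166278886389696854904718447588698655058104361099854562733717901576520234700825717133310577515529138340567965159646214728461140718041579257439670636110482875165410839385872988429028788555983798882565656781657000772670914734154498783448600573987683792343749401038271599908276612504305397375919048961796168985742438810937036115629901905798440072960931851104169118275792653724753526269680449188260627145537560942316159808199853030779269984012679963687365338060665228185856366633736996335
noncomputable def T4_0_3 (i : Nat) : Nat := (Bool.rec T4_0_1 (Bool.rec T4_1_2 T4_2_3 (Nat.ble 512 i)) (Nat.ble 256 i))
noncomputable def tb4 (i : Nat) : Nat := Nat.land (Nat.shiftRight (T4_0_3 i) (Nat.mul (Nat.land i 255) 10)) 1023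

end Cfsg.Agent.Lib.Helper11.U62
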