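set_option autoImplicit false

namespace Cfsg.Agent.Lib.Helper11.U62U1

def coxW : List (List Nat) := [
  [4, 6, 4, 6, 4, 6],
  [4, 8, 4, 8],
  [4, 10, 4, 10],
  [4, 12, 4, 12],
  [4, 14, 4, 14],
  [4, 16, 4, 16],
  [6, 8, 6, 8, 6, 8],
  [6, 10, 6, 10],
  [6, 12, 6, 12],
  [6, 14, 6, 14, 6, 14],
  [6, 16, 6, 16],
  [8, 10, 8, 10, 8, 10],
  [8, 12, 8, 12],
  [8, 14, 8, 14],
  [8, 16, 8, 16],
  [10, 12, 10, 12, 10, 12],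
  [10, 14, 10, 14],
  [10, 16, 10, 16],
  [12, 14, 12, 14],
  [12, 16, 12, 16],
  [14, 16, 14, 16, 14, 16],
  [4, 6, 8, 10, 12, 14, 16, 4, 6, 8, 10, 12, 14, 16, 4, 6, 8, 10, 12, 14, 16, 4, 6, 8, 10, 12, 14, 16, 4, 6, 8, 10, 12, 14, 16, 4, 6, 8, 10, 12, 14, 16, 4, 6, 8, 10, 12, 14, 16, 4, 6, 8, 10, 12, 14, 16, 4, 6, 8, 10, 12, 14, 16]]

def extraW : List (List Nat) := [
  ]

def subs : List (List Nat) := [
  [4],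
  [6],
  [8],
  [10],
  [14],
  [16]]

def Ls : List Nat := [4, 6, 8, 10, 12, 14, 16]

end Cfsg.Agent.Lib.Helper11.U62U1
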