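import Cfsg.Agent.Lib.Helper11.U62U3F

set_option autoImplicit false
set_option maxRecDepth 100000
set_option Elab.async false

namespace Cfsg.Agent.Lib.Helper11.U62U3

open Cfsg.Agent.Lib.Helper11

theorem dfs0 : TC.checkDefs F 1 19 = true := by decide +kernel

theorem blk0 : TC.checkBlocks F adm [(14, 1, 175921885609993), (12, 1, 211106400305169), (1, 1, 316659407519761), (2, 1, 422212540563477), (3, 1, 457396929429529), (24, 1, 32), (27, 1, 209715232), (0, 1, 35184590192643), (15, 1, 1856910354076925569768882183), (13, 1, 4332790875369579072993624079), (26, 1, 6808671544236185165903167511), (2, 1, 457397088813083), (3, 1, 351843964157973), (11, 1, 492581469290525), (10, 1, 527765858156575), (25, 1, 34), (19, 1, 293601314), (9, 1, 1237940186860617094169362437), (8, 1, 105553430839303), (7, 2, 12980765976683636971776513654390793), (6, 2, 20769212502426360421880670837538829), (23, 1, 6189701229445994469363023893), (1, 1, 826833108992046), (13, 1, 8665583890561066076125265949), (22, 1, 527765963014175), (21, 1, 36), (20, 1, 394264612), (3, 1, 35184778936323), (5, 1, 2475880373720407355590443017), (18, 1, 4332793162766635861471657999), (0, 1, 351844152901653), (12, 1, 316659780812819), (0, 1, 422212913856537),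 (14, 1, 387028541767703), (0, 1, 457397302722587), (15, 1, 9284552360677676234357866527), (1, 1, 211106656157709), (17, 1, 38), (16, 1, 494927910), (2, 1, 35184879599619), (11, 1, 70369260077061), (4, 1, 3713820708154150206696325133), (10, 1, 105553640554503), (4, 1, 4951760895013553440024428561), (5, 1, 6808673536485829356220842007), (9, 1, 8665582193461385350944391197), (8, 1, 527766147563551)] 20 69 = true := by decide +kernel

theorem cmp0_0 : TC.checkCL F 137 15 (4, 4194304) [(16, 67804788112723717289060351297508383661877632795242369090781544045156628950729266407834907034343440437)] 0 16 = true := by decide +kernel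

theorem cmp1_0 : TC.checkCL F 137 15 (6, 6291456) [(16, 251533848473004940875355536983108132695933763559854580091842372569146574137113424620805172580453449801)] 0 16 = true := by decide +kernel

theorem cmp2_0 : TC.checkCL F 137 15 (8, 8388608) [(16, 203414364859616181535119986401298342589492965007034910956943301736813580615931632609611930604121620577)] 0 16 = true := by decide +kernel

theorem cmp3_0 : TC.checkCL F 137 15 (10, 10485760) [(16, 150920334949276721713145027561079667595515937564778931401427081811425088237476391511213029982002479225)] 0 16 = true := by decide +kernel

theorem cmp4_0 : TC.checkCL F 137 15 (14, 14680064) [(16, 299653419695239332691458782167302621084270915864128677111310032315032240281361996954158634433981186050)] 0 16 = true := by decide +kernel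

end Cfsg.Agent.Lib.Helper11.U62U3
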