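import Cfsg.Agent.Lib.Helper11.TCDefs

set_option autoImplicit false
set_option maxRecDepth 100000

namespace Cfsg.Agent.Lib.Helper11.U62U3

open Cfsg.Agent.Lib.Helper11
def t0_1 : Nat := 734706033873898486109062082501341096223767447129298492385725856855628548992191764866456924711133167946270919131572404725430496563475977509222292888691994863003053916042072082995850088773644688813547995584187899254236774368548699068385036754486459727113284584964189105861824215886703986425812343828854254942031089150734622241039751533161412567943748565486552724620588692841079330237118726089497035343469560636733396589696083379807259275228630896011058064128731647273604126294030958128805179442094781303649170709902913036087397882731165061461943772314043321044641529217775308345835483865274478028634438108523771744645828005821990608304155204745874529301036830129177327120186864962352446680310431242216490789756085750080393736728273678953961537635521135988682039846551307726896648558492094576029640300227905667637292550153274576013870322048920755887215605600606367699515285147020027524836382443412461118366515288329744284887236476928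

noncomputable def F (i : Nat) : Nat := Nat.land (Nat.shiftRight t0_1 (Nat.mul (Nat.land i 255) 45)) 35184372088831

def adm : List TC.Adm := [
  (false, 4, 66, [(14, 14680064), (4, 4194304), (14, 14680064)]),
  (false, 6, 66, [(10, 10485760), (6, 6291456), (10, 10485760)]),
  (false, 10, 66, [(14, 14680064), (10, 10485760), (14, 14680064)]),
  (false, 8, 66, [(14, 14680064), (8, 8388608), (14, 14680064)]),
  (false, 8, 110, [(10, 10485760), (8, 8388608), (10, 10485760), (8, 8388608), (10, 10485760)]),
  (false, 6, 110, [(8, 8388608), (6, 6291456), (8, 8388608), (6, 6291456), (8, 8388608)]),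
  (false, 14, 66, [(10, 10485760), (14, 14680064), (10, 10485760)]),
  (false, 14, 66, [(8, 8388608), (14, 14680064), (8, 8388608)]),
  (false, 14, 66, [(4, 4194304), (14, 14680064), (4, 4194304)]),
  (false, 14, 110, [(6, 6291456), (14, 14680064), (6, 6291456), (14, 14680064), (6, 6291456)]),
  (false, 10, 66, [(4, 4194304), (10, 10485760), (4, 4194304)]),
  (false, 10, 66, [(6, 6291456), (10, 10485760), (6, 6291456)]),
  (false, 4, 66, [(10, 10485760), (4, 4194304), (10, 10485760)]),
  (false, 8, 110, [(6, 6291456), (8, 8388608), (6, 6291456), (8, 8388608), (6, 6291456)]),
  (false, 4, 66, [(8, 8388608), (4, 4194304), (8, 8388608)]),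
  (false, 6, 110, [(4, 4194304), (6, 6291456), (4, 4194304), (6, 6291456), (4, 4194304)]),
  (false, 10, 44, [(10, 10485760), (31, 32505856)]),
  (true, 31, 22, [(10, 10485760)]),
  (false, 4, 110, [(6, 6291456), (4, 4194304), (6, 6291456), (4, 4194304), (6, 6291456)]),
  (false, 6, 44, [(6, 6291456), (31, 32505856)]),
  (false, 8, 44, [(8, 8388608), (31, 32505856)]),
  (true, 31, 22, [(8, 8388608)]),
  (false, 8, 66, [(4, 4194304), (8, 8388608), (4, 4194304)]),
  (false, 6, 110, [(14, 14680064), (6, 6291456), (14, 14680064), (6, 6291456), (14, 14680064)]),
  (true, 31, 22, [(4, 4194304)]),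
  (true, 31, 22, [(6, 6291456)]),
  (false, 10, 110, [(8, 8388608), (10, 10485760), (8, 8388608), (10, 10485760), (8, 8388608)]),
  (false, 4, 44, [(4, 4194304), (31, 32505856)])]

def letters : List (Nat × Nat) := [(4, 4194304), (6, 6291456), (8, 8388608), (10, 10485760), (14, 14680064)]

end Cfsg.Agent.Lib.Helper11.U62U3
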