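set_option autoImplicit false

namespace Cfsg.Agent.Lib.Helper11.U62U4

def coxW : List (List Nat) := [
  [4, 6, 4, 6, 4, 6],
  [4, 8, 4, 8],
  [4, 10, 4, 10],
  [6, 8, 6, 8, 6, 8],
  [6, 10, 6, 10],
  [8, 10, 8, 10, 8, 10]]

def extraW : List (List Nat) := [
  ]

def subs : List (List Nat) := [
  ]

def Ls : List Nat := [4, 6, 8, 10]

end Cfsg.Agent.Lib.Helper11.U62U4
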